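import Mathlib

/-! Subquotients of permutation modules, in matrix coordinates. -/

set_option autoImplicit false
set_option linter.unusedSimpArgs false
set_option linter.unusedVariables false
set_option linter.unusedSectionVars false

namespace CfsgLib.ClassGeo.PermMod

open Matrix

variable {F : Type*} [Field F] {N ι : Type*} [Fintype N] [DecidableEq N] [Fintype ι] [DecidableEq ι]

/-- Coordinates for the section `V₀ / R` of the permutation module `F^N`,
with `V₀` the sum-zero vectors and `R` spanned by `r • 𝟙`. -/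
structure Data (F N ι : Type*) [Field F] [Fintype N] [DecidableEq N] [Fintype ι] [DecidableEq ι] where
  U : Matrix N ι F
  C : Matrix ι N F
  r : F
  h1 : C * U = 1
  h2 : ∀ x : N → F, ∑ i, x i = 0 → ∃ c, x = U *ᵥ (C *ᵥ x) + fun _ => r * c
  h3 : ∀ a, ∑ i, U i a = 0
  h4 : ∀ b, r * ∑ i, C b i = 0

namespace Data

variable (D : Data F N ι)

/-- the permutation action -/
def P (π : Equiv.Perm N) : (N → F) →ₗ[F] (N → F) := LinearMap.funLeft F F (π⁻¹ : Equiv.Perm N)

theorem P_apply (π : Equiv.Perm N) (x : N → F) (i : N) : P π x i = x (π⁻¹ i) := rfl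

theorem P_mul (π σ : Equiv.Perm N) (x : N → F) : P (π * σ) x = P π (P σ x) := by
  funext i
  simp only [P_apply, _root_.mul_inv_rev, Equiv.Perm.mul_apply]

theorem P_one (x : N → F) : P (1 : Equiv.Perm N) x = x := by
  funext i; simp [P_apply]

theorem P_sum (π : Equiv.Perm N) (x : N → F) : ∑ i, P π x i = ∑ i, x i :=
  Equiv.sum_comp (π⁻¹ : Equiv.Perm N) x

theorem P_const (π : Equiv.Perm N) (c : F) : P π (fun _ : N => c) = fun _ => c := rfl

/-- the induced map -/
def M (π : Equiv.Perm N) : (ι → F) →ₗ[F] (ι → F) :=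
  D.C.mulVecLin ∘ₗ P π ∘ₗ D.U.mulVecLin

theorem M_apply (π : Equiv.Perm N) (v : ι → F) : D.M π v = D.C *ᵥ P π (D.U *ᵥ v) := rfl

theorem sum_U (v : ι → F) : ∑ i, (D.U *ᵥ v) i = 0 := by
  simp only [Matrix.mulVec, dotProduct]
  rw [Finset.sum_comm]
  refine Finset.sum_eq_zero (fun a _ => ?_)
  rw [← Finset.sum_mul, D.h3, zero_mul]

theorem C_U (v : ι → F) : D.C *ᵥ (D.U *ᵥ v) = v := by
  rw [Matrix.mulVec_mulVec, D.h1, Matrix.one_mulVec]

theorem C_const (c : F) : D.C *ᵥ (fun _ => D.r * c) = 0 := by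
  funext b
  simp only [Matrix.mulVec, dotProduct, Pi.zero_apply]
  have := D.h4 b
  calc ∑ i, D.C b i * (D.r * c) = c * (D.r * ∑ i, D.C b i) := by
        rw [Finset.mul_sum, Finset.mul_sum]
        exact Finset.sum_congr rfl (fun _ _ => by ring)
    _ = 0 := by rw [this, mul_zero]

theorem M_mul (π σ : Equiv.Perm N) (v : ι → F) : D.M (π * σ) v = D.M π (D.M σ v) := by
  rw [M_apply, M_apply, M_apply, P_mul]
  have hs : ∑ i, P σ (D.U *ᵥ v) i = 0 := by rw [P_sum, D.sum_U]
  obtain ⟨c, hd⟩ := D.h2 _ hs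
  conv_lhs => rw [hd]
  rw [map_add, P_const, Matrix.mulVec_add, D.C_const, add_zero]

theorem M_one (v : ι → F) : D.M 1 v = v := by
  rw [M_apply, P_one, D.C_U]

/-- the induced group homomorphism -/
noncomputable def hom : Equiv.Perm N →* ((ι → F) ≃ₗ[F] (ι → F)) :=
  MonoidHom.mk' (fun π => LinearEquiv.ofLinearMap (D.M π) (D.M π⁻¹)
      (LinearMap.ext fun v => by
        show D.M π (D.M π⁻¹ v) = v
        rw [← M_mul, mul_inv_cancel, M_one])
      (LinearMap.ext fun v => by
        show D.M π⁻¹ (D.M π v) = v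
        rw [← M_mul, inv_mul_cancel, M_one]))
    (fun π σ => by
      ext1 v
      show D.M (π * σ) v = D.M π (D.M σ v)
      exact D.M_mul π σ v)

theorem hom_apply (π : Equiv.Perm N) (v : ι → F) : D.hom π v = D.C *ᵥ P π (D.U *ᵥ v) := rfl

/-- a scalar action on the section -/
theorem P_of_scalar (π : Equiv.Perm N) (d : F) (h : ∀ v, D.hom π v = d • v) (x : N → F)
    (hx : ∑ i, x i = 0) : ∃ c, P π x = d • x + fun _ => D.r * c := by
  -- x = Ψρx + r c₁
  obtain ⟨c₁, hd⟩ := D.h2 x hx
  set w := D.C *ᵥ x with hw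
  have h1 : P π x = P π (D.U *ᵥ w) + fun _ => D.r * c₁ := by
    conv_lhs => rw [hd]
    rw [map_add, P_const]
  -- the vector P π Ψ w is of sum zero, with image d • w
  have hs : ∑ i, P π (D.U *ᵥ w) i = 0 := by rw [P_sum, D.sum_U]
  obtain ⟨c₂, hd2⟩ := D.h2 _ hs
  have hm : D.C *ᵥ P π (D.U *ᵥ w) = d • w := by
    rw [← hom_apply]; exact h w
  rw [hm] at hd2
  refine ⟨c₂ + c₁ - d * c₁, ?_⟩
  rw [h1, hd2, Matrix.mulVec_smul]
  conv_rhs => rw [hd]
  funext i
  simp only [Pi.add_apply, Pi.smul_apply, smul_eq_mul]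
  ring

/-- the difference of two coordinate vectors -/
def ee (i j : N) : N → F := Pi.single i 1 - Pi.single j 1

theorem sum_ee (i j : N) : ∑ k, (ee i j : N → F) k = 0 := by
  simp [ee, Finset.sum_sub_distrib, Finset.sum_pi_single']

theorem P_ee_apply (π : Equiv.Perm N) (i j m : N) : P π (ee i j : N → F) m = (ee i j : N → F) (π⁻¹ m) := rfl

theorem faithful (h5 : 5 ≤ Fintype.card N) (π : Equiv.Perm N) (h : ∀ v, D.hom π v = v) : π = 1 := by
  classical
  by_contra hne
  obtain ⟨i, hi⟩ : ∃ i, π i ≠ i := by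
    by_contra hc
    push Not at hc
    exact hne (Equiv.ext hc)
  -- choose j, k
  obtain ⟨j, hj⟩ : ∃ j, j ∉ ({i, π i} : Finset N) := by
    by_contra hc
    push Not at hc
    have : (Finset.univ : Finset N) ⊆ {i, π i} := fun x _ => hc x
    have := Finset.card_le_card this
    have h2 : ({i, π i} : Finset N).card ≤ 2 := Finset.card_le_two
    rw [Finset.card_univ] at this
    omega
  obtain ⟨k, hk⟩ : ∃ k, k ∉ ({i, j, π i, π j} : Finset N) := by
    by_contra hc
    push Not at hc
    have : (Finset.univ : Finset N) ⊆ {i, j, π i, π j} := fun x _ => hc x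
    have := Finset.card_le_card this
    have h2 : ({i, j, π i, π j} : Finset N).card ≤ 4 := by
      refine le_trans (Finset.card_insert_le _ _) ?_
      have : ({j, π i, π j} : Finset N).card ≤ 3 := Finset.card_le_three
      omega
    rw [Finset.card_univ] at this
    omega
  simp only [Finset.mem_insert, Finset.mem_singleton, not_or] at hj hk
  obtain ⟨hji, hjπ⟩ := hj
  obtain ⟨hki, hkj, hkπi, hkπj⟩ := hk
  obtain ⟨c, hc⟩ := D.P_of_scalar π 1 (fun v => by rw [h v, one_smul]) (ee i j) (sum_ee i j)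
  rw [one_smul] at hc
  -- evaluate at k
  have h1 := congrFun hc k
  simp only [Pi.add_apply] at h1
  rw [P_ee_apply] at h1
  have e1 : (ee i j : N → F) (π⁻¹ k) = 0 := by
    have a1 : π⁻¹ k ≠ i := by
      intro hh; apply hkπi; rw [← hh]; simp
    have a2 : π⁻¹ k ≠ j := by
      intro hh; apply hkπj; rw [← hh]; simp
    have a1' : π.symm k ≠ i := a1
    have a2' : π.symm k ≠ j := a2
    simp [ee, Pi.single_apply, a1', a2']
  have e2 : (ee i j : N → F) k = 0 := by
    simp [ee, Pi.single_apply, hki, hkj]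
  rw [e1, e2, zero_add] at h1
  -- evaluate at π i
  have h3 := congrFun hc (π i)
  simp only [Pi.add_apply] at h3
  rw [P_ee_apply, ← h1] at h3
  have e3 : (ee i j : N → F) (π⁻¹ (π i)) = 1 := by
    simp [ee, Pi.single_apply, Ne.symm hji]
  have e4 : (ee i j : N → F) (π i) = 0 := by
    simp [ee, Pi.single_apply, hi, Ne.symm hjπ]
  rw [e3, e4, add_zero] at h3
  exact one_ne_zero h3

/-- a swap in characteristic two acts as a transvection -/
theorem P_swap [CharP F 2] (i j : N) (x : N → F) :
    P (Equiv.swap i j) x = x + (x i + x j) • (Pi.single i 1 + Pi.single j 1) := by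
  have h2 : ∀ a : F, a + a = 0 := fun a => CharTwo.add_self_eq_zero a
  funext k
  rw [P_apply, Equiv.swap_inv]
  by_cases hij : i = j
  · subst hij
    simp only [Equiv.swap_self, Equiv.refl_apply, h2, zero_smul, Pi.add_apply, Pi.zero_apply, add_zero]
  by_cases hki : k = i
  · subst hki
    simp [Equiv.swap_apply_left, Pi.single_apply, Ne.symm hij, hij]
    have := h2 (x k)
    linear_combination (-1 : F) * this 
  by_cases hkj : k = j
  · subst hkj
    simp [Equiv.swap_apply_right, Pi.single_apply, hij]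
    have := h2 (x k)
    linear_combination (-1 : F) * this 
  rw [Equiv.swap_apply_of_ne_of_ne hki hkj]
  simp [Pi.single_apply, hki, hkj]

/-- the invariance of a quadratic form in characteristic two -/
theorem hom_mem_isom [CharP F 2] (Q : QuadraticForm F (ι → F))
    (H4 : ∀ v y, QuadraticMap.polar (DFunLike.coe Q) v (D.C *ᵥ y) = (D.U *ᵥ v) ⬝ᵥ y)
    (H5 : ∀ i j : N, i ≠ j → Q (D.C *ᵥ (Pi.single i 1 + Pi.single j 1)) = 1)
    (π : Equiv.Perm N) (v : ι → F) : Q (D.hom π v) = Q v := by
  classical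
  let K : Subgroup (Equiv.Perm N) :=
    { carrier := {π | ∀ v, Q (D.hom π v) = Q v}
      mul_mem' := by
        intro a b ha hb v
        rw [map_mul]
        show Q (D.hom a (D.hom b v)) = Q v
        rw [ha, hb]
      one_mem' := by intro v; simp
      inv_mem' := by
        intro a ha v
        have h1 := ha (D.hom a⁻¹ v)
        have h2 : D.hom a (D.hom a⁻¹ v) = v := by
          show (D.hom a * D.hom a⁻¹) v = v
          rw [← map_mul, mul_inv_cancel, map_one]; rfl
        rw [h2] at h1
        exact h1.symm }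
  have htop : K = ⊤ := by
    rw [eq_top_iff, ← Equiv.Perm.closure_isSwap, Subgroup.closure_le]
    rintro s ⟨i, j, hij, rfl⟩ v
    rw [hom_apply, P_swap, Matrix.mulVec_add, D.C_U, Matrix.mulVec_smul]
    set x := D.U *ᵥ v with hx
    set t := D.C *ᵥ (Pi.single i 1 + Pi.single j 1 : N → F) with ht
    have hp : QuadraticMap.polar (DFunLike.coe Q) v t = x i + x j := by
      rw [ht, H4, ← hx, dotProduct_add]
      simp
    have hq := H5 i j hij
    rw [← ht] at hq
    have e1 : Q (v + (x i + x j) • t) = Q v + Q ((x i + x j) • t) + QuadraticMap.polar (DFunLike.coe Q) v ((x i + x j) • t) := by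
      simp only [QuadraticMap.polar]; ring
    rw [e1, QuadraticMap.map_smul, QuadraticMap.polar_smul_right, hp, hq]
    simp only [smul_eq_mul, mul_one]
    have h2 : (x i + x j) * (x i + x j) + (x i + x j) * (x i + x j) = 0 := CharTwo.add_self_eq_zero _
    linear_combination h2
  have : π ∈ K := by rw [htop]; trivial
  exact this v

/-- when `r = 0` the vectors of sum zero are exactly the image. -/
theorem P_of_scalar_zero (hr : D.r = 0) (π : Equiv.Perm N) (d : F) (h : ∀ v, D.hom π v = d • v) (x : N → F)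
    (hx : ∑ i, x i = 0) : P π x = d • x := by
  obtain ⟨c, hc⟩ := D.P_of_scalar π d h x hx
  rw [hc, hr]
  funext i
  simp

/-- the scalar `-1` cannot act -/
theorem not_neg (h3 : 3 ≤ Fintype.card N) (hr : D.r = 0) (h2 : (2 : F) ≠ 0) (π : Equiv.Perm N)
    (h : ∀ v, D.hom π v = (-1 : F) • v) : False := by
  classical
  have hex : Nonempty N := Fintype.card_pos_iff.mp (by omega)
  obtain ⟨i⟩ := hex
  have key : ∀ j, j ≠ i → π i = j := by
    intro j hji
    have hc := D.P_of_scalar_zero hr π (-1) h (ee i j) (sum_ee i j)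
    have h1 := congrFun hc (π i)
    rw [P_ee_apply] at h1
    have hinv : π⁻¹ (π i) = i := by simp
    rw [hinv] at h1
    simp only [Pi.smul_apply, smul_eq_mul] at h1
    by_contra hne
    have e3 : (ee i j : N → F) i = 1 := by
      simp [ee, Pi.single_apply, Ne.symm hji]
    by_cases hπ : π i = i
    · rw [hπ, e3] at h1
      have : (2 : F) = 0 := by linear_combination h1
      exact h2 this
    · have e4 : (ee i j : N → F) (π i) = 0 := by
        simp [ee, Pi.single_apply, hπ, hne]
      rw [e3, e4] at h1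
      simp at h1
  obtain ⟨a, b, hab⟩ : ∃ a b : N, a ≠ i ∧ b ≠ i ∧ a ≠ b := by
    obtain ⟨a, b, c, h⟩ := Fintype.two_lt_card_iff.mp (by omega : 2 < Fintype.card N)
    obtain ⟨h1, h2, h3⟩ := h
    by_cases hai : a = i
    · subst hai; exact ⟨b, c, Ne.symm h1, Ne.symm h2, h3⟩
    · by_cases hbi : b = i
      · subst hbi; exact ⟨a, c, hai, Ne.symm h3, h2⟩
      · exact ⟨a, b, hai, hbi, h1⟩
  exact hab.2.2 ((key a hab.1).symm.trans (key b hab.2.1))

end Data

/-- the decomposition from a matrix identity -/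
theorem h2_of_matrix {U : Matrix N ι F} {C : Matrix ι N F} {r : F} {ell u : N → F}
    (h : (1 - U * C : Matrix N N F) = Matrix.of (fun i j => r * ell j + u i)) (x : N → F) (hx : ∑ i, x i = 0) :
    ∃ c, x = U *ᵥ (C *ᵥ x) + fun _ => r * c := by
  refine ⟨∑ j, ell j * x j, ?_⟩
  funext i
  have h' := congrFun (congrArg (fun A : Matrix N N F => A *ᵥ x) h) i
  rw [Matrix.sub_mulVec, Matrix.one_mulVec, ← Matrix.mulVec_mulVec] at h'
  have h2 : (Matrix.of (fun i j => r * ell j + u i) *ᵥ x) i = r * (∑ j, ell j * x j) + u i * ∑ j, x j := by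
    simp only [Matrix.mulVec, dotProduct, Matrix.of_apply]
    rw [Finset.mul_sum, Finset.mul_sum, ← Finset.sum_add_distrib]
    refine Finset.sum_congr rfl (fun j _ => ?_)
    ring
  rw [h2, hx, mul_zero, add_zero] at h'
  simp only [Pi.sub_apply] at h'
  simp only [Pi.add_apply]
  rw [← h']; ring

end CfsgLib.ClassGeo.PermMod
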