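import Mathlib
import Cfsg.Agent.Lib.ClassGeo.PermMod
import Cfsg.Agent.Lib.ClassGeo.OOrder3
import Cfsg.Agent.Lib.ClassGeo.OStd

set_option autoImplicit false
set_option linter.unusedSimpArgs false
set_option linter.unusedVariables false
set_option linter.unusedSectionVars false

namespace CfsgLib.ClassGeo.PermMod

open Matrix Cfsg CfsgLib.ClassGeo CfsgLib.ClassGeo.Orth

section maps

variable {F K : Type*} [Field F] [Field K] {N ι : Type*} [Fintype N] [DecidableEq N] [Fintype ι] [DecidableEq ι]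

/-- Coordinates given by a matrix identity. -/
structure MData (F N ι : Type*) [Field F] [Fintype N] [DecidableEq N] [Fintype ι] [DecidableEq ι] where
  U : Matrix N ι F
  C : Matrix ι N F
  r : F
  ell : N → F
  u : N → F
  h1 : C * U = 1
  h2 : (1 - U * C : Matrix N N F) = Matrix.of (fun i j => r * ell j + u i)
  h3 : ∀ a, ∑ i, U i a = 0
  h4 : ∀ b, r * ∑ i, C b i = 0

/-- forget the matrix identity -/
def MData.toData (D : MData F N ι) : Data F N ι where
  U := D.U
  C := D.C
  r := D.r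
  h1 := D.h1
  h2 := h2_of_matrix D.h2
  h3 := D.h3
  h4 := D.h4

/-- base change of the coordinates -/
def MData.map (D : MData F N ι) (φ : F →+* K) : MData K N ι where
  U := D.U.map φ
  C := D.C.map φ
  r := φ D.r
  ell := fun j => φ (D.ell j)
  u := fun j => φ (D.u j)
  h1 := by
    rw [← Matrix.map_mul, D.h1, Matrix.map_one _ (map_zero φ) (map_one φ)]
  h2 := by
    have e : (1 - D.U.map φ * D.C.map φ : Matrix N N K) = (1 - D.U * D.C : Matrix N N F).map φ := by
      rw [Matrix.map_sub _ (map_sub φ), Matrix.map_mul, Matrix.map_one _ (map_zero φ) (map_one φ)]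
    rw [e, D.h2]
    ext i j
    simp
  h3 := by
    intro a
    have := congrArg φ (D.h3 a)
    rw [map_sum, map_zero] at this
    exact this
  h4 := by
    intro b
    have := congrArg φ (D.h4 b)
    rw [map_mul, map_sum, map_zero] at this
    exact this

theorem map_C_single (D : MData F N ι) (φ : F →+* K) (i j : N) :
    (D.map φ).toData.C *ᵥ (Pi.single i 1 + Pi.single j 1 : N → K) = fun a => φ (D.C a i + D.C a j) := by
  funext a
  rw [Matrix.mulVec_add, Matrix.mulVec_single_one, Matrix.mulVec_single_one]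
  simp [MData.map, MData.toData]

end maps

section assemble

variable {F : Type*} [Field F] [Fintype F] {N ι : Type} [Fintype N] [DecidableEq N] [Fintype ι] [DecidableEq ι]

/-- The isomorphism between an isometry group of the right order and a symmetric group. -/
theorem iso_of_data [CharP F 2] (D : Data F N ι) (Q : QuadraticForm F (ι → F)) (q : (ι → F) → F) (hq : ⇑Q = q)
    (H4 : ∀ v y, QuadraticMap.polar (DFunLike.coe Q) v (D.C *ᵥ y) = (D.U *ᵥ v) ⬝ᵥ y)
    (H5 : ∀ i j : N, i ≠ j → Q (D.C *ᵥ (Pi.single i 1 + Pi.single j 1)) = 1)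
    (h5 : 5 ≤ Fintype.card N)
    (hcard : Nat.card (fIsom (F := F) (fun a _ : ι → F => q a)) = Nat.card (Equiv.Perm N)) :
    Nonempty (↥(isometryGroup F q) ≃* Equiv.Perm N) := by
  subst hq
  have hmem : ∀ π, D.hom π ∈ fIsom (F := F) (fun a _ : ι → F => Q a) := by
    intro π
    rw [mem_fIsom]
    intro a b
    exact D.hom_mem_isom Q H4 H5 π a
  let f : Equiv.Perm N →* fIsom (F := F) (fun a _ : ι → F => Q a) := D.hom.codRestrict _ hmem
  have hinj : Function.Injective f := by
    rw [injective_iff_map_eq_one]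
    intro π hπ
    apply D.faithful h5
    intro v
    have := congrArg Subtype.val hπ
    have h2 : D.hom π = 1 := this
    rw [h2]; rfl
  have hbij : Function.Bijective f := by
    haveI : Finite ((ι → F) ≃ₗ[F] (ι → F)) := Finite.of_injective (fun g => (g : (ι → F) → (ι → F))) DFunLike.coe_injective
    exact (Nat.bijective_iff_injective_and_card f).mpr ⟨hinj, hcard.symm⟩
  exact ⟨(preservingEquiv (fun a _ : ι → F => Q a)).trans (MulEquiv.ofBijective f hbij).symm⟩

end assemble

/-! ### The data in the two cases -/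

abbrev ePlus : Fin 3 → Fin 8 → ZMod 2 := ![![1,1,1,1,0,0,0,0],![1,1,0,0,1,1,0,0],![1,0,1,0,1,0,1,0]]
abbrev fPlus : Fin 3 → Fin 8 → ZMod 2 := ![![0,1,1,1,1,0,0,0],![1,0,0,1,1,1,0,0],![0,1,0,1,0,1,1,0]]
def UPlus : Matrix (Fin 8) (Fin 3 ⊕ Fin 3) (ZMod 2) := fun i a => Sum.elim (fun k => ePlus k i) (fun k => fPlus k i) a
def CPlus : Matrix (Fin 3 ⊕ Fin 3) (Fin 8) (ZMod 2) := fun a i => Sum.elim (fun k => fPlus k i) (fun k => ePlus k i) a
abbrev lPlus : Fin 8 → ZMod 2 := ![0,0,0,0,0,0,0,1]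
abbrev uPlus : Fin 8 → ZMod 2 := ![1,1,1,1,1,1,1,0]

set_option maxRecDepth 100000 in
theorem plus_h1 : CPlus * UPlus = 1 := by decide
set_option maxRecDepth 100000 in
theorem plus_h2 : (1 - UPlus * CPlus : Matrix (Fin 8) (Fin 8) (ZMod 2)) = Matrix.of (fun i j => (1 : ZMod 2) * lPlus j + uPlus i) := by decide
set_option maxRecDepth 100000 in
theorem plus_h3 : ∀ a, ∑ i, UPlus i a = 0 := by decide
set_option maxRecDepth 100000 in
theorem plus_h4 : ∀ b, (1 : ZMod 2) * ∑ i, CPlus b i = 0 := by decide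
set_option maxRecDepth 100000 in
theorem plus_H5 : ∀ i j : Fin 8, i ≠ j → quadFormPlus 3 (ZMod 2) (fun a => CPlus a i + CPlus a j) = 1 := by decide

/-- the section of the permutation module for `O⁺₆(2)` -/
def dataPlus : MData (ZMod 2) (Fin 8) (Fin 3 ⊕ Fin 3) where
  U := UPlus
  C := CPlus
  r := 1
  ell := lPlus
  u := uPlus
  h1 := plus_h1
  h2 := plus_h2
  h3 := plus_h3
  h4 := plus_h4

abbrev eMinus : Fin 5 → ZMod 2 := ![1,1,1,1,0]
abbrev fMinus : Fin 5 → ZMod 2 := ![0,1,1,1,1]
abbrev aMinus : Fin 5 → ZMod 2 := ![0,1,1,0,0]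
abbrev bMinus : Fin 5 → ZMod 2 := ![0,0,1,1,0]

def UMinus : Matrix (Fin 5) ((Fin 1 ⊕ Fin 1) ⊕ Fin 2) (ZMod 2) := fun i a =>
  Sum.elim (Sum.elim (fun _ => eMinus i) (fun _ => fMinus i)) (fun k => (![aMinus i, bMinus i] : Fin 2 → ZMod 2) k) a
def CMinus : Matrix ((Fin 1 ⊕ Fin 1) ⊕ Fin 2) (Fin 5) (ZMod 2) := fun a i =>
  Sum.elim (Sum.elim (fun _ => fMinus i) (fun _ => eMinus i)) (fun k => (![bMinus i, aMinus i] : Fin 2 → ZMod 2) k) a

set_option maxRecDepth 100000 in
theorem minus_h1 : CMinus * UMinus = 1 := by decide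
set_option maxRecDepth 100000 in
theorem minus_h2 : (1 - UMinus * CMinus : Matrix (Fin 5) (Fin 5) (ZMod 2)) = Matrix.of (fun i j => (0 : ZMod 2) * 0 + 1) := by decide
set_option maxRecDepth 100000 in
theorem minus_h3 : ∀ a, ∑ i, UMinus i a = 0 := by decide
set_option maxRecDepth 100000 in
theorem minus_H5 : ∀ i j : Fin 5, i ≠ j → quadFormMinus 1 (ZMod 2) 1 1 (fun a => CMinus a i + CMinus a j) = 1 := by decide

/-- the section of the permutation module for `O⁻₄(2)` -/
def dataMinus : MData (ZMod 2) (Fin 5) ((Fin 1 ⊕ Fin 1) ⊕ Fin 2) where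
  U := UMinus
  C := CMinus
  r := 0
  ell := fun _ => 0
  u := fun _ => 1
  h1 := minus_h1
  h2 := minus_h2
  h3 := minus_h3
  h4 := fun b => by simp

section final

variable {F : Type*} [Field F] [Fintype F]

/-- characteristic two from cardinality two -/
theorem charP_two (hF : Fintype.card F = 2) : CharP F 2 := by
  have h0 : ((2 : ℕ) : F) = 0 := by
    rw [← hF]; exact Nat.cast_card_eq_zero F
  exact ringChar.of_eq (CharP.ringChar_of_prime_eq_zero Nat.prime_two h0)

theorem polar_plus_dual (E Fv : Fin 3 → Fin 8 → F) (v : Fin 3 ⊕ Fin 3 → F) (y : Fin 8 → F) :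
    QuadraticMap.polar (quadFormPlus 3 F) v ((Matrix.of (fun a i => Sum.elim (fun k => Fv k i) (fun k => E k i) a)) *ᵥ y) =
      ((Matrix.of (fun i a => Sum.elim (fun k => E k i) (fun k => Fv k i) a)) *ᵥ v) ⬝ᵥ y := by
  rw [polar_quadFormPlus]
  simp only [Matrix.mulVec, dotProduct, Matrix.of_apply, Fintype.sum_sum_type, Sum.elim_inl, Sum.elim_inr]
  simp only [Finset.mul_sum, Finset.sum_mul, Finset.sum_add_distrib, add_mul]
  congr 1
  · rw [Finset.sum_comm]
    refine Finset.sum_congr rfl fun k _ => Finset.sum_congr rfl fun i _ => ?_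
    ring
  · rw [Finset.sum_comm]
    refine Finset.sum_congr rfl fun k _ => Finset.sum_congr rfl fun i _ => ?_
    ring

/-- `O⁺₆(2) ≅ S₈`. -/
theorem plus_iso (hF : Fintype.card F = 2) :
    Nonempty (↥(isometryGroup F (quadFormPlus 3 F)) ≃* Equiv.Perm (Fin 8)) := by
  haveI := charP_two hF
  let φ : ZMod 2 →+* F := ZMod.castHom (dvd_refl 2) F
  let E : Fin 3 → Fin 8 → F := fun k i => φ (ePlus k i)
  let Fv : Fin 3 → Fin 8 → F := fun k i => φ (fPlus k i)
  let Q : QuadraticForm F (Fin 3 ⊕ Fin 3 → F) := mkQ (quadFormPlus_nondeg (F := F) 3)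
  refine iso_of_data (dataPlus.map φ).toData Q _ (mkQ_coe _) ?_ ?_ (by simp) ?_
  · intro v y
    have hU : (dataPlus.map φ).toData.U = Matrix.of (fun i a => Sum.elim (fun k => E k i) (fun k => Fv k i) a) := by
      ext i a
      rcases a with a | a <;> rfl
    have hC : (dataPlus.map φ).toData.C = Matrix.of (fun a i => Sum.elim (fun k => Fv k i) (fun k => E k i) a) := by
      ext a i
      rcases a with a | a <;> rfl
    rw [hU, hC]
    exact polar_plus_dual E Fv v y
  · intro i j hij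
    rw [map_C_single]
    have hQ : ∀ w, Q w = quadFormPlus 3 F w := fun w => mkQ_apply _ w
    rw [hQ]
    have := congrArg φ (plus_H5 i j hij)
    rw [map_one] at this
    rw [← this]
    simp only [quadFormPlus, map_sum, map_mul]
    rfl
  · rw [card_isom_plus 2, Nat.card_perm]
    have : Nat.card F = 2 := by rw [Nat.card_eq_fintype_card, hF]
    rw [this]
    simp [Nat.factorial, Finset.prod_range_succ]

theorem polar_minus_dual [CharP F 2] (e f a b : Fin 5 → F) (v : (Fin 1 ⊕ Fin 1) ⊕ Fin 2 → F) (y : Fin 5 → F) :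
    QuadraticMap.polar (quadFormMinus 1 F 1 1) v ((Matrix.of (fun c i => Sum.elim (Sum.elim (fun _ => f i) (fun _ => e i)) (fun k => (![b i, a i] : Fin 2 → F) k) c)) *ᵥ y) =
      ((Matrix.of (fun i c => Sum.elim (Sum.elim (fun _ => e i) (fun _ => f i)) (fun k => (![a i, b i] : Fin 2 → F) k) c)) *ᵥ v) ⬝ᵥ y := by
  have h2 : (2 : F) = 0 := by
    exact_mod_cast CharP.cast_eq_zero F 2
  rw [polar_quadFormMinus, h2]
  simp only [Matrix.mulVec, dotProduct, Matrix.of_apply, Fintype.sum_sum_type, Sum.elim_inl, Sum.elim_inr,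
    Fin.sum_univ_succ, Fin.sum_univ_zero, Matrix.cons_val_zero, Matrix.cons_val_one, Fin.succ_zero_eq_one]
  ring

/-- `O⁻₄(2) ≅ S₅`. -/
theorem minus_iso (hF : Fintype.card F = 2) :
    Nonempty (↥(isometryGroup F (quadFormMinus 1 F 1 1)) ≃* Equiv.Perm (Fin 5)) := by
  haveI := charP_two hF
  let φ : ZMod 2 →+* F := ZMod.castHom (dvd_refl 2) F
  have h01 : ∀ x : F, x = 0 ∨ x = 1 := by
    intro x
    have h := FiniteField.pow_card x
    rw [hF] at h
    have h3 : x * (x - 1) = 0 := by linear_combination h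
    rcases mul_eq_zero.mp h3 with h4 | h4
    · exact Or.inl h4
    · exact Or.inr (sub_eq_zero.mp h4)
  have h2F : (1 : F) + 1 = 0 := CharTwo.add_self_eq_zero 1
  have hab : ∀ z₁ z₂ : F, z₁ ^ 2 + 1 * z₁ * z₂ + 1 * z₂ ^ 2 = 0 → z₁ = 0 ∧ z₂ = 0 := by
    intro z₁ z₂ h
    rcases h01 z₁ with h1 | h1 <;> rcases h01 z₂ with h3 | h3 <;> subst h1 <;> subst h3
    · exact ⟨rfl, rfl⟩
    · simp at h
    · simp at h
    · exfalso
      have : (1 : F) = 0 := by
        calc (1 : F) = (1 : F) ^ 2 + 1 * 1 * 1 + 1 * 1 ^ 2 - (1 + 1) * 1 := by ring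
          _ = 0 := by rw [h, h2F]; ring
      exact one_ne_zero this
  let Q : QuadraticForm F ((Fin 1 ⊕ Fin 1) ⊕ Fin 2 → F) := mkQ (quadFormMinus_nondeg (F := F) 1 1 1 hab)
  refine iso_of_data (dataMinus.map φ).toData Q _ (mkQ_coe _) ?_ ?_ (by simp) ?_
  · intro v y
    let e : Fin 5 → F := fun i => φ (eMinus i)
    let f : Fin 5 → F := fun i => φ (fMinus i)
    let a : Fin 5 → F := fun i => φ (aMinus i)
    let b : Fin 5 → F := fun i => φ (bMinus i)
    have hU : (dataMinus.map φ).toData.U = Matrix.of (fun i c => Sum.elim (Sum.elim (fun _ => e i) (fun _ => f i)) (fun k => (![a i, b i] : Fin 2 → F) k) c) := by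
      ext i c
      rcases c with (c | c) | c
      · rfl
      · rfl
      · fin_cases c <;> rfl
    have hC : (dataMinus.map φ).toData.C = Matrix.of (fun c i => Sum.elim (Sum.elim (fun _ => f i) (fun _ => e i)) (fun k => (![b i, a i] : Fin 2 → F) k) c) := by
      ext c i
      rcases c with (c | c) | c
      · rfl
      · rfl
      · fin_cases c <;> rfl
    rw [hU, hC]
    exact polar_minus_dual e f a b v y
  · intro i j hij
    rw [map_C_single]
    have hQ : ∀ w, Q w = quadFormMinus 1 F 1 1 w := fun w => mkQ_apply _ w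
    rw [hQ]
    have := congrArg φ (minus_H5 i j hij)
    rw [map_one] at this
    refine Eq.trans ?_ this
    simp only [quadFormMinus, map_sum, map_mul, map_add, map_pow, map_one]
    rfl
  · rw [card_isom_minus hab 1, Nat.card_perm]
    have : Nat.card F = 2 := by rw [Nat.card_eq_fintype_card, hF]
    rw [this]
    simp [Nat.factorial, Finset.prod_range_succ]

end final

end CfsgLib.ClassGeo.PermMod
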