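import Mathlib
import Cfsg.Agent.Lib.ClassGeo.PermMod2
import Cfsg.Agent.Lib.ClassGeo.OIndex2

set_option autoImplicit false
set_option linter.unusedSimpArgs false
set_option linter.unusedVariables false
set_option linter.unusedSectionVars false

namespace CfsgLib.ClassGeo.PermMod

open Matrix Cfsg CfsgLib.ClassGeo CfsgLib.ClassGeo.Orth

/-- the case `R = 0`: faithfulness for at least three letters -/
theorem Data.faithful_zero {F : Type*} [Field F] {N ι : Type*} [Fintype N] [DecidableEq N] [Fintype ι] [DecidableEq ι]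
    (D : Data F N ι) (hr : D.r = 0) (h3 : 3 ≤ Fintype.card N) (π : Equiv.Perm N) (h : ∀ v, D.hom π v = v) : π = 1 := by
  classical
  by_contra hne
  obtain ⟨i, hi⟩ : ∃ i, π i ≠ i := by
    by_contra hc
    push Not at hc
    exact hne (Equiv.ext hc)
  obtain ⟨j, hj⟩ : ∃ j, j ∉ ({i, π i} : Finset N) := by
    by_contra hc
    push Not at hc
    have : (Finset.univ : Finset N) ⊆ {i, π i} := fun x _ => hc x
    have := Finset.card_le_card this
    have h2 : ({i, π i} : Finset N).card ≤ 2 := Finset.card_le_two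
    rw [Finset.card_univ] at this
    omega
  simp only [Finset.mem_insert, Finset.mem_singleton, not_or] at hj
  obtain ⟨hji, hjπ⟩ := hj
  have hc := D.P_of_scalar_zero hr π 1 (fun v => by rw [h v, one_smul]) (Data.ee i j) (Data.sum_ee i j)
  rw [one_smul] at hc
  have h3 := congrFun hc (π i)
  rw [Data.P_ee_apply] at h3
  have e3 : (Data.ee i j : N → F) (π⁻¹ (π i)) = 1 := by
    simp [Data.ee, Pi.single_apply, Ne.symm hji]
  have e4 : (Data.ee i j : N → F) (π i) = 0 := by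
    simp [Data.ee, Pi.single_apply, hi, Ne.symm hjπ]
  rw [e3, e4] at h3
  exact one_ne_zero h3

abbrev aOdd : Fin 4 → ZMod 3 := ![1,2,0,0]
abbrev eOdd : Fin 4 → ZMod 3 := ![1,1,1,0]
abbrev fOdd : Fin 4 → ZMod 3 := ![2,2,0,2]

def UOdd : Matrix (Fin 4) (Unit ⊕ (Fin 1 ⊕ Fin 1)) (ZMod 3) := fun i c =>
  Sum.elim (fun _ => aOdd i) (Sum.elim (fun _ => eOdd i) (fun _ => fOdd i)) c
def COdd : Matrix (Unit ⊕ (Fin 1 ⊕ Fin 1)) (Fin 4) (ZMod 3) := fun c i =>
  Sum.elim (fun _ => 2 * aOdd i) (Sum.elim (fun _ => fOdd i) (fun _ => eOdd i)) c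

set_option maxRecDepth 100000 in
theorem odd_h1 : COdd * UOdd = 1 := by decide
set_option maxRecDepth 100000 in
theorem odd_h2 : (1 - UOdd * COdd : Matrix (Fin 4) (Fin 4) (ZMod 3)) = Matrix.of (fun i j => (0 : ZMod 3) * 0 + 1) := by decide
set_option maxRecDepth 100000 in
theorem odd_h3 : ∀ a, ∑ i, UOdd i a = 0 := by decide

/-- the section of the permutation module for `SO₃(3)` -/
def dataOdd : MData (ZMod 3) (Fin 4) (Unit ⊕ (Fin 1 ⊕ Fin 1)) where
  U := UOdd
  C := COdd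
  r := 0
  ell := fun _ => 0
  u := fun _ => 1
  h1 := odd_h1
  h2 := odd_h2
  h3 := odd_h3
  h4 := fun b => by simp

variable {F : Type*} [Field F] [Fintype F]

theorem charP_three (hF : Fintype.card F = 3) : CharP F 3 := by
  have h0 : ((3 : ℕ) : F) = 0 := by
    rw [← hF]; exact Nat.cast_card_eq_zero F
  exact ringChar.of_eq (CharP.ringChar_of_prime_eq_zero Nat.prime_three h0)

/-- the sum of squares on the section -/
theorem sum_sq_odd (h3 : (3 : F) = 0) (φ : ZMod 3 →+* F) (v : Unit ⊕ (Fin 1 ⊕ Fin 1) → F) :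
    ∑ i, (((dataOdd.map φ).toData.U *ᵥ v) i) ^ 2 = - quadFormOdd 1 F v := by
  simp only [Matrix.mulVec, dotProduct, Fintype.sum_sum_type, Fin.sum_univ_succ, Fin.sum_univ_zero, quadFormOdd, MData.map, MData.toData, dataOdd,
    Matrix.map_apply, UOdd, Sum.elim_inl, Sum.elim_inr]
  have h1 : φ 1 = 1 := map_one φ
  have h0 : φ 0 = 0 := map_zero φ
  have h2 : φ 2 = 2 := map_ofNat φ 2
  simp [h1, h0, h2, aOdd, eOdd, fOdd]
  linear_combination (2 * v (Sum.inl ()) ^ 2 + v (Sum.inr (Sum.inl 0)) ^ 2 + 4 * v (Sum.inr (Sum.inr 0)) ^ 2 + 2 * v (Sum.inl ()) * v (Sum.inr (Sum.inl 0)) + 4 * v (Sum.inl ()) * v (Sum.inr (Sum.inr 0)) + 3 * v (Sum.inr (Sum.inl 0)) * v (Sum.inr (Sum.inr 0))) * h3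

theorem sum_sq_P {N : Type*} [Fintype N] [DecidableEq N] (π : Equiv.Perm N) (y : N → F) :
    ∑ i, (Data.P π y i) ^ 2 = ∑ i, (y i) ^ 2 :=
  Equiv.sum_comp (π⁻¹ : Equiv.Perm N) (fun i => (y i) ^ 2)

theorem hom_isom_odd (h3F : (3 : F) = 0) (φ : ZMod 3 →+* F) (π : Equiv.Perm (Fin 4)) (v : Unit ⊕ (Fin 1 ⊕ Fin 1) → F) :
    quadFormOdd 1 F ((dataOdd.map φ).toData.hom π v) = quadFormOdd 1 F v := by
  have hr : (dataOdd.map φ).toData.r = 0 := map_zero φ
  have hs : ∑ i, Data.P π ((dataOdd.map φ).toData.U *ᵥ v) i = 0 := by rw [Data.P_sum, Data.sum_U]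
  obtain ⟨c, hd⟩ := (dataOdd.map φ).toData.h2 _ hs
  rw [hr] at hd
  have e : (dataOdd.map φ).toData.U *ᵥ ((dataOdd.map φ).toData.hom π v) = Data.P π ((dataOdd.map φ).toData.U *ᵥ v) := by
    rw [Data.hom_apply]
    conv_rhs => rw [hd]
    funext i
    simp
  have h1 := sum_sq_odd h3F φ ((dataOdd.map φ).toData.hom π v)
  have h2 := sum_sq_odd h3F φ v
  rw [e, sum_sq_P, h2] at h1
  exact (neg_inj.mp h1).symm

abbrev ιO : Type := Unit ⊕ (Fin 1 ⊕ Fin 1)

/-- `SO₃(3) ≅ S₄`. -/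
theorem so3_iso (hF : Fintype.card F = 3) :
    Nonempty (↥(specialIsometryGroup F (quadFormOdd 1 F)) ≃* Equiv.Perm (Fin 4)) := by
  classical
  haveI := charP_three hF
  have h3F : (3 : F) = 0 := by exact_mod_cast CharP.cast_eq_zero F 3
  have h2F : (2 : F) ≠ 0 := by
    intro h
    have : (1 : F) = 0 := by linear_combination h3F - h
    exact one_ne_zero this
  let φ : ZMod 3 →+* F := ZMod.castHom (dvd_refl 3) F
  let D := (dataOdd.map φ).toData
  have hr : D.r = 0 := map_zero φ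
  have hmem : ∀ π, D.hom π ∈ fIsom (F := F) (fun a _ : Unit ⊕ (Fin 1 ⊕ Fin 1) → F => quadFormOdd 1 F a) := by
    intro π
    rw [mem_fIsom]
    intro a b
    exact hom_isom_odd h3F φ π a
  let g : Equiv.Perm (Fin 4) →* isometryGroup F (quadFormOdd 1 F) :=
    (preservingEquiv (fun a _ : Unit ⊕ (Fin 1 ⊕ Fin 1) → F => quadFormOdd 1 F a)).symm.toMonoidHom.comp (D.hom.codRestrict _ hmem)
  have hg : ∀ π v, (((g π).1 : GL ιO F) : Matrix ιO ιO F) *ᵥ v = D.hom π v := by
    intro π v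
    exact glLin_symm_mulVec _ v
  -- the determinant
  let a : Equiv.Perm (Fin 4) →* Fˣ := (Matrix.GeneralLinearGroup.det).comp ((isometryGroup F (quadFormOdd 1 F)).subtype.comp g)
  have ha : ∀ π, ((a π : Fˣ) : F) = (((g π).1 : GL ιO F) : Matrix ιO ιO F).det := fun π => rfl
  have hsq : ∀ u : F, u ≠ 0 → u ^ 2 = 1 := by
    intro u hu
    have := FiniteField.pow_card_sub_one_eq_one u hu
    rwa [hF] at this
  have ha2 : ∀ π, ((a π : Fˣ) : F) ^ 2 = 1 := fun π => hsq _ (a π).ne_zero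
  let ψ0 : Equiv.Perm (Fin 4) → Matrix (Unit ⊕ (Fin 1 ⊕ Fin 1)) (Unit ⊕ (Fin 1 ⊕ Fin 1)) F :=
    fun π => ((a π : Fˣ) : F) • (((g π).1 : GL ιO F) : Matrix ιO ιO F)
  have hψ0v : ∀ π v, ψ0 π *ᵥ v = ((a π : Fˣ) : F) • D.hom π v := by
    intro π v
    rw [Matrix.smul_mulVec, hg]
  have hψmul : ∀ π σ, ψ0 (π * σ) = ψ0 π * ψ0 σ := by
    intro π σ
    simp only [ψ0]
    rw [map_mul a, map_mul g, smul_mul_smul_comm]
    rfl
  have hψone : ψ0 1 = 1 := by
    simp only [ψ0]
    rw [map_one a, map_one g]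
    simp
  let ψU : Equiv.Perm (Fin 4) →* GL (Unit ⊕ (Fin 1 ⊕ Fin 1)) F :=
    MonoidHom.toHomUnits
      { toFun := ψ0
        map_one' := hψone
        map_mul' := hψmul }
  have hψU : ∀ π, ((ψU π : GL ιO F) : Matrix ιO ιO F) = ψ0 π := fun π => rfl
  have hψmem : ∀ π, ψU π ∈ isometryGroup F (quadFormOdd 1 F) := by
    intro π u v
    show quadFormOdd 1 F (((ψU π : GL ιO F) : Matrix ιO ιO F) *ᵥ u) = quadFormOdd 1 F u
    rw [hψU, hψ0v]
    have h1 := hom_isom_odd h3F φ π u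
    have hsmul : ∀ (c : F) (w : Unit ⊕ (Fin 1 ⊕ Fin 1) → F), quadFormOdd 1 F (c • w) = c ^ 2 * quadFormOdd 1 F w := by
      intro c w
      simp only [quadFormOdd, Pi.smul_apply, smul_eq_mul, Fin.sum_univ_succ, Fin.sum_univ_zero]
      ring
    rw [hsmul, ha2, one_mul, h1]
  let ψI : Equiv.Perm (Fin 4) →* isometryGroup F (quadFormOdd 1 F) := ψU.codRestrict _ hψmem
  have hψspec : ∀ π, ψI π ∈ specialIsometryGroup F (quadFormOdd 1 F) := by
    intro π
    rw [specialIsometryGroup, MonoidHom.mem_ker]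
    apply Units.ext
    show (((ψU π : GL ιO F) : Matrix ιO ιO F)).det = 1
    rw [hψU]
    simp only [ψ0]
    rw [Matrix.det_smul, ← ha]
    have hc : Fintype.card (Unit ⊕ (Fin 1 ⊕ Fin 1)) = 3 := by simp
    rw [hc]
    have := ha2 π
    calc ((a π : Fˣ) : F) ^ 3 * (a π : Fˣ) = (((a π : Fˣ) : F) ^ 2) ^ 2 := by ring
      _ = 1 := by rw [this]; ring
  let ψ : Equiv.Perm (Fin 4) →* specialIsometryGroup F (quadFormOdd 1 F) := ψI.codRestrict _ hψspec
  have hinj : Function.Injective ψ := by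
    rw [injective_iff_map_eq_one]
    intro π hπ
    have h1 : ψ0 π = 1 := by
      have := congrArg (fun x : specialIsometryGroup F (quadFormOdd 1 F) => (((x.1.1 : GL ιO F) : Matrix ιO ιO F))) hπ
      exact this
    have hv : ∀ v, ((a π : Fˣ) : F) • D.hom π v = v := by
      intro v
      rw [← hψ0v, h1, Matrix.one_mulVec]
    have h3 : ((a π : Fˣ) : F) = 1 ∨ ((a π : Fˣ) : F) = -1 := by
      have := ha2 π
      have h4 : (((a π : Fˣ) : F) - 1) * (((a π : Fˣ) : F) + 1) = 0 := by linear_combination this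
      rcases mul_eq_zero.mp h4 with h5 | h5
      · exact Or.inl (sub_eq_zero.mp h5)
      · exact Or.inr (eq_neg_of_add_eq_zero_left h5)
    rcases h3 with h3 | h3
    · apply D.faithful_zero hr (by simp) π
      intro v
      have := hv v
      rwa [h3, one_smul] at this
    · exfalso
      apply D.not_neg (by simp) hr h2F π
      intro v
      have := hv v
      rw [h3] at this
      conv_rhs => rw [← this]
      simp [smul_smul]
  have hcard : Nat.card (specialIsometryGroup F (quadFormOdd 1 F)) = Nat.card (Equiv.Perm (Fin 4)) := by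
    have hcF : Nat.card F = 3 := by rw [Nat.card_eq_fintype_card, hF]
    have hO : Nat.card (isometryGroup F (quadFormOdd 1 F)) = 48 := by
      rw [card_isometry_eq, card_isom_odd h2F, hcF]
      simp [Finset.prod_range_succ]
    let Q : QuadraticForm F (Unit ⊕ (Fin 1 ⊕ Fin 1) → F) := mkQ (quadFormOdd_nondeg (F := F) h2F 1)
    have hi : (specialIsometryGroup F (quadFormOdd 1 F)).index = 2 :=
      special_index_odd (Q := Q) h2F (by simp) (mkQ_nondeg _)
    have := Subgroup.card_mul_index (specialIsometryGroup F (quadFormOdd 1 F))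
    rw [hi, hO] at this
    have h24 : Nat.card (Equiv.Perm (Fin 4)) = 24 := by
      rw [Nat.card_perm]; simp [Nat.factorial]
    rw [h24]
    omega
  have hbij : Function.Bijective ψ := by
    exact (Nat.bijective_iff_injective_and_card ψ).mpr ⟨hinj, hcard.symm⟩
  exact ⟨(MulEquiv.ofBijective ψ hbij).symm⟩

end CfsgLib.ClassGeo.PermMod
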