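import Mathlib
import Cfsg.Agent.Lib.ClassGeo.USimple
import Cfsg.Agent.S0242

set_option autoImplicit false
set_option linter.unusedSimpArgs false
set_option linter.unusedVariables false
set_option linter.unusedSectionVars false

namespace CfsgLib.ClassGeo

open Module Cfsg Matrix

section std

variable {F : Type*} [Field F] [Fintype F] {q : ℕ} (hF : Fintype.card F = q ^ 2)

include hF in
/-- The fixed field of `x ↦ x^q` has `q` elements. -/
theorem card_fixed_field : Nat.card (RingHom.eqLocusField (qFrob hF) (RingHom.id F)) = q := by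
  classical
  have hq2 := qfrob_two_le hF
  have hker := IsCyclic.card_powMonoidHom_ker (G := Fˣ) (q - 1)
  have hcard : Nat.card Fˣ = q ^ 2 - 1 := by
    rw [Nat.card_eq_fintype_card, Fintype.card_units, hF]
  have hfac : q ^ 2 - 1 = (q + 1) * (q - 1) := by
    obtain ⟨k, rfl⟩ : ∃ k, q = k + 1 := ⟨q - 1, by omega⟩
    simp only [Nat.add_sub_cancel]
    have : (k + 1) ^ 2 = (k + 1 + 1) * k + 1 := by ring
    omega
  have hdvd : q - 1 ∣ q ^ 2 - 1 := by
    rw [hfac]
    exact Nat.dvd_mul_left _ _
  rw [hcard, Nat.gcd_eq_right hdvd] at hker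
  have e : (RingHom.eqLocusField (qFrob hF) (RingHom.id F)) ≃ Option (powMonoidHom (α := Fˣ) (q - 1)).ker :=
    { toFun := fun x => if h : (x : F) = 0 then none else some ⟨Units.mk0 (x : F) h, by
        rw [MonoidHom.mem_ker]
        apply Units.ext
        have hx : qFrob hF (x : F) = (x : F) := x.2
        rw [qFrob_apply] at hx
        have h2 : (x : F) ^ (q - 1) * x = x := by
          rw [← pow_succ, Nat.sub_add_cancel (by omega), hx]
        have h3 : (x : F) ^ (q - 1) = 1 := mul_right_cancel₀ h (h2.trans (one_mul _).symm)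
        simpa using h3⟩
      invFun := fun o => match o with
        | none => ⟨0, by
            change qFrob hF 0 = 0
            simp⟩
        | some u => ⟨((u : Fˣ) : F), by
            change qFrob hF _ = _
            rw [qFrob_apply]
            have h1 : (u : Fˣ) ^ (q - 1) = 1 := u.2
            have h2 : (((u : Fˣ) : F)) ^ (q - 1) = 1 := by
              rw [← Units.val_pow_eq_pow_val, h1, Units.val_one]
            have h3 : ((u : Fˣ) : F) ^ q = ((u : Fˣ) : F) ^ (q - 1) * ((u : Fˣ) : F) := by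
              rw [← pow_succ, Nat.sub_add_cancel (by omega)]
            rw [h3, h2, one_mul]
            rfl⟩
      left_inv := by
        intro x
        by_cases h : (x : F) = 0
        · apply Subtype.ext
          simp [h]
        · simp [h]
      right_inv := by
        intro o
        cases o with
        | none => simp
        | some u => simp }
  rw [Nat.card_congr e, Finite.card_option, hker]
  omega

include hF in
/-- An embedding of a field of order `q` into the fixed field of `x ↦ x^q`. -/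
theorem exists_embed (K : Type*) [Field K] [Fintype K] (hK : Fintype.card K = q) :
    ∃ j : K →+* F, ∀ x, (j x) ^ q = j x := by
  classical
  have h1 := card_fixed_field hF
  have hfin : Fintype (RingHom.eqLocusField (qFrob hF) (RingHom.id F)) := Fintype.ofFinite _
  have h2 : Fintype.card K = Fintype.card (RingHom.eqLocusField (qFrob hF) (RingHom.id F)) := by
    rw [hK, ← Nat.card_eq_fintype_card, h1]
  let e := FiniteField.ringEquivOfCardEq h2
  refine ⟨(RingHom.eqLocusField (qFrob hF) (RingHom.id F)).subtype.comp (e : K →+* _), fun x => ?_⟩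
  have : qFrob hF ((e x : RingHom.eqLocusField (qFrob hF) (RingHom.id F)) : F) = _ := (e x).2
  rw [qFrob_apply] at this
  exact this

end std

section iso

variable {F : Type*} [Field F] [Fintype F] {q : ℕ} (hF : Fintype.card F = q ^ 2)

include hF in
/-- `SL_2(q)` is isomorphic to `SU_2(q)`. -/
theorem SU2_iso (K : Type*) [Field K] [Fintype K] (hK : Fintype.card K = q) :
    Nonempty (↥(SU 2 F q) ≃* SpecialLinearGroup (Fin 2) K) := by
  classical
  have hq2 := qfrob_two_le hF
  have h := stdH_hform 2 hF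
  have hf := h.toF
  have hT : NondegOn (stdH 2 hF) (⊤ : Submodule F (Fin 2 → F)) := fun x _ hx => h.sep x (fun v => hx v trivial)
  obtain ⟨e, -, f, -, hee, hff, hef⟩ := hT.exists_hyp_herm h (by simp)
  have hfe : stdH 2 hF f e = 1 := by rw [← hf.symm, hef, map_one]
  obtain ⟨ε, hε0, hε⟩ := h.exists_anti
  have hσε : qFrob hF ε = - ε := by linear_combination hε
  obtain ⟨j, hj⟩ := exists_embed hF K hK
  have hjσ : ∀ x, qFrob hF (j x) = j x := fun x => by rw [qFrob_apply, hj]
  let ψ₀ : (Fin 2 → F) →ₗ[F] (Fin 2 → F) := (LinearMap.proj 0).smulRight e + (LinearMap.proj 1).smulRight (ε • f)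
  have hψ₀ : ∀ x, ψ₀ x = x 0 • e + x 1 • (ε • f) := fun x => rfl
  have hform₀ : ∀ x y, stdH 2 hF (ψ₀ x) (ψ₀ y) = ε * (qFrob hF (x 0) * y 1 - qFrob hF (x 1) * y 0) := by
    intro x y
    rw [hψ₀, hψ₀]
    simp only [map_add, LinearMap.add_apply, LinearMap.map_smulₛₗ₂, map_smul, smul_eq_mul, hee, hff, hef, hfe, hσε, mul_zero, add_zero, zero_add, mul_one]
    ring
  have hinj : Function.Injective ψ₀ := by
    rw [← LinearMap.ker_eq_bot, LinearMap.ker_eq_bot']
    intro x hx
    have h1 := hform₀ x ![0, 1]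
    have h2 := hform₀ x ![1, 0]
    rw [hx] at h1 h2
    simp at h1 h2
    have h3 : x 0 = 0 := by
      rcases h1 with h3 | h3
      · exact absurd h3 hε0
      · exact h3
    have h4 : x 1 = 0 := by
      rcases h2 with h4 | h4
      · exact absurd h4 hε0
      · exact h4
    ext i
    fin_cases i
    · exact h3
    · exact h4
  let ψ : (Fin 2 → F) ≃ₗ[F] (Fin 2 → F) := LinearEquiv.ofInjectiveEndo ψ₀ hinj
  have hψ : ∀ x, ψ x = ψ₀ x := fun x => rfl
  have hform : ∀ x y, stdH 2 hF (ψ x) (ψ y) = ε * (qFrob hF (x 0) * y 1 - qFrob hF (x 1) * y 0) := hform₀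
  -- the homomorphism
  let m : SpecialLinearGroup (Fin 2) K →* SpecialLinearGroup (Fin 2) F := SpecialLinearGroup.map j
  have hmem : ∀ A : SpecialLinearGroup (Fin 2) K, ψ * slLin 2 (m A) * ψ⁻¹ ∈ HGrp (stdH 2 hF) := by
    intro A
    constructor
    · intro a b
      have hψi : ∀ z, ψ (ψ⁻¹ z) = z := fun z => ψ.apply_symm_apply z
      obtain ⟨x, rfl⟩ := ψ.surjective a
      obtain ⟨y, rfl⟩ := ψ.surjective b
      change stdH 2 hF (ψ (slLin 2 (m A) (ψ⁻¹ (ψ x)))) (ψ (slLin 2 (m A) (ψ⁻¹ (ψ y)))) = _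
      have e1 : ∀ z, ψ⁻¹ (ψ z) = z := fun z => ψ.symm_apply_apply z
      rw [e1, e1, hform, hform, slLin_apply, slLin_apply]
      have hd : j (A.1 0 0) * j (A.1 1 1) - j (A.1 0 1) * j (A.1 1 0) = 1 := by
        have := A.2
        rw [Matrix.det_fin_two] at this
        rw [← map_mul, ← map_mul, ← map_sub, this, map_one]
      have e2 : ∀ (z : Fin 2 → F) (i : Fin 2), ((m A : Matrix (Fin 2) (Fin 2) F) *ᵥ z) i = j (A.1 i 0) * z 0 + j (A.1 i 1) * z 1 := by
        intro z i
        simp [Matrix.mulVec, dotProduct, Fin.sum_univ_two, m]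
      rw [e2, e2, e2, e2]
      simp only [map_add, map_mul, hjσ]
      linear_combination ε * (qFrob hF (x 0) * y 1 - qFrob hF (x 1) * y 0) * hd
    · have e1 : ((ψ * slLin 2 (m A) * ψ⁻¹ : (Fin 2 → F) ≃ₗ[F] (Fin 2 → F)) : (Fin 2 → F) →ₗ[F] (Fin 2 → F)) =
          (ψ : (Fin 2 → F) →ₗ[F] (Fin 2 → F)) ∘ₗ (slLin 2 (m A) : (Fin 2 → F) →ₗ[F] (Fin 2 → F)) ∘ₗ (ψ.symm : (Fin 2 → F) →ₗ[F] (Fin 2 → F)) := rfl
      rw [e1, LinearMap.det_conj, slLin_det]
  let Φ : SpecialLinearGroup (Fin 2) K →* HGrp (stdH 2 hF) :=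
    { toFun := fun A => ⟨ψ * slLin 2 (m A) * ψ⁻¹, hmem A⟩
      map_one' := by
        apply Subtype.ext
        change ψ * slLin 2 (m 1) * ψ⁻¹ = 1
        rw [map_one]
        have : slLin 2 (1 : SpecialLinearGroup (Fin 2) F) = 1 := by
          unfold slLin
          rw [map_one, map_one]
        rw [this]
        group
      map_mul' := by
        intro A A'
        apply Subtype.ext
        change ψ * slLin 2 (m (A * A')) * ψ⁻¹ = (ψ * slLin 2 (m A) * ψ⁻¹) * (ψ * slLin 2 (m A') * ψ⁻¹)
        rw [map_mul, slLin_mul]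
        group }
  have hΦinj : Function.Injective Φ := by
    intro A A' hAA
    have h1 : ψ * slLin 2 (m A) * ψ⁻¹ = ψ * slLin 2 (m A') * ψ⁻¹ := congrArg Subtype.val hAA
    have h2 : slLin 2 (m A) = slLin 2 (m A') := by
      simpa using h1
    have h3 := slLin_injective 2 h2
    ext i k
    apply j.injective
    have := congrArg (fun g : SpecialLinearGroup (Fin 2) F => (g : Matrix (Fin 2) (Fin 2) F) i k) h3
    simpa [m] using this
  have hcard1 := Cfsg.Agent.S0242.result hK 2 (by norm_num)
  have hcard2 := card_GU_eq hF 2 (by norm_num)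
  rw [card_GU hF 2] at hcard2
  have hq1 : 1 ≤ q := by omega
  have hcardE : Nat.card (SpecialLinearGroup (Fin 2) K) = Nat.card (SU 2 F q) := by
    generalize Nat.card (SpecialLinearGroup (Fin 2) K) = C at hcard1 ⊢
    generalize Nat.card ↥(SU 2 F q) = D at hcard2 ⊢
    simp only [Fin.prod_univ_two, Finset.prod_range_succ, Finset.prod_range_zero, one_mul, Nat.even_iff] at hcard1 hcard2
    norm_num at hcard1 hcard2
    have h5 : 0 < q - 1 := by omega
    apply Nat.eq_of_mul_eq_mul_left h5
    rw [hcard1]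
    apply Nat.eq_of_mul_eq_mul_left (by omega : 0 < q + 1)
    have h6 : (q + 1) * ((q - 1) * D) = (q - 1) * ((q + 1) * D) := by ring
    rw [h6, hcard2]
    obtain ⟨k, rfl⟩ : ∃ k, q = k + 1 := ⟨q - 1, by omega⟩
    simp only [Nat.add_sub_cancel]
    have e1 : (k + 1) ^ 2 - 1 = (k + 2) * k := by
      have : (k + 1) ^ 2 = (k + 2) * k + 1 := by ring
      omega
    have e2 : (k + 1) ^ 2 - (k + 1) = (k + 1) * k := by
      have : (k + 1) ^ 2 = (k + 1) * k + (k + 1) := by ring
      omega
    rw [e1, e2]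
    ring
  have hfinA : Finite (SpecialLinearGroup (Fin 2) K) := inferInstance
  have hfinB : Finite ↥(HGrp (stdH 2 hF)) := Finite.of_equiv _ (suEquiv hF 2).toEquiv
  have hΦbij : Function.Bijective Φ := by
    apply hΦinj.bijective_of_nat_card_le
    rw [hcardE]
    exact le_of_eq (Nat.card_congr (suEquiv hF 2).toEquiv).symm
  exact ⟨(suEquiv hF 2).trans (MulEquiv.ofBijective Φ hΦbij).symm⟩

end iso

end CfsgLib.ClassGeo
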