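import Mathlib
import Cfsg.Agent.Lib.ClassGeo.OLow
import Cfsg.Agent.Lib.ClassGeo.USL2

/-! `PΩ⁻₄(q) ≅ PSL₂(q²)`: `SL₂(q²)` acting on the hermitian `2 × 2` matrices. -/

set_option autoImplicit false
set_option linter.unusedSimpArgs false
set_option linter.unusedVariables false
set_option linter.unusedSectionVars false

namespace CfsgLib.ClassGeo.OMinus4

open Matrix Cfsg CfsgLib.ClassGeo CfsgLib.ClassGeo.Orth CfsgLib.ClassGeo.OLow CfsgLib.ClassGeo.OIso

/-- the index set -/
abbrev I : Type := (Fin 1 ⊕ Fin 1) ⊕ Fin 2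

section embed

variable {F K : Type*} [Field F] [Fintype F] [Field K] [Fintype K]

open Polynomial in
/-- A field with `q²` elements contains a field with `q` elements and the roots of its irreducible quadratics. -/
theorem exists_quad_embed {q : ℕ} (hF : Fintype.card F = q) (hK : Fintype.card K = q ^ 2) (a b : F)
    (hab : ∀ z₁ z₂ : F, z₁ ^ 2 + a * z₁ * z₂ + b * z₂ ^ 2 = 0 → z₁ = 0 ∧ z₂ = 0) :
    ∃ (j : F →+* K) (θ : K), θ ^ 2 + j a * θ + j b = 0 := by
  classical
  let p : F[X] := X ^ 2 + C a * X + C b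
  have hdeg : p.natDegree = 2 := by
    simp only [p]
    compute_degree!
  have hmonic : p.Monic := by
    simp only [p]
    monicity!
  have hirr : Irreducible p := by
    rw [hmonic.irreducible_iff_roots_eq_zero_of_degree_le_three (by omega) (by omega)]
    rw [Multiset.eq_zero_iff_forall_notMem]
    intro r hr
    rw [Polynomial.mem_roots hmonic.ne_zero] at hr
    have h1 : r ^ 2 + a * r + b = 0 := by
      simpa [p, Polynomial.IsRoot.def] using hr
    have h2 := hab r 1 (by linear_combination h1)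
    exact one_ne_zero h2.2
  haveI : Fact (Irreducible p) := ⟨hirr⟩
  have hp0 : p ≠ 0 := hmonic.ne_zero
  let L := AdjoinRoot p
  haveI : Module.Finite F L := (AdjoinRoot.powerBasis hp0).finite
  have hfr : Module.finrank F L = 2 := by
    rw [(AdjoinRoot.powerBasis hp0).finrank, AdjoinRoot.powerBasis_dim, hdeg]
  haveI : Finite L := Module.finite_of_finite F
  letI : Fintype L := Fintype.ofFinite L
  have hcard : Fintype.card L = Fintype.card K := by
    have := Module.card_eq_pow_finrank (K := F) (V := L)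
    rw [this, hfr, hF, hK]
  let e := FiniteField.ringEquivOfCardEq hcard
  refine ⟨(e : L →+* K).comp (AdjoinRoot.of p), e (AdjoinRoot.root p), ?_⟩
  have h3 : (AdjoinRoot.root p) ^ 2 + (AdjoinRoot.of p a) * (AdjoinRoot.root p) + AdjoinRoot.of p b = 0 := by
    have := AdjoinRoot.eval₂_root p
    simpa [p, Polynomial.eval₂_add, Polynomial.eval₂_mul, Polynomial.eval₂_pow] using this
  have h4 := congrArg e h3
  simpa using h4

end embed

section main

variable {F K : Type*} [Field F] [Field K]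

/-- the data -/
structure HD (σ : K →+* K) (j : F →+* K) (θ : K) (a b : F) : Prop where
  hσ : ∀ x, σ (σ x) = x
  hj : ∀ x, σ (j x) = j x
  hfix : ∀ x, σ x = x → ∃ y, j y = x
  hsum : θ + σ θ = - j a
  hprod : θ * σ θ = j b
  hanis : ∀ z₁ z₂ : F, z₁ ^ 2 + a * z₁ * z₂ + b * z₂ ^ 2 = 0 → z₁ = 0 ∧ z₂ = 0
  hsurj : ∀ x : K, ∃ z₁ z₂ : F, j z₁ - j z₂ * θ = x

variable {σ : K →+* K} {j : F →+* K} {θ : K} {a b : F}

/-- the off-diagonal coordinate -/
def zt (j : F →+* K) (θ : K) (v : I → F) : K := j (v (.inr 0)) - j (v (.inr 1)) * θ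

/-- the hermitian matrix with given coordinates -/
def Psi (σ : K →+* K) (j : F →+* K) (θ : K) (v : I → F) : Matrix (Fin 2) (Fin 2) K :=
  !![j (v (.inl (.inl 0))), zt j θ v; σ (zt j θ v), - j (v (.inl (.inr 0)))]

theorem Psi_add (v w : I → F) : Psi σ j θ (v + w) = Psi σ j θ v + Psi σ j θ w := by
  have e : zt j θ (v + w) = zt j θ v + zt j θ w := by
    simp [zt]; ring
  ext i k
  fin_cases i <;> fin_cases k <;> simp [Psi, e]
  ring

theorem Psi_smul (h : HD σ j θ a b) (c : F) (v : I → F) : Psi σ j θ (c • v) = j c • Psi σ j θ v := by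
  have e : zt j θ (c • v) = j c * zt j θ v := by
    simp [zt]; ring
  ext i k
  fin_cases i <;> fin_cases k <;> simp [Psi, e, h.hj]

/-- the norm of the coordinate -/
theorem zt_norm (h : HD σ j θ a b) (v : I → F) :
    zt j θ v * σ (zt j θ v) = j (v (.inr 0) ^ 2 + a * v (.inr 0) * v (.inr 1) + b * v (.inr 1) ^ 2) := by
  simp only [zt, map_sub, map_mul, map_add, map_pow, h.hj]
  have h1 := h.hsum
  have h2 := h.hprod
  linear_combination (- j (v (.inr 0)) * j (v (.inr 1))) * h1 + (j (v (.inr 1)) ^ 2) * h2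

theorem det_Psi (h : HD σ j θ a b) (v : I → F) :
    (Psi σ j θ v).det = - j (Cfsg.quadFormMinus 1 F a b v) := by
  rw [Matrix.det_fin_two]
  simp only [Psi, Matrix.of_apply, Matrix.cons_val', Matrix.cons_val_zero, Matrix.cons_val_one, Matrix.cons_val_fin_one]
  have h1 := zt_norm h v
  simp only [Cfsg.quadFormMinus, Fin.sum_univ_one, map_add, map_mul]
  simp only [map_add, map_mul] at h1
  linear_combination - h1

theorem Psi_inj (h : HD σ j θ a b) {v w : I → F} (e : Psi σ j θ v = Psi σ j θ w) : v = w := by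
  have h0 := congrFun (congrFun e 0) 0
  have h1 := congrFun (congrFun e 1) 1
  have h2 := congrFun (congrFun e 0) 1
  simp [Psi] at h0 h1 h2
  have hz : zt j θ (v - w) = 0 := by
    simp only [zt, Pi.sub_apply, map_sub]
    simp only [zt] at h2
    linear_combination h2
  have hn := zt_norm h (v - w)
  rw [hz, zero_mul] at hn
  have hn2 := h.hanis _ _ (j.injective (hn.symm.trans (map_zero j).symm))
  simp only [Pi.sub_apply, sub_eq_zero] at hn2
  funext c
  rcases c with (c | c) | c
  · obtain rfl := Subsingleton.elim c 0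
    exact j.injective h0
  · obtain rfl := Subsingleton.elim c 0
    exact j.injective h1
  · fin_cases c
    · exact hn2.1
    · exact hn2.2

/-- hermitian matrices -/
def IsH (σ : K →+* K) (X : Matrix (Fin 2) (Fin 2) K) : Prop := (X.map σ)ᵀ = X

theorem Psi_isH (h : HD σ j θ a b) (v : I → F) : IsH σ (Psi σ j θ v) := by
  ext i k
  fin_cases i <;> fin_cases k <;> simp [Psi, h.hj, h.hσ]

theorem exists_of_isH (h : HD σ j θ a b) {X : Matrix (Fin 2) (Fin 2) K} (hX : IsH σ X) :
    ∃ v, Psi σ j θ v = X := by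
  have h0 : σ (X 0 0) = X 0 0 := congrFun (congrFun hX 0) 0
  have h1 : σ (X 1 1) = X 1 1 := congrFun (congrFun hX 1) 1
  have h2 : σ (X 0 1) = X 1 0 := congrFun (congrFun hX 1) 0
  obtain ⟨α, hα⟩ := h.hfix _ h0
  obtain ⟨β, hβ⟩ := h.hfix _ h1
  obtain ⟨z₁, z₂, hz⟩ := h.hsurj (X 0 1)
  refine ⟨Sum.elim (Sum.elim (fun _ => α) (fun _ => -β)) ![z₁, z₂], ?_⟩
  have e : zt j θ (Sum.elim (Sum.elim (fun _ => α) (fun _ => -β)) ![z₁, z₂]) = X 0 1 := by
    simpa [zt] using hz
  ext i k
  fin_cases i <;> fin_cases k <;> simp [Psi, e, hα, hβ, h2]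

/-- congruence by `g` -/
def conj (σ : K →+* K) (g X : Matrix (Fin 2) (Fin 2) K) : Matrix (Fin 2) (Fin 2) K := g * X * (g.map σ)ᵀ

theorem conj_apply (g X : Matrix (Fin 2) (Fin 2) K) (i k : Fin 2) :
    conj σ g X i k = g i 0 * X 0 0 * σ (g k 0) + g i 0 * X 0 1 * σ (g k 1) + g i 1 * X 1 0 * σ (g k 0) + g i 1 * X 1 1 * σ (g k 1) := by
  simp [conj, Matrix.mul_apply, Fin.sum_univ_two]
  ring

theorem conj_isH (h : HD σ j θ a b) (g : Matrix (Fin 2) (Fin 2) K) {X : Matrix (Fin 2) (Fin 2) K} (hX : IsH σ X) :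
    IsH σ (conj σ g X) := by
  have hX0 : ∀ i k, σ (X k i) = X i k := fun i k => congrFun (congrFun hX i) k
  ext i k
  show σ (conj σ g X k i) = conj σ g X i k
  rw [conj_apply, conj_apply]
  simp only [map_add, map_mul, h.hσ, hX0]
  ring

theorem conj_det (g X : Matrix (Fin 2) (Fin 2) K) : (conj σ g X).det = g.det * X.det * σ g.det := by
  rw [conj, Matrix.det_mul, Matrix.det_mul, Matrix.det_transpose, RingHom.map_det]
  rfl

theorem conj_one (X : Matrix (Fin 2) (Fin 2) K) : conj σ 1 X = X := by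
  simp [conj, Matrix.map_one]

theorem conj_mul (g g' X : Matrix (Fin 2) (Fin 2) K) : conj σ (g * g') X = conj σ g (conj σ g' X) := by
  simp only [conj, Matrix.map_mul, Matrix.transpose_mul, Matrix.mul_assoc]

theorem conj_add (g X Y : Matrix (Fin 2) (Fin 2) K) : conj σ g (X + Y) = conj σ g X + conj σ g Y := by
  simp only [conj, Matrix.mul_add, Matrix.add_mul]

/-- the action on coordinates -/
noncomputable def actF (h : HD σ j θ a b) (g : Matrix (Fin 2) (Fin 2) K) (v : I → F) : I → F :=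
  (exists_of_isH h (conj_isH h g (Psi_isH h v))).choose

theorem Psi_actF (h : HD σ j θ a b) (g : Matrix (Fin 2) (Fin 2) K) (v : I → F) :
    Psi σ j θ (actF h g v) = conj σ g (Psi σ j θ v) :=
  (exists_of_isH h (conj_isH h g (Psi_isH h v))).choose_spec

/-- the action on coordinates, as a linear map -/
noncomputable def act (h : HD σ j θ a b) (g : Matrix (Fin 2) (Fin 2) K) : (I → F) →ₗ[F] (I → F) where
  toFun v := actF h g v
  map_add' v w := by
    apply Psi_inj h
    rw [Psi_add, Psi_actF, Psi_actF, Psi_actF, Psi_add, conj_add]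
  map_smul' c v := by
    apply Psi_inj h
    simp only [RingHom.id_apply]
    rw [Psi_smul h, Psi_actF, Psi_actF, Psi_smul h]
    simp only [conj, Matrix.mul_smul, Matrix.smul_mul]

theorem Psi_act (h : HD σ j θ a b) (g : Matrix (Fin 2) (Fin 2) K) (v : I → F) :
    Psi σ j θ (act h g v) = conj σ g (Psi σ j θ v) := Psi_actF h g v

theorem act_one (h : HD σ j θ a b) (v : I → F) : act h 1 v = v := by
  apply Psi_inj h
  rw [Psi_act, conj_one]

theorem act_mul (h : HD σ j θ a b) (g g' : Matrix (Fin 2) (Fin 2) K) (v : I → F) :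
    act h (g * g') v = act h g (act h g' v) := by
  apply Psi_inj h
  rw [Psi_act, Psi_act, Psi_act, conj_mul]

theorem act_q (h : HD σ j θ a b) (g : Matrix (Fin 2) (Fin 2) K) (hg : g.det = 1) (v : I → F) :
    Cfsg.quadFormMinus 1 F a b (act h g v) = Cfsg.quadFormMinus 1 F a b v := by
  apply j.injective
  apply neg_injective
  rw [← det_Psi h, ← det_Psi h, Psi_act, conj_det, hg]
  simp

/-- the homomorphism to the orthogonal group -/
noncomputable def φ (h : HD σ j θ a b) : SpecialLinearGroup (Fin 2) K →* Cfsg.isometryGroup F (Cfsg.quadFormMinus 1 F a b) :=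
  isomHom (Cfsg.quadFormMinus 1 F a b) (fun g => act h (g : Matrix (Fin 2) (Fin 2) K))
    (fun v => (congrArg (fun M => act h M v) (Matrix.SpecialLinearGroup.coe_one)).trans (act_one h v))
    (fun g g' v => (congrArg (fun M => act h M v) (Matrix.SpecialLinearGroup.coe_mul g g')).trans (act_mul h _ _ v))
    (fun g v => act_q h _ g.2 v)

theorem mem_ker_φ (h : HD σ j θ a b) (g : SpecialLinearGroup (Fin 2) K) :
    g ∈ (φ h).ker ↔ ∀ v, conj σ (g : Matrix (Fin 2) (Fin 2) K) (Psi σ j θ v) = Psi σ j θ v := by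
  rw [φ, mem_ker_isomHom]
  constructor
  · intro h1 v
    rw [← Psi_act h, h1]
  · intro h1 v
    apply Psi_inj h
    rw [Psi_act, h1]

theorem ker_scalar (h : HD σ j θ a b) (g : SpecialLinearGroup (Fin 2) K) (hg : g ∈ (φ h).ker) :
    ∃ c : K, c * c = 1 ∧ (g : Matrix (Fin 2) (Fin 2) K) = c • 1 := by
  rw [mem_ker_φ h] at hg
  have hdet := g.2
  rw [Matrix.det_fin_two] at hdet
  set M := (g : Matrix (Fin 2) (Fin 2) K) with hM
  have e1 := hg (Sum.elim (Sum.elim (fun _ => 1) (fun _ => 0)) (fun _ => 0))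
  have e2 := hg (Sum.elim (Sum.elim (fun _ => 0) (fun _ => -1)) (fun _ => 0))
  have e3 := hg (Sum.elim (Sum.elim (fun _ => 0) (fun _ => 0)) ![1, 0])
  have hC : M 1 0 * σ (M 1 0) = 0 := by
    have := congrFun (congrFun e1 1) 1
    rw [conj_apply] at this
    simpa [Psi, zt] using this
  have hA : M 0 0 * σ (M 0 0) = 1 := by
    have := congrFun (congrFun e1 0) 0
    rw [conj_apply] at this
    simpa [Psi, zt] using this
  have hB : M 0 1 * σ (M 0 1) = 0 := by
    have := congrFun (congrFun e2 0) 0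
    rw [conj_apply] at this
    simpa [Psi, zt] using this
  have hC0 : M 1 0 = 0 := by
    rcases mul_eq_zero.mp hC with h1 | h1
    · exact h1
    · exact (map_eq_zero σ).mp h1
  have hB0 : M 0 1 = 0 := by
    rcases mul_eq_zero.mp hB with h1 | h1
    · exact h1
    · exact (map_eq_zero σ).mp h1
  have hAD : M 0 0 * σ (M 1 1) = 1 := by
    have := congrFun (congrFun e3 0) 1
    rw [conj_apply] at this
    simpa [Psi, zt, hB0] using this
  rw [hC0, hB0] at hdet
  have hA0 : M 0 0 ≠ 0 := by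
    intro h0
    rw [h0] at hA
    simp at hA
  have hD0 : M 1 1 ≠ 0 := by
    intro h0
    rw [h0] at hdet
    simp at hdet
  have hσD : σ (M 1 1) = M 1 1 := by
    apply mul_left_cancel₀ hA0
    rw [hAD]
    linear_combination - hdet
  have hσA : σ (M 0 0) = M 0 0 := by
    have h5 : σ (M 0 0) * σ (M 1 1) = 1 := by
      have := congrArg σ hdet
      simpa using this
    rw [hσD] at h5
    apply mul_right_cancel₀ hD0
    rw [h5]
    linear_combination - hdet
  rw [hσA] at hA
  have hDA : M 1 1 = M 0 0 := by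
    apply mul_left_cancel₀ hA0
    linear_combination hdet - hA
  refine ⟨M 0 0, hA, ?_⟩
  ext i k
  fin_cases i <;> fin_cases k <;> simp [hC0, hB0, hDA]

theorem ker_le_center (h : HD σ j θ a b) : (φ h).ker ≤ Subgroup.center (SpecialLinearGroup (Fin 2) K) := by
  intro g hg
  obtain ⟨c, hc, hgc⟩ := ker_scalar h g hg
  rw [Matrix.SpecialLinearGroup.mem_center_iff]
  refine ⟨c, ?_, ?_⟩
  · simp only [Fintype.card_fin]
    rw [pow_two]; exact hc
  · rw [hgc]
    ext i k
    simp [Matrix.scalar_apply, Matrix.diagonal_apply, Matrix.one_apply]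

theorem card_ker (h : HD σ j θ a b) (h2 : (2 : K) ≠ 0) : Nat.card (φ h).ker = 2 := by
  classical
  let m : SpecialLinearGroup (Fin 2) K := ⟨-1, by
    rw [Matrix.det_neg]; simp⟩
  have hm : m ∈ (φ h).ker := by
    rw [mem_ker_φ h]
    intro v
    ext i k
    rw [conj_apply]
    show ((-1 : Matrix (Fin 2) (Fin 2) K) i 0) * _ * σ ((-1 : Matrix (Fin 2) (Fin 2) K) k 0) + ((-1 : Matrix (Fin 2) (Fin 2) K) i 0) * _ * σ ((-1 : Matrix (Fin 2) (Fin 2) K) k 1)
      + ((-1 : Matrix (Fin 2) (Fin 2) K) i 1) * _ * σ ((-1 : Matrix (Fin 2) (Fin 2) K) k 0) + ((-1 : Matrix (Fin 2) (Fin 2) K) i 1) * _ * σ ((-1 : Matrix (Fin 2) (Fin 2) K) k 1) = _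
    fin_cases i <;> fin_cases k <;> simp
  rw [Nat.card_eq_two_iff]
  refine ⟨1, ⟨m, hm⟩, ?_, ?_⟩
  · intro h'
    have h1 := congrArg (fun x : (φ h).ker => ((x.1 : SpecialLinearGroup (Fin 2) K) : Matrix (Fin 2) (Fin 2) K) 0 0) h'
    have h3 : (1 : K) = -1 := by simpa [m] using h1
    apply h2
    linear_combination h3
  · ext ⟨g, hg⟩
    simp only [Set.mem_insert_iff, Set.mem_singleton_iff, Set.mem_univ, iff_true]
    obtain ⟨c, hc, hgc⟩ := ker_scalar h g hg
    have h3 : (c - 1) * (c + 1) = 0 := by linear_combination hc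
    rcases mul_eq_zero.mp h3 with h4 | h4
    · left
      apply Subtype.ext
      apply Subtype.ext
      have : c = 1 := sub_eq_zero.mp h4
      rw [this, one_smul] at hgc
      exact hgc
    · right
      apply Subtype.ext
      apply Subtype.ext
      have : c = -1 := eq_neg_of_add_eq_zero_left h4
      rw [this, neg_one_smul] at hgc
      exact hgc

theorem ker_bot (h : HD σ j θ a b) (h2 : (2 : K) = 0) : (φ h).ker = ⊥ := by
  rw [eq_bot_iff]
  intro g hg
  obtain ⟨c, hc, hgc⟩ := ker_scalar h g hg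
  have h3 : (c + 1) ^ 2 = 0 := by
    linear_combination hc + c * h2 + h2 * 1
  have h4 : c + 1 = 0 := pow_eq_zero_iff (two_ne_zero) |>.mp h3
  have h5 : c = 1 := by linear_combination h4 - h2
  rw [h5, one_smul] at hgc
  rw [Subgroup.mem_bot]
  apply Subtype.ext
  exact hgc

end main

section final

variable {F K : Type*} [Field F] [Fintype F] [Field K] [Fintype K]

/-- the data exists -/
theorem exists_HD {q : ℕ} (hF : Fintype.card F = q) (hK : Fintype.card K = q ^ 2) (a b : F)
    (hab : ∀ z₁ z₂ : F, z₁ ^ 2 + a * z₁ * z₂ + b * z₂ ^ 2 = 0 → z₁ = 0 ∧ z₂ = 0) :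
    ∃ (j : F →+* K) (θ : K), HD (qFrob hK) j θ a b := by
  classical
  obtain ⟨j, θ, hθ⟩ := exists_quad_embed hF hK a b hab
  have hσ := qFrob_qFrob hK
  have hj : ∀ x, qFrob hK (j x) = j x := by
    intro x
    rw [qFrob_apply, ← map_pow, ← hF, FiniteField.pow_card]
  have hfix : ∀ x, qFrob hK x = x → ∃ y, j y = x := by
    intro x hx
    have h1 : Nat.card (RingHom.eqLocusField (qFrob hK) (RingHom.id K)) = q := CfsgLib.ClassGeo.card_fixed_field hK
    let f : F → RingHom.eqLocusField (qFrob hK) (RingHom.id K) := fun y => ⟨j y, hj y⟩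
    have hinj : Function.Injective f := fun u v huv => j.injective (congrArg Subtype.val huv)
    have hbij : Function.Bijective f := by
      rw [Nat.bijective_iff_injective_and_card]
      refine ⟨hinj, ?_⟩
      rw [h1, Nat.card_eq_fintype_card, hF]
    obtain ⟨y, hy⟩ := hbij.2 ⟨x, hx⟩
    exact ⟨y, congrArg Subtype.val hy⟩
  -- θ is not fixed
  have hθ1 : qFrob hK θ ≠ θ := by
    intro h1
    obtain ⟨y, rfl⟩ := hfix θ h1
    have h2 := hab y 1 (by
      apply j.injective
      simp only [map_add, map_mul, map_pow, map_one, map_zero]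
      linear_combination hθ)
    exact one_ne_zero h2.2
  have hθ2 : (qFrob hK θ) ^ 2 + j a * qFrob hK θ + j b = 0 := by
    have := congrArg (qFrob hK) hθ
    simpa [hj] using this
  have hsum : θ + qFrob hK θ = - j a := by
    have h3 : (qFrob hK θ - θ) * (qFrob hK θ + θ + j a) = 0 := by
      linear_combination hθ2 - hθ
    have h4 := (mul_eq_zero.mp h3).resolve_left (sub_ne_zero.mpr hθ1)
    linear_combination h4
  have hprod : θ * qFrob hK θ = j b := by
    have h5 : qFrob hK θ = - j a - θ := by linear_combination hsum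
    rw [h5]
    linear_combination - hθ
  have hinj : Function.Injective (fun z : F × F => j z.1 - j z.2 * θ) := by
    rintro ⟨u₁, u₂⟩ ⟨v₁, v₂⟩ he
    simp only at he
    have h1 : j (u₁ - v₁) - j (u₂ - v₂) * θ = 0 := by
      simp only [map_sub]
      linear_combination he
    have h2 : (j (u₁ - v₁) - j (u₂ - v₂) * θ) * qFrob hK (j (u₁ - v₁) - j (u₂ - v₂) * θ) = j ((u₁ - v₁) ^ 2 + a * (u₁ - v₁) * (u₂ - v₂) + b * (u₂ - v₂) ^ 2) := by
      simp only [map_sub, map_mul, map_add, map_pow, hj]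
      linear_combination (- (j u₁ - j v₁) * (j u₂ - j v₂)) * hsum + ((j u₂ - j v₂) ^ 2) * hprod
    rw [h1, zero_mul] at h2
    have h3 := hab _ _ (j.injective (h2.symm.trans (map_zero j).symm))
    exact Prod.ext (sub_eq_zero.mp h3.1) (sub_eq_zero.mp h3.2)
  have hbij : Function.Bijective (fun z : F × F => j z.1 - j z.2 * θ) := by
    rw [Nat.bijective_iff_injective_and_card]
    refine ⟨hinj, ?_⟩
    rw [Nat.card_prod, Nat.card_eq_fintype_card, Nat.card_eq_fintype_card, hF, hK]
    ring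
  refine ⟨j, θ, hσ, hj, hfix, hsum, hprod, hab, ?_⟩
  intro x
  obtain ⟨⟨z₁, z₂⟩, hz⟩ := hbij.2 x
  exact ⟨z₁, z₂, hz⟩

/-- `PΩ⁻₄(q) ≅ PSL₂(q²)` -/
theorem main {q : ℕ} (hF : Fintype.card F = q) (hK : Fintype.card K = q ^ 2) (a b : F)
    (hab : ∀ z₁ z₂ : F, z₁ ^ 2 + a * z₁ * z₂ + b * z₂ ^ 2 = 0 → z₁ = 0 ∧ z₂ = 0) :
    Nonempty (Cfsg.POmega F (Cfsg.quadFormMinus 1 F a b) ≃* Matrix.ProjectiveSpecialLinearGroup (Fin 2) K) := by
  classical
  obtain ⟨j, θ, h⟩ := exists_HD hF hK a b hab
  have hq : 2 ≤ q := by rw [← hF]; exact Fintype.one_lt_card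
  have hK4 : 4 ≤ Fintype.card K := by
    rw [hK]; nlinarith
  have hcF : Nat.card F = q := by rw [Nat.card_eq_fintype_card, hF]
  have hnd := quadFormMinus_nondeg (F := F) 1 a b hab
  let Q : QuadraticForm F (I → F) := mkQ hnd
  have hQnd : (QuadraticMap.polarBilin Q).Nondegenerate := mkQ_nondeg _
  have hO : Nat.card (Cfsg.isometryGroup F (Cfsg.quadFormMinus 1 F a b)) = 2 * (q ^ 2 * ((q ^ 2) ^ 2 - 1)) := by
    rw [card_isometry_eq, card_isom_minus hab 1, hcF]
    have e1 : (q ^ 2) ^ 2 - 1 = (q ^ 2 + 1) * (q ^ 2 - 1) := by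
      obtain ⟨k, hk⟩ : ∃ k, q ^ 2 = k + 1 := ⟨q ^ 2 - 1, by have : 0 < q ^ 2 := by positivity
                                                            omega⟩
      rw [hk]
      simp only [Nat.add_sub_cancel]
      have : (k + 1) ^ 2 = (k + 1 + 1) * k + 1 := by ring
      omega
    rw [e1]
    simp [Finset.prod_range_succ]
    ring
  have h5 : ∃ x : K, x ≠ 0 ∧ x ^ 2 ≠ 1 := by
    obtain ⟨ζ, hζ⟩ := IsCyclic.exists_generator (α := Kˣ)
    have hord : orderOf ζ = Fintype.card K - 1 := by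
      rw [orderOf_eq_card_of_forall_mem_zpowers hζ, Nat.card_units, Nat.card_eq_fintype_card]
    refine ⟨ζ, ζ.ne_zero, ?_⟩
    intro h
    have h2 : ζ ^ 2 = 1 := Units.ext (by simpa using h)
    have h3 := orderOf_le_of_pow_eq_one (by norm_num) h2
    omega
  have hr : (φ h).range ≤ Cfsg.Omega F (Cfsg.quadFormMinus 1 F a b) := by
    have h1 := Subgroup.map_commutator (⊤ : Subgroup (SpecialLinearGroup (Fin 2) K)) ⊤ (φ h)
    rw [← commutator_def, CfsgLib.H9.PSLSimple.perf (F := K) (n := 2) (Or.inr ⟨rfl, h5⟩)] at h1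
    rw [MonoidHom.range_eq_map, h1]
    rw [Cfsg.Omega, commutator_def]
    exact Subgroup.commutator_mono le_top le_top
  have hjj : ((2 : F) = 0) ↔ ((2 : K) = 0) := by
    constructor
    · intro h2
      have := congrArg j h2
      rwa [map_ofNat, map_zero] at this
    · intro h2
      apply j.injective
      rwa [map_ofNat, map_zero]
  refine pomega_iso (Cfsg.quadFormMinus 1 F a b) (φ h) hr (ker_le_center h) (center_PSL2_eq_bot (by omega)) ?_
  have hSL : Nat.card (SpecialLinearGroup (Fin 2) K) = q ^ 2 * ((q ^ 2) ^ 2 - 1) := card_SL2 hK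
  by_cases h2 : (2 : K) = 0
  · have hk := ker_bot h h2
    rw [hk, Subgroup.card_bot, mul_one, hSL]
    -- the range has index two, so contains the commutator subgroup
    have hcr : Nat.card (φ h).range = q ^ 2 * ((q ^ 2) ^ 2 - 1) := by
      have h6 := Subgroup.index_ker (φ h)
      rw [hk, Subgroup.index_bot] at h6
      rw [← h6, hSL]
    have hidx : (φ h).range.index = 2 := by
      have h7 := Subgroup.card_mul_index (φ h).range
      rw [hcr, hO] at h7
      have hpos : 0 < q ^ 2 * ((q ^ 2) ^ 2 - 1) := by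
        rw [← hcr]
        exact Nat.card_pos
      have h8 : q ^ 2 * ((q ^ 2) ^ 2 - 1) * (φ h).range.index = q ^ 2 * ((q ^ 2) ^ 2 - 1) * 2 := by
        rw [h7]; ring
      exact Nat.eq_of_mul_eq_mul_left hpos h8
    have hcomm : Cfsg.Omega F (Cfsg.quadFormMinus 1 F a b) ≤ (φ h).range := by
      rw [Cfsg.Omega, commutator_def, Subgroup.commutator_le]
      intro x _ y _
      have key := fun u v => Subgroup.mul_mem_iff_of_index_two (H := (φ h).range) hidx (a := u) (b := v)
      rw [commutatorElement_def, key, key, key, inv_mem_iff, inv_mem_iff]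
      tauto
    have heq : Cfsg.Omega F (Cfsg.quadFormMinus 1 F a b) = (φ h).range := le_antisymm hcomm hr
    rw [heq, hcr]
  · have hkk : ¬ (2 : F) = 0 := fun e => h2 (hjj.mp e)
    rw [card_ker h h2, hSL]
    have h3 := card_Omega_mul_odd (Q := Q) hkk (by simp) hQnd
    have h4 : Nat.card (Cfsg.Omega F (Cfsg.quadFormMinus 1 F a b)) * 4 = Nat.card (Cfsg.isometryGroup F (Cfsg.quadFormMinus 1 F a b)) := h3
    rw [hO] at h4
    omega

end final

end CfsgLib.ClassGeo.OMinus4
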