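import Mathlib
import Cfsg.Agent.Lib.ClassGeo.PermMod3
import Cfsg.Agent.Lib.ClassGeo.OIso
import Cfsg.Agent.Lib.ClassGeo.OCenter2
import Cfsg.Agent.Lib.ClassGeo.OOrder3
import Cfsg.Agent.S0300

set_option autoImplicit false
set_option linter.unusedSimpArgs false
set_option linter.unusedVariables false
set_option linter.unusedSectionVars false

namespace CfsgLib.ClassGeo.A6Iso

open Matrix Cfsg CfsgLib.ClassGeo CfsgLib.ClassGeo.Orth CfsgLib.ClassGeo.PermMod

abbrev ιM : Type := (Fin 1 ⊕ Fin 1) ⊕ Fin 2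

abbrev eV : Fin 6 → ZMod 3 := ![0, 1, 0, 0, 1, 1]
abbrev fV : Fin 6 → ZMod 3 := ![0, 1, 1, 1, 0, 0]
abbrev aV : Fin 6 → ZMod 3 := ![0, 0, 0, 0, 1, 2]
abbrev bV : Fin 6 → ZMod 3 := ![0, 0, 1, 2, 0, 0]

def UU : Matrix (Fin 6) ιM (ZMod 3) := fun i c =>
  Sum.elim (Sum.elim (fun _ => eV i) (fun _ => fV i)) (fun k => (![aV i, bV i] : Fin 2 → ZMod 3) k) c

def CC : Matrix ιM (Fin 6) (ZMod 3) := fun c i =>
  Sum.elim (Sum.elim (fun _ => fV i) (fun _ => eV i)) (fun k => (![2 * aV i, 2 * bV i] : Fin 2 → ZMod 3) k) c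

set_option maxRecDepth 100000 in
theorem h1' : CC * UU = 1 := by decide

set_option maxRecDepth 100000 in
theorem h2' : (1 - UU * CC : Matrix (Fin 6) (Fin 6) (ZMod 3)) =
    Matrix.of (fun i j => (1 : ZMod 3) * (![0, 2, 2, 2, 2, 2] : Fin 6 → ZMod 3) j + (![1, 0, 0, 0, 0, 0] : Fin 6 → ZMod 3) i) := by decide

set_option maxRecDepth 100000 in
theorem h3' : ∀ a, ∑ i, UU i a = 0 := by decide

set_option maxRecDepth 100000 in
theorem h4' : ∀ b, (1 : ZMod 3) * ∑ i, CC b i = 0 := by decide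

/-- The section of the permutation module on six letters over the field with three elements. -/
def dataM : MData (ZMod 3) (Fin 6) ιM where
  U := UU
  C := CC
  r := 1
  ell := ![0, 2, 2, 2, 2, 2]
  u := ![1, 0, 0, 0, 0, 0]
  h1 := h1'
  h2 := h2'
  h3 := h3'
  h4 := h4'

theorem sum_sq_table : ∀ x y z w : ZMod 3,
    ∑ i : Fin 6, (x * eV i + y * fV i + z * aV i + w * bV i) ^ 2 = 2 * (x * y + (z ^ 2 + 0 * z * w + 1 * w ^ 2)) := by
  decide

/-- Abbreviation for the form. -/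
abbrev qM : (ιM → ZMod 3) → ZMod 3 := quadFormMinus 1 (ZMod 3) 0 1

theorem sum_sq (v : ιM → ZMod 3) : ∑ i, ((dataM.toData.U *ᵥ v) i) ^ 2 = 2 * qM v := by
  have h := sum_sq_table (v (Sum.inl (Sum.inl 0))) (v (Sum.inl (Sum.inr 0))) (v (Sum.inr 0)) (v (Sum.inr 1))
  have e : ∀ i, (dataM.toData.U *ᵥ v) i = v (Sum.inl (Sum.inl 0)) * eV i + v (Sum.inl (Sum.inr 0)) * fV i + v (Sum.inr 0) * aV i + v (Sum.inr 1) * bV i := by
    intro i
    simp only [Matrix.mulVec, dotProduct, Fintype.sum_sum_type, Fin.sum_univ_succ, Fin.sum_univ_zero]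
    have e1 : dataM.toData.U i (Sum.inl (Sum.inl 0)) = eV i := rfl
    have e2 : dataM.toData.U i (Sum.inl (Sum.inr 0)) = fV i := rfl
    have e3 : dataM.toData.U i (Sum.inr 0) = aV i := rfl
    have e4 : dataM.toData.U i (Sum.inr (Fin.succ 0)) = bV i := rfl
    have e5 : (Fin.succ 0 : Fin 2) = 1 := rfl
    rw [e1, e2, e3, e4, e5]
    ring
  simp only [e]
  rw [h]
  simp [qM, quadFormMinus, Fin.sum_univ_succ]

theorem hom_isom (π : Equiv.Perm (Fin 6)) (v : ιM → ZMod 3) : qM (dataM.toData.hom π v) = qM v := by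
  let D := dataM.toData
  have hs : ∑ i, Data.P π (D.U *ᵥ v) i = 0 := by rw [Data.P_sum, Data.sum_U]
  obtain ⟨c, hd⟩ := D.h2 _ hs
  have e : ∀ i, (D.U *ᵥ (D.hom π v)) i = Data.P π (D.U *ᵥ v) i - D.r * c := by
    intro i
    have := congrFun hd i
    simp only [Pi.add_apply] at this
    rw [Data.hom_apply]
    linear_combination -this
  have h1 := sum_sq (D.hom π v)
  have h2 := sum_sq v
  have h3 : ∑ i, ((D.U *ᵥ (D.hom π v)) i) ^ 2 = ∑ i, ((D.U *ᵥ v) i) ^ 2 := by
    simp only [e]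
    have e1 : ∀ i, (Data.P π (D.U *ᵥ v) i - D.r * c) ^ 2 = (Data.P π (D.U *ᵥ v) i) ^ 2 - 2 * (D.r * c) * Data.P π (D.U *ᵥ v) i + (D.r * c) ^ 2 := by
      intro i; ring
    simp only [e1]
    rw [Finset.sum_add_distrib, Finset.sum_sub_distrib, ← Finset.mul_sum, hs, sum_sq_P]
    simp
    have : (6 : ZMod 3) = 0 := by decide
    exact Or.inl this
  have h4 : 2 * qM (D.hom π v) = 2 * qM v := by
    rw [← h1, ← h2]
    exact h3
  have h2ne : (2 : ZMod 3) ≠ 0 := by decide
  exact mul_left_cancel₀ h2ne h4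

/-- `A₆` and `PΩ₄⁻(3)`. -/
theorem pomega_a6 : Nonempty (POmega (ZMod 3) qM ≃* alternatingGroup (Fin 6)) := by
  classical
  let D := dataM.toData
  have hmem : ∀ π, D.hom π ∈ fIsom (F := ZMod 3) (fun a _ : ιM → ZMod 3 => qM a) := by
    intro π
    rw [mem_fIsom]
    intro a b
    exact hom_isom π a
  let g : Equiv.Perm (Fin 6) →* isometryGroup (ZMod 3) qM :=
    (preservingEquiv (fun a _ : ιM → ZMod 3 => qM a)).symm.toMonoidHom.comp (D.hom.codRestrict _ hmem)
  have hg : ∀ π v, (((g π).1 : GL ιM (ZMod 3)) : Matrix ιM ιM (ZMod 3)) *ᵥ v = D.hom π v := by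
    intro π v
    exact glLin_symm_mulVec _ v
  let φ : alternatingGroup (Fin 6) →* isometryGroup (ZMod 3) qM := g.comp (alternatingGroup (Fin 6)).subtype
  have h5 : 5 ≤ Nat.card (Fin 6) := by simp
  have hperf : commutator (alternatingGroup (Fin 6)) = ⊤ := commutator_alternatingGroup_eq_top h5
  have hr : φ.range ≤ Omega (ZMod 3) qM := by
    rw [MonoidHom.range_eq_map, ← hperf, commutator_def, Subgroup.map_commutator]
    exact Subgroup.commutator_mono le_top le_top
  have hker : φ.ker = ⊥ := by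
    rw [eq_bot_iff]
    intro x hx
    have h1 : φ x = 1 := hx
    have h2 : (x : Equiv.Perm (Fin 6)) = 1 := by
      apply D.faithful (by simp)
      intro v
      rw [← hg]
      have h3 : g (x : Equiv.Perm (Fin 6)) = 1 := h1
      rw [h3]
      simp
    exact Subgroup.mem_bot.2 (Subtype.ext h2)
  have hcen : Subgroup.center (alternatingGroup (Fin 6)) = ⊥ := by
    haveI : IsSimpleGroup (alternatingGroup (Fin 6)) := alternatingGroup.isSimpleGroup (by simp)
    exact CfsgLib.ClassGeo.OIso.center_eq_bot_of_simple hperf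
  have hkcard : Nat.card φ.ker = 1 := by rw [hker]; simp
  have hab : ∀ z₁ z₂ : ZMod 3, z₁ ^ 2 + 0 * z₁ * z₂ + 1 * z₂ ^ 2 = 0 → z₁ = 0 ∧ z₂ = 0 := by decide
  have h3 : Nat.card (isometryGroup (ZMod 3) qM) = 1440 := by
    rw [card_isometry_eq, card_isom_minus hab 1, Nat.card_zmod]
    norm_num [Finset.prod_range_succ]
  have h4 : Nat.card (Omega (ZMod 3) qM) * 4 = 1440 := by
    rw [← h3]
    exact card_Omega_mul_odd (Q := mkQ (quadFormMinus_nondeg 1 0 1 hab)) (by decide) (by simp) (mkQ_nondeg _)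
  have h5' : Nat.card (alternatingGroup (Fin 6)) = 360 := by
    have := two_mul_nat_card_alternatingGroup (α := Fin 6)
    have h6 : Nat.card (Equiv.Perm (Fin 6)) = 720 := by
      rw [Nat.card_perm]; simp [Nat.factorial]
    rw [h6] at this
    omega
  have hcard : Nat.card (Omega (ZMod 3) qM) * Nat.card φ.ker = Nat.card (alternatingGroup (Fin 6)) := by
    rw [hkcard, h5']; omega
  have hcq : Subgroup.center (alternatingGroup (Fin 6) ⧸ Subgroup.center (alternatingGroup (Fin 6))) = ⊥ := by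
    let e : (alternatingGroup (Fin 6) ⧸ Subgroup.center (alternatingGroup (Fin 6))) ≃* alternatingGroup (Fin 6) :=
      (QuotientGroup.quotientMulEquivOfEq hcen).trans (QuotientGroup.quotientBot)
    rw [eq_bot_iff]
    intro x hx
    have h6 : e x ∈ Subgroup.center (alternatingGroup (Fin 6)) := by
      rw [Subgroup.mem_center_iff] at hx ⊢
      intro g
      obtain ⟨y, rfl⟩ := e.surjective g
      rw [← map_mul, ← map_mul, hx y]
    have h7 : e x = 1 := by
      have h8 : e x ∈ (⊥ : Subgroup (alternatingGroup (Fin 6))) := hcen ▸ h6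
      exact Subgroup.mem_bot.1 h8
    rw [Subgroup.mem_bot]
    exact e.injective (by rw [h7, map_one])
  obtain ⟨e⟩ := CfsgLib.ClassGeo.OIso.pomega_iso qM φ hr (by rw [hker]; exact bot_le) hcq hcard
  exact ⟨e.trans ((QuotientGroup.quotientMulEquivOfEq hcen).trans (QuotientGroup.quotientBot))⟩

end CfsgLib.ClassGeo.A6Iso
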