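import Mathlib

set_option autoImplicit false
set_option linter.unusedSimpArgs false
set_option linter.unusedVariables false

namespace CfsgLib.ClassGeo

/-- A cyclic group maps onto `ℤ/(n, |G|)` with kernel the `n`-th powers. -/
theorem exists_hom_zmod (G : Type*) [Group G] [IsCyclic G] [Finite G] (n : ℕ) :
    ∃ φ : G →* Multiplicative (ZMod (Nat.gcd n (Nat.card G))), Function.Surjective φ ∧ ∀ x, φ x = 1 ↔ ∃ y, x = y ^ n := by
  classical
  set N := Nat.card G with hN
  set d := Nat.gcd n N with hd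
  have hdN : d ∣ N := Nat.gcd_dvd_right n N
  have hdn : d ∣ n := Nat.gcd_dvd_left n N
  have hNpos : 0 < N := Nat.card_pos
  haveI : NeZero N := ⟨hNpos.ne'⟩
  let e : Multiplicative (ZMod N) ≃* G := zmodCyclicMulEquiv (inferInstance : IsCyclic G)
  let ψ : ZMod N →+ ZMod d := (ZMod.castHom hdN (ZMod d)).toAddMonoidHom
  let φ : G →* Multiplicative (ZMod d) := (AddMonoidHom.toMultiplicative ψ).comp e.symm.toMonoidHom
  have hψ : ∀ a : ZMod N, ψ a = ((a.val : ℕ) : ZMod d) := by
    intro a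
    change ZMod.castHom hdN (ZMod d) a = _
    rw [ZMod.castHom_apply, ZMod.natCast_val]
  refine ⟨φ, ?_, ?_⟩
  · intro y
    obtain ⟨a, ha⟩ := ZMod.castHom_surjective hdN (Multiplicative.toAdd y)
    refine ⟨e (Multiplicative.ofAdd a), ?_⟩
    change Multiplicative.ofAdd (ψ (Multiplicative.toAdd (e.symm (e (Multiplicative.ofAdd a))))) = y
    rw [MulEquiv.symm_apply_apply]
    change Multiplicative.ofAdd (ZMod.castHom hdN (ZMod d) a) = y
    rw [ha]
    rfl
  · intro x
    constructor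
    · intro hx
      obtain ⟨a, ha⟩ : ∃ a : ZMod N, e.symm x = Multiplicative.ofAdd a := ⟨Multiplicative.toAdd (e.symm x), rfl⟩
      have h1 : ψ a = 0 := by
        have : Multiplicative.ofAdd (ψ a) = 1 := by
          rw [← hx]
          change _ = Multiplicative.ofAdd (ψ (Multiplicative.toAdd (e.symm x)))
          rw [ha]
          rfl
        exact this
      rw [hψ, ZMod.natCast_eq_zero_iff] at h1
      obtain ⟨t, ht⟩ := h1
      obtain ⟨g₁, hg₁⟩ : ∃ g₁, g₁ = e (Multiplicative.ofAdd 1) := ⟨_, rfl⟩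
      have hx' : x = g₁ ^ a.val := by
        rw [hg₁, ← map_pow, ← ofAdd_nsmul, nsmul_one, ZMod.natCast_zmod_val, ← ha, MulEquiv.apply_symm_apply]
      have hgN : g₁ ^ N = 1 := by
        rw [hN]
        exact pow_card_eq_one'
      refine ⟨g₁ ^ (Nat.gcdA n N * (t : ℤ)), ?_⟩
      have hb := Nat.gcd_eq_gcd_ab n N
      rw [← hd] at hb
      have h3 : ((a.val : ℕ) : ℤ) = (n : ℤ) * (Nat.gcdA n N * t) + (N : ℤ) * (Nat.gcdB n N * t) := by
        rw [ht]
        push_cast
        rw [hb]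
        ring
      rw [hx', ← zpow_natCast g₁ a.val, h3, zpow_add, zpow_mul g₁ (N : ℤ), zpow_natCast g₁ N, hgN, one_zpow, mul_one, ← zpow_natCast (g₁ ^ (Nat.gcdA n N * (t : ℤ))) n, ← zpow_mul]
      congr 1
      ring
    · rintro ⟨y, rfl⟩
      rw [map_pow]
      change Multiplicative.ofAdd (n • (Multiplicative.toAdd (φ y))) = 1
      have h0 : n • (Multiplicative.toAdd (φ y)) = 0 := by
        rw [nsmul_eq_mul, (ZMod.natCast_eq_zero_iff n d).mpr hdn, zero_mul]
      rw [h0]
      rfl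

end CfsgLib.ClassGeo
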