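import Mathlib

set_option autoImplicit false
set_option linter.unusedSimpArgs false
set_option linter.unusedVariables false

namespace CfsgLib.ClassGeo

/-- A finite cyclic group modulo its `n`-th powers is cyclic of order `gcd(n, |C|)`, as an explicit surjection. -/
theorem cyclic_pow_quot {C : Type*} [CommGroup C] [IsCyclic C] [Finite C] (n : ℕ) :
    ∃ φ : C →* Multiplicative (ZMod (Nat.gcd n (Nat.card C))), Function.Surjective φ ∧
      ∀ x : C, φ x = 1 ↔ ∃ y : C, y ^ n = x := by
  set N := Nat.card C with hN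
  set d := Nat.gcd n N with hd
  have hNpos : 0 < N := Nat.card_pos
  have hdvd : d ∣ N := Nat.gcd_dvd_right n N
  have hdn : d ∣ n := Nat.gcd_dvd_left n N
  let e : Multiplicative (ZMod N) ≃* C := zmodCyclicMulEquiv inferInstance
  let c : ZMod N →+ ZMod d := (ZMod.castHom hdvd (ZMod d)).toAddMonoidHom
  have hc : Function.Surjective c := ZMod.castHom_surjective hdvd
  let φ : C →* Multiplicative (ZMod d) := (AddMonoidHom.toMultiplicative c).comp e.symm.toMonoidHom
  refine ⟨φ, ?_, ?_⟩
  · intro y
    obtain ⟨k, hk⟩ := hc (Multiplicative.toAdd y)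
    refine ⟨e (Multiplicative.ofAdd k), ?_⟩
    change Multiplicative.ofAdd (c (Multiplicative.toAdd (e.symm (e (Multiplicative.ofAdd k))))) = y
    rw [e.symm_apply_apply, toAdd_ofAdd, hk, ofAdd_toAdd]
  · intro x
    constructor
    · intro hx
      set k : ZMod N := Multiplicative.toAdd (e.symm x) with hk
      have h1 : c k = 0 := by
        have : Multiplicative.ofAdd (c k) = 1 := hx
        exact Multiplicative.ofAdd.injective this
      have h2 : (k.val : ZMod d) = 0 := by
        have h3 : c ((k.val : ℕ) : ZMod N) = 0 := by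
          have : NeZero N := ⟨hNpos.ne'⟩
          rw [ZMod.natCast_zmod_val]
          exact h1
        simpa [c] using h3
      rw [ZMod.natCast_eq_zero_iff] at h2
      obtain ⟨m, hm⟩ := h2
      have hbez : (d : ℤ) = n * Nat.gcdA n N + N * Nat.gcdB n N := Nat.gcd_eq_gcd_ab n N
      have hk2 : k = (n : ZMod N) * ((Nat.gcdA n N : ZMod N) * (m : ZMod N)) := by
        have : NeZero N := ⟨hNpos.ne'⟩
        have h4 : (d : ZMod N) = (n : ZMod N) * (Nat.gcdA n N : ZMod N) := by
          have := congrArg (fun z : ℤ => (z : ZMod N)) hbez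
          simpa using this
        calc k = ((k.val : ℕ) : ZMod N) := (ZMod.natCast_zmod_val k).symm
          _ = (d : ZMod N) * (m : ZMod N) := by rw [hm]; push_cast; ring
          _ = _ := by rw [h4]; ring
      refine ⟨e (Multiplicative.ofAdd ((Nat.gcdA n N : ZMod N) * (m : ZMod N))), ?_⟩
      rw [← map_pow, ← ofAdd_nsmul, nsmul_eq_mul, ← hk2, hk, ofAdd_toAdd, e.apply_symm_apply]
    · rintro ⟨y, rfl⟩
      change Multiplicative.ofAdd (c (Multiplicative.toAdd (e.symm (y ^ n)))) = 1
      rw [map_pow, toAdd_pow, map_nsmul, nsmul_eq_mul]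
      have : (n : ZMod d) = 0 := (ZMod.natCast_eq_zero_iff n d).mpr hdn
      rw [this, zero_mul]
      rfl

end CfsgLib.ClassGeo
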