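import Mathlib
import Cfsg.Prelude
import Cfsg.Agent.Lib.H9.QuadStd
import Cfsg.Agent.Lib.H9.GramDet
import Cfsg.Agent.Lib.ClassGeo.SpOver

set_option autoImplicit false
set_option linter.unusedSimpArgs false
set_option linter.unusedVariables false
set_option linter.unusedSectionVars false

/-! Type of a symmetric form in terms of the discriminant, tensor products of forms. -/

namespace CfsgLib.ClassGeo.DiscType

open Module LinearMap Cfsg Matrix

variable {F V : Type*} [Field F] [AddCommGroup V] [Module F V]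

/-- Gram determinant with respect to a basis. -/
noncomputable def gd {ι : Type*} [Fintype ι] [DecidableEq ι] (B : LinearMap.BilinForm F V) (b : Basis ι F V) : F :=
  (LinearMap.BilinForm.toMatrix b B).det

theorem gd_change {ι κ : Type*} [Fintype ι] [DecidableEq ι] [Fintype κ] [DecidableEq κ]
    (B : LinearMap.BilinForm F V) (b : Basis ι F V) (b' : Basis κ F V) :
    ∃ c : F, c ≠ 0 ∧ gd B b' = c ^ 2 * gd B b := by
  classical
  let e : κ ≃ ι := b'.indexEquiv b
  let b'' : Basis ι F V := b'.reindex e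
  have h1 : gd B b' = gd B b'' := by
    unfold gd
    have : LinearMap.BilinForm.toMatrix b'' B = (LinearMap.BilinForm.toMatrix b' B).submatrix e.symm e.symm := by
      ext i j
      simp [LinearMap.BilinForm.toMatrix_apply, b'']
    rw [this, Matrix.det_submatrix_equiv_self]
  have h2 := LinearMap.BilinForm.toMatrix_mul_basis_toMatrix (b := b) b'' B
  have hdet : (b.toMatrix b'').det ≠ 0 := by
    have h3 := b.isUnit_det b''
    rw [Basis.det_apply] at h3
    exact h3.ne_zero
  refine ⟨(b.toMatrix b'').det, hdet, ?_⟩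
  rw [h1]
  unfold gd
  rw [← h2, Matrix.det_mul, Matrix.det_mul, Matrix.det_transpose]
  ring

/-- The hyperbolic block computation. -/
theorem det_block {m : ℕ} (A D : Matrix (Fin m) (Fin m) F) :
    (Matrix.fromBlocks (0 : Matrix (Fin m) (Fin m) F) A Aᵀ D).det = (-1) ^ m * A.det ^ 2 := by
  have h : Matrix.fromBlocks (0 : Matrix (Fin m) (Fin m) F) A Aᵀ D =
      Matrix.fromBlocks (0 : Matrix (Fin m) (Fin m) F) 1 1 0 * Matrix.fromBlocks Aᵀ D (0 : Matrix (Fin m) (Fin m) F) A := by
    rw [Matrix.fromBlocks_multiply]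
    simp
  rw [h, Matrix.det_mul, Matrix.det_fromBlocks_zero₂₁, Matrix.det_transpose]
  have := CfsgLib.H9.GramDet.det_hyp (F := F) m
  unfold CfsgLib.H9.GramDet.hyp at this
  rw [this]
  ring

/-- A Lagrangian forces the sign-adjusted discriminant to be a square. -/
theorem square_of_ti (B : LinearMap.BilinForm F V) (hS : B.IsSymm) {m : ℕ} [FiniteDimensional F V]
    (hV : finrank F V = 2 * m) {ι : Type*} [Fintype ι] [DecidableEq ι] (b : Basis ι F V)
    (X : Submodule F V) (hX : finrank F X = m) (hTI : ∀ x ∈ X, ∀ y ∈ X, B x y = 0) :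
    IsSquare ((-1) ^ m * gd B b) := by
  classical
  obtain ⟨Y, hY⟩ := Submodule.exists_isCompl X
  have hYr : finrank F Y = m := by
    have := Submodule.finrank_add_eq_of_isCompl hY
    omega
  let bX := finBasisOfFinrankEq F X hX
  let bY := finBasisOfFinrankEq F Y hYr
  let bs : Basis (Fin m ⊕ Fin m) F V := (bX.prod bY).map (Submodule.prodEquivOfIsCompl X Y hY)
  have hl : ∀ i, bs (Sum.inl i) = (bX i : V) := by
    intro i
    simp [bs]
  have hr : ∀ i, bs (Sum.inr i) = (bY i : V) := by
    intro i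
    simp [bs]
  let A : Matrix (Fin m) (Fin m) F := Matrix.of fun i j => B (bX i : V) (bY j : V)
  let D : Matrix (Fin m) (Fin m) F := Matrix.of fun i j => B (bY i : V) (bY j : V)
  have hG : LinearMap.BilinForm.toMatrix bs B = Matrix.fromBlocks 0 A Aᵀ D := by
    ext i j
    rcases i with i | i <;> rcases j with j | j
    · simp only [LinearMap.BilinForm.toMatrix_apply, hl, Matrix.fromBlocks_apply₁₁, Matrix.zero_apply]
      exact hTI _ (bX i).2 _ (bX j).2
    · simp [LinearMap.BilinForm.toMatrix_apply, hl, hr, A]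
    · simp only [LinearMap.BilinForm.toMatrix_apply, hl, hr, Matrix.fromBlocks_apply₂₁, Matrix.transpose_apply, A, Matrix.of_apply]
      exact (hS.eq _ _)
    · simp [LinearMap.BilinForm.toMatrix_apply, hr, D]
  obtain ⟨c, hc, hcc⟩ := gd_change B bs b
  have h3 : gd B bs = (-1) ^ m * A.det ^ 2 := by
    unfold gd
    rw [hG, det_block]
  rw [hcc, h3]
  refine ⟨c * A.det, ?_⟩
  have h1 : ((-1 : F) ^ m) * (-1) ^ m = 1 := by
    rw [← mul_pow]
    simp
  linear_combination (c ^ 2 * A.det ^ 2) * h1

/-- The quadratic form with a given polar. -/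
noncomputable def qOf (h2 : (2 : F) ≠ 0) (B : LinearMap.BilinForm F V) (hS : B.IsSymm) : QuadraticForm F V :=
  QuadraticMap.ofPolar (fun x => B x x / 2)
    (fun a x => by
      simp only [map_smul, LinearMap.smul_apply, smul_eq_mul]
      ring)
    (fun x x' y => by
      have h1 : B x' x = B x x' := hS.eq _ _
      have h3 : B y x = B x y := hS.eq _ _
      have h4 : B y x' = B x' y := hS.eq _ _
      simp only [QuadraticMap.polar, map_add, LinearMap.add_apply]
      field_simp
      rw [h3, h4]
      ring)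
    (fun a x y => by
      simp only [QuadraticMap.polar, map_add, LinearMap.add_apply, map_smul, LinearMap.smul_apply, smul_eq_mul]
      field_simp
      ring)

theorem qOf_apply (h2 : (2 : F) ≠ 0) (B : LinearMap.BilinForm F V) (hS : B.IsSymm) (x : V) :
    qOf h2 B hS x = B x x / 2 := rfl

theorem polar_qOf (h2 : (2 : F) ≠ 0) (B : LinearMap.BilinForm F V) (hS : B.IsSymm) (x y : V) :
    QuadraticMap.polar ⇑(qOf h2 B hS) x y = B x y := by
  simp only [QuadraticMap.polar, qOf_apply, map_add, LinearMap.add_apply]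
  have h1 : B y x = B x y := hS.eq _ _
  rw [h1]
  field_simp
  ring

theorem polarBilin_qOf (h2 : (2 : F) ≠ 0) (B : LinearMap.BilinForm F V) (hS : B.IsSymm) :
    QuadraticMap.polarBilin (qOf h2 B hS) = B := by
  ext x y
  exact polar_qOf h2 B hS x y

/-- The square condition forces a Lagrangian. -/
theorem ti_of_square [Fintype F] (h2 : (2 : F) ≠ 0) (B : LinearMap.BilinForm F V) (hS : B.IsSymm)
    (hN : B.Nondegenerate) {m : ℕ} (hm : 1 ≤ m) [FiniteDimensional F V] (hV : finrank F V = 2 * m)
    {ι : Type*} [Fintype ι] [DecidableEq ι] (b : Basis ι F V) (hsq : IsSquare ((-1) ^ m * gd B b)) :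
    ∃ X : Submodule F V, finrank F X = m ∧ ∀ x ∈ X, ∀ y ∈ X, B x y = 0 := by
  classical
  let Q := qOf h2 B hS
  have hQ : (QuadraticMap.polarBilin Q).Nondegenerate := by
    rw [polarBilin_qOf]
    exact hN
  rcases CfsgLib.H9.QuadClass.exists_iso_std hm hV Q hQ with ⟨g, hg⟩ | ⟨ζ, hζ, g, hg⟩
  · -- plus type: image of the first coordinates
    let s : (Fin m → F) →ₗ[F] (Fin m ⊕ Fin m → F) :=
      { toFun := fun x => Sum.elim x 0
        map_add' := fun x y => by
          ext i
          cases i <;> simp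
        map_smul' := fun a x => by
          ext i
          cases i <;> simp }
    have hs : Function.Injective s := by
      intro x y hxy
      ext i
      have := congrFun hxy (Sum.inl i)
      simpa [s] using this
    let f : (Fin m → F) →ₗ[F] V := (g.symm : (Fin m ⊕ Fin m → F) →ₗ[F] V) ∘ₗ s
    have hf : Function.Injective f := g.symm.injective.comp hs
    refine ⟨LinearMap.range f, ?_, ?_⟩
    · rw [LinearMap.finrank_range_of_inj hf]
      simp
    · have hz : ∀ x ∈ LinearMap.range f, Q x = 0 := by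
        rintro _ ⟨x, rfl⟩
        rw [hg]
        simp [f, s, quadFormPlus]
      intro x hx y hy
      have h3 := polar_qOf h2 B hS x y
      rw [← h3, QuadraticMap.polar, hz x hx, hz y hy, hz (x + y) (Submodule.add_mem _ hx hy)]
      simp
  · -- minus type: the discriminant is a non-square
    exfalso
    let bs : Basis ((Fin (m - 1) ⊕ Fin (m - 1)) ⊕ Fin 2) F V := (Pi.basisFun F _).map g.symm
    have hG : LinearMap.BilinForm.toMatrix bs B = CfsgLib.H9.GramDet.ell (m - 1) F 1 ζ := by
      ext i j
      rw [LinearMap.BilinForm.toMatrix_apply, ← polar_qOf h2 B hS]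
      have hpol : QuadraticMap.polar ⇑(qOf h2 B hS) (bs i) (bs j) =
          QuadraticMap.polar (quadFormMinus (m - 1) F 1 ζ) (g (bs i)) (g (bs j)) := by
        have e1 := hg (bs i + bs j)
        have e2 := hg (bs i)
        have e3 := hg (bs j)
        rw [map_add g] at e1
        simp only [QuadraticMap.polar]
        rw [← e1, ← e2, ← e3]
      rw [hpol, CfsgLib.H9.GramDet.polar_minus]
      have h5 : ∀ i, g (bs i) = Pi.single i 1 := by
        intro i
        simp [bs]
      rw [h5, h5]
      simp [Matrix.mulVec_single, dotProduct_comm]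
    have hdet : gd B bs = (-1) ^ (m - 1) * (4 * ζ - 1 ^ 2) := by
      unfold gd
      rw [hG, CfsgLib.H9.GramDet.det_ell]
    obtain ⟨c, hc, hcc⟩ := gd_change B bs b
    obtain ⟨r, hr⟩ := hsq
    have h6 : ((-1 : F) ^ m) * (-1) ^ (m - 1) = -1 := by
      obtain ⟨k, rfl⟩ : ∃ k, m = k + 1 := ⟨m - 1, by omega⟩
      simp only [Nat.add_sub_cancel, pow_succ]
      have : ((-1 : F) ^ k) * (-1) ^ k = 1 := by
        rw [← mul_pow]
        simp
      linear_combination -this
    have h7 : (-1 : F) ^ m * gd B bs = 1 - 4 * ζ := by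
      rw [hdet]
      linear_combination (4 * ζ - 1) * h6
    have h8 : 1 - 4 * ζ = (r / c) * (r / c) := by
      rw [← h7]
      rw [hcc] at hr
      field_simp
      linear_combination hr
    apply hζ (((r / c) - 1) / 2)
    have h9 : ((r / c - 1) / 2) ^ 2 + (r / c - 1) / 2 + ζ = ((r / c) * (r / c) - (1 - 4 * ζ)) / 4 := by
      have h4 : (4 : F) = 2 * 2 := by norm_num
      rw [h4]
      field_simp
      ring
    rw [h9, ← h8]
    simp

/-- Type in terms of the discriminant. -/
theorem ti_iff [Fintype F] (h2 : (2 : F) ≠ 0) (B : LinearMap.BilinForm F V) (hS : B.IsSymm)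
    (hN : B.Nondegenerate) {m : ℕ} (hm : 1 ≤ m) [FiniteDimensional F V] (hV : finrank F V = 2 * m)
    {ι : Type*} [Fintype ι] [DecidableEq ι] (b : Basis ι F V) :
    (∃ X : Submodule F V, finrank F X = m ∧ ∀ x ∈ X, ∀ y ∈ X, B x y = 0) ↔ IsSquare ((-1) ^ m * gd B b) :=
  ⟨fun ⟨X, hX, hT⟩ => square_of_ti B hS hV b X hX hT, ti_of_square h2 B hS hN hm hV b⟩

section tensor

variable {U W : Type*} [AddCommGroup U] [Module F U] [AddCommGroup W] [Module F W]

theorem toMatrix_tmul {ι κ : Type*} [Fintype ι] [DecidableEq ι] [Fintype κ] [DecidableEq κ]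
    (B₁ : LinearMap.BilinForm F U) (B₂ : LinearMap.BilinForm F W) (b₁ : Basis ι F U) (b₂ : Basis κ F W) :
    LinearMap.BilinForm.toMatrix (b₁.tensorProduct b₂) (B₁.tmul B₂) =
      Matrix.kroneckerMap (· * ·) (LinearMap.BilinForm.toMatrix b₁ B₁) (LinearMap.BilinForm.toMatrix b₂ B₂) := by
  ext ⟨i, j⟩ ⟨i', j'⟩
  simp only [LinearMap.BilinForm.toMatrix_apply, Basis.tensorProduct_apply, LinearMap.BilinForm.tensorDistrib_tmul,
    Matrix.kroneckerMap_apply, smul_eq_mul]
  ring

theorem gd_tmul {ι κ : Type*} [Fintype ι] [DecidableEq ι] [Fintype κ] [DecidableEq κ]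
    (B₁ : LinearMap.BilinForm F U) (B₂ : LinearMap.BilinForm F W) (b₁ : Basis ι F U) (b₂ : Basis κ F W) :
    gd (B₁.tmul B₂) (b₁.tensorProduct b₂) = gd B₁ b₁ ^ Fintype.card κ * gd B₂ b₂ ^ Fintype.card ι := by
  unfold gd
  rw [toMatrix_tmul]
  exact Matrix.det_kronecker _ _

theorem tmul_nondeg [FiniteDimensional F U] [FiniteDimensional F W] (B₁ : LinearMap.BilinForm F U) (B₂ : LinearMap.BilinForm F W)
    (h₁ : B₁.Nondegenerate) (h₂ : B₂.Nondegenerate) : (B₁.tmul B₂).Nondegenerate := by
  classical
  let b₁ := finBasis F U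
  let b₂ := finBasis F W
  refine (LinearMap.BilinForm.nondegenerate_iff_det_ne_zero (b₁.tensorProduct b₂)).2 ?_
  have := gd_tmul B₁ B₂ b₁ b₂
  unfold gd at this
  rw [this]
  exact mul_ne_zero (pow_ne_zero _ ((LinearMap.BilinForm.nondegenerate_iff_det_ne_zero b₁).1 h₁))
    (pow_ne_zero _ ((LinearMap.BilinForm.nondegenerate_iff_det_ne_zero b₂).1 h₂))

theorem tmul_symm_of_symm (B₁ : LinearMap.BilinForm F U) (B₂ : LinearMap.BilinForm F W) (h₁ : B₁.IsSymm) (h₂ : B₂.IsSymm) :
    (B₁.tmul B₂).IsSymm := by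
  constructor
  intro x y
  simp only [RingHom.id_apply]
  induction x using TensorProduct.induction_on with
  | zero => simp
  | add x x' hx hx' => simp only [map_add, LinearMap.add_apply, hx, hx']
  | tmul a b =>
    induction y using TensorProduct.induction_on with
    | zero => simp
    | add y y' hy hy' => simp only [map_add, LinearMap.add_apply, hy, hy']
    | tmul c d =>
      simp only [LinearMap.BilinForm.tensorDistrib_tmul, smul_eq_mul]
      rw [h₁.eq a c, h₂.eq b d]

theorem tmul_bsymm (B₁ : LinearMap.BilinForm F U) (B₂ : LinearMap.BilinForm F W) (h₁ : B₁.IsSymm) (h₂ : B₂.IsSymm) :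
    LinearMap.BilinForm.IsSymm (B₁.tmul B₂) := by
  have h3 := tmul_symm_of_symm B₁ B₂ h₁ h₂
  exact ⟨fun x y => h3.eq x y⟩

theorem tmul_symm_of_alt (B₁ : LinearMap.BilinForm F U) (B₂ : LinearMap.BilinForm F W) (h₁ : B₁.IsAlt) (h₂ : B₂.IsAlt) :
    (B₁.tmul B₂).IsSymm := by
  constructor
  intro x y
  simp only [RingHom.id_apply]
  induction x using TensorProduct.induction_on with
  | zero => simp
  | add x x' hx hx' => simp only [map_add, LinearMap.add_apply, hx, hx']
  | tmul a b =>
    induction y using TensorProduct.induction_on with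
    | zero => simp
    | add y y' hy hy' => simp only [map_add, LinearMap.add_apply, hy, hy']
    | tmul c d =>
      simp only [LinearMap.BilinForm.tensorDistrib_tmul, smul_eq_mul]
      rw [← h₁.neg_eq a c, ← h₂.neg_eq b d]
      ring

end tensor

end CfsgLib.ClassGeo.DiscType
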