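import Mathlib
import Cfsg.Prelude
import Cfsg.Agent.Lib.ClassGeo.F4
import Cfsg.Agent.Lib.H9.SL2Cl

/-! `PSL₃(4)`: element orders, involutions, elements of order three. -/

set_option autoImplicit false
set_option linter.unusedVariables false
set_option linter.style.haveILetI false
set_option linter.unusedSectionVars false
set_option linter.unusedSimpArgs false

namespace CfsgLib.ClassGeo.F4

open Matrix

variable {F : Type*} [Field F] [Fintype F]

local notation "SL3" => Matrix.SpecialLinearGroup (Fin 3) F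
local notation "PSL3" => Matrix.ProjectiveSpecialLinearGroup (Fin 3) F

/-- The projection. -/
abbrev prj (g : SL3) : PSL3 := QuotientGroup.mk g

theorem prj_surj (x : PSL3) : ∃ g : SL3, prj g = x := QuotientGroup.mk_surjective x

theorem prj_mul (a b : SL3) : prj (a * b) = prj a * prj b := rfl

theorem prj_pow (a : SL3) (n : ℕ) : prj (a ^ n) = prj a ^ n := rfl

theorem prj_eq_one_iff (g : SL3) : prj g = 1 ↔ ∃ c : F, c ^ 3 = 1 ∧ (g : Matrix (Fin 3) (Fin 3) F) = c • 1 := by
  rw [show prj g = 1 ↔ g ∈ Subgroup.center SL3 from QuotientGroup.eq_one_iff g,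
    Matrix.SpecialLinearGroup.mem_center_iff]
  constructor
  · rintro ⟨r, hr, h⟩
    refine ⟨r, by simpa using hr, ?_⟩
    rw [← h, smul_one_eq_diagonal]
    rfl
  · rintro ⟨c, hc, h⟩
    refine ⟨c, by simpa using hc, ?_⟩
    rw [h, smul_one_eq_diagonal]
    rfl

theorem prj_eq_one_of (g : SL3) (c : F) (h : (g : Matrix (Fin 3) (Fin 3) F) = c • 1) : prj g = 1 := by
  rw [prj_eq_one_iff]
  refine ⟨c, ?_, h⟩
  have h1 := g.2
  rw [h, Matrix.det_smul, Matrix.det_one] at h1
  simpa using h1

theorem exists_ab (hF : Fintype.card F = 4) {ω : F} (hω : ω * ω = ω + 1) (g : SL3) :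
    ∃ a b : Fin 4, (g : Matrix (Fin 3) (Fin 3) F) * g * g = rho ω a • ((g : Matrix (Fin 3) (Fin 3) F) * g) + rho ω b • (g : Matrix (Fin 3) (Fin 3) F) + 1 := by
  have h2 := two_eq hF
  have hc := cayley (g : Matrix (Fin 3) (Fin 3) F)
  rw [g.2, one_smul] at hc
  set t := (g : Matrix (Fin 3) (Fin 3) F) 0 0 + (g : Matrix (Fin 3) (Fin 3) F) 1 1 + (g : Matrix (Fin 3) (Fin 3) F) 2 2
  set s := (g : Matrix (Fin 3) (Fin 3) F) 0 0 * (g : Matrix (Fin 3) (Fin 3) F) 1 1 - (g : Matrix (Fin 3) (Fin 3) F) 0 1 * (g : Matrix (Fin 3) (Fin 3) F) 1 0 + (g : Matrix (Fin 3) (Fin 3) F) 0 0 * (g : Matrix (Fin 3) (Fin 3) F) 2 2 - (g : Matrix (Fin 3) (Fin 3) F) 0 2 * (g : Matrix (Fin 3) (Fin 3) F) 2 0 + (g : Matrix (Fin 3) (Fin 3) F) 1 1 * (g : Matrix (Fin 3) (Fin 3) F) 2 2 - (g : Matrix (Fin 3) (Fin 3) F) 1 2 * (g : Matrix (Fin 3) (Fin 3) F) 2 1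
  obtain ⟨a, ha⟩ := rho_surj hF hω t
  obtain ⟨b, hb⟩ := rho_surj hF hω s
  refine ⟨a, b, ?_⟩
  rw [hc, ha, hb]
  have h3 : (-s) = s := by
    have : s + s = 0 := by linear_combination s * h2
    exact neg_eq_of_add_eq_zero_left this
  rw [sub_eq_add_neg, ← neg_smul, h3]

/-- Every element of `PSL₃(4)` has order dividing `3`, `4`, `5` or `7`. -/
theorem pow_cases (hF : Fintype.card F = 4) (x : PSL3) : x ^ 3 = 1 ∨ x ^ 4 = 1 ∨ x ^ 5 = 1 ∨ x ^ 7 = 1 := by
  obtain ⟨ω, hω⟩ := exists_omega hF
  obtain ⟨g, rfl⟩ := prj_surj x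
  obtain ⟨a, b, hab⟩ := exists_ab hF hω g
  obtain ⟨d, hd, h1, h2⟩ := table a b
  have hp := powers hF hω (g := (g : Matrix (Fin 3) (Fin 3) F)) hab d
  rw [h1, h2] at hp
  have h0 : rho ω (0 : Fin 4) = 0 := rfl
  rw [h0, zero_smul, zero_smul, zero_add, zero_add] at hp
  have key : prj g ^ d = 1 := by
    rw [← prj_pow]
    apply prj_eq_one_of _ _ _
    · exact rho ω ((stp a b)^[d] (0, 0, 1)).2.2
    · simpa using hp
  simp only [List.mem_cons, List.mem_singleton, List.not_mem_nil, or_false] at hd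
  rcases hd with rfl | rfl | rfl | rfl
  · exact Or.inl key
  · exact Or.inr (Or.inl key)
  · exact Or.inr (Or.inr (Or.inl key))
  · exact Or.inr (Or.inr (Or.inr key))

/-- No element of `PSL₃(4)` has order fifteen. -/
theorem no_order_15 (hF : Fintype.card F = 4) (x : PSL3) : orderOf x ≠ 15 := by
  intro h
  rcases pow_cases hF x with h1 | h1 | h1 | h1 <;>
  · have := orderOf_dvd_of_pow_eq_one h1
    rw [h] at this
    omega

/-- Lift of an involution to an involution. -/
theorem invol_lift (hF : Fintype.card F = 4) (x : PSL3) (hx : x * x = 1) (hx1 : x ≠ 1) :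
    ∃ g : SL3, prj g = x ∧ Cfsg.IsTransvection (g : Matrix (Fin 3) (Fin 3) F) := by
  have h2 := two_eq hF
  obtain ⟨g, rfl⟩ := prj_surj x
  have h3 : prj (g * g) = 1 := hx
  obtain ⟨c, hc, hgg⟩ := (prj_eq_one_iff _).1 h3
  have hc0 : c ≠ 0 := by
    rintro rfl
    simp at hc
  let z : SL3 := ⟨c • 1, by
    rw [Matrix.det_smul, Matrix.det_one]
    simpa using hc⟩
  have hz : prj z = 1 := prj_eq_one_of z c rfl
  let g' : SL3 := z * g
  have hg' : (g' : Matrix (Fin 3) (Fin 3) F) = c • (g : Matrix (Fin 3) (Fin 3) F) := by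
    show (c • (1 : Matrix (Fin 3) (Fin 3) F)) * (g : Matrix (Fin 3) (Fin 3) F) = _
    simp
  have hp : prj g' = prj g := by
    show prj z * prj g = _
    rw [hz, one_mul]
  refine ⟨g', hp, ?_⟩
  have hsq : (g' : Matrix (Fin 3) (Fin 3) F) * g' = 1 := by
    rw [hg', smul_mul_smul_comm]
    have : (g : Matrix (Fin 3) (Fin 3) F) * g = c • 1 := hgg
    rw [this, smul_smul, show c * c * c = c ^ 3 by ring, hc, one_smul]
  have hsq0 : ((g' : Matrix (Fin 3) (Fin 3) F) - 1) * ((g' : Matrix (Fin 3) (Fin 3) F) - 1) = 0 := by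
    have e : ((g' : Matrix (Fin 3) (Fin 3) F) - 1) * ((g' : Matrix (Fin 3) (Fin 3) F) - 1) =
        (g' : Matrix (Fin 3) (Fin 3) F) * g' - (2 : F) • (g' : Matrix (Fin 3) (Fin 3) F) + 1 := by
      simp only [sub_mul, mul_sub, mul_one, one_mul, two_smul]
      abel
    rw [e, hsq, h2, zero_smul, sub_zero]
    have : (1 : Matrix (Fin 3) (Fin 3) F) + 1 = (2 : F) • 1 := by rw [two_smul]
    rw [this, h2, zero_smul]
  refine ⟨?_, hsq0⟩
  have hr := Matrix.rank_add_rank_le_card_of_mul_eq_zero hsq0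
  simp only [Fintype.card_fin] at hr
  have hr0 : ((g' : Matrix (Fin 3) (Fin 3) F) - 1).rank ≠ 0 := by
    intro h0
    have h0' : LinearMap.range ((g' : Matrix (Fin 3) (Fin 3) F) - 1).mulVecLin = ⊥ := Submodule.finrank_eq_zero.1 h0
    rw [LinearMap.range_eq_bot] at h0'
    have h00 : (g' : Matrix (Fin 3) (Fin 3) F) - 1 = 0 := by
      ext i j
      have := congrFun (LinearMap.congr_fun h0' (Pi.single j 1)) i
      have e2 : (1 : Matrix (Fin 3) (Fin 3) F) i j = (Pi.single j (1 : F) : Fin 3 → F) i := by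
        simp [Matrix.one_apply, Pi.single_apply]
      simpa [Matrix.mulVec_single, e2] using this
    have h1 : (g' : Matrix (Fin 3) (Fin 3) F) = 1 := sub_eq_zero.1 h00
    apply hx1
    rw [← hp]
    exact prj_eq_one_of g' 1 (by rw [h1, one_smul])
  omega

/-- Any two involutions of `PSL₃(4)` are conjugate. -/
theorem invol_conj (hF : Fintype.card F = 4) (x y : PSL3) (hx : x * x = 1) (hx1 : x ≠ 1) (hy : y * y = 1) (hy1 : y ≠ 1) :
    IsConj x y := by
  obtain ⟨g, rfl, hg⟩ := invol_lift hF x hx hx1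
  obtain ⟨h, rfl, hh⟩ := invol_lift hF y hy hy1
  exact MonoidHom.map_isConj (QuotientGroup.mk' _) (CfsgLib.H9.SqZero.main_2579 (by norm_num) g h hg hh)

/-- The diagonal element of order three. -/
def dG {ω : F} (hF : Fintype.card F = 4) (hω : ω * ω = ω + 1) : SL3 :=
  ⟨Matrix.diagonal ![1, ω, ω + 1], by
    rw [Matrix.det_diagonal, Fin.prod_univ_three]
    have h2 := two_eq hF
    simp only [Matrix.cons_val_zero, Matrix.cons_val_one, Matrix.cons_val]
    linear_combination hω + ω * h2⟩

/-- A non-central element with scalar cube has vanishing trace and second coefficient. -/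
theorem cube_data (hF : Fintype.card F = 4) (g : SL3) (hg1 : prj g ≠ 1) (hg3 : prj g ^ 3 = 1) :
    (g : Matrix (Fin 3) (Fin 3) F) * g * g = 1 ∧
    (g : Matrix (Fin 3) (Fin 3) F) 0 0 + (g : Matrix (Fin 3) (Fin 3) F) 1 1 + (g : Matrix (Fin 3) (Fin 3) F) 2 2 = 0 ∧
    (g : Matrix (Fin 3) (Fin 3) F) 0 0 * (g : Matrix (Fin 3) (Fin 3) F) 1 1 - (g : Matrix (Fin 3) (Fin 3) F) 0 1 * (g : Matrix (Fin 3) (Fin 3) F) 1 0 + (g : Matrix (Fin 3) (Fin 3) F) 0 0 * (g : Matrix (Fin 3) (Fin 3) F) 2 2 - (g : Matrix (Fin 3) (Fin 3) F) 0 2 * (g : Matrix (Fin 3) (Fin 3) F) 2 0 + (g : Matrix (Fin 3) (Fin 3) F) 1 1 * (g : Matrix (Fin 3) (Fin 3) F) 2 2 - (g : Matrix (Fin 3) (Fin 3) F) 1 2 * (g : Matrix (Fin 3) (Fin 3) F) 2 1 = 0 := by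
  have h2 := two_eq hF
  have hc := cayley (g : Matrix (Fin 3) (Fin 3) F)
  rw [g.2, one_smul] at hc
  set G := (g : Matrix (Fin 3) (Fin 3) F) with hG
  set a := G 0 0 + G 1 1 + G 2 2
  set b := G 0 0 * G 1 1 - G 0 1 * G 1 0 + G 0 0 * G 2 2 - G 0 2 * G 2 0 + G 1 1 * G 2 2 - G 1 2 * G 2 1
  have h3 : prj (g ^ 3) = 1 := hg3
  obtain ⟨c, hc3, hcc⟩ := (prj_eq_one_iff _).1 h3
  have hG3 : G * G * G = c • 1 := by
    have : ((g ^ 3 : SL3) : Matrix (Fin 3) (Fin 3) F) = G * G * G := by
      rw [pow_succ, pow_two]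
      rfl
    rw [← this]
    exact hcc
  have hscalar : ∀ d : F, G ≠ d • 1 := by
    intro d hd
    exact hg1 (prj_eq_one_of g d hd)
  -- the linear relation
  have hrel : a • (G * G) + b • G = (1 + c) • 1 := by
    have h4 := hc
    rw [hG3] at h4
    have h5 : (-b) = b := by
      have : b + b = 0 := by linear_combination b * h2
      exact neg_eq_of_add_eq_zero_left this
    rw [sub_eq_add_neg, ← neg_smul, h5] at h4
    have h6 : (c • 1 : Matrix (Fin 3) (Fin 3) F) + 1 = (a • (G * G) + b • G) + ((1 : Matrix (Fin 3) (Fin 3) F) + 1) := by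
      rw [h4]
      abel
    have h7 : (1 : Matrix (Fin 3) (Fin 3) F) + 1 = 0 := by
      have : (1 : Matrix (Fin 3) (Fin 3) F) + 1 = (2 : F) • 1 := by rw [two_smul]
      rw [this, h2, zero_smul]
    rw [h7, add_zero] at h6
    rw [← h6, add_smul, one_smul, add_comm]
  have hc0 : c ≠ 0 := by
    rintro rfl
    simp at hc3
  have hc1 : c = 1 := by
    by_contra hne
    have he : 1 + c ≠ 0 := by
      intro h
      apply hne
      linear_combination h - h2
    by_cases ha : a = 0
    · rw [ha, zero_smul, zero_add] at hrel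
      have hb : b ≠ 0 := by
        rintro hb
        rw [hb, zero_smul] at hrel
        have := congrFun (congrFun hrel 0) 0
        simp at this
        exact he this.symm
      apply hscalar ((1 + c) / b)
      rw [div_eq_inv_mul, mul_smul, ← hrel, smul_smul, inv_mul_cancel₀ hb, one_smul]
    · -- `G² = pG + r`
      set p := b / a with hp
      set r := (1 + c) / a with hr
      have hgg : G * G = p • G + r • 1 := by
        have h8 : a • (G * G) = b • G + (1 + c) • 1 := by
          have h9 : (b • G + b • G) = 0 := by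
            rw [← add_smul, show b + b = 2 * b by ring, h2, zero_mul, zero_smul]
          calc a • (G * G) = (a • (G * G) + b • G) + b • G := by
                rw [add_assoc, h9, add_zero]
            _ = _ := by rw [hrel]; abel
        have h10 : G * G = a⁻¹ • (a • (G * G)) := by rw [smul_smul, inv_mul_cancel₀ ha, one_smul]
        rw [h10, h8, smul_add, smul_smul, smul_smul, hp, hr]
        congr 2 <;> field_simp
      have hggg : G * G * G = (p * p + r) • G + (p * r) • 1 := by
        rw [hgg, add_mul, smul_mul_assoc, smul_mul_assoc, one_mul, hgg, smul_add, smul_smul, smul_smul, add_smul]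
        abel
      have hr0 : r ≠ 0 := div_ne_zero he ha
      by_cases hpr : p * p + r = 0
      · rw [hpr, zero_smul, zero_add, hG3] at hggg
        have h11 : c = p * r := by
          have := congrFun (congrFun hggg 0) 0
          simpa using this
        have h12 : r = p * p := by linear_combination hpr - (p * p) * h2
        have hp0 : p ≠ 0 := by
          rintro hp0
          rw [hp0] at h12
          simp at h12
          exact hr0 h12
        have h13 := cube hF hp0
        apply hne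
        rw [h11, h12]
        linear_combination h13
      · apply hscalar ((p * r + c) / (p * p + r))
        have h14 : (p * p + r) • G = (p * r + c) • 1 := by
          have h15 : (p * p + r) • G + (p * r) • 1 = c • 1 := by rw [← hggg, hG3]
          have h16 : ((p * r) • 1 + (p * r) • 1 : Matrix (Fin 3) (Fin 3) F) = 0 := by
            rw [← add_smul, show p * r + p * r = 2 * (p * r) by ring, h2, zero_mul, zero_smul]
          calc (p * p + r) • G = ((p * p + r) • G + (p * r) • 1) + (p * r) • 1 := by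
                rw [add_assoc, h16, add_zero]
            _ = _ := by rw [h15, add_smul]; abel
        rw [div_eq_inv_mul, mul_smul, ← h14, smul_smul, inv_mul_cancel₀ hpr, one_smul]
  subst hc1
  have hrel0 : a • (G * G) + b • G = 0 := by
    rw [hrel, show (1 : F) + 1 = 2 by norm_num, h2, zero_smul]
  -- cancel `g`
  have hlin : a • G + b • 1 = 0 := by
    have hinv : G * ((g⁻¹ : SL3) : Matrix (Fin 3) (Fin 3) F) = 1 := by
      exact congrArg Subtype.val (mul_inv_cancel g)
    have h17 := congrArg (fun M => M * ((g⁻¹ : SL3) : Matrix (Fin 3) (Fin 3) F)) hrel0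
    simp only [add_mul, smul_mul_assoc, zero_mul] at h17
    rw [Matrix.mul_assoc, hinv, Matrix.mul_one] at h17
    rw [← hinv] at h17 ⊢
    simpa using h17
  have ha : a = 0 := by
    by_contra ha
    apply hscalar (b / a)
    have h18 : a • G = b • 1 := by
      have : (b • 1 + b • 1 : Matrix (Fin 3) (Fin 3) F) = 0 := by
        rw [← add_smul, show b + b = 2 * b by ring, h2, zero_mul, zero_smul]
      calc a • G = (a • G + b • 1) + b • 1 := by rw [add_assoc, this, add_zero]
        _ = _ := by rw [hlin, zero_add]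
    rw [div_eq_inv_mul, mul_smul, ← h18, smul_smul, inv_mul_cancel₀ ha, one_smul]
  have hb : b = 0 := by
    rw [ha, zero_smul, zero_add] at hlin
    have := congrFun (congrFun hlin 0) 0
    simpa using this
  refine ⟨?_, ha, hb⟩
  rw [hG3, one_smul]

/-- Eigenvectors for a non-central element with scalar cube. -/
theorem exists_eigvec (hF : Fintype.card F = 4) (g : SL3) (hg1 : prj g ≠ 1) (hg3 : prj g ^ 3 = 1) (l : F) (hl : l ≠ 0) :
    ∃ v : Fin 3 → F, v ≠ 0 ∧ (g : Matrix (Fin 3) (Fin 3) F) *ᵥ v = l • v := by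
  have h2 := two_eq hF
  obtain ⟨h1, ha, hb⟩ := cube_data hF g hg1 hg3
  set G := (g : Matrix (Fin 3) (Fin 3) F) with hG
  set P : Matrix (Fin 3) (Fin 3) F := G * G + l • G + (l * l) • 1 with hP
  have hl3 := cube hF hl
  have hzero : (G + l • 1) * P = 0 := by
    have e : (G + l • 1) * P = G * G * G + ((2 : F) * l) • (G * G) + ((2 : F) * (l * l)) • G + (l ^ 3) • 1 := by
      rw [hP]
      simp only [add_mul, mul_add, smul_mul_assoc, mul_smul_comm, one_mul, mul_one, smul_add, smul_smul, add_smul, two_mul]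
      rw [show l * l * l = l ^ 3 by ring, ← Matrix.mul_assoc G G G]
      abel
    rw [e, h1, h2, zero_mul, zero_mul, zero_smul, zero_smul, hl3, one_smul, add_zero, add_zero]
    have : (1 : Matrix (Fin 3) (Fin 3) F) + 1 = (2 : F) • 1 := by rw [two_smul]
    rw [this, h2, zero_smul]
  have htr : P 0 0 + P 1 1 + P 2 2 = l * l := by
    have e1 : P 0 0 + P 1 1 + P 2 2 = (G 0 0 + G 1 1 + G 2 2) ^ 2 - 2 * (G 0 0 * G 1 1 - G 0 1 * G 1 0 + G 0 0 * G 2 2 - G 0 2 * G 2 0 + G 1 1 * G 2 2 - G 1 2 * G 2 1) + l * (G 0 0 + G 1 1 + G 2 2) + 3 * (l * l) := by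
      simp [hP, Matrix.mul_apply, Fin.sum_univ_three, Matrix.add_apply, Matrix.smul_apply, Matrix.one_apply]
      ring
    rw [e1, ha, hb, h2]
    linear_combination (l * l) * h2
  have hP0 : ∃ j, (fun i => P i j) ≠ 0 := by
    by_contra hcon
    push Not at hcon
    have h0 : ∀ i j, P i j = 0 := fun i j => congrFun (hcon j) i
    rw [h0, h0, h0] at htr
    have : l * l = 0 := by rw [← htr]; ring
    exact hl (mul_self_eq_zero.1 this)
  obtain ⟨j, hj⟩ := hP0
  refine ⟨fun i => P i j, hj, ?_⟩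
  ext i
  have h3 := congrFun (congrFun hzero i) j
  simp only [Matrix.mul_apply, Matrix.add_apply, Matrix.smul_apply, Matrix.one_apply, smul_eq_mul, Matrix.zero_apply] at h3
  simp only [Matrix.mulVec, dotProduct, Pi.smul_apply, smul_eq_mul]
  have h4 : ∑ k, (l * (if i = k then 1 else 0)) * P k j = l * P i j := by
    simp [Fin.sum_univ_three, Fin.forall_fin_succ]
  have h5 : ∑ k, (G i k + l * (if i = k then 1 else 0)) * P k j = ∑ k, G i k * P k j + ∑ k, (l * (if i = k then 1 else 0)) * P k j := by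
    rw [← Finset.sum_add_distrib]
    exact Finset.sum_congr rfl fun k _ => by ring
  rw [h5, h4] at h3
  linear_combination h3 - (l * P i j) * h2

/-- A non-central element with scalar cube is conjugate to the diagonal element. -/
theorem conj_dG (hF : Fintype.card F = 4) {ω : F} (hω : ω * ω = ω + 1) (g : SL3) (hg1 : prj g ≠ 1) (hg3 : prj g ^ 3 = 1) :
    IsConj (dG hF hω) g := by
  classical
  obtain ⟨h0, h1, h3, h4, h5⟩ := ne_facts hF hω
  obtain ⟨v₁, hv₁, e₁⟩ := exists_eigvec hF g hg1 hg3 1 one_ne_zero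
  obtain ⟨v₂, hv₂, e₂⟩ := exists_eigvec hF g hg1 hg3 ω h0
  obtain ⟨v₃, hv₃, e₃⟩ := exists_eigvec hF g hg1 hg3 (ω + 1) h3
  set G := (g : Matrix (Fin 3) (Fin 3) F) with hG
  let vv : Fin 3 → (Fin 3 → F) := ![v₁, v₂, v₃]
  let μ : Fin 3 → F := ![1, ω, ω + 1]
  have hμ : Function.Injective μ := by
    have n01 : (1 : F) ≠ ω := fun h => h1 h.symm
    have n02 : (1 : F) ≠ ω + 1 := fun h => h4 h.symm
    have n12 : ω ≠ ω + 1 := fun h => h5 h.symm
    intro i j hij
    fin_cases i <;> fin_cases j <;> first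
      | rfl
      | exact absurd hij n01
      | exact absurd hij n02
      | exact absurd hij n12
      | exact absurd hij n01.symm
      | exact absurd hij n02.symm
      | exact absurd hij n12.symm
  have hev : ∀ i, G *ᵥ vv i = μ i • vv i := by
    intro i
    fin_cases i
    · exact e₁
    · exact e₂
    · exact e₃
  have hv0 : ∀ i, vv i ≠ 0 := by
    intro i
    fin_cases i
    · exact hv₁
    · exact hv₂
    · exact hv₃
  have hli : LinearIndependent F vv := by
    apply Module.End.eigenvectors_linearIndependent' (Matrix.mulVecLin G) μ hμ vv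
    intro i
    refine ⟨?_, hv0 i⟩
    rw [Module.End.mem_eigenspace_iff]
    exact hev i
  let M : Matrix (Fin 3) (Fin 3) F := Matrix.of fun i j => vv j i
  have hM : IsUnit M := by
    rw [← Matrix.linearIndependent_cols_iff_isUnit]
    exact hli
  have hdet : M.det ≠ 0 := by
    have := (Matrix.isUnit_iff_isUnit_det M).1 hM
    exact this.ne_zero
  let D : Matrix (Fin 3) (Fin 3) F := Matrix.diagonal μ
  let Δ : Matrix (Fin 3) (Fin 3) F := Matrix.diagonal ![1, 1, (M.det)⁻¹]
  have hGM : G * M = M * D := by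
    ext i j
    have := congrFun (hev j) i
    simp only [Matrix.mulVec, dotProduct, Pi.smul_apply, smul_eq_mul] at this
    show (G * M) i j = (M * Matrix.diagonal μ) i j
    rw [Matrix.mul_diagonal, Matrix.mul_apply]
    simp only [M, Matrix.of_apply]
    rw [this]
    ring
  have hΔ : Δ * D = D * Δ := by
    simp only [Δ, D, Matrix.diagonal_mul_diagonal]
    congr 1
    ext i
    ring
  have hN : (M * Δ).det = 1 := by
    rw [Matrix.det_mul, Matrix.det_diagonal, Fin.prod_univ_three]
    simp only [Matrix.cons_val_zero, Matrix.cons_val_one, Matrix.cons_val]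
    field_simp
  let N : SL3 := ⟨M * Δ, hN⟩
  apply CfsgLib.H9.SL2Cl.isConj_of_mul_eq (c := N)
  apply Subtype.ext
  show M * Δ * D = G * (M * Δ)
  rw [← Matrix.mul_assoc, hGM, Matrix.mul_assoc, Matrix.mul_assoc, hΔ]

/-- Any two elements of order three of `PSL₃(4)` are conjugate. -/
theorem order3_conj (hF : Fintype.card F = 4) (x y : PSL3) (hx1 : x ≠ 1) (hx3 : x ^ 3 = 1) (hy1 : y ≠ 1) (hy3 : y ^ 3 = 1) :
    IsConj x y := by
  obtain ⟨ω, hω⟩ := exists_omega hF
  obtain ⟨g, rfl⟩ := prj_surj x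
  obtain ⟨h, rfl⟩ := prj_surj y
  have h1 := conj_dG hF hω g hx1 hx3
  have h2 := conj_dG hF hω h hy1 hy3
  exact MonoidHom.map_isConj (QuotientGroup.mk' _) (h1.symm.trans h2)

end CfsgLib.ClassGeo.F4
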