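import Mathlib
import Cfsg.Agent.Lib.ClassGeo.Herm

set_option autoImplicit false
set_option linter.unusedSimpArgs false
set_option linter.unusedVariables false
set_option linter.unusedSectionVars false

namespace CfsgLib.ClassGeo

open Module

section flags

variable {F V : Type*} [Field F] [AddCommGroup V] [Module F V] {σ : F →+* F} {B : V →ₛₗ[σ] V →ₗ[F] F}
variable [FiniteDimensional F V] {M : Subgroup (V ≃ₗ[F] V)} [Finite F]

/-- A map which is a similarity on isotropic vectors is a similarity. -/
theorem sim_of_iso (h : HForm σ B) (hyp : HypN B 3) (g : V ≃ₗ[F] V)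
    (hg : ∀ v, B v v = 0 → v ≠ 0 → ∃ l, l ≠ 0 ∧ ∀ z, B (g v) (g z) = l * B v z) :
    ∃ Λ, Λ ≠ 0 ∧ ∀ u z, B (g u) (g z) = Λ * B u z := by
  -- pairing rule
  have hR : ∀ v v' l l', (∀ z, B (g v) (g z) = l * B v z) → (∀ z, B (g v') (g z) = l' * B v' z) → B v v' ≠ 0 → l = σ l' := by
    intro v v' l l' h1 h2 h3
    have h4 := h1 v'
    have h5 := h2 v
    have h6 : B (g v) (g v') = σ (B (g v') (g v)) := (h.symm _ _).symm
    rw [h4, h5, map_mul, h.symm] at h6
    exact (mul_right_cancel₀ h3 h6)
  have hfix : ∀ v, B v v = 0 → v ≠ 0 → ∀ l, (∀ z, B (g v) (g z) = l * B v z) → σ l = l := by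
    intro v hv hv0 l hl
    obtain ⟨v', hv', hvv'⟩ := h.toF.exists_iso_partner v hv hv0
    have hv'v : B v' v = 1 := by rw [← h.symm, hvv', map_one]
    have hv'0 : v' ≠ 0 := by
      rintro rfl
      simp at hvv'
    obtain ⟨c, hc0, hc⟩ := h.exists_anti
    let v'' := v + c • v'
    have hv''v'' : B v'' v'' = 0 := by
      simp only [v'', map_add, LinearMap.add_apply, LinearMap.map_smulₛₗ₂, map_smul, smul_eq_mul, hv, hv', hvv', hv'v]
      linear_combination hc
    have hvv'' : B v v'' = c := by
      simp only [v'', map_add, map_smul, smul_eq_mul, hv, hvv']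
      ring
    have hv'v'' : B v' v'' = 1 := by
      simp only [v'', map_add, map_smul, smul_eq_mul, hv', hv'v]
      ring
    have hv''0 : v'' ≠ 0 := by
      intro h0
      rw [h0] at hvv''
      simp at hvv''
      exact hc0 hvv''.symm
    obtain ⟨l', _, hl'⟩ := hg v' hv' hv'0
    obtain ⟨l'', _, hl''⟩ := hg v'' hv''v'' hv''0
    have h1 := hR v v' l l' hl hl' (by rw [hvv']; exact one_ne_zero)
    have h2 := hR v v'' l l'' hl hl'' (by rw [hvv'']; exact hc0)
    have h3 := hR v' v'' l' l'' hl' hl'' (by rw [hv'v'']; exact one_ne_zero)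
    have e : l' = l := h3.trans h2.symm
    rw [e] at h1
    exact h1.symm
  exact sim_of_iso_core h.toF hyp g hfix hg

/-- An overgroup of `SU` containing a non-similarity contains all flags. -/
theorem herm_overgroup (h : HForm σ B) (hM : HasSU M B) (hyp : HypN B 3) (g : V ≃ₗ[F] V) (hgM : g ∈ M)
    (hg : ¬ ∃ Λ, Λ ≠ 0 ∧ ∀ u z, B (g u) (g z) = Λ * B u z) (w y : V) (hwy : B y w = 0) : FlagIn M B w y := by
  obtain ⟨a, ha0, ha⟩ := h.exists_anti
  by_cases hall : ∀ v, B v v = 0 → v ≠ 0 → ∀ y₀, (∀ x, B y₀ (g x) = a * B v x) → y₀ ∈ Submodule.span F {g v}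
  · exfalso
    apply hg
    refine sim_of_iso h hyp g (fun v hv hv0 => ?_)
    obtain ⟨y₀, hy₀, -⟩ := exists_flag_of_g h.toF hM g hgM v hv a ha
    obtain ⟨c, hc⟩ := Submodule.mem_span_singleton.mp (hall v hv hv0 y₀ hy₀)
    have h1 : ∀ z, σ c * B (g v) (g z) = a * B v z := by
      intro z
      rw [← hy₀, ← hc, LinearMap.map_smulₛₗ₂]
      rfl
    obtain ⟨z₀, hz₀⟩ : ∃ z, B v z ≠ 0 := by
      by_contra hcon
      push Not at hcon
      exact hv0 (h.sep v hcon)
    have hσc : σ c ≠ 0 := by
      intro h0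
      have := h1 z₀
      rw [h0, zero_mul] at this
      exact mul_ne_zero ha0 hz₀ this.symm
    refine ⟨a / σ c, div_ne_zero ha0 hσc, fun z => ?_⟩
    have := h1 z
    field_simp
    linear_combination this
  · push Not at hall
    obtain ⟨v, hv, hv0, y₀, hy₀, hn⟩ := hall
    have hf : FlagIn M B (g v) y₀ := by
      obtain ⟨y₁, hy₁, hf⟩ := exists_flag_of_g h.toF hM g hgM v hv a ha
      have : y₁ = y₀ := by
        have h0 : y₁ - y₀ = 0 := by
          apply h.sep
          intro x
          have h1 := hy₁ (g.symm x)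
          have h2 := hy₀ (g.symm x)
          rw [LinearEquiv.apply_symm_apply] at h1 h2
          rw [map_sub, LinearMap.sub_apply, h1, h2, sub_self]
        exact sub_eq_zero.mp h0
      rwa [this] at hf
    have hgv : g v ≠ 0 := by
      intro h0
      exact hv0 (g.injective (h0.trans (map_zero g).symm))
    exact all_flags h.toF hM hyp hf hgv hn w y hwy

end flags

section matrix

variable {F : Type*} [Field F] {ι : Type} [Fintype ι] [DecidableEq ι]

/-- The sesquilinear form attached to a unitary form (variables swapped). -/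
def hermSesq {σ : F ≃+* F} {f : (ι → F) → (ι → F) → F} (hf : Cfsg.Geo.IsUnitaryForm σ f) :
    (ι → F) →ₛₗ[(σ : F →+* F)] (ι → F) →ₗ[F] F :=
  LinearMap.mk₂'ₛₗ (σ : F →+* F) (RingHom.id F) (fun x y => f y x)
    (by
      intro x x' y
      change f y (x + x') = f y x + f y x'
      rw [hf.herm y (x + x'), hf.add_left, map_add, ← hf.herm, ← hf.herm])
    (by
      intro c x y
      change f y (c • x) = σ c * f y x
      rw [hf.herm y (c • x), hf.smul_left, map_mul, ← hf.herm])
    (by
      intro x y y'
      change f (y + y') x = f y x + f y' x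
      rw [hf.add_left])
    (by
      intro c x y
      change f (c • y) x = c * f y x
      rw [hf.smul_left])

theorem hermSesq_apply {σ : F ≃+* F} {f : (ι → F) → (ι → F) → F} (hf : Cfsg.Geo.IsUnitaryForm σ f) (x y : ι → F) :
    hermSesq hf x y = f y x := rfl

theorem hermSesq_hform {σ : F ≃+* F} {f : (ι → F) → (ι → F) → F} (hf : Cfsg.Geo.IsUnitaryForm σ f) :
    HForm (σ : F →+* F) (hermSesq hf) where
  ne := by
    intro h0
    apply hf.ne_refl
    ext x
    exact congrArg (fun k : F →+* F => k x) h0
  σσ := hf.involutive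
  symm := by
    intro x y
    rw [hermSesq_apply, hermSesq_apply]
    exact (hf.herm x y).symm
  sep := by
    intro u hu
    by_contra hu0
    obtain ⟨x, hx⟩ := (hf.nondegenerate u hu0).1
    exact hx (hu x)

/-- The similarity group of a unitary form is maximal in the special linear group. -/
theorem csu_isMaximalIn [Finite F] {σ : F ≃+* F} {f : (ι → F) → (ι → F) → F} (hf : Cfsg.Geo.IsUnitaryForm σ f) (hdim : 8 ≤ Fintype.card ι) :
    Cfsg.Geo.IsMaximalIn (Cfsg.Geo.specialLinear ι F) (Cfsg.Geo.similarityGroup f ⊓ Cfsg.Geo.specialLinear ι F) := by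
  have hH := hermSesq_hform hf
  have hdim' : 8 ≤ finrank F (ι → F) := by
    rw [finrank_fintype_fun_eq_card]
    exact hdim
  have hyp : HypN (hermSesq hf) 3 := hH.hypN 3 hdim'
  have hnt : Nontrivial ι := Fintype.one_lt_card_iff_nontrivial.mp (by omega)
  have sim_iff : ∀ g : GL ι F, g ∈ Cfsg.Geo.similarityGroup f ↔
      ∃ a : F, a ≠ 0 ∧ ∀ u v, hermSesq hf (glLin g u) (glLin g v) = a * hermSesq hf u v := by
    intro g
    constructor
    · rintro ⟨c, hc⟩
      exact ⟨c, c.ne_zero, fun u v => hc v u⟩
    · rintro ⟨a, ha, hall⟩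
      exact ⟨Units.mk0 a ha, fun u v => hall v u⟩
  constructor
  · refine lt_of_le_of_ne inf_le_right ?_
    intro heq
    obtain ⟨w, y, hwy, hnot⟩ := exists_flag_not_sim hH.toF hyp
    have hmem : glLin.symm (tfl (hermSesq hf) w y hwy) ∈ Cfsg.Geo.specialLinear ι F := by
      change Matrix.GeneralLinearGroup.det _ = 1
      apply Units.ext
      exact tv_det (hermSesq hf y) w hwy
    rw [← heq] at hmem
    apply hnot
    have := (sim_iff _).mp hmem.1
    simpa using this
  · intro M h1 h2
    by_cases hM : M ≤ Cfsg.Geo.similarityGroup f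
    · left
      exact le_antisymm (le_inf hM h2) h1
    · right
      refine le_antisymm h2 ?_
      obtain ⟨g, hgM, hg⟩ := SetLike.not_le_iff_exists.mp hM
      have hSU : HasSU (M.map (glLin (ι := ι) (F := F)).toMonoidHom) (hermSesq hf) := by
        intro p hp hdet
        refine ⟨glLin.symm p, h1 ⟨?_, ?_⟩, by simp⟩
        · refine (sim_iff _).mpr ⟨1, one_ne_zero, fun u v => ?_⟩
          simp only [MulEquiv.apply_symm_apply, one_mul]
          exact hp u v
        · change Matrix.GeneralLinearGroup.det _ = 1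
          apply Units.ext
          change ((glLin.symm p : GL ι F) : Matrix ι ι F).det = 1
          rw [det_glLin_symm]
          exact hdet
      have hτ : ∀ (φ : Dual F (ι → F)) (v : ι → F) (h : φ v = 0), glLin.symm (LinearEquiv.transvection h) ∈ M := by
        intro φ v h
        obtain ⟨y, hy⟩ := hH.toF.rep φ
        have hyv : hermSesq hf y v = 0 := by rw [hy, h]
        obtain ⟨_, h3⟩ := herm_overgroup hH hSU hyp (glLin g) ⟨g, hgM, rfl⟩ (fun h4 => hg ((sim_iff g).mpr h4)) v y hyv
        obtain ⟨a, ha, ha'⟩ := h3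
        have : glLin.symm (LinearEquiv.transvection h) = a := by
          rw [MulEquiv.symm_apply_eq]
          refine Eq.trans ?_ ha'.symm
          ext x
          rw [LinearEquiv.transvection.apply, tfl_apply, hy]
        rw [this]
        exact ha
      intro x hx
      refine mem_of_det_one M hτ x ?_
      have : Matrix.GeneralLinearGroup.det x = 1 := hx
      exact congrArg Units.val this

end matrix

end CfsgLib.ClassGeo
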