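import Mathlib
import Cfsg.Agent.Lib.ClassGeo.OInvConj2
import Cfsg.Agent.Lib.ClassGeo.Symp

set_option autoImplicit false
set_option linter.unusedSimpArgs false
set_option linter.unusedVariables false
set_option linter.unusedSectionVars false

namespace CfsgLib.ClassGeo.InvC

open Module Matrix Cfsg CfsgLib.ClassGeo CfsgLib.ClassGeo.Orth CfsgLib.ClassGeo.OSpin CfsgLib.ClassGeo.OInv

/-- Counting conjugacy classes through a complete invariant. -/
theorem card_classes_eq {G X : Type*} [Group G] (P : G → Prop) (Φ : G → X) (S : Set X)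
    (h1 : ∀ g g', IsConj g g' → Φ g = Φ g')
    (h2 : ∀ g g', P g → P g' → Φ g = Φ g' → IsConj g g')
    (h3 : ∀ g, P g → Φ g ∈ S) (h4 : ∀ x ∈ S, ∃ g, P g ∧ Φ g = x) :
    Nat.card {C : ConjClasses G // ∃ g, ConjClasses.mk g = C ∧ P g} = Nat.card S := by
  classical
  refine Nat.card_congr (Equiv.ofBijective (fun C => ⟨Φ C.2.choose, h3 _ C.2.choose_spec.2⟩) ⟨?_, ?_⟩)
  · rintro ⟨C, hC⟩ ⟨C', hC'⟩ h
    have e : Φ hC.choose = Φ hC'.choose := congrArg Subtype.val h
    apply Subtype.ext
    change C = C'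
    rw [← hC.choose_spec.1, ← hC'.choose_spec.1]
    exact ConjClasses.mk_eq_mk_iff_isConj.mpr (h2 _ _ hC.choose_spec.2 hC'.choose_spec.2 e)
  · rintro ⟨x, hx⟩
    obtain ⟨g, hg, rfl⟩ := h4 x hx
    refine ⟨⟨ConjClasses.mk g, g, rfl, hg⟩, ?_⟩
    apply Subtype.ext
    have hs := (Exists.choose_spec (⟨g, rfl, hg⟩ : ∃ g', ConjClasses.mk g' = ConjClasses.mk g ∧ P g'))
    exact h1 _ _ (ConjClasses.mk_eq_mk_iff_isConj.mp hs.1)

section abstr

variable {F V : Type*} [Field F] [AddCommGroup V] [Module F V] [CharP F 2]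
variable {κ : Type*} [Fintype κ] [DecidableEq κ]

theorem exists_N (Q : QuadraticForm F V) (u d : κ → V) (τ : κ → κ) (hτ : ∀ i, τ (τ i) = i)
    (huu : ∀ i j, QuadraticMap.polar Q (u i) (u j) = 0)
    (hud : ∀ i j, QuadraticMap.polar Q (u i) (d j) = if i = j then 1 else 0)
    (hQ : ∀ i, Q (u i) = if τ i = i then 1 else 0) :
    ∃ N : V →ₗ[F] V, (∀ x, N (N x) = 0) ∧ (∀ x, Q (N x + x) = Q x) ∧ finrank F (LinearMap.range N) = Fintype.card κ ∧
      ((∀ x, QuadraticMap.polarBilin Q (N x) x = 0) ↔ ∀ i, τ i ≠ i) := by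
  classical
  obtain ⟨N, hN⟩ : ∃ N : V →ₗ[F] V, ∀ x, N x = ∑ i, QuadraticMap.polar Q (u (τ i)) x • u i := by
    refine ⟨∑ i, (QuadraticMap.polarBilin Q (u (τ i))).smulRight (u i), fun x => ?_⟩
    simp [LinearMap.sum_apply]
  have pr : ∀ (a : V) (c : κ → F), QuadraticMap.polar Q a (∑ i, c i • u i) = ∑ i, c i * QuadraticMap.polar Q a (u i) := by
    intro a c
    rw [← QuadraticMap.polarBilin_apply_apply, map_sum]
    simp only [map_smul, smul_eq_mul, QuadraticMap.polarBilin_apply_apply]
  have pl : ∀ (y : V) (c : κ → F), QuadraticMap.polar Q (∑ i, c i • u i) y = ∑ i, c i * QuadraticMap.polar Q (u i) y := by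
    intro y c
    rw [← QuadraticMap.polarBilin_apply_apply, map_sum, LinearMap.sum_apply]
    simp only [map_smul, LinearMap.smul_apply, smul_eq_mul, QuadraticMap.polarBilin_apply_apply]
  have hNN : ∀ x, N (N x) = 0 := by
    intro x
    rw [hN (N x)]
    apply Finset.sum_eq_zero
    intro i _
    have : QuadraticMap.polar Q (u (τ i)) (N x) = 0 := by
      rw [hN x, pr]
      exact Finset.sum_eq_zero (fun j _ => by rw [huu, mul_zero])
    rw [this, zero_smul]
  have hτinj : ∀ a b, τ a = τ b → a = b := by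
    intro a b h
    rw [← hτ a, h, hτ]
  have hNd : ∀ i, N (d (τ i)) = u i := by
    intro i
    rw [hN, Finset.sum_eq_single i]
    · rw [hud, if_pos rfl, one_smul]
    · intro j _ hj
      rw [hud, if_neg (fun h => hj (hτinj _ _ h)), zero_smul]
    · simp
  have hli : LinearIndependent F u := by
    rw [Fintype.linearIndependent_iff]
    intro g hg j
    have h1 := congrArg (fun y => QuadraticMap.polar Q y (d j)) hg
    simp only [pl] at h1
    simp only [hud, mul_ite, mul_one, mul_zero, Finset.sum_ite_eq', Finset.mem_univ, if_true] at h1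
    rw [h1]
    simp [QuadraticMap.polar]
  refine ⟨N, hNN, ?_, ?_, ?_⟩
  · intro x
    obtain ⟨c, hc⟩ : ∃ c : κ → F, ∀ i, c i = QuadraticMap.polar Q (u (τ i)) x := ⟨_, fun _ => rfl⟩
    have hc' : ∀ i, QuadraticMap.polar Q (u i) x = c (τ i) := by
      intro i
      rw [hc, hτ]
    have hNc : N x = ∑ i, c i • u i := by
      rw [hN]
      exact Finset.sum_congr rfl (fun i _ => by rw [hc])
    rw [q_add, hNc, quad_sum_val Q u c huu, pl]
    simp only [hc']
    have key : ∑ i, (c i ^ 2 * Q (u i) + c i * c (τ i)) = 0 := by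
      refine Finset.sum_involution (fun i _ => τ i) ?_ ?_ (fun _ _ => Finset.mem_univ _) (fun i _ => hτ i)
      · intro i _
        by_cases hi : τ i = i
        · simp only [hi]
          exact CharTwo.add_self_eq_zero (c i ^ 2 * Q (u i) + c i * c i)
        · have hi' : τ (τ i) ≠ τ i := by
            rw [hτ]
            exact fun h => hi h.symm
          rw [hQ, hQ, if_neg hi, if_neg hi', hτ]
          have := CharTwo.add_self_eq_zero (c i * c (τ i))
          linear_combination this
      · intro i _ hne hi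
        apply hne
        rw [hQ, if_pos hi, hi]
        have := CharTwo.add_self_eq_zero (c i * c i)
        linear_combination this
    rw [Finset.sum_add_distrib] at key
    linear_combination key
  · have e : LinearMap.range N = Submodule.span F (Set.range u) := by
      apply le_antisymm
      · rintro _ ⟨y, rfl⟩
        rw [hN]
        exact Submodule.sum_mem _ (fun i _ => Submodule.smul_mem _ _ (Submodule.subset_span ⟨i, rfl⟩))
      · rw [Submodule.span_le]
        rintro _ ⟨i, rfl⟩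
        exact ⟨_, hNd i⟩
    rw [e, finrank_span_eq_card hli]
  · constructor
    · intro h i hi
      have h1 := h (d i)
      have h2 := hNd i
      rw [hi] at h2
      rw [h2, QuadraticMap.polarBilin_apply_apply, hud, if_pos rfl] at h1
      exact one_ne_zero h1
    · intro h x
      rw [QuadraticMap.polarBilin_apply_apply]
      obtain ⟨c, hc⟩ : ∃ c : κ → F, ∀ i, c i = QuadraticMap.polar Q (u (τ i)) x := ⟨_, fun _ => rfl⟩
      have hc' : ∀ i, QuadraticMap.polar Q (u i) x = c (τ i) := by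
        intro i
        rw [hc, hτ]
      have hNc : N x = ∑ i, c i • u i := by
        rw [hN]
        exact Finset.sum_congr rfl (fun i _ => by rw [hc])
      rw [hNc, pl]
      simp only [hc']
      refine Finset.sum_involution (fun i _ => τ i) ?_ ?_ (fun _ _ => Finset.mem_univ _) (fun i _ => hτ i)
      · intro i _
        rw [hτ]
        have := CharTwo.add_self_eq_zero (c i * c (τ i))
        linear_combination this
      · intro i _ _
        exact h i

/-- Systems from frames. -/
theorem mk_system {L : Type*} [DecidableEq L] (Q : QuadraticForm F V) (one sing dual : L → V) (G : L → Prop) (j : κ → L) (hj : Function.Injective j)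
    (τ : κ → κ) (hG : ∀ i, τ i ≠ i → G (j i))
    (hoo : ∀ a b, QuadraticMap.polar Q (one a) (one b) = 0)
    (hos : ∀ a b, a ≠ b → G b → QuadraticMap.polar Q (one a) (sing b) = 0)
    (hss : ∀ a b, G a → G b → QuadraticMap.polar Q (sing a) (sing b) = 0)
    (hod : ∀ a b, QuadraticMap.polar Q (one a) (dual b) = if a = b then 1 else 0)
    (hsd : ∀ a b, G a → QuadraticMap.polar Q (sing a) (dual b) = if a = b then 1 else 0)
    (hQo : ∀ a, Q (one a) = 1) (hQs : ∀ a, G a → Q (sing a) = 0) :
    (∀ i i', QuadraticMap.polar Q (if τ i = i then one (j i) else sing (j i)) (if τ i' = i' then one (j i') else sing (j i')) = 0) ∧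
    (∀ i i', QuadraticMap.polar Q (if τ i = i then one (j i) else sing (j i)) (dual (j i')) = if i = i' then 1 else 0) ∧
    (∀ i, Q (if τ i = i then one (j i) else sing (j i)) = if τ i = i then 1 else 0) := by
  classical
  have hjj : ∀ a b : κ, j a = j b ↔ a = b := fun a b => hj.eq_iff
  refine ⟨?_, ?_, ?_⟩
  · intro i i'
    by_cases h1 : τ i = i <;> by_cases h2 : τ i' = i'
    · rw [if_pos h1, if_pos h2]
      exact hoo _ _
    · rw [if_pos h1, if_neg h2]
      refine hos _ _ ?_ (hG _ h2)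
      rw [Ne, hjj]
      rintro rfl
      exact h2 h1
    · rw [if_neg h1, if_pos h2, QuadraticMap.polar_comm]
      refine hos _ _ ?_ (hG _ h1)
      rw [Ne, hjj]
      rintro rfl
      exact h1 h2
    · rw [if_neg h1, if_neg h2]
      exact hss _ _ (hG _ h1) (hG _ h2)
  · intro i i'
    by_cases h1 : τ i = i
    · rw [if_pos h1, hod]
      simp only [hjj]
    · rw [if_neg h1, hsd _ _ (hG _ h1)]
      simp only [hjj]
  · intro i
    by_cases h1 : τ i = i
    · rw [if_pos h1, if_pos h1, hQo]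
    · rw [if_neg h1, if_neg h1, hQs _ (hG _ h1)]

end abstr

section mat

variable {F : Type*} [Field F] [Fintype F] [CharP F 2] {ι : Type} [Fintype ι] [DecidableEq ι]
variable {Q : QuadraticForm F (ι → F)}

theorem exists_elt {κ : Type*} [Fintype κ] [DecidableEq κ] (Q : QuadraticForm F (ι → F)) (u d : κ → (ι → F)) (τ : κ → κ) (hτ : ∀ i, τ (τ i) = i)
    (huu : ∀ i j, QuadraticMap.polar Q (u i) (u j) = 0)
    (hud : ∀ i j, QuadraticMap.polar Q (u i) (d j) = if i = j then 1 else 0)
    (hQ : ∀ i, Q (u i) = if τ i = i then 1 else 0) :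
    ∃ g : ↥(Cfsg.isometryGroup F ⇑Q), g * g = 1 ∧ (((g : GL ι F) : Matrix ι ι F) - 1).rank = Fintype.card κ ∧
      ((∀ x, QuadraticMap.polarBilin Q (nOf g.1 x) x = 0) ↔ ∀ i, τ i ≠ i) := by
  obtain ⟨N, hN2, hNQ, hNr, hNa⟩ := exists_N Q u d τ hτ huu hud hQ
  have hL : Function.Involutive (N + LinearMap.id : (ι → F) →ₗ[F] (ι → F)) := by
    intro x
    simp only [LinearMap.add_apply, LinearMap.id_apply, map_add, hN2, zero_add]
    ext i
    simp only [Pi.add_apply]
    have := CharTwo.add_self_eq_zero (N x i)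
    linear_combination this
  obtain ⟨g, hg₀⟩ := exists_of_isom (Q := Q) (p := LinearEquiv.ofInvolutive (N + LinearMap.id) hL) (by
    intro x
    exact hNQ x)
  have hg : phi Q g = LinearEquiv.ofInvolutive (N + LinearMap.id) hL := hg₀
  have hgv : ∀ x, ((g : GL ι F) : Matrix ι ι F) *ᵥ x = N x + x := by
    intro x
    rw [← phi_apply, hg]
    rfl
  have hnN : nOf g.1 = N := by
    apply LinearMap.ext
    intro x
    rw [nOf_apply, hgv]
    abel
  refine ⟨g, ?_, ?_, ?_⟩
  · apply phi_injective (Q := Q)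
    rw [map_mul, map_one, hg]
    ext1 x
    exact hL x
  · change finrank F (LinearMap.range (nOf g.1)) = _
    rw [hnN, hNr]
  · rw [hnN]
    exact hNa

/-- The alternating property. -/
def altP (g : ↥(Cfsg.isometryGroup F ⇑Q)) : Prop := ∀ x, QuadraticMap.polarBilin Q (nOf g.1 x) x = 0

open Classical in
/-- The complete invariant. -/
noncomputable def Phi (g : ↥(Cfsg.isometryGroup F ⇑Q)) : ℕ × Bool :=
  ((((g : GL ι F) : Matrix ι ι F) - 1).rank, decide (altP g))

theorem altP_conj (g c : ↥(Cfsg.isometryGroup F ⇑Q)) (h : altP g) : altP (c * g * c⁻¹) := by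
  intro x
  obtain ⟨y, hy⟩ : ∃ y, y = (((c⁻¹ : ↥(Cfsg.isometryGroup F ⇑Q)) : GL ι F) : Matrix ι ι F) *ᵥ x := ⟨_, rfl⟩
  have e : ((c : GL ι F) : Matrix ι ι F) *ᵥ y = x := by
    rw [hy, Matrix.mulVec_mulVec]
    have : ((c : GL ι F) : Matrix ι ι F) * (((c⁻¹ : ↥(Cfsg.isometryGroup F ⇑Q)) : GL ι F) : Matrix ι ι F) = 1 := by
      have := congrArg (fun y : ↥(Cfsg.isometryGroup F ⇑Q) => ((y : GL ι F) : Matrix ι ι F)) (mul_inv_cancel c)
      exact this
    rw [this, Matrix.one_mulVec]
  have h2 := nOf_conj c.1 g.1 (c * g * c⁻¹).1 rfl y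
  rw [e] at h2
  rw [h2, ← e, polar_mat c]
  exact h y

theorem Phi_conj (g g' : ↥(Cfsg.isometryGroup F ⇑Q)) (h : IsConj g g') : Phi g = Phi g' := by
  classical
  obtain ⟨c, rfl⟩ := isConj_iff.mp h
  unfold Phi
  have e1 := gl_conj_rank c.1 g.1 (c * g * c⁻¹).1 rfl
  have e2 : altP g ↔ altP (c * g * c⁻¹) := by
    constructor
    · exact altP_conj g c
    · intro h3
      have := altP_conj (c * g * c⁻¹) c⁻¹ h3
      have e3 : c⁻¹ * (c * g * c⁻¹) * c⁻¹⁻¹ = g := by group
      rwa [e3] at this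
  apply Prod.ext
  · exact e1.symm
  · simp only [e2]

theorem conj_of_Phi (hQ : (QuadraticMap.polarBilin Q).Nondegenerate) (g g' : ↥(Cfsg.isometryGroup F ⇑Q)) (h1 : g * g = 1) (h2 : g' * g' = 1)
    (h : Phi g = Phi g') : IsConj g g' := by
  classical
  obtain ⟨_, ka1, ka2, ka3⟩ := key_facts g h1
  obtain ⟨_, kb1, kb2, kb3⟩ := key_facts g' h2
  unfold Phi at h
  have hr := congrArg Prod.fst h
  have ha := congrArg Prod.snd h
  simp only [decide_eq_decide] at ha
  obtain ⟨g₁, hg₁, hg₁N⟩ := conj_isom Q hQ (nOf g.1) (nOf g'.1) ka1 ka2 kb1 kb2 ka3 kb3 hr ha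
  exact conj_of_intertwine g g' g₁ hg₁ hg₁N

theorem inv_bounds (hQ : (QuadraticMap.polarBilin Q).Nondegenerate) (g : ↥(Cfsg.isometryGroup F ⇑Q)) (h1 : g * g = 1) (h1' : g ≠ 1) :
    1 ≤ (((g : GL ι F) : Matrix ι ι F) - 1).rank ∧ 2 * (((g : GL ι F) : Matrix ι ι F) - 1).rank ≤ Fintype.card ι ∧
      (altP g → Even (((g : GL ι F) : Matrix ι ι F) - 1).rank) := by
  classical
  obtain ⟨h0, ka1, ka2, ka3⟩ := key_facts g h1
  have hR : (((g : GL ι F) : Matrix ι ι F) - 1).rank = finrank F (LinearMap.range (nOf g.1)) := rfl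
  refine ⟨?_, ?_, ?_⟩
  · by_contra hc
    have h2 : finrank F (LinearMap.range (nOf g.1)) = 0 := by
      rw [← hR]
      omega
    have h3 : LinearMap.range (nOf g.1) = ⊥ := Submodule.finrank_eq_zero.mp h2
    apply h1'
    apply Subtype.ext
    apply Units.ext
    apply matrix_eq_of_mulVec
    intro v
    have h4 : nOf g.1 v ∈ LinearMap.range (nOf g.1) := ⟨v, rfl⟩
    rw [h3, Submodule.mem_bot, nOf_apply, sub_eq_zero] at h4
    rw [h4]
    simp
  · have h3 := LinearMap.finrank_range_add_finrank_ker (nOf g.1)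
    have h4 : LinearMap.range (nOf g.1) ≤ LinearMap.ker (nOf g.1) := by
      rintro _ ⟨y, rfl⟩
      exact ka1 y
    have h5 := Submodule.finrank_mono h4
    rw [finrank_fintype_fun_eq_card] at h3
    rw [hR]
    omega
  · intro ha
    have hA : (QuadraticMap.polarBilin Q).IsAlt := by
      intro x
      rw [QuadraticMap.polarBilin_apply_apply, QuadraticMap.polar_self, two_smul]
      exact CharTwo.add_self_eq_zero _
    have hsymm : ∀ u v, QuadraticMap.polarBilin Q u v = QuadraticMap.polarBilin Q v u := by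
      intro u v
      rw [QuadraticMap.polarBilin_apply_apply, QuadraticMap.polarBilin_apply_apply, QuadraticMap.polar_comm]
    obtain ⟨k, t, z, ht, hz, hform, ht0, ht1⟩ := SpInv.classify hA hsymm hQ.1 (nOf g.1) ka1 ka2
    have hτ : ∀ i, Sum.map (SpInv.swapB k) (id : Fin t → Fin t) (Sum.map (SpInv.swapB k) id i) = i := by
      rintro (⟨p, b⟩ | i) <;> simp [SpInv.swapB]
    have hli := SpInv.sys_li hsymm (nOf g.1) ka1 ka2 hτ hz
    have hk := SpInv.rank_eq (nOf g.1) hli hform
    simp only [Fintype.card_sum, Fintype.card_prod, Fintype.card_fin, Fintype.card_bool] at hk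
    have h0' : t = 0 := by
      by_contra hne
      obtain ⟨v, hv⟩ := ht1 hne
      exact hv (ha v)
    rw [hR, hk, h0']
    exact ⟨k, by ring⟩

end mat

end CfsgLib.ClassGeo.InvC
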