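import Mathlib
import Cfsg.Agent.Lib.ClassGeo.InvCount

set_option autoImplicit false
set_option linter.unusedSimpArgs false
set_option linter.unusedVariables false
set_option linter.unusedSectionVars false

namespace CfsgLib.ClassGeo.InvC

open Module Matrix Cfsg CfsgLib.ClassGeo CfsgLib.ClassGeo.Orth CfsgLib.ClassGeo.OSpin CfsgLib.ClassGeo.OInv

theorem card_S (m : ℕ) (P : ℕ → Prop) [DecidablePred P] :
    Nat.card ↥({p | 1 ≤ p.1 ∧ p.1 ≤ m ∧ (p.2 = true → P p.1)} : Set (ℕ × Bool)) = m + ((Finset.Icc 1 m).filter P).card := by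
  classical
  have hST : ({p | 1 ≤ p.1 ∧ p.1 ≤ m ∧ (p.2 = true → P p.1)} : Set (ℕ × Bool)) =
      ↑(((Finset.Icc 1 m) ×ˢ ({false} : Finset Bool)) ∪ (((Finset.Icc 1 m).filter P) ×ˢ ({true} : Finset Bool))) := by
    ext ⟨s, b⟩
    cases b <;> simp <;> tauto
  rw [hST, Nat.card_coe_set_eq, Set.ncard_coe_finset, Finset.card_union_of_disjoint]
  · simp
  · rw [Finset.disjoint_left]
    rintro ⟨s, b⟩ h1 h2
    simp only [Finset.mem_product, Finset.mem_singleton] at h1 h2
    rw [h1.2] at h2
    simp at h2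

theorem even_count (m : ℕ) : ((Finset.Icc 1 m).filter Even).card = m / 2 := by
  induction m with
  | zero => simp
  | succ m ih =>
    rw [Finset.card_filter] at ih ⊢
    rw [Finset.sum_Icc_succ_top (by omega), ih]
    by_cases h : Even (m + 1)
    · rw [if_pos h]
      have := Nat.even_iff.mp h
      omega
    · rw [if_neg h]
      have := Nat.not_even_iff.mp h
      omega

theorem even_lt_count (m : ℕ) : ((Finset.Icc 1 m).filter (fun s => Even s ∧ s < m)).card = (m - 1) / 2 := by
  have e : (Finset.Icc 1 m).filter (fun s => Even s ∧ s < m) = (Finset.Icc 1 (m - 1)).filter Even := by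
    ext s
    simp only [Finset.mem_filter, Finset.mem_Icc]
    constructor
    · rintro ⟨⟨h1, h2⟩, h3, h4⟩
      exact ⟨⟨h1, by omega⟩, h3⟩
    · rintro ⟨⟨h1, h2⟩, h3⟩
      exact ⟨⟨h1, by omega⟩, h3, by omega⟩
  rw [e, even_count]

/-- Normal-form parameters. -/
theorem exists_params (s : ℕ) (b : Bool) (h1 : 1 ≤ s) (hb : b = true → Even s) :
    ∃ k t : ℕ, k * 2 + t = s ∧ (t = 0 ↔ b = true) := by
  cases b
  · by_cases h : Even s
    · obtain ⟨r, hr⟩ := h
      exact ⟨r - 1, 2, by omega, by simp⟩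
    · have := Nat.not_even_iff.mp h
      exact ⟨s / 2, 1, by omega, by simp⟩
  · obtain ⟨r, hr⟩ := hb rfl
    exact ⟨r, 0, by omega, by simp⟩

section frame

variable {F : Type*} [Field F] [Fintype F] [CharP F 2] {ι : Type} [Fintype ι] [DecidableEq ι]
variable {Q : QuadraticForm F (ι → F)}

theorem exists_of_frame {L : Type*} [DecidableEq L] (Q : QuadraticForm F (ι → F)) (one sing dual : L → (ι → F)) (G : L → Prop)
    (hoo : ∀ a b, QuadraticMap.polar Q (one a) (one b) = 0)
    (hos : ∀ a b, a ≠ b → G b → QuadraticMap.polar Q (one a) (sing b) = 0)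
    (hss : ∀ a b, G a → G b → QuadraticMap.polar Q (sing a) (sing b) = 0)
    (hod : ∀ a b, QuadraticMap.polar Q (one a) (dual b) = if a = b then 1 else 0)
    (hsd : ∀ a b, G a → QuadraticMap.polar Q (sing a) (dual b) = if a = b then 1 else 0)
    (hQo : ∀ a, Q (one a) = 1) (hQs : ∀ a, G a → Q (sing a) = 0)
    (k t : ℕ) (j : (Fin k × Bool) ⊕ Fin t → L) (hj : Function.Injective j)
    (hG : ∀ i, Sum.map (SpInv.swapB k) (id : Fin t → Fin t) i ≠ i → G (j i)) :
    ∃ g : ↥(Cfsg.isometryGroup F ⇑Q), g * g = 1 ∧ (((g : GL ι F) : Matrix ι ι F) - 1).rank = k * 2 + t ∧ (altP g ↔ t = 0) := by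
  classical
  have hτ : ∀ i, Sum.map (SpInv.swapB k) (id : Fin t → Fin t) (Sum.map (SpInv.swapB k) id i) = i := by
    rintro (⟨p, b⟩ | i) <;> simp [SpInv.swapB]
  obtain ⟨h1, h2, h3⟩ := mk_system Q one sing dual G j hj (Sum.map (SpInv.swapB k) id) hG hoo hos hss hod hsd hQo hQs
  obtain ⟨g, hg1, hg2, hg3⟩ := exists_elt Q _ (fun i => dual (j i)) (Sum.map (SpInv.swapB k) id) hτ h1 h2 h3
  refine ⟨g, hg1, ?_, ?_⟩
  · rw [hg2]
    simp only [Fintype.card_sum, Fintype.card_prod, Fintype.card_fin, Fintype.card_bool]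
  · change (∀ x, _) ↔ _
    rw [hg3]
    constructor
    · intro h
      by_contra ht
      obtain ⟨x⟩ : Nonempty (Fin t) := Fin.pos_iff_nonempty.mp (Nat.pos_of_ne_zero ht)
      exact h (Sum.inr x) (by simp)
    · rintro rfl (⟨p, b⟩ | i)
      · simp [SpInv.swapB]
      · exact i.elim0

theorem order_two_iff (g : ↥(Cfsg.isometryGroup F ⇑Q)) : orderOf g = 2 ↔ g * g = 1 ∧ g ≠ 1 := by
  constructor
  · intro h
    refine ⟨?_, ?_⟩
    · have := pow_orderOf_eq_one g
      rw [h, pow_two] at this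
      exact this
    · rintro rfl
      rw [orderOf_one] at h
      omega
  · rintro ⟨h1, h2⟩
    exact orderOf_eq_prime (by rw [pow_two, h1]) h2

/-- The general count. -/
theorem count_general (hQ : (QuadraticMap.polarBilin Q).Nondegenerate) (m : ℕ) (hc : Fintype.card ι = 2 * m) (P : ℕ → Prop) [DecidablePred P]
    (hP : ∀ g : ↥(Cfsg.isometryGroup F ⇑Q), g * g = 1 → g ≠ 1 → altP g → P (((g : GL ι F) : Matrix ι ι F) - 1).rank)
    (hex : ∀ s b, 1 ≤ s → s ≤ m → (b = true → P s) → ∃ g : ↥(Cfsg.isometryGroup F ⇑Q), g * g = 1 ∧ (((g : GL ι F) : Matrix ι ι F) - 1).rank = s ∧ (altP g ↔ b = true)) :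
    Nat.card {C : ConjClasses ↥(Cfsg.isometryGroup F ⇑Q) // ∃ g, ConjClasses.mk g = C ∧ orderOf g = 2} = m + ((Finset.Icc 1 m).filter P).card := by
  classical
  rw [← card_S]
  refine card_classes_eq (fun g => orderOf g = 2) Phi _ Phi_conj ?_ ?_ ?_
  · intro g g' h1 h2 e
    exact conj_of_Phi hQ g g' ((order_two_iff g).mp h1).1 ((order_two_iff g').mp h2).1 e
  · intro g hg
    obtain ⟨h1, h2⟩ := (order_two_iff g).mp hg
    obtain ⟨b1, b2, b3⟩ := inv_bounds hQ g h1 h2
    refine ⟨b1, by rw [hc] at b2; exact Nat.le_of_mul_le_mul_left b2 (by omega), ?_⟩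
    intro h
    exact hP g h1 h2 (of_decide_eq_true h)
  · rintro ⟨s, b⟩ ⟨h1, h2, h3⟩
    obtain ⟨g, hg1, hg2, hg3⟩ := hex s b h1 h2 h3
    refine ⟨g, (order_two_iff g).mpr ⟨hg1, ?_⟩, ?_⟩
    · rintro rfl
      have h5 : ((((1 : ↥(Cfsg.isometryGroup F ⇑Q)) : GL ι F) : Matrix ι ι F) - 1).rank = 0 := by
        have : (((1 : ↥(Cfsg.isometryGroup F ⇑Q)) : GL ι F) : Matrix ι ι F) = 1 := rfl
        rw [this, sub_self, Matrix.rank_zero]
      omega
    · unfold Phi
      apply Prod.ext
      · exact hg2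
      · change decide (altP g) = b
        cases b
        · simpa using hg3
        · simpa using hg3

end frame

section plus

variable {F : Type*} [Field F] [Fintype F] [CharP F 2] (m : ℕ)

/-- Standard vectors. -/
noncomputable def eP (a : Fin m) : Fin m ⊕ Fin m → F := Pi.single (Sum.inl a) 1
/-- Standard vectors. -/
noncomputable def fP (a : Fin m) : Fin m ⊕ Fin m → F := Pi.single (Sum.inr a) 1

theorem pol_ee (a b : Fin m) : QuadraticMap.polar (quadFormPlus m F) (eP m a) (eP m b) = 0 := by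
  simp [polar_quadFormPlus, eP, Pi.single_apply]

theorem pol_ff (a b : Fin m) : QuadraticMap.polar (quadFormPlus m F) (fP m a) (fP m b) = 0 := by
  simp [polar_quadFormPlus, fP, Pi.single_apply]

theorem pol_ef (a b : Fin m) : QuadraticMap.polar (quadFormPlus m F) (eP m a) (fP m b) = if a = b then 1 else 0 := by
  simp only [polar_quadFormPlus, eP, fP, Pi.single_apply]
  simp [Sum.inl.injEq, Sum.inr.injEq, eq_comm]

theorem q_e (a : Fin m) : quadFormPlus m F (eP m a) = 0 := by
  simp [quadFormPlus, eP, Pi.single_apply]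

theorem q_f (a : Fin m) : quadFormPlus m F (fP m a) = 0 := by
  simp [quadFormPlus, fP, Pi.single_apply]

/-- Existence of involutions in the plus form. -/
theorem exists_plus (s : ℕ) (b : Bool) (h1 : 1 ≤ s) (h2 : s ≤ m) (hb : b = true → Even s) :
    ∃ g : ↥(Cfsg.isometryGroup F ⇑(mkQ (quadFormPlus_nondeg (F := F) m))), g * g = 1 ∧ (((g : GL (Fin m ⊕ Fin m) F) : Matrix (Fin m ⊕ Fin m) (Fin m ⊕ Fin m) F) - 1).rank = s ∧ (altP g ↔ b = true) := by
  classical
  obtain ⟨k, t, hkt, htb⟩ := exists_params s b h1 hb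
  have hcard : Fintype.card ((Fin k × Bool) ⊕ Fin t) ≤ Fintype.card (Fin m) := by
    simp only [Fintype.card_sum, Fintype.card_prod, Fintype.card_fin, Fintype.card_bool]
    omega
  obtain ⟨j⟩ := Function.Embedding.nonempty_of_card_le hcard
  have hpa : ∀ x y z : Fin m ⊕ Fin m → F, QuadraticMap.polar (quadFormPlus m F) (x + y) z = QuadraticMap.polar (quadFormPlus m F) x z + QuadraticMap.polar (quadFormPlus m F) y z :=
    fun x y z => QuadraticMap.polar_add_left (Q := mkQ (quadFormPlus_nondeg (F := F) m)) x y z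
  have hcomm : ∀ x y : Fin m ⊕ Fin m → F, QuadraticMap.polar (quadFormPlus m F) x y = QuadraticMap.polar (quadFormPlus m F) y x :=
    fun x y => QuadraticMap.polar_comm _ x y
  have hfe : ∀ a b : Fin m, QuadraticMap.polar (quadFormPlus m F) (fP m a) (eP m b) = if b = a then 1 else 0 := by
    intro a b
    rw [hcomm, pol_ef]
  obtain ⟨g, hg1, hg2, hg3⟩ := exists_of_frame (mkQ (quadFormPlus_nondeg (F := F) m)) (fun a => eP m a + fP m a) (eP m) (fP m) (fun _ => True)
    (by
      intro a b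
      change QuadraticMap.polar (quadFormPlus m F) _ _ = 0
      rw [hpa, hcomm (eP m a), hcomm (fP m a), hpa, hpa, pol_ee, hfe, pol_ef, pol_ff]
      by_cases hab : a = b
      · subst hab
        simp only [if_true, zero_add, add_zero]
        exact CharTwo.add_self_eq_zero (1 : F)
      · simp [hab, Ne.symm hab])
    (by
      intro a b hab _
      change QuadraticMap.polar (quadFormPlus m F) _ _ = 0
      rw [hpa, pol_ee, hfe, if_neg (Ne.symm hab), add_zero])
    (by
      intro a b _ _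
      exact pol_ee m a b)
    (by
      intro a b
      change QuadraticMap.polar (quadFormPlus m F) _ _ = _
      rw [hpa, pol_ef, pol_ff, add_zero])
    (by
      intro a b _
      exact pol_ef m a b)
    (by
      intro a
      change mkQ (quadFormPlus_nondeg (F := F) m) (eP m a + fP m a) = 1
      rw [q_add]
      change quadFormPlus m F _ + quadFormPlus m F _ + QuadraticMap.polar (quadFormPlus m F) _ _ = 1
      rw [q_e, q_f, pol_ef, if_pos rfl]
      ring)
    (by
      intro a _
      exact q_e m a)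
    k t j j.injective (fun _ _ => trivial)
  refine ⟨g, hg1, by rw [hg2, hkt], ?_⟩
  rw [hg3, htb]

/-- Number of classes of involutions of the plus form. -/
theorem count_plus : Nat.card {C : ConjClasses ↥(Cfsg.isometryGroup F ⇑(mkQ (quadFormPlus_nondeg (F := F) m))) // ∃ g, ConjClasses.mk g = C ∧ orderOf g = 2} = m + m / 2 := by
  classical
  rw [count_general (mkQ_nondeg _) m (by simp [two_mul]) Even ?_ ?_, even_count]
  · intro g h1 h2 h3
    exact (inv_bounds (mkQ_nondeg _) g h1 h2).2.2 h3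
  · intro s b h1 h2 h3
    exact exists_plus m s b h1 h2 h3

end plus

end CfsgLib.ClassGeo.InvC
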