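import Mathlib
import Cfsg.Agent.Lib.ClassGeo.InvCount2

set_option autoImplicit false
set_option linter.unusedSimpArgs false
set_option linter.unusedVariables false
set_option linter.unusedSectionVars false

namespace CfsgLib.ClassGeo.InvC

open Module Matrix Cfsg CfsgLib.ClassGeo CfsgLib.ClassGeo.Orth CfsgLib.ClassGeo.OSpin CfsgLib.ClassGeo.OInv

section minus

variable {F : Type*} [Field F] [Fintype F] [CharP F 2] (n : ℕ) (a b : F)

/-- Standard vectors. -/
noncomputable def eM (x : Fin n) : (Fin n ⊕ Fin n) ⊕ Fin 2 → F := Pi.single (Sum.inl (Sum.inl x)) 1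
/-- Standard vectors. -/
noncomputable def fM (x : Fin n) : (Fin n ⊕ Fin n) ⊕ Fin 2 → F := Pi.single (Sum.inl (Sum.inr x)) 1
/-- The vector of the anisotropic plane of value one. -/
noncomputable def zM : (Fin n ⊕ Fin n) ⊕ Fin 2 → F := Pi.single (Sum.inr 0) 1
/-- Its partner. -/
noncomputable def wM : (Fin n ⊕ Fin n) ⊕ Fin 2 → F := a⁻¹ • Pi.single (Sum.inr 1) 1

theorem mol_ee (x y : Fin n) : QuadraticMap.polar (quadFormMinus n F a b) (eM n x) (eM n y) = 0 := by
  simp [polar_quadFormMinus, eM, Pi.single_apply]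

theorem mol_ff (x y : Fin n) : QuadraticMap.polar (quadFormMinus n F a b) (fM n x) (fM n y) = 0 := by
  simp [polar_quadFormMinus, fM, Pi.single_apply]

theorem mol_ef (x y : Fin n) : QuadraticMap.polar (quadFormMinus n F a b) (eM n x) (fM n y) = if x = y then 1 else 0 := by
  simp only [polar_quadFormMinus, eM, fM, Pi.single_apply]
  simp [Sum.inl.injEq, Sum.inr.injEq, eq_comm]

theorem mol_ez (x : Fin n) : QuadraticMap.polar (quadFormMinus n F a b) (eM n x) (zM n) = 0 := by
  simp [polar_quadFormMinus, eM, zM, Pi.single_apply]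

theorem mol_fz (x : Fin n) : QuadraticMap.polar (quadFormMinus n F a b) (fM n x) (zM n) = 0 := by
  simp [polar_quadFormMinus, fM, zM, Pi.single_apply]

theorem mol_ew (x : Fin n) : QuadraticMap.polar (quadFormMinus n F a b) (eM n x) (wM n a) = 0 := by
  simp [polar_quadFormMinus, eM, wM, Pi.single_apply]

theorem mol_fw (x : Fin n) : QuadraticMap.polar (quadFormMinus n F a b) (fM n x) (wM n a) = 0 := by
  simp [polar_quadFormMinus, fM, wM, Pi.single_apply]

theorem mol_zz : QuadraticMap.polar (quadFormMinus n F a b) (zM n) (zM n) = 0 := by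
  simp [polar_quadFormMinus, zM, Pi.single_apply, CharTwo.two_eq_zero]

theorem mol_zw (ha : a ≠ 0) : QuadraticMap.polar (quadFormMinus n F a b) (zM n) (wM n a) = 1 := by
  simp [polar_quadFormMinus, zM, wM, Pi.single_apply, ha, CharTwo.two_eq_zero]

theorem qm_e (x : Fin n) : quadFormMinus n F a b (eM n x) = 0 := by
  simp [quadFormMinus, eM, Pi.single_apply]

theorem qm_f (x : Fin n) : quadFormMinus n F a b (fM n x) = 0 := by
  simp [quadFormMinus, fM, Pi.single_apply]

theorem qm_z : quadFormMinus n F a b (zM n) = 1 := by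
  simp [quadFormMinus, zM, Pi.single_apply]

variable {a b}

theorem aniso_ne (hab : ∀ z₁ z₂ : F, z₁ ^ 2 + a * z₁ * z₂ + b * z₂ ^ 2 = 0 → z₁ = 0 ∧ z₂ = 0) : a ≠ 0 := by
  rintro rfl
  obtain ⟨s, hs⟩ := SpInv.exists_sqrt b
  have := (hab s 1 (by
    rw [hs]
    have := CharTwo.add_self_eq_zero b
    linear_combination this)).2
  exact one_ne_zero this

/-- Existence of involutions in the minus form. -/
theorem exists_minus (hab : ∀ z₁ z₂ : F, z₁ ^ 2 + a * z₁ * z₂ + b * z₂ ^ 2 = 0 → z₁ = 0 ∧ z₂ = 0)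
    (s : ℕ) (c : Bool) (h1 : 1 ≤ s) (h2 : s ≤ n + 1) (hb : c = true → Even s ∧ s < n + 1) :
    ∃ g : ↥(Cfsg.isometryGroup F ⇑(mkQ (quadFormMinus_nondeg (F := F) n a b hab))), g * g = 1 ∧
      (((g : GL ((Fin n ⊕ Fin n) ⊕ Fin 2) F) : Matrix ((Fin n ⊕ Fin n) ⊕ Fin 2) ((Fin n ⊕ Fin n) ⊕ Fin 2) F) - 1).rank = s ∧ (altP g ↔ c = true) := by
  classical
  have ha := aniso_ne hab
  obtain ⟨k, t, hkt, htb⟩ := exists_params s c h1 (fun h => (hb h).1)
  -- the index map
  obtain ⟨j, hj, hjn⟩ : ∃ j : (Fin k × Bool) ⊕ Fin t → Option (Fin n), Function.Injective j ∧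
      ∀ i, Sum.map (SpInv.swapB k) (id : Fin t → Fin t) i ≠ i → j i ≠ none := by
    by_cases hs : s ≤ n
    · have hcard : Fintype.card ((Fin k × Bool) ⊕ Fin t) ≤ Fintype.card (Fin n) := by
        simp only [Fintype.card_sum, Fintype.card_prod, Fintype.card_fin, Fintype.card_bool]
        omega
      obtain ⟨j₀⟩ := Function.Embedding.nonempty_of_card_le hcard
      exact ⟨fun i => some (j₀ i), fun x y h => j₀.injective (Option.some.inj h), fun i _ => by simp⟩
    · have hsn : s = n + 1 := by omega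
      have hc : c = false := by
        cases c
        · rfl
        · have := (hb rfl).2
          omega
      have ht : t ≠ 0 := by
        intro h0
        have := htb.mp h0
        rw [hc] at this
        simp at this
      obtain ⟨x⟩ : Nonempty (Fin t) := Fin.pos_iff_nonempty.mp (Nat.pos_of_ne_zero ht)
      have hcard : Fintype.card ((Fin k × Bool) ⊕ Fin t) = Fintype.card (Option (Fin n)) := by
        simp only [Fintype.card_sum, Fintype.card_prod, Fintype.card_fin, Fintype.card_bool, Fintype.card_option]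
        omega
      obtain ⟨e⟩ : Nonempty (((Fin k × Bool) ⊕ Fin t) ≃ Option (Fin n)) := ⟨Fintype.equivOfCardEq hcard⟩
      refine ⟨e.trans (Equiv.swap (e (Sum.inr x)) none), Equiv.injective _, ?_⟩
      intro i hi h0
      have h3 : (e.trans (Equiv.swap (e (Sum.inr x)) none)) (Sum.inr x) = none := by
        simp
      have h4 : i = Sum.inr x := (e.trans (Equiv.swap (e (Sum.inr x)) none)).injective (h0.trans h3.symm)
      rw [h4] at hi
      simp at hi
  have hpa : ∀ x y z : (Fin n ⊕ Fin n) ⊕ Fin 2 → F, QuadraticMap.polar (quadFormMinus n F a b) (x + y) z = QuadraticMap.polar (quadFormMinus n F a b) x z + QuadraticMap.polar (quadFormMinus n F a b) y z :=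
    fun x y z => QuadraticMap.polar_add_left (Q := mkQ (quadFormMinus_nondeg (F := F) n a b hab)) x y z
  have hcomm : ∀ x y : (Fin n ⊕ Fin n) ⊕ Fin 2 → F, QuadraticMap.polar (quadFormMinus n F a b) x y = QuadraticMap.polar (quadFormMinus n F a b) y x :=
    fun x y => QuadraticMap.polar_comm _ x y
  have hfe : ∀ x y : Fin n, QuadraticMap.polar (quadFormMinus n F a b) (fM n x) (eM n y) = if y = x then 1 else 0 := by
    intro x y
    rw [hcomm, mol_ef]
  obtain ⟨g, hg1, hg2, hg3⟩ := exists_of_frame (mkQ (quadFormMinus_nondeg (F := F) n a b hab))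
    (fun o => match o with
      | none => zM n
      | some x => eM n x + fM n x)
    (fun o => match o with
      | none => 0
      | some x => eM n x)
    (fun o => match o with
      | none => wM n a
      | some x => fM n x)
    (fun o => o ≠ none)
    (by
      rintro (_ | x) (_ | y)
      · exact mol_zz n a b
      · change QuadraticMap.polar (quadFormMinus n F a b) (zM n) (eM n y + fM n y) = 0
        rw [hcomm, hpa, mol_ez, mol_fz, add_zero]
      · change QuadraticMap.polar (quadFormMinus n F a b) (eM n x + fM n x) (zM n) = 0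
        rw [hpa, mol_ez, mol_fz, add_zero]
      · change QuadraticMap.polar (quadFormMinus n F a b) (eM n x + fM n x) (eM n y + fM n y) = 0
        rw [hpa, hcomm (eM n x), hcomm (fM n x), hpa, hpa, mol_ee, hfe, mol_ef, mol_ff]
        by_cases hxy : x = y
        · subst hxy
          simp only [if_true, zero_add, add_zero]
          exact CharTwo.add_self_eq_zero (1 : F)
        · simp [hxy, Ne.symm hxy])
    (by
      rintro (_ | x) (_ | y) hne hG
      · exact absurd rfl hne
      · change QuadraticMap.polar (quadFormMinus n F a b) (zM n) (eM n y) = 0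
        rw [hcomm, mol_ez]
      · exact absurd rfl hG
      · change QuadraticMap.polar (quadFormMinus n F a b) (eM n x + fM n x) (eM n y) = 0
        have hxy : y ≠ x := fun h => hne (by rw [h])
        rw [hpa, mol_ee, hfe, if_neg hxy, add_zero])
    (by
      rintro (_ | x) (_ | y) h1 h2
      · exact absurd rfl h1
      · exact absurd rfl h1
      · exact absurd rfl h2
      · exact mol_ee n a b x y)
    (by
      rintro (_ | x) (_ | y)
      · change QuadraticMap.polar (quadFormMinus n F a b) (zM n) (wM n a) = _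
        rw [mol_zw n a b ha]
        simp
      · change QuadraticMap.polar (quadFormMinus n F a b) (zM n) (fM n y) = _
        rw [hcomm, mol_fz]
        simp
      · change QuadraticMap.polar (quadFormMinus n F a b) (eM n x + fM n x) (wM n a) = _
        rw [hpa, mol_ew, mol_fw, add_zero]
        simp
      · change QuadraticMap.polar (quadFormMinus n F a b) (eM n x + fM n x) (fM n y) = _
        rw [hpa, mol_ef, mol_ff, add_zero]
        simp)
    (by
      rintro (_ | x) (_ | y) h1
      · exact absurd rfl h1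
      · exact absurd rfl h1
      · change QuadraticMap.polar (quadFormMinus n F a b) (eM n x) (wM n a) = _
        rw [mol_ew]
        simp
      · change QuadraticMap.polar (quadFormMinus n F a b) (eM n x) (fM n y) = _
        rw [mol_ef]
        simp)
    (by
      rintro (_ | x)
      · exact qm_z n a b
      · change mkQ (quadFormMinus_nondeg (F := F) n a b hab) (eM n x + fM n x) = 1
        rw [q_add]
        change quadFormMinus n F a b _ + quadFormMinus n F a b _ + QuadraticMap.polar (quadFormMinus n F a b) _ _ = 1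
        rw [qm_e, qm_f, mol_ef, if_pos rfl]
        ring)
    (by
      rintro (_ | x) h1
      · exact absurd rfl h1
      · exact qm_e n a b x)
    k t j hj hjn
  refine ⟨g, hg1, by rw [hg2, hkt], ?_⟩
  rw [hg3, htb]

/-- Number of classes of involutions of the minus form. -/
theorem count_minus (hab : ∀ z₁ z₂ : F, z₁ ^ 2 + a * z₁ * z₂ + b * z₂ ^ 2 = 0 → z₁ = 0 ∧ z₂ = 0) :
    Nat.card {C : ConjClasses ↥(Cfsg.isometryGroup F ⇑(mkQ (quadFormMinus_nondeg (F := F) n a b hab))) // ∃ g, ConjClasses.mk g = C ∧ orderOf g = 2} = (n + 1) + (n + 1 - 1) / 2 := by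
  classical
  have hnd := mkQ_nondeg (quadFormMinus_nondeg (F := F) n a b hab)
  rw [count_general hnd (n + 1) (by simp only [Fintype.card_sum, Fintype.card_fin]; omega) (fun s => Even s ∧ s < n + 1) ?_ ?_, even_lt_count]
  · intro g h1 h2 h3
    obtain ⟨b1, b2, b3⟩ := inv_bounds hnd g h1 h2
    refine ⟨b3 h3, ?_⟩
    simp only [Fintype.card_sum, Fintype.card_fin] at b2
    by_contra hlt
    have hr : (((g : GL ((Fin n ⊕ Fin n) ⊕ Fin 2) F) : Matrix ((Fin n ⊕ Fin n) ⊕ Fin 2) ((Fin n ⊕ Fin n) ⊕ Fin 2) F) - 1).rank = n + 1 := by omega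
    obtain ⟨_, _, _, ka3⟩ := key_facts g h1
    have hb := CfsgLib.H9.QuadSing.singular_bound_minus a b hab (LinearMap.range (nOf g.1)) (by
      rintro _ ⟨y, rfl⟩
      have := ka3 y
      rw [h3 y] at this
      exact this)
    have : finrank F (LinearMap.range (nOf g.1)) = n + 1 := hr
    omega
  · intro s c h1 h2 h3
    exact exists_minus n hab s c h1 h2 h3

end minus

section sp

variable {F : Type*} [Field F] [Fintype F] [CharP F 2] {m : ℕ}

theorem symp_eq_polar (u v : Fin m ⊕ Fin m → F) : sympForm m F u v = QuadraticMap.polar (quadFormPlus m F) u v := by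
  rw [symp_apply, polar_quadFormPlus]
  refine Finset.sum_congr rfl (fun i _ => ?_)
  rw [CharTwo.sub_eq_add]
  ring

theorem sp_key (c : ↥(Matrix.symplecticGroup (Fin m) F)) (hc : c * c = 1) :
    (∀ y, SpInv.nM c.1 (SpInv.nM c.1 y) = 0) ∧ (∀ y z, sympBilin (F := F) m (SpInv.nM c.1 y) z = sympBilin (F := F) m y (SpInv.nM c.1 z)) ∧
    (∀ v, sympForm m F v (c.1 *ᵥ v) = sympBilin (F := F) m (SpInv.nM c.1 v) v) := by
  have hsymm := SpInv.symp_symm (F := F) (m := m)
  have hA := sympBilin_isAlt (F := F) m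
  have h1 : ∀ y, c.1 *ᵥ (c.1 *ᵥ y) = y := by
    intro y
    have e : c.1 * c.1 = 1 := congrArg Subtype.val hc
    rw [Matrix.mulVec_mulVec, e, Matrix.one_mulVec]
  have hiso := (mem_sp_iff _).mp c.2
  have hadj : ∀ y z, sympBilin (F := F) m (SpInv.nM c.1 y) z = sympBilin (F := F) m y (SpInv.nM c.1 z) := by
    intro y z
    rw [SpInv.nM_apply, SpInv.nM_apply]
    simp only [map_sub, LinearMap.sub_apply, sympBilin_apply]
    have := hiso (c.1 *ᵥ y) z
    rw [h1] at this
    rw [← this]
  refine ⟨?_, hadj, ?_⟩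
  · intro y
    rw [SpInv.nM_apply, SpInv.nM_apply, Matrix.mulVec_sub, h1]
    ext i
    simp only [Pi.sub_apply, Pi.zero_apply]
    have e := CharTwo.add_self_eq_zero (y i - (c.1 *ᵥ y) i)
    linear_combination e
  · intro v
    have e1 : c.1 *ᵥ v = SpInv.nM c.1 v + v := by
      rw [SpInv.nM_apply]
      abel
    rw [e1, ← sympBilin_apply, map_add, hA.self_eq_zero, add_zero, hsymm]

theorem sp_order_two_iff (g : ↥(Matrix.symplecticGroup (Fin m) F)) : orderOf g = 2 ↔ g * g = 1 ∧ g ≠ 1 := by
  constructor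
  · intro h
    refine ⟨?_, ?_⟩
    · have := pow_orderOf_eq_one g
      rw [h, pow_two] at this
      exact this
    · rintro rfl
      rw [orderOf_one] at h
      omega
  · rintro ⟨h1, h2⟩
    exact orderOf_eq_prime (by rw [pow_two, h1]) h2

open Classical in
/-- The complete invariant in the symplectic group. -/
noncomputable def PhiS (g : ↥(Matrix.symplecticGroup (Fin m) F)) : ℕ × Bool :=
  ((g.1 - 1).rank, decide (∀ v, sympForm m F v (g.1 *ᵥ v) = 0))

theorem altS_conj (g c : ↥(Matrix.symplecticGroup (Fin m) F)) (h : ∀ v, sympForm m F v (g.1 *ᵥ v) = 0) :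
    ∀ v, sympForm m F v ((c * g * c⁻¹).1 *ᵥ v) = 0 := by
  intro v
  obtain ⟨y, hy⟩ : ∃ y, y = (c⁻¹).1 *ᵥ v := ⟨_, rfl⟩
  have e : c.1 *ᵥ y = v := by
    rw [hy, Matrix.mulVec_mulVec]
    have : c.1 * (c⁻¹).1 = 1 := congrArg Subtype.val (mul_inv_cancel c)
    rw [this, Matrix.one_mulVec]
  have e2 : (c * g * c⁻¹).1 *ᵥ v = c.1 *ᵥ (g.1 *ᵥ y) := by
    change (c.1 * g.1 * (c⁻¹).1) *ᵥ v = _
    rw [← Matrix.mulVec_mulVec, ← Matrix.mulVec_mulVec, ← hy]
  rw [e2, ← e, e, ← e]
  rw [(mem_sp_iff _).mp c.2]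
  exact h y

theorem PhiS_conj (g g' : ↥(Matrix.symplecticGroup (Fin m) F)) (h : IsConj g g') : PhiS g = PhiS g' := by
  classical
  obtain ⟨c, rfl⟩ := isConj_iff.mp h
  unfold PhiS
  have e2 : (∀ v, sympForm m F v (g.1 *ᵥ v) = 0) ↔ (∀ v, sympForm m F v ((c * g * c⁻¹).1 *ᵥ v) = 0) := by
    constructor
    · exact altS_conj g c
    · intro h3
      have := altS_conj (c * g * c⁻¹) c⁻¹ h3
      have e3 : c⁻¹ * (c * g * c⁻¹) * c⁻¹⁻¹ = g := by group
      rwa [e3] at this
  apply Prod.ext
  · have e0 : c.1 * (c⁻¹).1 = 1 := congrArg Subtype.val (mul_inv_cancel c)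
    have e : (c * g * c⁻¹).1 - 1 = c.1 * (g.1 - 1) * (c⁻¹).1 := by
      have e1 : (c * g * c⁻¹).1 = c.1 * g.1 * (c⁻¹).1 := rfl
      rw [mul_sub, sub_mul, mul_one, e0, ← e1]
    have hu : IsUnit (c.1).det := (Matrix.isUnit_iff_isUnit_det _).mp (IsUnit.of_mul_eq_one _ e0)
    have hu' : IsUnit ((c⁻¹).1).det := by
      have e0' : (c⁻¹).1 * c.1 = 1 := congrArg Subtype.val (inv_mul_cancel c)
      exact (Matrix.isUnit_iff_isUnit_det _).mp (IsUnit.of_mul_eq_one _ e0')
    change (g.1 - 1).rank = ((c * g * c⁻¹).1 - 1).rank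
    rw [e, Matrix.rank_mul_eq_left_of_isUnit_det _ _ hu', Matrix.rank_mul_eq_right_of_isUnit_det _ _ hu]
  · simp only [e2]

theorem conj_of_PhiS (a b : ↥(Matrix.symplecticGroup (Fin m) F)) (ha : a * a = 1) (hb : b * b = 1) (h : PhiS a = PhiS b) : IsConj a b := by
  classical
  have hsymm := SpInv.symp_symm (F := F) (m := m)
  have hA := sympBilin_isAlt (F := F) m
  obtain ⟨ka1, ka2, ka3⟩ := sp_key a ha
  obtain ⟨kb1, kb2, kb3⟩ := sp_key b hb
  have hsep := sympBilin_sep (F := F) m
  unfold PhiS at h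
  have hr := congrArg Prod.fst h
  have hal := congrArg Prod.snd h
  simp only [decide_eq_decide] at hal
  obtain ⟨g, hg, hgN⟩ := SpInv.conj_of_invariants hA hsymm hsep (SpInv.nM a.1) (SpInv.nM b.1) ka1 ka2 kb1 kb2 hr (by
    intro _
    constructor
    · intro h0 v
      rw [← kb3]
      exact hal.mp (fun v => by rw [ka3]; exact h0 v) v
    · intro h0 v
      rw [← ka3]
      exact hal.mpr (fun v => by rw [kb3]; exact h0 v) v)
  obtain ⟨c, hc⟩ : ∃ c, c = (spEquiv m).symm (⟨g, hg⟩ : fIsom (F := F) (sympForm m F)) := ⟨_, rfl⟩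
  have hcg : ∀ v, c.1 *ᵥ v = g v := by
    intro v
    have h1 : spEquiv m c = (⟨g, hg⟩ : fIsom (F := F) (sympForm m F)) := by
      rw [hc, MulEquiv.apply_symm_apply]
    have h2 := spEquiv_apply m c v
    rw [h1] at h2
    exact h2.symm
  rw [isConj_iff]
  refine ⟨c, ?_⟩
  rw [mul_inv_eq_iff_eq_mul]
  apply Subtype.ext
  change c.1 * a.1 = b.1 * c.1
  apply matrix_eq_of_mulVec
  intro v
  rw [← Matrix.mulVec_mulVec, ← Matrix.mulVec_mulVec, hcg, hcg]
  have := hgN v
  rw [SpInv.nM_apply, SpInv.nM_apply, map_sub, sub_left_inj] at this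
  exact this

/-- Number of classes of involutions in the symplectic group. -/
theorem count_sp : Nat.card {C : ConjClasses ↥(Matrix.symplecticGroup (Fin m) F) // ∃ g : Matrix.symplecticGroup (Fin m) F, ConjClasses.mk g = C ∧ orderOf g = 2} = m + m / 2 := by
  classical
  have e := card_S m Even
  rw [even_count] at e
  rw [← e]
  refine card_classes_eq (fun g => orderOf g = 2) PhiS _ PhiS_conj ?_ ?_ ?_
  · intro g g' h1 h2 he
    exact conj_of_PhiS g g' ((sp_order_two_iff g).mp h1).1 ((sp_order_two_iff g').mp h2).1 he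
  · intro g hg
    obtain ⟨h1, h2⟩ := (sp_order_two_iff g).mp hg
    obtain ⟨ka1, ka2, ka3⟩ := sp_key g h1
    have hR : (g.1 - 1).rank = finrank F (LinearMap.range (SpInv.nM g.1)) := rfl
    refine ⟨?_, ?_, ?_⟩
    · change 1 ≤ (g.1 - 1).rank
      by_contra hc
      have h4 : finrank F (LinearMap.range (SpInv.nM g.1)) = 0 := by
        rw [← hR]
        omega
      have h5 : LinearMap.range (SpInv.nM g.1) = ⊥ := Submodule.finrank_eq_zero.mp h4
      apply h2
      apply Subtype.ext
      apply matrix_eq_of_mulVec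
      intro v
      have h6 : SpInv.nM g.1 v ∈ LinearMap.range (SpInv.nM g.1) := ⟨v, rfl⟩
      rw [h5, Submodule.mem_bot, SpInv.nM_apply, sub_eq_zero] at h6
      rw [h6]
      simp
    · change (g.1 - 1).rank ≤ m
      have h3 := LinearMap.finrank_range_add_finrank_ker (SpInv.nM g.1)
      have h4 : LinearMap.range (SpInv.nM g.1) ≤ LinearMap.ker (SpInv.nM g.1) := by
        rintro _ ⟨y, rfl⟩
        exact ka1 y
      have h5 := Submodule.finrank_mono h4
      rw [finrank_fintype_fun_eq_card] at h3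
      simp only [Fintype.card_sum, Fintype.card_fin] at h3
      rw [hR]
      omega
    · intro hal
      have hal' : ∀ v, sympForm m F v (g.1 *ᵥ v) = 0 := of_decide_eq_true hal
      have hsymm := SpInv.symp_symm (F := F) (m := m)
      have hA := sympBilin_isAlt (F := F) m
      obtain ⟨k, t, z, ht, hz, hform, ht0, ht1⟩ := SpInv.classify hA hsymm (sympBilin_sep (F := F) m) (SpInv.nM g.1) ka1 ka2
      have hτ : ∀ i, Sum.map (SpInv.swapB k) (id : Fin t → Fin t) (Sum.map (SpInv.swapB k) id i) = i := by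
        rintro (⟨p, b⟩ | i) <;> simp [SpInv.swapB]
      have hli := SpInv.sys_li hsymm (SpInv.nM g.1) ka1 ka2 hτ hz
      have hk := SpInv.rank_eq (SpInv.nM g.1) hli hform
      simp only [Fintype.card_sum, Fintype.card_prod, Fintype.card_fin, Fintype.card_bool] at hk
      have h0' : t = 0 := by
        by_contra hne
        obtain ⟨v, hv⟩ := ht1 hne
        apply hv
        rw [← ka3]
        exact hal' v
      change Even (g.1 - 1).rank
      rw [hR, hk, h0']
      exact ⟨k, by ring⟩
  · rintro ⟨s, b⟩ ⟨h1, h2, h3⟩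
    obtain ⟨g, hg1, hg2, hg3⟩ := exists_plus (F := F) m s b h1 h2 h3
    -- the symplectic element
    have hmem : ((g : GL (Fin m ⊕ Fin m) F) : Matrix (Fin m ⊕ Fin m) (Fin m ⊕ Fin m) F) ∈ Matrix.symplecticGroup (Fin m) F := by
      rw [mem_sp_iff]
      intro u v
      rw [symp_eq_polar, symp_eq_polar]
      exact polar_mat g u v
    have e1 : (⟨_, hmem⟩ : ↥(Matrix.symplecticGroup (Fin m) F)) * ⟨_, hmem⟩ = 1 := by
      apply Subtype.ext
      have := congrArg (fun x : ↥(Cfsg.isometryGroup F ⇑(mkQ (quadFormPlus_nondeg (F := F) m))) => ((x : GL (Fin m ⊕ Fin m) F) : Matrix (Fin m ⊕ Fin m) (Fin m ⊕ Fin m) F)) hg1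
      exact this
    have hne : (⟨_, hmem⟩ : ↥(Matrix.symplecticGroup (Fin m) F)) ≠ 1 := by
      intro h0
      have h4 : ((g : GL (Fin m ⊕ Fin m) F) : Matrix (Fin m ⊕ Fin m) (Fin m ⊕ Fin m) F) = 1 := congrArg Subtype.val h0
      rw [h4, sub_self, Matrix.rank_zero] at hg2
      omega
    refine ⟨⟨_, hmem⟩, (sp_order_two_iff _).mpr ⟨e1, hne⟩, ?_⟩
    unfold PhiS
    apply Prod.ext
    · exact hg2
    · change decide _ = b
      have hiff : (∀ v, sympForm m F v (((g : GL (Fin m ⊕ Fin m) F) : Matrix (Fin m ⊕ Fin m) (Fin m ⊕ Fin m) F) *ᵥ v) = 0) ↔ altP g := by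
        have hh : ∀ v, sympForm m F v (((g : GL (Fin m ⊕ Fin m) F) : Matrix (Fin m ⊕ Fin m) (Fin m ⊕ Fin m) F) *ᵥ v) = QuadraticMap.polarBilin (mkQ (quadFormPlus_nondeg (F := F) m)) (nOf g.1 v) v := by
          intro v
          have e3 : ((g : GL (Fin m ⊕ Fin m) F) : Matrix (Fin m ⊕ Fin m) (Fin m ⊕ Fin m) F) *ᵥ v = nOf g.1 v + v := by
            rw [nOf_apply]
            abel
          rw [e3, symp_eq_polar, QuadraticMap.polarBilin_apply_apply, QuadraticMap.polar_comm]
          change QuadraticMap.polar (mkQ (quadFormPlus_nondeg (F := F) m)) _ _ = _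
          rw [QuadraticMap.polar_add_left, QuadraticMap.polar_self, two_smul, CharTwo.add_self_eq_zero, add_zero]
        constructor
        · intro h5 v
          rw [← hh]
          exact h5 v
        · intro h5 v
          rw [hh]
          exact h5 v
      have h6 := hiff.trans hg3
      simp only [h6]
      cases b <;> simp

end sp

end CfsgLib.ClassGeo.InvC
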