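import Mathlib
import Cfsg.Agent.Lib.ClassGeo.InvCount3

/-! Classes of involutions of `Ω⁺` and `Ω⁻` in characteristic two. -/

set_option autoImplicit false
set_option linter.unusedSimpArgs false
set_option linter.unusedVariables false
set_option linter.unusedSectionVars false

namespace CfsgLib.ClassGeo.InvC

open Module Matrix Cfsg CfsgLib.ClassGeo CfsgLib.ClassGeo.Orth CfsgLib.ClassGeo.OSpin CfsgLib.ClassGeo.OInv

theorem card_S_minus (m : ℕ) : Nat.card ↥({p | Even p.1 ∧ 1 ≤ p.1 ∧ p.1 ≤ m ∧ (p.2 = true → p.1 < m)} : Set (ℕ × Bool)) = m / 2 + (m - 1) / 2 := by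
  classical
  have hST : ({p | Even p.1 ∧ 1 ≤ p.1 ∧ p.1 ≤ m ∧ (p.2 = true → p.1 < m)} : Set (ℕ × Bool)) =
      ↑((((Finset.Icc 1 m).filter Even) ×ˢ ({false} : Finset Bool)) ∪ (((Finset.Icc 1 m).filter (fun s => Even s ∧ s < m)) ×ˢ ({true} : Finset Bool))) := by
    ext ⟨s, b⟩
    cases b <;> simp <;> tauto
  rw [hST, Nat.card_coe_set_eq, Set.ncard_coe_finset, Finset.card_union_of_disjoint]
  · simp [even_count, even_lt_count]
  · rw [Finset.disjoint_left]
    rintro ⟨s, b⟩ h1 h2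
    simp only [Finset.mem_product, Finset.mem_singleton] at h1 h2
    rw [h1.2] at h2
    simp at h2

theorem card_S_plus (m : ℕ) (hm : 1 ≤ m) : Nat.card ↥({x | Even x.1.1 ∧ 1 ≤ x.1.1 ∧ x.1.1 ≤ m ∧ (x.2 = true → x.1.1 = m ∧ x.1.2 = true)} : Set ((ℕ × Bool) × Bool)) = 2 * (m / 2) + (if Even m then 1 else 0) := by
  classical
  by_cases hme : Even m
  · have hST : ({x | Even x.1.1 ∧ 1 ≤ x.1.1 ∧ x.1.1 ≤ m ∧ (x.2 = true → x.1.1 = m ∧ x.1.2 = true)} : Set ((ℕ × Bool) × Bool)) = ↑((((Finset.Icc 1 m).filter Even ×ˢ (Finset.univ : Finset Bool)) ×ˢ ({false} : Finset Bool)) ∪ ({((m, true), true)} : Finset ((ℕ × Bool) × Bool))) := by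
      ext ⟨⟨s, b⟩, c⟩
      cases c
      · simp
        tauto
      · simp
        constructor
        · rintro ⟨_, _, _, h1, h2⟩
          exact ⟨h1, h2⟩
        · rintro ⟨h1, h2⟩
          rw [h1]
          exact ⟨hme, hm, le_rfl, rfl, h2⟩
    rw [hST, Nat.card_coe_set_eq, Set.ncard_coe_finset, Finset.card_union_of_disjoint]
    · simp [even_count, hme]
      ring
    · rw [Finset.disjoint_left]
      rintro ⟨⟨s, b⟩, c⟩ h1 h2
      simp at h1 h2
      have := h1.2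
      have := h2.2
      simp_all
  · have hST : ({x | Even x.1.1 ∧ 1 ≤ x.1.1 ∧ x.1.1 ≤ m ∧ (x.2 = true → x.1.1 = m ∧ x.1.2 = true)} : Set ((ℕ × Bool) × Bool)) = ↑(((Finset.Icc 1 m).filter Even ×ˢ (Finset.univ : Finset Bool)) ×ˢ ({false} : Finset Bool)) := by
      ext ⟨⟨s, b⟩, c⟩
      cases c
      · simp
        tauto
      · simp
        rintro h1 _ _ h4
        exact absurd (h4 ▸ h1) hme
    rw [hST, Nat.card_coe_set_eq, Set.ncard_coe_finset]
    simp [even_count, hme]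
    ring

section gen

variable {F : Type*} [Field F] [Fintype F] [CharP F 2] {ι : Type} [Fintype ι] [DecidableEq ι]
variable {Q : QuadraticForm F (ι → F)}

theorem count_omega_phi (hQ : (QuadraticMap.polarBilin Q).Nondegenerate) (hc4 : Fintype.card F ≠ 2 ∨ Fintype.card ι ≠ 4) (hn : 2 ≤ Fintype.card ι) (S : Set (ℕ × Bool))
    (hfix : ∀ t : ↥(Cfsg.isometryGroup F ⇑Q), t * t = 1 → t ≠ 1 → ¬ (∀ v, ((t : GL ι F) : Matrix ι ι F) *ᵥ v = v → Q v = 0))
    (h3 : ∀ g : ↥(Cfsg.isometryGroup F ⇑Q), g * g = 1 → g ≠ 1 → Even (((g : GL ι F) : Matrix ι ι F) - 1).rank → Phi g ∈ S)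
    (h4 : ∀ x ∈ S, ∃ g : ↥(Cfsg.isometryGroup F ⇑Q), g * g = 1 ∧ g ≠ 1 ∧ Even (((g : GL ι F) : Matrix ι ι F) - 1).rank ∧ Phi g = x) :
    Nat.card {C : ConjClasses ↥(Cfsg.Omega F ⇑Q) // ∃ g, ConjClasses.mk g = C ∧ orderOf g = 2} = Nat.card S := by
  classical
  refine card_classes_eq (fun g => orderOf g = 2) (fun g : ↥(Cfsg.Omega F ⇑Q) => Phi (g : ↥(Cfsg.isometryGroup F ⇑Q))) S ?_ ?_ ?_ ?_
  · intro g g' hgg
    exact Phi_conj _ _ (MonoidHom.map_isConj (Cfsg.Omega F ⇑Q).subtype hgg)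
  · intro g g' h1 h2 e
    have o1 : orderOf (g : ↥(Cfsg.isometryGroup F ⇑Q)) = 2 := by
      rw [Subgroup.orderOf_coe]
      exact h1
    have o2 : orderOf (g' : ↥(Cfsg.isometryGroup F ⇑Q)) = 2 := by
      rw [Subgroup.orderOf_coe]
      exact h2
    obtain ⟨a1, a2⟩ := (order_two_iff _).mp o1
    obtain ⟨b1, b2⟩ := (order_two_iff _).mp o2
    obtain ⟨c, hc⟩ := isConj_iff.mp (conj_of_Phi hQ _ _ a1 b1 e)
    have hf := hfix _ a1 a2
    push Not at hf
    obtain ⟨v, hv1, hv2⟩ := hf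
    obtain ⟨d, hd, hdc⟩ := conj_omega_of_fix hQ hn hc4 _ _ c hc hv2 hv1
    exact isConj_iff.mpr ⟨⟨d, hd⟩, Subtype.ext hdc⟩
  · intro g hg
    have o1 : orderOf (g : ↥(Cfsg.isometryGroup F ⇑Q)) = 2 := by
      rw [Subgroup.orderOf_coe]
      exact hg
    obtain ⟨a1, a2⟩ := (order_two_iff _).mp o1
    exact h3 _ a1 a2 ((mem_omega_iff_even hQ hc4 _).mp g.2)
  · intro x hx
    obtain ⟨g, g1, g2, g3, g4⟩ := h4 x hx
    refine ⟨⟨g, (mem_omega_iff_even hQ hc4 g).mpr g3⟩, ?_, g4⟩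
    have o : orderOf g = 2 := (order_two_iff g).mpr ⟨g1, g2⟩
    change orderOf _ = 2
    rw [← Subgroup.orderOf_coe]
    exact o

end gen

section minus

variable {F : Type*} [Field F] [Fintype F] [CharP F 2] (n : ℕ) {a b : F}

theorem count_omega_minus (hab : ∀ z₁ z₂ : F, z₁ ^ 2 + a * z₁ * z₂ + b * z₂ ^ 2 = 0 → z₁ = 0 ∧ z₂ = 0) (h : Fintype.card F ≠ 2 ∨ n ≠ 1) :
    Nat.card {C : ConjClasses ↥(Cfsg.Omega F ⇑(mkQ (quadFormMinus_nondeg (F := F) n a b hab))) // ∃ g, ConjClasses.mk g = C ∧ orderOf g = 2} = (n + 1) / 2 + (n + 1 - 1) / 2 := by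
  classical
  have hnd := mkQ_nondeg (quadFormMinus_nondeg (F := F) n a b hab)
  have hcard : Fintype.card ((Fin n ⊕ Fin n) ⊕ Fin 2) = 2 * (n + 1) := by
    simp only [Fintype.card_sum, Fintype.card_fin]
    omega
  have hc4 : Fintype.card F ≠ 2 ∨ Fintype.card ((Fin n ⊕ Fin n) ⊕ Fin 2) ≠ 4 := by
    rcases h with h | h
    · exact Or.inl h
    · right
      rw [hcard]
      omega
  rw [← card_S_minus]
  refine count_omega_phi hnd hc4 (by omega) _ ?_ ?_ ?_
  · intro t ht2 ht1 h0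
    obtain ⟨h1, h2, h3⟩ := ts_of_no_fix t ht2 h0
    have h4 := CfsgLib.H9.QuadSing.singular_bound_minus a b hab _ h1
    rw [hcard] at h2
    omega
  · intro g h1 h2 he
    obtain ⟨b1, b2, b3⟩ := inv_bounds hnd g h1 h2
    rw [hcard] at b2
    refine ⟨he, b1, Nat.le_of_mul_le_mul_left b2 (by omega), ?_⟩
    intro hh3
    have halt : altP g := of_decide_eq_true hh3
    change (((g : GL ((Fin n ⊕ Fin n) ⊕ Fin 2) F) : Matrix ((Fin n ⊕ Fin n) ⊕ Fin 2) ((Fin n ⊕ Fin n) ⊕ Fin 2) F) - 1).rank < n + 1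
    by_contra hlt
    have hr : (((g : GL ((Fin n ⊕ Fin n) ⊕ Fin 2) F) : Matrix ((Fin n ⊕ Fin n) ⊕ Fin 2) ((Fin n ⊕ Fin n) ⊕ Fin 2) F) - 1).rank = n + 1 := by omega
    obtain ⟨_, _, _, ka3⟩ := key_facts g h1
    have hb := CfsgLib.H9.QuadSing.singular_bound_minus a b hab (LinearMap.range (nOf g.1)) (by
      rintro _ ⟨y, rfl⟩
      have := ka3 y
      rw [halt y] at this
      exact this)
    have : finrank F (LinearMap.range (nOf g.1)) = n + 1 := hr
    omega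
  · rintro ⟨s, c⟩ ⟨h1, h2, h3, h4⟩
    obtain ⟨g, hg1, hg2, hg3⟩ := exists_minus n hab s c h2 h3 (fun hc => ⟨h1, h4 hc⟩)
    refine ⟨g, hg1, ?_, ?_, ?_⟩
    · rintro rfl
      have h5 : ((((1 : ↥(Cfsg.isometryGroup F ⇑(mkQ (quadFormMinus_nondeg (F := F) n a b hab)))) : GL ((Fin n ⊕ Fin n) ⊕ Fin 2) F) : Matrix ((Fin n ⊕ Fin n) ⊕ Fin 2) ((Fin n ⊕ Fin n) ⊕ Fin 2) F) - 1).rank = 0 := by
        have : (((1 : ↥(Cfsg.isometryGroup F ⇑(mkQ (quadFormMinus_nondeg (F := F) n a b hab)))) : GL ((Fin n ⊕ Fin n) ⊕ Fin 2) F) : Matrix ((Fin n ⊕ Fin n) ⊕ Fin 2) ((Fin n ⊕ Fin n) ⊕ Fin 2) F) = 1 := rfl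
        rw [this, sub_self, Matrix.rank_zero]
      have h6 : 1 ≤ s := h2
      omega
    · rw [hg2]
      exact h1
    · unfold Phi
      apply Prod.ext
      · exact hg2
      · change decide (altP g) = c
        cases c
        · simpa using hg3
        · simpa using hg3

end minus

section plusO

variable {F : Type*} [Field F] [Fintype F] [CharP F 2] {ι : Type} [Fintype ι] [DecidableEq ι]
variable {Q : QuadraticForm F (ι → F)}

/-- the splitting bit -/
def bitP (U : Submodule F (ι → F)) (m : ℕ) (t : ↥(Cfsg.isometryGroup F ⇑Q)) : Prop :=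
  t * t = 1 ∧ (((t : GL ι F) : Matrix ι ι F) - 1).rank = m ∧ altP t ∧ Odd (finrank F ↥(U ⊓ LinearMap.range (nOf t.1)))

theorem maxts_of_alt {m : ℕ} (hcard : Fintype.card ι = 2 * m) (t : ↥(Cfsg.isometryGroup F ⇑Q)) (ht : t * t = 1)
    (hr : (((t : GL ι F) : Matrix ι ι F) - 1).rank = m) (halt : altP t) : MaxTS Q (LinearMap.range (nOf t.1)) := by
  obtain ⟨_, _, _, ka3⟩ := key_facts t ht
  refine ⟨?_, ?_⟩
  · rintro _ ⟨y, rfl⟩
    have := ka3 y
    rw [halt y] at this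
    exact this
  · have hdim : finrank F (LinearMap.range (nOf t.1)) = m := hr
    rw [hdim, finrank_fintype_fun_eq_card, hcard]

theorem bit_parity (hQ : (QuadraticMap.polarBilin Q).Nondegenerate) {m : ℕ} (hcard : Fintype.card ι = 2 * m)
    {U : Submodule F (ι → F)} (hU : MaxTS Q U) (hUm : finrank F U = m) (hme : Even m) (t s : ↥(Cfsg.isometryGroup F ⇑Q))
    (ht : t * t = 1) (hs : s * s = 1) (hrt : (((t : GL ι F) : Matrix ι ι F) - 1).rank = m) (hrs : (((s : GL ι F) : Matrix ι ι F) - 1).rank = m)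
    (hat : altP t) (has : altP s) :
    Even (finrank F ↥(LinearMap.range (nOf t.1) ⊓ LinearMap.range (nOf s.1))) ↔
      (Odd (finrank F ↥(U ⊓ LinearMap.range (nOf t.1))) ↔ Odd (finrank F ↥(U ⊓ LinearMap.range (nOf s.1)))) := by
  have hAt := maxts_of_alt hcard t ht hrt hat
  have hAs := maxts_of_alt hcard s hs hrs has
  have hp := ts_parity hQ hU hAt hAs
  rw [hUm] at hp
  have a_le : finrank F ↥(U ⊓ LinearMap.range (nOf t.1)) ≤ m := by
    rw [← hUm]
    exact Submodule.finrank_mono inf_le_left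
  have b_le : finrank F ↥(U ⊓ LinearMap.range (nOf s.1)) ≤ m := by
    rw [← hUm]
    exact Submodule.finrank_mono inf_le_left
  have c_le : finrank F ↥(LinearMap.range (nOf t.1) ⊓ LinearMap.range (nOf s.1)) ≤ m := by
    have e : finrank F (LinearMap.range (nOf t.1)) = m := hrt
    rw [← e]
    exact Submodule.finrank_mono inf_le_left
  rw [Nat.even_iff] at hp hme ⊢
  rw [Nat.odd_iff, Nat.odd_iff]
  omega

theorem nOf_eq_add (t : ↥(Cfsg.isometryGroup F ⇑Q)) (v : ι → F) : nOf t.1 v = v + ((t : GL ι F) : Matrix ι ι F) *ᵥ v := by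
  rw [nOf_apply]
  ext i
  simp only [Pi.sub_apply, Pi.add_apply]
  rw [CharTwo.sub_eq_add, add_comm]

theorem sing_of_alt (t : ↥(Cfsg.isometryGroup F ⇑Q)) (ht : t * t = 1) (halt : altP t) (v : ι → F) :
    Q (v + ((t : GL ι F) : Matrix ι ι F) *ᵥ v) = 0 := by
  obtain ⟨_, _, _, ka3⟩ := key_facts t ht
  rw [← nOf_eq_add, ka3]
  exact halt v

theorem alt_of_sing (t : ↥(Cfsg.isometryGroup F ⇑Q)) (ht : t * t = 1) (h : ∀ v, Q (v + ((t : GL ι F) : Matrix ι ι F) *ᵥ v) = 0) : altP t := by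
  intro v
  obtain ⟨_, _, _, ka3⟩ := key_facts t ht
  rw [← ka3, nOf_eq_add]
  exact h v

theorem conj_iff_even (hQ : (QuadraticMap.polarBilin Q).Nondegenerate) {m : ℕ} (hcard : Fintype.card ι = 2 * m)
    (hn : 2 ≤ Fintype.card ι) (hc4 : Fintype.card F ≠ 2 ∨ Fintype.card ι ≠ 4) (t s c : ↥(Cfsg.isometryGroup F ⇑Q)) (hc : c * t * c⁻¹ = s)
    (ht : t * t = 1) (htO : t ∈ Cfsg.Omega F ⇑Q) (hr : (((t : GL ι F) : Matrix ι ι F) - 1).rank = m) (halt : altP t) :
    (∃ g ∈ Cfsg.Omega F ⇑Q, g * t * g⁻¹ = s) ↔ Even (finrank F ↥(LinearMap.range (nOf t.1) ⊓ LinearMap.range (nOf s.1))) := by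
  have hexc := (split_plus hQ hcard hn hc4 t s c hc ht htO).2 ⟨hr, sing_of_alt t ht halt⟩
  have eA : LinearMap.range (Matrix.toLin' (((t : GL ι F) : Matrix ι ι F) - 1)) = LinearMap.range (nOf t.1) := by
    rw [Matrix.toLin'_apply']
    rfl
  have eS : LinearMap.range (Matrix.toLin' (((s : GL ι F) : Matrix ι ι F) - 1)) = LinearMap.range (nOf s.1) := by
    rw [Matrix.toLin'_apply']
    rfl
  rw [eA, eS] at hexc
  exact hexc

theorem bit_conj_aux (hQ : (QuadraticMap.polarBilin Q).Nondegenerate) {m : ℕ} (hcard : Fintype.card ι = 2 * m)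
    (hn : 2 ≤ Fintype.card ι) (hc4 : Fintype.card F ≠ 2 ∨ Fintype.card ι ≠ 4) {U : Submodule F (ι → F)} (hU : MaxTS Q U) (hUm : finrank F U = m)
    (t s c : ↥(Cfsg.isometryGroup F ⇑Q)) (hcO : c ∈ Cfsg.Omega F ⇑Q) (hc : c * t * c⁻¹ = s) (htO : t ∈ Cfsg.Omega F ⇑Q)
    (h : bitP U m t) : bitP U m s := by
  obtain ⟨h1, h2, h3, h4⟩ := h
  have hs : s * s = 1 := by
    rw [← hc]
    have : c * t * c⁻¹ * (c * t * c⁻¹) = c * (t * t) * c⁻¹ := by group
    rw [this, h1]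
    group
  have hP := Phi_conj t s (isConj_iff.mpr ⟨c, hc⟩)
  have hrs : (((s : GL ι F) : Matrix ι ι F) - 1).rank = m := (congrArg Prod.fst hP).symm.trans h2
  have has : altP s := by
    rw [← hc]
    exact altP_conj t c h3
  have hme : Even m := by
    have := (mem_omega_iff_even hQ hc4 t).mp htO
    rwa [h2] at this
  have hE := (conj_iff_even hQ hcard hn hc4 t s c hc h1 htO h2 h3).mp ⟨c, hcO, hc⟩
  have hB := (bit_parity hQ hcard hU hUm hme t s h1 hs h2 hrs h3 has).mp hE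
  exact ⟨hs, hrs, has, hB.mp h4⟩

theorem exists_flip (hQ : (QuadraticMap.polarBilin Q).Nondegenerate) {m : ℕ} (hcard : Fintype.card ι = 2 * m)
    (hc4 : Fintype.card F ≠ 2 ∨ Fintype.card ι ≠ 4) {U : Submodule F (ι → F)} (hU : MaxTS Q U) (hUm : finrank F U = m) (hme : Even m)
    (g₀ : ↥(Cfsg.isometryGroup F ⇑Q)) (h1 : g₀ * g₀ = 1) (hr : (((g₀ : GL ι F) : Matrix ι ι F) - 1).rank = m) (halt : altP g₀)
    {v : ι → F} (hv : Q v ≠ 0) :
    ∃ g : ↥(Cfsg.isometryGroup F ⇑Q), g * g = 1 ∧ (((g : GL ι F) : Matrix ι ι F) - 1).rank = m ∧ altP g ∧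
      (Odd (finrank F ↥(U ⊓ LinearMap.range (nOf g.1))) ↔ ¬ Odd (finrank F ↥(U ⊓ LinearMap.range (nOf g₀.1)))) := by
  classical
  obtain ⟨r, hr₀⟩ := exists_of_isom (Q := Q) (rT_mem v)
  have hrr : phi Q r = rT Q v := hr₀
  obtain ⟨g, hg⟩ : ∃ g, g = r * g₀ * r⁻¹ := ⟨_, rfl⟩
  have hg2 : g * g = 1 := by
    rw [hg]
    have : r * g₀ * r⁻¹ * (r * g₀ * r⁻¹) = r * (g₀ * g₀) * r⁻¹ := by group
    rw [this, h1]
    group
  have hP := Phi_conj g₀ g (isConj_iff.mpr ⟨r, hg.symm⟩)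
  have hrg : (((g : GL ι F) : Matrix ι ι F) - 1).rank = m := (congrArg Prod.fst hP).symm.trans hr
  have hag : altP g := by
    rw [hg]
    exact altP_conj g₀ r halt
  have hgen := hgen_all hQ hc4
  have hA := maxts_of_alt hcard g₀ h1 hr halt
  have hdim : finrank F (LinearMap.range (nOf g₀.1)) = m := hr
  have e1 := even_iff_wDelta_mat hQ hgen hA hdim r
  have e2 : r.1 * g₀.1 * r.1⁻¹ = g.1 := by
    rw [hg]
    rfl
  rw [map_range_nOf r.1 g₀.1 g.1 e2] at e1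
  have hd : wDelta (phi Q r) ≠ 1 := by
    rw [hrr, wDelta_rT hQ hv]
    norm_num
  have hne : ¬ Even (m - finrank F ↥(LinearMap.range (nOf g₀.1) ⊓ LinearMap.range (nOf g.1))) := fun he => hd (e1.mp he)
  have hB := bit_parity hQ hcard hU hUm hme g₀ g h1 hg2 hr hrg halt hag
  have c_le : finrank F ↥(LinearMap.range (nOf g₀.1) ⊓ LinearMap.range (nOf g.1)) ≤ m := by
    rw [← hdim]
    exact Submodule.finrank_mono inf_le_left
  have hne2 : ¬ Even (finrank F ↥(LinearMap.range (nOf g₀.1) ⊓ LinearMap.range (nOf g.1))) := by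
    intro he
    apply hne
    rw [Nat.even_iff] at he hme ⊢
    omega
  refine ⟨g, hg2, hrg, hag, ?_⟩
  rw [hB] at hne2
  tauto

end plusO

section plusFinal

variable {F : Type*} [Field F] [Fintype F] [CharP F 2] {m : ℕ}

set_option maxHeartbeats 4000000 in
theorem count_omega_plus (hm : 1 ≤ m) (h : Fintype.card F ≠ 2 ∨ m ≠ 2) :
    Nat.card {C : ConjClasses ↥(Cfsg.Omega F ⇑(mkQ (quadFormPlus_nondeg (F := F) m))) // ∃ g, ConjClasses.mk g = C ∧ orderOf g = 2} = 2 * (m / 2) + (if Even m then 1 else 0) := by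
  classical
  have hnd := mkQ_nondeg (quadFormPlus_nondeg (F := F) m)
  have hcard : Fintype.card (Fin m ⊕ Fin m) = 2 * m := by
    simp only [Fintype.card_sum, Fintype.card_fin]
    omega
  have hn : 2 ≤ Fintype.card (Fin m ⊕ Fin m) := by omega
  have hc4 : Fintype.card F ≠ 2 ∨ Fintype.card (Fin m ⊕ Fin m) ≠ 4 := by
    rcases h with h | h
    · exact Or.inl h
    · right
      rw [hcard]
      omega
  have hU := maxTS_U0 (F := F) m
  have hUm := finrank_U0 (F := F) m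
  obtain ⟨v, hv⟩ : ∃ v : Fin m ⊕ Fin m → F, mkQ (quadFormPlus_nondeg (F := F) m) v ≠ 0 := by
    let a : Fin m := ⟨0, hm⟩
    refine ⟨eP m a + fP m a, ?_⟩
    have h1 := pol_ef (F := F) m a a
    rw [if_pos rfl] at h1
    unfold QuadraticMap.polar at h1
    rw [q_e, q_f] at h1
    simp only [sub_zero] at h1
    change quadFormPlus m F _ ≠ 0
    rw [h1]
    exact one_ne_zero
  rw [← card_S_plus m hm]
  refine card_classes_eq (fun g => orderOf g = 2)
    (fun g : ↥(Cfsg.Omega F ⇑(mkQ (quadFormPlus_nondeg (F := F) m))) => (Phi g.1, decide (bitP (U0 F m) m g.1))) _ ?_ ?_ ?_ ?_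
  · intro g g' hgg
    apply Prod.ext
    · exact Phi_conj _ _ (MonoidHom.map_isConj (Cfsg.Omega F ⇑(mkQ (quadFormPlus_nondeg (F := F) m))).subtype hgg)
    · change decide _ = decide _
      obtain ⟨c, hc⟩ := isConj_iff.mp hgg
      obtain ⟨c', hc'⟩ := isConj_iff.mp hgg.symm
      have e1 : c.1 * g.1 * c.1⁻¹ = g'.1 := congrArg Subtype.val hc
      have e2 : c'.1 * g'.1 * c'.1⁻¹ = g.1 := congrArg Subtype.val hc'
      exact decide_eq_decide.mpr ⟨bit_conj_aux hnd hcard hn hc4 hU hUm _ _ c.1 c.2 e1 g.2, bit_conj_aux hnd hcard hn hc4 hU hUm _ _ c'.1 c'.2 e2 g'.2⟩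
  · intro g g' h1 h2 e
    have o1 : orderOf g.1 = 2 := by
      rw [Subgroup.orderOf_coe]
      exact h1
    have o2 : orderOf g'.1 = 2 := by
      rw [Subgroup.orderOf_coe]
      exact h2
    obtain ⟨a1, a2⟩ := (order_two_iff _).mp o1
    obtain ⟨b1, b2⟩ := (order_two_iff _).mp o2
    have e1 : Phi g.1 = Phi g'.1 := congrArg Prod.fst e
    have e2 : decide (bitP (U0 F m) m g.1) = decide (bitP (U0 F m) m g'.1) := congrArg Prod.snd e
    have e3 : bitP (U0 F m) m g.1 ↔ bitP (U0 F m) m g'.1 := decide_eq_decide.mp e2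
    obtain ⟨c, hc⟩ := isConj_iff.mp (conj_of_Phi hnd _ _ a1 b1 e1)
    have key : ∃ d ∈ Cfsg.Omega F ⇑(mkQ (quadFormPlus_nondeg (F := F) m)), d * g.1 * d⁻¹ = g'.1 := by
      by_cases hcase : (((g.1 : GL (Fin m ⊕ Fin m) F) : Matrix (Fin m ⊕ Fin m) (Fin m ⊕ Fin m) F) - 1).rank = m ∧ altP g.1
      · obtain ⟨hr, halt⟩ := hcase
        have hrs : (((g'.1 : GL (Fin m ⊕ Fin m) F) : Matrix (Fin m ⊕ Fin m) (Fin m ⊕ Fin m) F) - 1).rank = m := (congrArg Prod.fst e1).symm.trans hr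
        have has : altP g'.1 := by
          rw [← hc]
          exact altP_conj _ c halt
        have hme : Even m := by
          have := (mem_omega_iff_even hnd hc4 g.1).mp g.2
          rwa [hr] at this
        rw [conj_iff_even hnd hcard hn hc4 _ _ c hc a1 g.2 hr halt, bit_parity hnd hcard hU hUm hme _ _ a1 b1 hr hrs halt has]
        constructor
        · intro ho
          exact (e3.mp ⟨a1, hr, halt, ho⟩).2.2.2
        · intro ho
          exact (e3.mpr ⟨b1, hrs, has, ho⟩).2.2.2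
      · refine (split_plus hnd hcard hn hc4 _ _ c hc a1 g.2).1 ?_
        rintro ⟨hr, hs⟩
        exact hcase ⟨hr, alt_of_sing _ a1 hs⟩
    obtain ⟨d, hd, hdc⟩ := key
    exact isConj_iff.mpr ⟨⟨d, hd⟩, Subtype.ext hdc⟩
  · intro g hg
    have o1 : orderOf g.1 = 2 := by
      rw [Subgroup.orderOf_coe]
      exact hg
    obtain ⟨a1, a2⟩ := (order_two_iff _).mp o1
    obtain ⟨b1, b2, b3⟩ := inv_bounds hnd g.1 a1 a2
    have he := (mem_omega_iff_even hnd hc4 g.1).mp g.2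
    rw [hcard] at b2
    refine ⟨he, b1, Nat.le_of_mul_le_mul_left b2 (by omega), ?_⟩
    intro hb
    have hb' : bitP (U0 F m) m g.1 := of_decide_eq_true hb
    exact ⟨hb'.2.1, decide_eq_true hb'.2.2.1⟩
  · rintro ⟨⟨s, b⟩, c⟩ ⟨h1, h2, h3, h4⟩
    change Even s at h1
    change 1 ≤ s at h2
    change s ≤ m at h3
    have mem : ∀ g : ↥(Cfsg.isometryGroup F ⇑(mkQ (quadFormPlus_nondeg (F := F) m))), g * g = 1 →
        (((g : GL (Fin m ⊕ Fin m) F) : Matrix (Fin m ⊕ Fin m) (Fin m ⊕ Fin m) F) - 1).rank = s → (altP g ↔ b = true) → (bitP (U0 F m) m g ↔ c = true) →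
        ∃ g' : ↥(Cfsg.Omega F ⇑(mkQ (quadFormPlus_nondeg (F := F) m))), orderOf g' = 2 ∧ (Phi g'.1, decide (bitP (U0 F m) m g'.1)) = ((s, b), c) := by
      intro g g1 g2 g3 g4
      have hO : g ∈ Cfsg.Omega F ⇑(mkQ (quadFormPlus_nondeg (F := F) m)) := (mem_omega_iff_even hnd hc4 g).mpr (by rw [g2]; exact h1)
      have hg1 : g ≠ 1 := by
        rintro rfl
        have h5 : ((((1 : ↥(Cfsg.isometryGroup F ⇑(mkQ (quadFormPlus_nondeg (F := F) m)))) : GL (Fin m ⊕ Fin m) F) : Matrix (Fin m ⊕ Fin m) (Fin m ⊕ Fin m) F) - 1).rank = 0 := by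
          have : (((1 : ↥(Cfsg.isometryGroup F ⇑(mkQ (quadFormPlus_nondeg (F := F) m)))) : GL (Fin m ⊕ Fin m) F) : Matrix (Fin m ⊕ Fin m) (Fin m ⊕ Fin m) F) = 1 := rfl
          rw [this, sub_self, Matrix.rank_zero]
        omega
      refine ⟨⟨g, hO⟩, ?_, ?_⟩
      · change orderOf _ = 2
        rw [← Subgroup.orderOf_coe]
        exact (order_two_iff g).mpr ⟨g1, hg1⟩
      · apply Prod.ext
        · apply Prod.ext
          · exact g2
          · change decide (altP g) = b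
            cases b
            · simpa using g3
            · simpa using g3
        · change decide (bitP (U0 F m) m g) = c
          cases c
          · simpa using g4
          · simpa using g4
    by_cases hcase : s = m ∧ b = true
    · obtain ⟨hs, hbb⟩ := hcase
      subst hbb
      have hme : Even m := hs ▸ h1
      obtain ⟨g₀, g01, g02, g03⟩ := exists_plus (F := F) m m true hm le_rfl (fun _ => hme)
      have g03' : altP g₀ := g03.mpr rfl
      by_cases hbit : Odd (finrank F ↥(U0 F m ⊓ LinearMap.range (nOf g₀.1))) ↔ c = true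
      · exact mem g₀ g01 (g02.trans hs.symm) g03 ⟨fun hb => hbit.mp hb.2.2.2, fun hc => ⟨g01, g02, g03', hbit.mpr hc⟩⟩
      · obtain ⟨g, g1, g2, g3, g4⟩ := exists_flip hnd hcard hc4 hU hUm hme g₀ g01 g02 g03' hv
        refine mem g g1 (g2.trans hs.symm) ⟨fun _ => rfl, fun _ => g3⟩ ⟨fun hb => ?_, fun hc => ⟨g1, g2, g3, ?_⟩⟩
        · have := g4.mp hb.2.2.2
          tauto
        · rw [g4]
          tauto
    · have hcf : c = false := by
        cases c
        · rfl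
        · exact absurd (h4 rfl) hcase
      subst hcf
      obtain ⟨g, g1, g2, g3⟩ := exists_plus (F := F) m s b h2 h3 (fun _ => h1)
      refine mem g g1 g2 g3 ⟨fun hb => ?_, fun h => absurd h (by simp)⟩
      exact absurd ⟨g2.symm.trans hb.2.1, g3.mp hb.2.2.1⟩ hcase

end plusFinal

end CfsgLib.ClassGeo.InvC
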