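import Mathlib
import Cfsg.Agent.Lib.ClassGeo.OMinus4
import Cfsg.Agent.Lib.H9.SL2Cl
import Cfsg.Agent.Lib.ClassGeo.InvCount4

/-! `Ω⁻₄(2)`: one class of involutions. -/

set_option autoImplicit false
set_option linter.unusedSimpArgs false
set_option linter.unusedVariables false
set_option linter.unusedSectionVars false

namespace CfsgLib.ClassGeo.OMinus4

open Matrix Cfsg CfsgLib.ClassGeo CfsgLib.ClassGeo.Orth CfsgLib.ClassGeo.OLow CfsgLib.ClassGeo.OIso

section exc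

variable {F K : Type*} [Field F] [Fintype F] [Field K] [Fintype K]

theorem exists_range_eq {q : ℕ} (hF : Fintype.card F = q) (hK : Fintype.card K = q ^ 2) (a b : F)
    (hab : ∀ z₁ z₂ : F, z₁ ^ 2 + a * z₁ * z₂ + b * z₂ ^ 2 = 0 → z₁ = 0 ∧ z₂ = 0) (h2 : (2 : K) = 0) :
    ∃ f : SpecialLinearGroup (Fin 2) K →* ↥(Cfsg.isometryGroup F (Cfsg.quadFormMinus 1 F a b)),
      Function.Injective f ∧ Cfsg.Omega F (Cfsg.quadFormMinus 1 F a b) = f.range := by
  classical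
  obtain ⟨j, θ, h⟩ := exists_HD hF hK a b hab
  refine ⟨φ h, (MonoidHom.ker_eq_bot_iff _).mp (ker_bot h h2), ?_⟩
  have hq : 2 ≤ q := by rw [← hF]; exact Fintype.one_lt_card
  have hK4 : 4 ≤ Fintype.card K := by
    rw [hK]; nlinarith
  have hcF : Nat.card F = q := by rw [Nat.card_eq_fintype_card, hF]
  have hnd := quadFormMinus_nondeg (F := F) 1 a b hab
  let Q : QuadraticForm F (I → F) := mkQ hnd
  have hQnd : (QuadraticMap.polarBilin Q).Nondegenerate := mkQ_nondeg _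
  have hO : Nat.card (Cfsg.isometryGroup F (Cfsg.quadFormMinus 1 F a b)) = 2 * (q ^ 2 * ((q ^ 2) ^ 2 - 1)) := by
    rw [card_isometry_eq, card_isom_minus hab 1, hcF]
    have e1 : (q ^ 2) ^ 2 - 1 = (q ^ 2 + 1) * (q ^ 2 - 1) := by
      obtain ⟨k, hk⟩ : ∃ k, q ^ 2 = k + 1 := ⟨q ^ 2 - 1, by have : 0 < q ^ 2 := by positivity
                                                            omega⟩
      rw [hk]
      simp only [Nat.add_sub_cancel]
      have : (k + 1) ^ 2 = (k + 1 + 1) * k + 1 := by ring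
      omega
    rw [e1]
    simp [Finset.prod_range_succ]
    ring
  have h5 : ∃ x : K, x ≠ 0 ∧ x ^ 2 ≠ 1 := by
    obtain ⟨ζ, hζ⟩ := IsCyclic.exists_generator (α := Kˣ)
    have hord : orderOf ζ = Fintype.card K - 1 := by
      rw [orderOf_eq_card_of_forall_mem_zpowers hζ, Nat.card_units, Nat.card_eq_fintype_card]
    refine ⟨ζ, ζ.ne_zero, ?_⟩
    intro h
    have h2 : ζ ^ 2 = 1 := Units.ext (by simpa using h)
    have h3 := orderOf_le_of_pow_eq_one (by norm_num) h2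
    omega
  have hr : (φ h).range ≤ Cfsg.Omega F (Cfsg.quadFormMinus 1 F a b) := by
    have h1 := Subgroup.map_commutator (⊤ : Subgroup (SpecialLinearGroup (Fin 2) K)) ⊤ (φ h)
    rw [← commutator_def, CfsgLib.H9.PSLSimple.perf (F := K) (n := 2) (Or.inr ⟨rfl, h5⟩)] at h1
    rw [MonoidHom.range_eq_map, h1]
    rw [Cfsg.Omega, commutator_def]
    exact Subgroup.commutator_mono le_top le_top
  have hSL : Nat.card (SpecialLinearGroup (Fin 2) K) = q ^ 2 * ((q ^ 2) ^ 2 - 1) := CfsgLib.ClassGeo.OLow.card_SL2 hK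
  have hk := ker_bot h h2
  have hcr : Nat.card (φ h).range = q ^ 2 * ((q ^ 2) ^ 2 - 1) := by
    have h6 := Subgroup.index_ker (φ h)
    rw [hk, Subgroup.index_bot] at h6
    rw [← h6, hSL]
  have hidx : (φ h).range.index = 2 := by
    have h7 := Subgroup.card_mul_index (φ h).range
    rw [hcr, hO] at h7
    have hpos : 0 < q ^ 2 * ((q ^ 2) ^ 2 - 1) := by
      rw [← hcr]
      exact Nat.card_pos
    have h8 : q ^ 2 * ((q ^ 2) ^ 2 - 1) * (φ h).range.index = q ^ 2 * ((q ^ 2) ^ 2 - 1) * 2 := by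
      rw [h7]; ring
    exact Nat.eq_of_mul_eq_mul_left hpos h8
  have hcomm : Cfsg.Omega F (Cfsg.quadFormMinus 1 F a b) ≤ (φ h).range := by
    rw [Cfsg.Omega, commutator_def, Subgroup.commutator_le]
    intro x _ y _
    have key := fun u v => Subgroup.mul_mem_iff_of_index_two (H := (φ h).range) hidx (a := u) (b := v)
    rw [commutatorElement_def, key, key, key, inv_mem_iff, inv_mem_iff]
    tauto
  exact le_antisymm hcomm hr

theorem count_exc [CharP K 2] (hF : Fintype.card F = 2) (hK : Fintype.card K = 2 ^ 2) (a b : F)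
    (hab : ∀ z₁ z₂ : F, z₁ ^ 2 + a * z₁ * z₂ + b * z₂ ^ 2 = 0 → z₁ = 0 ∧ z₂ = 0) :
    Nat.card {C : ConjClasses ↥(Cfsg.Omega F (Cfsg.quadFormMinus 1 F a b)) // ∃ g, ConjClasses.mk g = C ∧ orderOf g = 2} = 1 := by
  classical
  have h2 : (2 : K) = 0 := by
    have := CharP.cast_eq_zero K 2
    exact_mod_cast this
  obtain ⟨f, hf, hr⟩ := exists_range_eq hF hK a b hab h2
  have hconjSL : ∀ x y : SpecialLinearGroup (Fin 2) K, orderOf x = 2 → orderOf y = 2 → IsConj x y := by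
    intro x y hx hy
    obtain ⟨b₁, hb₁, h₁⟩ := CfsgLib.H9.SL2Cl.exists_conj_U_of_order 2 x hx
    obtain ⟨b₂, hb₂, h₂⟩ := CfsgLib.H9.SL2Cl.exists_conj_U_of_order 2 y hy
    have hs := (CfsgLib.H9.SL2Cl.isConj_U_iff hb₁ hb₂).mpr (FiniteField.isSquare_of_char_two (ringChar.eq K 2) _)
    exact h₁.trans (hs.trans h₂.symm)
  have hkey : ∀ t s : ↥(Cfsg.Omega F (Cfsg.quadFormMinus 1 F a b)), orderOf t = 2 → orderOf s = 2 → IsConj t s := by
    intro t s ht hs
    have mem : ∀ u : ↥(Cfsg.Omega F (Cfsg.quadFormMinus 1 F a b)), ∃ x, f x = u.1 := by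
      intro u
      obtain ⟨x, hx⟩ := hr.le u.2
      exact ⟨x, hx⟩
    obtain ⟨x, hx⟩ := mem t
    obtain ⟨y, hy⟩ := mem s
    have ox : orderOf x = 2 := by
      rw [← orderOf_injective f hf x, hx, Subgroup.orderOf_coe]
      exact ht
    have oy : orderOf y = 2 := by
      rw [← orderOf_injective f hf y, hy, Subgroup.orderOf_coe]
      exact hs
    obtain ⟨c, hc⟩ := isConj_iff.mp (hconjSL x y ox oy)
    have hcm : f c ∈ Cfsg.Omega F (Cfsg.quadFormMinus 1 F a b) := hr.ge ⟨c, rfl⟩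
    refine isConj_iff.mpr ⟨⟨f c, hcm⟩, Subtype.ext ?_⟩
    change f c * t.1 * (f c)⁻¹ = s.1
    rw [← hx, ← hy, ← hc, map_mul, map_mul, map_inv]
  rw [Nat.card_eq_one_iff_unique]
  refine ⟨⟨?_⟩, ?_⟩
  · rintro ⟨C, g, rfl, hg⟩ ⟨C', g', rfl, hg'⟩
    exact Subtype.ext (ConjClasses.mk_eq_mk_iff_isConj.mpr (hkey g g' hg hg'))
  · have h0 : CfsgLib.H9.SL2Cl.U (0 : K) = 1 := by
      have := CfsgLib.H9.SL2Cl.U_pow (1 : K) 0
      simpa using this.symm
    have hu : orderOf (CfsgLib.H9.SL2Cl.U (1 : K)) = 2 := by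
      apply orderOf_eq_prime
      · rw [CfsgLib.H9.SL2Cl.U_pow]
        have e : (((2 : ℕ) : K)) * 1 = 0 := by
          push_cast
          rw [h2, zero_mul]
        rw [e, h0]
      · exact CfsgLib.H9.SL2Cl.U_ne_one one_ne_zero
    have hgm : f (CfsgLib.H9.SL2Cl.U (1 : K)) ∈ Cfsg.Omega F (Cfsg.quadFormMinus 1 F a b) := hr.ge ⟨_, rfl⟩
    refine ⟨⟨ConjClasses.mk ⟨f (CfsgLib.H9.SL2Cl.U (1 : K)), hgm⟩, ⟨f (CfsgLib.H9.SL2Cl.U (1 : K)), hgm⟩, rfl, ?_⟩⟩
    rw [← Subgroup.orderOf_coe]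
    change orderOf (f _) = 2
    rw [orderOf_injective f hf, hu]

theorem count_exc' {F : Type*} [Field F] [Fintype F] (hF : Fintype.card F = 2) (a b : F)
    (hab : ∀ z₁ z₂ : F, z₁ ^ 2 + a * z₁ * z₂ + b * z₂ ^ 2 = 0 → z₁ = 0 ∧ z₂ = 0) :
    Nat.card {C : ConjClasses ↥(Cfsg.Omega F (Cfsg.quadFormMinus 1 F a b)) // ∃ g, ConjClasses.mk g = C ∧ orderOf g = 2} = 1 := by
  classical
  letI : Fintype (GaloisField 2 2) := Fintype.ofFinite _
  have hK : Fintype.card (GaloisField 2 2) = 2 ^ 2 := by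
    rw [← Nat.card_eq_fintype_card]
    exact GaloisField.card 2 2 (by norm_num)
  exact count_exc (K := GaloisField 2 2) hF hK a b hab

end exc

end CfsgLib.ClassGeo.OMinus4
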