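import Mathlib
import Cfsg.Agent.Lib.ClassGeo.SLGen
import Cfsg.Prelude.Def_Classical

set_option autoImplicit false
set_option linter.unusedSimpArgs false
set_option linter.unusedVariables false
set_option linter.unusedSectionVars false

namespace CfsgLib.ClassGeo.Klein

open Matrix Cfsg

variable {F : Type*} [Field F]

/-- the index set of the hyperbolic coordinates -/
abbrev Idx : Type := Fin 3 ⊕ Fin 3

/-- The alternating matrix with given coordinates. -/
def mat (v : Idx → F) : Matrix (Fin 4) (Fin 4) F :=
  !![0, v (.inl 0), v (.inl 1), v (.inl 2);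
     -v (.inl 0), 0, v (.inr 2), -v (.inr 1);
     -v (.inl 1), -v (.inr 2), 0, v (.inr 0);
     -v (.inl 2), v (.inr 1), -v (.inr 0), 0]

/-- The coordinates of a matrix. -/
def coords (X : Matrix (Fin 4) (Fin 4) F) : Idx → F :=
  Sum.elim ![X 0 1, X 0 2, X 0 3] ![X 2 3, -(X 1 3), X 1 2]

theorem coords_mat (v : Idx → F) : coords (mat v) = v := by
  funext c
  rcases c with c | c <;> fin_cases c <;> simp [coords, mat]

theorem mat_transpose (v : Idx → F) : (mat v)ᵀ = - mat v := by
  ext i j
  fin_cases i <;> fin_cases j <;> simp [mat, Matrix.transpose_apply]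

theorem mat_quad_zero (v : Idx → F) (a : Fin 4 → F) : a ⬝ᵥ (mat v *ᵥ a) = 0 := by
  simp [mat, Matrix.mulVec, dotProduct, Fin.sum_univ_four]
  ring

/-- alternating matrices are determined by their coordinates -/
theorem mat_coords (Y : Matrix (Fin 4) (Fin 4) F) (h0 : ∀ i, Y i i = 0) (h1 : ∀ i j, Y j i = - Y i j) :
    mat (coords Y) = Y := by
  ext i j
  fin_cases i <;> fin_cases j <;> simp [mat, coords, h0]
  all_goals first
    | exact (h1 _ _).symm
    | (rw [h1 3 1]; simp; done)
    | rw [h1 3 1]

theorem conj_diag (g : Matrix (Fin 4) (Fin 4) F) (v : Idx → F) (i : Fin 4) : (g * mat v * gᵀ) i i = 0 := by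
  have : (g * mat v * gᵀ) i i = g i ⬝ᵥ (mat v *ᵥ g i) := by
    rw [Matrix.mul_assoc, Matrix.mul_apply]
    simp only [Matrix.mul_apply, Matrix.transpose_apply, dotProduct, Matrix.mulVec]
  rw [this]
  exact mat_quad_zero v _

theorem conj_skew (g : Matrix (Fin 4) (Fin 4) F) (v : Idx → F) (i j : Fin 4) :
    (g * mat v * gᵀ) j i = - (g * mat v * gᵀ) i j := by
  have : (g * mat v * gᵀ)ᵀ = - (g * mat v * gᵀ) := by
    rw [Matrix.transpose_mul, Matrix.transpose_mul, Matrix.transpose_transpose, mat_transpose, ← Matrix.mul_assoc]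
    simp [Matrix.mul_neg, Matrix.neg_mul, Matrix.mul_assoc]
  have h2 := congrFun (congrFun this i) j
  rwa [Matrix.transpose_apply, Matrix.neg_apply] at h2

theorem mat_coords_conj (g : Matrix (Fin 4) (Fin 4) F) (v : Idx → F) :
    mat (coords (g * mat v * gᵀ)) = g * mat v * gᵀ :=
  mat_coords _ (conj_diag g v) (conj_skew g v)

theorem mat_add (v w : Idx → F) : mat (v + w) = mat v + mat w := by
  ext i j
  fin_cases i <;> fin_cases j <;> simp [mat] <;> ring

theorem mat_smul (c : F) (v : Idx → F) : mat (c • v) = c • mat v := by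
  ext i j
  fin_cases i <;> fin_cases j <;> simp [mat]

theorem coords_add (X Y : Matrix (Fin 4) (Fin 4) F) : coords (X + Y) = coords X + coords Y := by
  funext c
  rcases c with c | c <;> fin_cases c <;> simp [coords] <;> ring

theorem coords_smul (c : F) (X : Matrix (Fin 4) (Fin 4) F) : coords (c • X) = c • coords X := by
  funext d
  rcases d with d | d <;> fin_cases d <;> simp [coords]

/-- the compound action -/
def act (g : Matrix (Fin 4) (Fin 4) F) : (Idx → F) →ₗ[F] (Idx → F) where
  toFun v := coords (g * mat v * gᵀ)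
  map_add' v w := by
    rw [mat_add, Matrix.mul_add, Matrix.add_mul, coords_add]
  map_smul' c v := by
    rw [mat_smul, Matrix.mul_smul, Matrix.smul_mul, coords_smul]
    rfl

theorem act_apply (g : Matrix (Fin 4) (Fin 4) F) (v : Idx → F) : act g v = coords (g * mat v * gᵀ) := rfl

theorem act_one (v : Idx → F) : act 1 v = v := by
  rw [act_apply]
  simp [coords_mat]

theorem act_mul (g h : Matrix (Fin 4) (Fin 4) F) (v : Idx → F) : act (g * h) v = act g (act h v) := by
  rw [act_apply, act_apply, act_apply, mat_coords_conj, Matrix.transpose_mul]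
  simp only [Matrix.mul_assoc]

end CfsgLib.ClassGeo.Klein

namespace CfsgLib.ClassGeo.Klein

open Matrix Cfsg

variable {F : Type*} [Field F]

theorem pf_eq (v : Idx → F) : quadFormPlus 3 F v = v (.inl 0) * v (.inr 0) + v (.inl 1) * v (.inr 1) + v (.inl 2) * v (.inr 2) := by
  simp [quadFormPlus, Fin.sum_univ_three]

theorem act_transv (i j : Fin 4) (hij : i ≠ j) (a : F) (v : Idx → F) :
    quadFormPlus 3 F (act (Matrix.transvection i j a) v) = quadFormPlus 3 F v := by
  rw [pf_eq, pf_eq, act_apply]
  fin_cases i <;> fin_cases j <;> first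
    | exact absurd rfl hij
    | (simp [coords, mat, Matrix.transvection, Matrix.mul_apply, Fin.sum_univ_four, Matrix.one_apply, Matrix.single_apply]; ring)

end CfsgLib.ClassGeo.Klein

namespace CfsgLib.ClassGeo.Klein

open Matrix Cfsg

variable {F : Type*} [Field F]

theorem act_coe_mul (g h : SpecialLinearGroup (Fin 4) F) (v : Idx → F) :
    act ((g * h : SpecialLinearGroup (Fin 4) F) : Matrix (Fin 4) (Fin 4) F) v =
      act (g : Matrix (Fin 4) (Fin 4) F) (act (h : Matrix (Fin 4) (Fin 4) F) v) :=
  (congrArg (fun M => act M v) (Matrix.SpecialLinearGroup.coe_mul g h)).trans (act_mul _ _ v)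

theorem act_coe_one (v : Idx → F) :
    act ((1 : SpecialLinearGroup (Fin 4) F) : Matrix (Fin 4) (Fin 4) F) v = v :=
  (congrArg (fun M => act M v) (Matrix.SpecialLinearGroup.coe_one)).trans (act_one v)

theorem act_sl (g : SpecialLinearGroup (Fin 4) F) (v : Idx → F) :
    quadFormPlus 3 F (act (g : Matrix (Fin 4) (Fin 4) F) v) = quadFormPlus 3 F v := by
  induction g using CfsgLib.ClassGeo.SL_transvection_induction generalizing v with
  | htransvec i j hij a => exact act_transv i j hij a v
  | hmul A B hA hB =>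
    rw [act_coe_mul, hA, hB]

/-- the action of `SL₄` on alternating forms -/
noncomputable def slHom : SpecialLinearGroup (Fin 4) F →* ((Idx → F) ≃ₗ[F] (Idx → F)) :=
  MonoidHom.mk' (fun g => LinearEquiv.ofLinearMap (act (g : Matrix (Fin 4) (Fin 4) F)) (act ((g⁻¹ : SpecialLinearGroup (Fin 4) F) : Matrix (Fin 4) (Fin 4) F))
      (LinearMap.ext fun v => by
        show act (g : Matrix (Fin 4) (Fin 4) F) (act ((g⁻¹ : SpecialLinearGroup (Fin 4) F) : Matrix (Fin 4) (Fin 4) F) v) = v
        rw [← act_coe_mul, mul_inv_cancel, act_coe_one])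
      (LinearMap.ext fun v => by
        show act ((g⁻¹ : SpecialLinearGroup (Fin 4) F) : Matrix (Fin 4) (Fin 4) F) (act (g : Matrix (Fin 4) (Fin 4) F) v) = v
        rw [← act_coe_mul, inv_mul_cancel, act_coe_one]))
    (fun g h => by
      ext1 v
      show act ((g * h : SpecialLinearGroup (Fin 4) F) : Matrix (Fin 4) (Fin 4) F) v = act (g : Matrix (Fin 4) (Fin 4) F) (act (h : Matrix (Fin 4) (Fin 4) F) v)
      rw [act_coe_mul])

theorem slHom_apply (g : SpecialLinearGroup (Fin 4) F) (v : Idx → F) :
    slHom g v = act (g : Matrix (Fin 4) (Fin 4) F) v := rfl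

theorem single_conj (g : Matrix (Fin 4) (Fin 4) F) (i j k l : Fin 4) :
    (g * Matrix.single i j (1 : F) * gᵀ : Matrix (Fin 4) (Fin 4) F) k l = g k i * g l j := by
  have h1 : ∀ a b, (g * Matrix.single i j (1 : F)) a b = if j = b then g a i else 0 := by
    intro a b
    rw [Matrix.mul_apply]
    by_cases hb : j = b
    · simp [hb, Matrix.single_apply]
    · simp [hb, Matrix.single_apply]
  rw [Matrix.mul_apply]
  simp only [h1, Matrix.transpose_apply, ite_mul, zero_mul]
  simp

/-- the kernel consists of scalars -/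
theorem ker_scalar (g : Matrix (Fin 4) (Fin 4) F) (h : ∀ v, act g v = v) :
    ∃ c : F, c * c = 1 ∧ g = c • 1 := by
  -- relation between minors
  have hX : ∀ v, g * mat v * gᵀ = mat v := by
    intro v
    have := congrArg mat (h v)
    rwa [act_apply, mat_coords_conj] at this
  have hmin : ∀ i j k l : Fin 4, i ≠ j → g k i * g l j - g k j * g l i =
      (if k = i ∧ l = j then 1 else 0) - (if k = j ∧ l = i then 1 else 0) := by
    intro i j k l hij
    let X : Matrix (Fin 4) (Fin 4) F := Matrix.single i j 1 - Matrix.single j i 1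
    have hX0 : ∀ a, X a a = 0 := by
      intro a
      have h1 : ¬(i = a ∧ j = a) := fun h => hij (h.1.trans h.2.symm)
      have h2 : ¬(j = a ∧ i = a) := fun h => hij (h.2.trans h.1.symm)
      simp [X, Matrix.single_apply, h1, h2]
    have hX1 : ∀ a b, X b a = - X a b := by
      intro a b
      simp only [X, Matrix.sub_apply, Matrix.single_apply]
      split_ifs <;> simp_all
    have hXm : mat (coords X) = X := mat_coords X hX0 hX1
    have h1 := hX (coords X)
    rw [hXm] at h1
    have h2 := congrFun (congrFun h1 k) l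
    have h3 : (g * X * gᵀ) k l = g k i * g l j - g k j * g l i := by
      simp only [X, Matrix.mul_sub, Matrix.sub_mul, Matrix.sub_apply]
      rw [single_conj g i j k l, single_conj g j i k l]
    rw [h3] at h2
    rw [h2]
    simp only [X, Matrix.sub_apply, Matrix.single_apply]
    congr 1
    · congr 1; simp [and_comm, eq_comm]
    · congr 1; simp [and_comm, eq_comm]
  have hoff : ∀ k i : Fin 4, k ≠ i → g k i = 0 := by
    intro k i hki
    obtain ⟨j, hji, hjk⟩ : ∃ j : Fin 4, j ≠ i ∧ j ≠ k := by
      revert k i; decide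
    have h1 := hmin i j i j hji.symm
    have h2 := hmin i j k i hji.symm
    have h3 := hmin i j k j hji.symm
    simp only [hki, false_and, if_false, true_and, and_true, Ne.symm hjk, hjk, sub_zero, if_true, and_false, hji, Ne.symm hji, sub_self] at h1 h2 h3
    linear_combination (-(g k i)) * h1 + g i i * h3 - g j i * h2
  have hdiag : ∀ i j : Fin 4, i ≠ j → g i i * g j j = 1 := by
    intro i j hij
    have h1 := hmin i j i j hij
    simp only [hij, false_and, if_false, true_and, and_true, Ne.symm hij, sub_zero, if_true, and_false] at h1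
    rw [hoff i j hij, zero_mul, sub_zero] at h1
    exact h1
  have heq : ∀ i : Fin 4, g i i = g 0 0 := by
    intro i
    by_cases hi : i = 0
    · rw [hi]
    obtain ⟨j, hj0, hji⟩ : ∃ j : Fin 4, j ≠ 0 ∧ j ≠ i := by
      revert i; decide
    have h1 := hdiag i j (Ne.symm hji)
    have h2 := hdiag 0 j (Ne.symm hj0)
    have h3 : g j j ≠ 0 := by
      intro h0
      rw [h0, mul_zero] at h1
      exact zero_ne_one h1
    exact mul_right_cancel₀ h3 (h1.trans h2.symm)
  refine ⟨g 0 0, ?_, ?_⟩
  · have := hdiag 0 1 (by decide)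
    rwa [heq 1] at this
  · ext i j
    by_cases hij : i = j
    · subst hij
      simp [heq i]
    · simp [hoff i j hij, Matrix.one_apply, hij]

end CfsgLib.ClassGeo.Klein
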