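import Mathlib
import Cfsg.Agent.Lib.ClassGeo.Klein
import Cfsg.Agent.Lib.ClassGeo.OIso
import Cfsg.Agent.Lib.ClassGeo.OStd
import Cfsg.Agent.Lib.ClassGeo.OOrder3
import Cfsg.Agent.S0242
import Cfsg.Agent.S0248
import Cfsg.Agent.S0249

set_option autoImplicit false
set_option linter.unusedSimpArgs false
set_option linter.unusedVariables false
set_option linter.unusedSectionVars false

namespace CfsgLib.ClassGeo.Klein

open Matrix Cfsg CfsgLib.ClassGeo CfsgLib.ClassGeo.Orth CfsgLib.ClassGeo.OIso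

variable {F : Type*} [Field F]

theorem slHom_mem (g : SpecialLinearGroup (Fin 4) F) :
    slHom g ∈ fIsom (F := F) (fun a _ : Idx → F => quadFormPlus 3 F a) := by
  rw [mem_fIsom]
  intro a b
  exact act_sl g a

/-- the Klein correspondence as a homomorphism -/
noncomputable def φ : SpecialLinearGroup (Fin 4) F →* isometryGroup F (quadFormPlus 3 F) :=
  (preservingEquiv (fun a _ : Idx → F => quadFormPlus 3 F a)).symm.toMonoidHom.comp
    (slHom.codRestrict _ slHom_mem)

theorem mem_ker_φ (g : SpecialLinearGroup (Fin 4) F) : g ∈ (φ (F := F)).ker ↔ ∀ v, act (g : Matrix (Fin 4) (Fin 4) F) v = v := by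
  rw [MonoidHom.mem_ker]
  constructor
  · intro h v
    have h1 : slHom.codRestrict _ slHom_mem g = 1 :=
      (preservingEquiv (fun a _ : Idx → F => quadFormPlus 3 F a)).symm.injective (h.trans (map_one _).symm)
    have h2 : slHom g = 1 := congrArg Subtype.val h1
    show slHom g v = v
    rw [h2]; rfl
  · intro h
    have h2 : slHom g = 1 := by
      ext1 v
      exact h v
    have h1 : slHom.codRestrict _ slHom_mem g = 1 := Subtype.ext h2
    show (preservingEquiv (fun a _ : Idx → F => quadFormPlus 3 F a)).symm (slHom.codRestrict _ slHom_mem g) = 1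
    rw [h1, map_one]

theorem ker_le_center : (φ (F := F)).ker ≤ Subgroup.center (SpecialLinearGroup (Fin 4) F) := by
  intro g hg
  rw [mem_ker_φ] at hg
  obtain ⟨c, hc, hgc⟩ := ker_scalar _ hg
  rw [Matrix.SpecialLinearGroup.mem_center_iff]
  refine ⟨c, ?_, ?_⟩
  · simp only [Fintype.card_fin]
    calc c ^ 4 = (c * c) * (c * c) := by ring
      _ = 1 := by rw [hc]; ring
  · rw [hgc]
    ext i j
    simp [Matrix.scalar_apply, Matrix.diagonal_apply, Matrix.one_apply]

theorem range_le_omega : (φ (F := F)).range ≤ Omega F (quadFormPlus 3 F) := by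
  have h1 := Subgroup.map_commutator (⊤ : Subgroup (SpecialLinearGroup (Fin 4) F)) ⊤ (φ (F := F))
  rw [← commutator_def, Cfsg.Agent.S0248.result 4 (by omega)] at h1
  rw [MonoidHom.range_eq_map, h1]
  rw [Omega, commutator_def]
  exact Subgroup.commutator_mono le_top le_top

theorem center_PSL_eq_bot :
    Subgroup.center (SpecialLinearGroup (Fin 4) F ⧸ Subgroup.center (SpecialLinearGroup (Fin 4) F)) = ⊥ := by
  haveI : IsSimpleGroup (SpecialLinearGroup (Fin 4) F ⧸ Subgroup.center (SpecialLinearGroup (Fin 4) F)) :=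
    Cfsg.Agent.S0249.result 4 (by omega)
  exact center_eq_bot_of_simple (commutator_quot_eq_top _ (Cfsg.Agent.S0248.result 4 (by omega)))

variable [Fintype F]

theorem card_SL4 {q : ℕ} (hF : Fintype.card F = q) :
    Nat.card (SpecialLinearGroup (Fin 4) F) = q ^ 6 * (q ^ 3 - 1) * (q ^ 2 - 1) * (q ^ 4 - 1) := by
  have h := Cfsg.Agent.S0242.result hF 4 (by omega)
  have hq : 2 ≤ q := by rw [← hF]; exact Fintype.one_lt_card
  rw [Fin.prod_univ_four] at h
  simp only [Fin.val_zero, Fin.val_one, Fin.val_two, pow_zero] at h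
  have e3 : ((3 : Fin 4) : ℕ) = 3 := rfl
  rw [e3] at h
  have e1 : q ^ 4 - q ^ 1 = q * (q ^ 3 - 1) := by
    rw [Nat.mul_sub]; congr 1 <;> ring
  have e2 : q ^ 4 - q ^ 2 = q ^ 2 * (q ^ 2 - 1) := by
    rw [Nat.mul_sub]; congr 1 <;> ring
  have e4 : q ^ 4 - q ^ 3 = q ^ 3 * (q - 1) := by
    rw [Nat.mul_sub]; congr 1 <;> ring
  rw [e1, e2, e4] at h
  have hpos : 0 < q - 1 := by omega
  apply Nat.eq_of_mul_eq_mul_left hpos
  rw [h]
  ring

/-- the number of elements of the kernel -/
theorem card_ker_odd (h2 : (2 : F) ≠ 0) : Nat.card (φ (F := F)).ker = 2 := by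
  classical
  let m : SpecialLinearGroup (Fin 4) F := ⟨-1, by
    rw [Matrix.det_neg]; simp; norm_num⟩
  have hm : m ∈ (φ (F := F)).ker := by
    rw [mem_ker_φ]
    intro v
    show act (-1) v = v
    rw [act_apply]
    simp [coords_mat]
  rw [Nat.card_eq_two_iff]
  refine ⟨1, ⟨m, hm⟩, ?_, ?_⟩
  · intro h
    have h1 := congrArg (fun x : (φ (F := F)).ker => ((x.1 : SpecialLinearGroup (Fin 4) F) : Matrix (Fin 4) (Fin 4) F) 0 0) h
    have h3 : (1 : F) = -1 := by simpa [m] using h1
    apply h2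
    linear_combination h3
  · ext ⟨g, hg⟩
    simp only [Set.mem_insert_iff, Set.mem_singleton_iff, Set.mem_univ, iff_true]
    rw [mem_ker_φ] at hg
    obtain ⟨c, hc, hgc⟩ := ker_scalar _ hg
    have h3 : (c - 1) * (c + 1) = 0 := by linear_combination hc
    rcases mul_eq_zero.mp h3 with h4 | h4
    · left
      apply Subtype.ext
      apply Subtype.ext
      have : c = 1 := sub_eq_zero.mp h4
      rw [this, one_smul] at hgc
      exact hgc
    · right
      apply Subtype.ext
      apply Subtype.ext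
      have : c = -1 := eq_neg_of_add_eq_zero_left h4
      rw [this, neg_one_smul] at hgc
      exact hgc

theorem ker_bot_even (h2 : (2 : F) = 0) : (φ (F := F)).ker = ⊥ := by
  rw [eq_bot_iff]
  intro g hg
  rw [mem_ker_φ] at hg
  obtain ⟨c, hc, hgc⟩ := ker_scalar _ hg
  have h3 : (c + 1) ^ 2 = 0 := by
    linear_combination hc + c * h2 + h2 * 1
  have h4 : c + 1 = 0 := pow_eq_zero_iff (two_ne_zero) |>.mp h3
  have h5 : c = 1 := by linear_combination h4 - h2
  rw [h5, one_smul] at hgc
  rw [Subgroup.mem_bot]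
  apply Subtype.ext
  exact hgc

/-- `PΩ⁺₆(q) ≅ PSL₄(q)` -/
theorem pomega_plus_iso : Nonempty (POmega F (quadFormPlus 3 F) ≃* Matrix.ProjectiveSpecialLinearGroup (Fin 4) F) := by
  classical
  obtain ⟨q, hF⟩ : ∃ q, Fintype.card F = q := ⟨_, rfl⟩
  have hcF : Nat.card F = q := by rw [Nat.card_eq_fintype_card, hF]
  have hq : 2 ≤ q := by rw [← hF]; exact Fintype.one_lt_card
  let Q : QuadraticForm F (Idx → F) := mkQ (quadFormPlus_nondeg (F := F) 3)
  have hQnd : (QuadraticMap.polarBilin Q).Nondegenerate := mkQ_nondeg _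
  have hO : Nat.card (isometryGroup F (quadFormPlus 3 F)) = 2 * (q ^ 6 * (q ^ 3 - 1) * (q ^ 2 - 1) * (q ^ 4 - 1)) := by
    rw [card_isometry_eq, card_isom_plus 2, hcF]
    simp [Finset.prod_range_succ]
    ring
  refine pomega_iso (quadFormPlus 3 F) φ range_le_omega ker_le_center center_PSL_eq_bot ?_
  rw [card_SL4 hF]
  by_cases h2 : (2 : F) = 0
  · rw [ker_bot_even h2, Subgroup.card_bot, mul_one]
    have h3 := card_Omega_mul_even (Q := Q) h2 (by simp) hQnd (Or.inr (by simp))
    have h4 : Nat.card (Omega F (quadFormPlus 3 F)) * 2 = Nat.card (isometryGroup F (quadFormPlus 3 F)) := h3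
    rw [hO] at h4
    omega
  · rw [card_ker_odd h2]
    have h3 := card_Omega_mul_odd (Q := Q) h2 (by simp) hQnd
    have h4 : Nat.card (Omega F (quadFormPlus 3 F)) * 4 = Nat.card (isometryGroup F (quadFormPlus 3 F)) := h3
    rw [hO] at h4
    omega

end CfsgLib.ClassGeo.Klein
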