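import Mathlib
import Cfsg.Agent.Lib.ClassGeo.Bridge
import Cfsg.Agent.Lib.ClassGeo.SpOrder

set_option autoImplicit false
set_option linter.unusedSimpArgs false
set_option linter.unusedVariables false

namespace CfsgLib.ClassGeo

open Module Matrix Cfsg
open scoped LinearAlgebra.Projectivization Pointwise

variable {F : Type*} [Field F] {m : ℕ}

/-- An isometry gives an element of `spGL`. -/
noncomputable def spGLof (g : (Fin m ⊕ Fin m → F) ≃ₗ[F] (Fin m ⊕ Fin m → F))
    (hg : ∀ a b, sympForm m F (g a) (g b) = sympForm m F a b) : spGL m F :=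
  ⟨glLin.symm g, fun a b => by
    change sympForm m F (((glLin.symm g : GeneralLinearGroup _ F) : Matrix _ _ F) *ᵥ a)
      (((glLin.symm g : GeneralLinearGroup _ F) : Matrix _ _ F) *ᵥ b) = _
    rw [glLin_symm_mulVec, glLin_symm_mulVec]
    exact hg a b⟩

theorem spGLof_smul (g : (Fin m ⊕ Fin m → F) ≃ₗ[F] (Fin m ⊕ Fin m → F))
    (hg : ∀ a b, sympForm m F (g a) (g b) = sympForm m F a b) (v : Fin m ⊕ Fin m → F) :
    spGLof g hg • v = g v :=
  glLin_symm_mulVec g v

theorem spGL_smul_mk (g : spGL m F) (v : Fin m ⊕ Fin m → F) (hv : v ≠ 0) :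
    g • Projectivization.mk F v hv = Projectivization.mk F (g • v) ((smul_ne_zero_iff_ne g).mpr hv) :=
  Projectivization.smul_mk g hv

theorem sp_exists_pair (u v u' v' : Fin m ⊕ Fin m → F) (huv : sympForm m F u v = 1) (huv' : sympForm m F u' v' = 1) :
    ∃ g : spGL m F, g • u = u' ∧ g • v = v' := by
  obtain ⟨g, hg, h1, h2⟩ := alt_witt_pair (sympBilin_isAlt (F := F) m) (sympBilin_sep m) u v u' v' huv huv'
  have hg' : ∀ a b, sympForm m F (g a) (g b) = sympForm m F a b := hg
  exact ⟨spGLof g hg', by rw [spGLof_smul, h1], by rw [spGLof_smul, h2]⟩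

theorem sp_exists_li_pair (u v u' v' : Fin m ⊕ Fin m → F) (hli : LinearIndependent F ![u, v])
    (hli' : LinearIndependent F ![u', v']) (huv : sympForm m F u v = sympForm m F u' v') :
    ∃ g : spGL m F, g • u = u' ∧ g • v = v' := by
  obtain ⟨g, hg, h1, h2⟩ := alt_witt_li_pair (sympBilin_isAlt (F := F) m) (sympBilin_sep m) u v u' v' hli hli' huv
  have hg' : ∀ a b, sympForm m F (g a) (g b) = sympForm m F a b := hg
  exact ⟨spGLof g hg', by rw [spGLof_smul, h1], by rw [spGLof_smul, h2]⟩

theorem sp_exists_partner (u : Fin m ⊕ Fin m → F) (hu : u ≠ 0) : ∃ v, sympForm m F u v = 1 :=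
  exists_partner (sympBilin_sep (F := F) m) u hu

instance spGL_isPretransitive : MulAction.IsPretransitive (spGL m F) (ℙ F (Fin m ⊕ Fin m → F)) := by
  constructor
  intro p q
  induction p using Projectivization.ind with | _ x hx => ?_
  induction q using Projectivization.ind with | _ y hy => ?_
  obtain ⟨x', hx'⟩ := sp_exists_partner x hx
  obtain ⟨y', hy'⟩ := sp_exists_partner y hy
  obtain ⟨g, hg, _⟩ := sp_exists_pair x x' y y' hx' hy'
  refine ⟨g, ?_⟩
  rw [spGL_smul_mk]
  simp only [hg]

/-- Non-perpendicular closure of a block. -/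
theorem sp_block_np {B : Set (ℙ F (Fin m ⊕ Fin m → F))} (hB : MulAction.IsBlock (spGL m F) B)
    (x y y' : Fin m ⊕ Fin m → F) (hx : x ≠ 0) (hy : y ≠ 0) (hy' : y' ≠ 0)
    (hxB : Projectivization.mk F x hx ∈ B) (hyB : Projectivization.mk F y hy ∈ B)
    (hxy : sympForm m F x y ≠ 0) (hxy' : sympForm m F x y' ≠ 0) : Projectivization.mk F y' hy' ∈ B := by
  obtain ⟨g, hgx, hgy⟩ := sp_exists_pair x ((sympForm m F x y)⁻¹ • y) x ((sympForm m F x y')⁻¹ • y')
    (by rw [symp_smul_right, inv_mul_cancel₀ hxy]) (by rw [symp_smul_right, inv_mul_cancel₀ hxy'])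
  have hfix : g • Projectivization.mk F x hx = Projectivization.mk F x hx := by
    rw [spGL_smul_mk]
    simp only [hgx]
  have hblock : g • B = B := by
    apply hB.smul_eq_of_nonempty
    refine ⟨Projectivization.mk F x hx, ?_, hxB⟩
    rw [← hfix]
    exact Set.smul_mem_smul_set hxB
  have h1 : g • Projectivization.mk F y hy ∈ B := by
    rw [← hblock]
    exact Set.smul_mem_smul_set hyB
  rw [spGL_smul_mk] at h1
  have h2 : Projectivization.mk F (g • y) ((smul_ne_zero_iff_ne g).mpr hy) = Projectivization.mk F y' hy' := by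
    rw [Projectivization.mk_eq_mk_iff']
    refine ⟨sympForm m F x y * (sympForm m F x y')⁻¹, ?_⟩
    have h3 : g • y = sympForm m F x y • (g • ((sympForm m F x y)⁻¹ • y)) := by
      rw [smul_comm g (sympForm m F x y)⁻¹ y, smul_smul, mul_inv_cancel₀ hxy, one_smul]
    rw [h3, hgy, smul_smul]
  rw [← h2]
  exact h1

/-- Perpendicular closure of a block. -/
theorem sp_block_p {B : Set (ℙ F (Fin m ⊕ Fin m → F))} (hB : MulAction.IsBlock (spGL m F) B)
    (x y y' : Fin m ⊕ Fin m → F) (hx : x ≠ 0) (hy : y ≠ 0) (hy' : y' ≠ 0)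
    (hxB : Projectivization.mk F x hx ∈ B) (hyB : Projectivization.mk F y hy ∈ B)
    (hli : LinearIndependent F ![x, y]) (hli' : LinearIndependent F ![x, y'])
    (hxy : sympForm m F x y = 0) (hxy' : sympForm m F x y' = 0) : Projectivization.mk F y' hy' ∈ B := by
  obtain ⟨g, hgx, hgy⟩ := sp_exists_li_pair x y x y' hli hli' (by rw [hxy, hxy'])
  have hfix : g • Projectivization.mk F x hx = Projectivization.mk F x hx := by
    rw [spGL_smul_mk]
    simp only [hgx]
  have hblock : g • B = B := by
    apply hB.smul_eq_of_nonempty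
    refine ⟨Projectivization.mk F x hx, ?_, hxB⟩
    rw [← hfix]
    exact Set.smul_mem_smul_set hxB
  have h1 : g • Projectivization.mk F y hy ∈ B := by
    rw [← hblock]
    exact Set.smul_mem_smul_set hyB
  rw [spGL_smul_mk] at h1
  simp only [hgy] at h1
  exact h1

theorem sp_exists_common (x z : Fin m ⊕ Fin m → F) (hx : x ≠ 0) (hz : z ≠ 0) :
    ∃ s, sympForm m F x s ≠ 0 ∧ sympForm m F z s ≠ 0 := by
  obtain ⟨z₁, hxz₁⟩ := sp_exists_partner x hx
  obtain ⟨z₂, hyz₂⟩ := sp_exists_partner z hz
  by_cases h3 : sympForm m F z z₁ = 0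
  · by_cases h4 : sympForm m F x z₂ = 0
    · refine ⟨z₁ + z₂, ?_, ?_⟩
      · rw [symp_add_right, h4, add_zero, hxz₁]; exact one_ne_zero
      · rw [symp_add_right, h3, zero_add, hyz₂]; exact one_ne_zero
    · exact ⟨z₂, h4, by rw [hyz₂]; exact one_ne_zero⟩
  · exact ⟨z₁, by rw [hxz₁]; exact one_ne_zero, h3⟩

instance spGL_isPreprimitive : MulAction.IsPreprimitive (spGL m F) (ℙ F (Fin m ⊕ Fin m → F)) := by
  refine { isTrivialBlock_of_isBlock := ?_ }
  intro B hB
  by_cases hsub : B.Subsingleton
  · exact Or.inl hsub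
  right
  rw [Set.not_subsingleton_iff] at hsub
  obtain ⟨p, hp, q, hq, hpq⟩ := hsub
  have claimA : ∀ (x y : Fin m ⊕ Fin m → F) (hx : x ≠ 0) (hy : y ≠ 0), Projectivization.mk F x hx ∈ B →
      Projectivization.mk F y hy ∈ B → sympForm m F x y ≠ 0 → B = Set.univ := by
    intro x y hx hy hxB hyB hxy
    rw [Set.eq_univ_iff_forall]
    intro r
    induction r using Projectivization.ind with | _ z hz => ?_
    by_cases hxz : sympForm m F x z = 0
    · obtain ⟨s, hs1, hs2⟩ := sp_exists_common x z hx hz
      have hs0 : s ≠ 0 := by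
        rintro rfl
        simp [symp_zero_right] at hs1
      have hsB := sp_block_np hB x y s hx hy hs0 hxB hyB hxy hs1
      have hsx : sympForm m F s x ≠ 0 := by
        rw [symp_skew]; exact neg_ne_zero.mpr hs1
      have hsz : sympForm m F s z ≠ 0 := by
        rw [symp_skew]; exact neg_ne_zero.mpr hs2
      exact sp_block_np hB s x z hs0 hx hz hsB hxB hsx hsz
    · exact sp_block_np hB x y z hx hy hz hxB hyB hxy hxz
  have hli : LinearIndependent F ![p.rep, q.rep] := Projectivization.linearIndependent_pair_iff_ne.mpr hpq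
  set x := p.rep with hxdef
  set y := q.rep with hydef
  have hx : x ≠ 0 := p.rep_nonzero
  have hy : y ≠ 0 := q.rep_nonzero
  have hpm : Projectivization.mk F x hx = p := Projectivization.mk_rep p
  have hqm : Projectivization.mk F y hy = q := Projectivization.mk_rep q
  have hxB : Projectivization.mk F x hx ∈ B := by rw [hpm]; exact hp
  have hyB : Projectivization.mk F y hy ∈ B := by rw [hqm]; exact hq
  by_cases hxy : sympForm m F x y = 0
  · -- there is b with f(x,b) = 0 and f(y,b) ≠ 0
    have heps := altEps (sympBilin_isAlt (F := F) m) (sympBilin_sep m)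
    have hnot : y ∉ Submodule.span F {x} := by
      intro h
      obtain ⟨c, hc⟩ := Submodule.mem_span_singleton.mp h
      have := (LinearIndependent.pair_iff.mp hli) c (-1) (by rw [← hc]; simp)
      simp at this
    obtain ⟨w, hwy, hwS⟩ := heps.exists_sep (Submodule.span F {x}) y hnot
    have hwx : sympForm m F w x = 0 := hwS x (Submodule.mem_span_singleton_self x)
    have hwy' : sympForm m F w y = 1 := hwy
    have hxw : sympForm m F x w = 0 := by rw [symp_skew, hwx, neg_zero]
    have hyw : sympForm m F y w ≠ 0 := by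
      rw [symp_skew, hwy']; exact neg_ne_zero.mpr one_ne_zero
    have hw0 : w ≠ 0 := by
      rintro rfl
      simp [symp_zero_left] at hwy'
    have hliw : LinearIndependent F ![x, w] := by
      rw [LinearIndependent.pair_iff]
      intro s t hst
      have h1 := congrArg (fun u => sympForm m F u y) hst
      simp only [symp_add_left, symp_smul_left, hxy, hwy', symp_zero_left, mul_zero, zero_add, mul_one] at h1
      subst h1
      simp only [zero_smul, add_zero] at hst
      exact ⟨(smul_eq_zero.mp hst).resolve_right hx, rfl⟩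
    have hwB := sp_block_p hB x y w hx hy hw0 hxB hyB hli hliw hxy hxw
    exact claimA y w hy hw0 hyB hwB hyw
  · exact claimA x y hx hy hxB hyB hxy

end CfsgLib.ClassGeo
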