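import Mathlib
import Cfsg.Agent.Lib.ClassGeo.SpTrans
import Cfsg.Agent.Lib.ClassGeo.SpPrim

set_option autoImplicit false
set_option linter.unusedSimpArgs false
set_option linter.unusedVariables false

namespace CfsgLib.ClassGeo

open Module Matrix Cfsg
open scoped commutatorElement

variable {F : Type*} [Field F] {m : ℕ}

local notation "MM" => Matrix (Fin m ⊕ Fin m) (Fin m ⊕ Fin m) F

theorem sp_ext {A B : symplecticGroup (Fin m) F} (h : ∀ x, (A : MM) *ᵥ x = (B : MM) *ᵥ x) : A = B :=
  Subtype.ext (matrix_eq_of_mulVec h)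

theorem sp_mul_mulVec (A B : symplecticGroup (Fin m) F) (x : Fin m ⊕ Fin m → F) :
    ((A * B : symplecticGroup (Fin m) F) : MM) *ᵥ x = (A : MM) *ᵥ ((B : MM) *ᵥ x) := by
  change ((A : MM) * (B : MM)) *ᵥ x = _
  rw [mulVec_mulVec]

theorem spT_add (v : Fin m ⊕ Fin m → F) (c d : F) : spT v c * spT v d = spT v (c + d) :=
  Subtype.ext (sympTransvection_mul v c d)

theorem spT_zero (v : Fin m ⊕ Fin m → F) : spT v (0 : F) = 1 := by
  apply sp_ext
  intro x
  rw [spT_mulVec]
  change _ = (1 : MM) *ᵥ x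
  simp

theorem spT_inv (v : Fin m ⊕ Fin m → F) (c : F) : (spT v c)⁻¹ = spT v (-c) := by
  apply inv_eq_of_mul_eq_one_right
  rw [spT_add, add_neg_cancel, spT_zero]

theorem spT_smul (a : F) (v : Fin m ⊕ Fin m → F) (c : F) : spT (a • v) c = spT v (a * a * c) := by
  apply sp_ext
  intro x
  rw [spT_mulVec, spT_mulVec, symp_smul_right, smul_smul]
  congr 2
  ring

/-- Conjugation of a transvection. -/
theorem sp_conj_T (g : symplecticGroup (Fin m) F) (v : Fin m ⊕ Fin m → F) (c : F) :
    g * spT v c * g⁻¹ = spT ((g : MM) *ᵥ v) c := by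
  apply sp_ext
  intro x
  rw [sp_mul_mulVec, sp_mul_mulVec, spT_mulVec, spT_mulVec, mulVec_add, mulVec_smul, sp_mulVec_inv]
  congr 2
  have := sp_preserves g (((g⁻¹ : symplecticGroup (Fin m) F) : MM) *ᵥ x) v
  rw [sp_mulVec_inv] at this
  rw [this]

/-- The short root element. -/
noncomputable def spS (x y : Fin m ⊕ Fin m → F) (t : F) : symplecticGroup (Fin m) F :=
  spT (x + y) t * spT x (-t) * spT y (-t)

theorem spS_mulVec (x y : Fin m ⊕ Fin m → F) (hxy : sympForm m F x y = 0) (t : F) (z : Fin m ⊕ Fin m → F) :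
    (spS x y t : MM) *ᵥ z = z + (t * sympForm m F z y) • x + (t * sympForm m F z x) • y := by
  have hxx := symp_self x
  have hyy := symp_self y
  have hyx : sympForm m F y x = 0 := by rw [symp_skew, hxy, neg_zero]
  rw [spS, sp_mul_mulVec, sp_mul_mulVec, spT_mulVec, spT_mulVec, spT_mulVec]
  simp only [symp_add_left, symp_add_right, symp_smul_left, symp_smul_right, hxx, hyy, hxy, hyx]
  ext i
  simp only [Pi.add_apply, Pi.smul_apply, smul_eq_mul]
  ring

theorem spS_mem (x y : Fin m ⊕ Fin m → F) (t : F) : spS x y t ∈ spTG m F :=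
  mul_mem (mul_mem (spT_mem _ _) (spT_mem _ _)) (spT_mem _ _)

theorem sp_conj_S (g : symplecticGroup (Fin m) F) (x y : Fin m ⊕ Fin m → F) (t : F) :
    g * spS x y t * g⁻¹ = spS ((g : MM) *ᵥ x) ((g : MM) *ᵥ y) t := by
  have h : g * spS x y t * g⁻¹ = (g * spT (x + y) t * g⁻¹) * (g * spT x (-t) * g⁻¹) * (g * spT y (-t) * g⁻¹) := by
    simp only [spS]; group
  rw [h, sp_conj_T, sp_conj_T, sp_conj_T, spS, mulVec_add]

/-- `S(u, w + β u, t) = S(u, w, t) T_u(2 t β)`. -/
theorem spS_add_self (u w : Fin m ⊕ Fin m → F) (huw : sympForm m F u w = 0) (β t : F) :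
    spS u (w + β • u) t = spS u w t * spT u (2 * t * β) := by
  have hu := symp_self u
  apply sp_ext
  intro z
  rw [sp_mul_mulVec, spT_mulVec, spS_mulVec u w huw, spS_mulVec]
  · simp only [mulVec_add, mulVec_smul, symp_add_right, symp_smul_right, symp_add_left, symp_smul_left, huw, hu]
    ext i
    simp only [Pi.add_apply, Pi.smul_apply, smul_eq_mul]
    ring
  · rw [symp_add_right, symp_smul_right, huw, hu]
    simp

/-- Heisenberg commutator: in characteristic not two root elements are commutators. -/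
theorem spT_comm_heis (u w w' : Fin m ⊕ Fin m → F) (huw : sympForm m F u w = 0) (huw' : sympForm m F u w' = 0)
    (s t : F) :
    ⁅spS u w' s, spS u w t⁆ = spT u (2 * t * (s * sympForm m F w w')) := by
  have hu := symp_self u
  have hwu : sympForm m F w u = 0 := by rw [symp_skew, huw, neg_zero]
  have h1 : ((spS u w' s : symplecticGroup (Fin m) F) : MM) *ᵥ u = u := by
    rw [spS_mulVec u w' huw', huw', hu]; simp
  have h2 : ((spS u w' s : symplecticGroup (Fin m) F) : MM) *ᵥ w = w + (s * sympForm m F w w') • u := by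
    rw [spS_mulVec u w' huw', hwu]; simp
  have h3 : ((spS u w t : symplecticGroup (Fin m) F) : MM) *ᵥ u = u := by
    rw [spS_mulVec u w huw, huw, hu]; simp
  rw [commutatorElement_def, sp_conj_S, h1, h2, spS_add_self u w huw]
  have : spS u w t * spT u (2 * t * (s * sympForm m F w w')) * (spS u w t)⁻¹ = spT u (2 * t * (s * sympForm m F w w')) := by
    rw [sp_conj_T, h3]
  exact this

/-- The torus commutator. -/
theorem spT_comm_torus (g : symplecticGroup (Fin m) F) (u : Fin m ⊕ Fin m → F) (a b : F)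
    (hg : (g : MM) *ᵥ u = a • u) : ⁅g, spT u b⁆ = spT u ((a * a - 1) * b) := by
  rw [commutatorElement_def, sp_conj_T, hg, spT_smul, spT_inv, spT_add]
  congr 1
  ring

variable (m) in
/-- Standard vectors. -/
noncomputable def spE (i : Fin m) : Fin m ⊕ Fin m → F := Pi.single (Sum.inl i) 1
variable (m) in
noncomputable def spH (i : Fin m) : Fin m ⊕ Fin m → F := Pi.single (Sum.inr i) 1

theorem spE_spE (i j : Fin m) : sympForm m F (spE m i) (spE m j) = 0 := by
  rw [symp_apply]
  simp [spE, Pi.single_apply]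

theorem spH_spH (i j : Fin m) : sympForm m F (spH m i) (spH m j) = 0 := by
  rw [symp_apply]
  simp [spH, Pi.single_apply]

theorem spE_spH (i j : Fin m) : sympForm m F (spE m i) (spH m j) = - if i = j then 1 else 0 := by
  rw [symp_apply]
  by_cases h : i = j
  · subst h
    simp [spE, spH, Pi.single_apply]
  · simp [spE, spH, Pi.single_apply, h, Ne.symm h]

theorem spE_ne_zero (i : Fin m) : spE (F := F) m i ≠ 0 := by
  intro h
  have := congrFun h (Sum.inl i)
  simp [spE] at this

theorem spS_add_left (x x' y : Fin m ⊕ Fin m → F) (a t : F) (hxx' : sympForm m F x x' = 0)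
    (hxy : sympForm m F x y = 0) (hx'y : sympForm m F x' y = 0) :
    spS (x + a • x') y t = spS x y t * spS x' y (a * t) := by
  have hx'x : sympForm m F x' x = 0 := by rw [symp_skew, hxx', neg_zero]
  have hyx' : sympForm m F y x' = 0 := by rw [symp_skew, hx'y, neg_zero]
  have hyx : sympForm m F y x = 0 := by rw [symp_skew, hxy, neg_zero]
  have hyy := symp_self y
  have hx'x' := symp_self x'
  have hxx := symp_self x
  apply sp_ext
  intro z
  rw [sp_mul_mulVec, spS_mulVec x' y hx'y, spS_mulVec x y hxy, spS_mulVec]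
  · simp only [symp_add_right, symp_smul_right, symp_add_left, symp_smul_left, hxx', hxy, hx'y, hx'x, hyx', hyx, hyy, hx'x', hxx]
    ext i
    simp only [Pi.add_apply, Pi.smul_apply, smul_eq_mul]
    ring
  · rw [symp_add_left, symp_smul_left, hxy, hx'y]
    simp

theorem spS_symm (x y : Fin m ⊕ Fin m → F) (t : F) (hxy : sympForm m F x y = 0) : spS y x t = spS x y t := by
  have hyx : sympForm m F y x = 0 := by rw [symp_skew, hxy, neg_zero]
  apply sp_ext
  intro z
  rw [spS_mulVec x y hxy, spS_mulVec y x hyx]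
  ext i
  simp only [Pi.add_apply, Pi.smul_apply, smul_eq_mul]
  ring

theorem spS_smul_right (x y : Fin m ⊕ Fin m → F) (a t : F) (hxy : sympForm m F x y = 0) :
    spS x (a • y) t = spS x y (a * t) := by
  have hxy' : sympForm m F x (a • y) = 0 := by rw [symp_smul_right, hxy, mul_zero]
  apply sp_ext
  intro z
  rw [spS_mulVec x y hxy, spS_mulVec x (a • y) hxy', symp_smul_right]
  ext i
  simp only [Pi.add_apply, Pi.smul_apply, smul_eq_mul]
  ring

theorem spT_add_vec (x y : Fin m ⊕ Fin m → F) (t : F) :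
    spT (x + y) t = spS x y t * spT y t * spT x t := by
  simp only [spS]
  have h1 : spT x (-t) * spT y (-t) * spT y t * spT x t = 1 := by
    rw [mul_assoc (spT x (-t)), spT_add, neg_add_cancel, spT_zero, mul_one, spT_add, neg_add_cancel, spT_zero]
  calc spT (x + y) t = spT (x + y) t * (spT x (-t) * spT y (-t) * spT y t * spT x t) := by rw [h1, mul_one]
    _ = _ := by group

section perfect

/-- If all root elements of a nonzero vector are in the commutator subgroup the group is perfect. -/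
theorem sp_perfect_of_T (u₀ : Fin m ⊕ Fin m → F) (hu₀ : u₀ ≠ 0)
    (h : ∀ c, spT u₀ c ∈ commutator (symplecticGroup (Fin m) F)) :
    commutator (symplecticGroup (Fin m) F) = ⊤ := by
  rw [eq_top_iff, ← sp_TG_eq_top, spTG, Subgroup.closure_le]
  rintro A ⟨w, c, hA⟩
  have hAT : A = spT w c := Subtype.ext hA
  rw [hAT]
  by_cases hw : w = 0
  · subst hw
    have : spT (0 : Fin m ⊕ Fin m → F) c = 1 := by
      apply sp_ext
      intro x
      rw [spT_mulVec]
      change _ = (1 : MM) *ᵥ x
      simp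
    rw [this]
    exact one_mem _
  · obtain ⟨g, _, hg⟩ := sp_trans_vec ⊤ (fun u _ hu => symp_nondeg' (fun x => hu x trivial)) u₀ w trivial trivial hu₀ hw
    rw [← hg, ← sp_conj_T]
    exact Subgroup.Normal.conj_mem inferInstance _ (h c) g

theorem sp_comm_case_a (u : Fin m ⊕ Fin m → F) (hu : u ≠ 0) (a : F) (ha : a ≠ 0) (ha2 : a ^ 2 ≠ 1) (c : F) :
    spT u c ∈ commutator (symplecticGroup (Fin m) F) := by
  obtain ⟨v, hv⟩ := sp_exists_partner u hu
  obtain ⟨g, _, hgu, _⟩ := sp_trans_pair ⊤ (fun u _ hu => symp_nondeg' (fun x => hu x trivial)) u v (a • u) (a⁻¹ • v)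
    trivial trivial trivial trivial hv (by
      rw [symp_smul_left, symp_smul_right, hv]; field_simp)
  have h1 : a * a - 1 ≠ 0 := by
    intro h0
    apply ha2
    linear_combination h0
  have h2 := spT_comm_torus g u a (c / (a * a - 1)) hgu
  rw [mul_div_cancel₀ _ h1] at h2
  rw [← h2]
  exact Subgroup.commutator_mem_commutator (Subgroup.mem_top _) (Subgroup.mem_top _)

theorem sp_comm_case_b (hm : 2 ≤ m) (h2 : (2 : F) ≠ 0) (c : F) :
    spT (spE (F := F) m ⟨0, by omega⟩) c ∈ commutator (symplecticGroup (Fin m) F) := by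
  let i0 : Fin m := ⟨0, by omega⟩
  let i1 : Fin m := ⟨1, by omega⟩
  have hne : i0 ≠ i1 := by simp [i0, i1, Fin.ext_iff]
  have h3 := spT_comm_heis (spE (F := F) m i0) (spE m i1) (spH m i1) (spE_spE _ _) (by rw [spE_spH, if_neg hne, neg_zero])
    (- c / 2) 1
  rw [spE_spH, if_pos rfl] at h3
  have h4 : 2 * 1 * (-c / 2 * -1) = c := by field_simp
  rw [h4] at h3
  change spT (spE (F := F) m i0) c ∈ _
  rw [← h3]
  exact Subgroup.commutator_mem_commutator (Subgroup.mem_top _) (Subgroup.mem_top _)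

theorem sp_comm_case_c (hm : 3 ≤ m) (t : F) :
    spT (spE (F := F) m ⟨0, by omega⟩) t ∈ commutator (symplecticGroup (Fin m) F) := by
  let i0 : Fin m := ⟨0, by omega⟩
  let i1 : Fin m := ⟨1, by omega⟩
  let i2 : Fin m := ⟨2, by omega⟩
  have h01 : i0 ≠ i1 := by simp [i0, i1, Fin.ext_iff]
  have h02 : i0 ≠ i2 := by simp [i0, i2, Fin.ext_iff]
  have h12 : i1 ≠ i2 := by simp [i1, i2, Fin.ext_iff]
  set e0 := spE (F := F) m i0 with he0
  set e1 := spE (F := F) m i1 with he1
  set e2 := spE (F := F) m i2 with he2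
  set h1' := spH (F := F) m i1 with hh1
  set h2' := spH (F := F) m i2 with hh2
  have e00 : sympForm m F e0 e0 = 0 := spE_spE _ _
  have e01 : sympForm m F e0 e1 = 0 := spE_spE _ _
  have e02 : sympForm m F e0 e2 = 0 := spE_spE _ _
  have e10 : sympForm m F e1 e0 = 0 := spE_spE _ _
  have e11 : sympForm m F e1 e1 = 0 := spE_spE _ _
  have e12 : sympForm m F e1 e2 = 0 := spE_spE _ _
  have e20 : sympForm m F e2 e0 = 0 := spE_spE _ _
  have e21 : sympForm m F e2 e1 = 0 := spE_spE _ _
  have e0h2 : sympForm m F e0 h2' = 0 := by rw [spE_spH, if_neg h02, neg_zero]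
  have e1h2 : sympForm m F e1 h2' = 0 := by rw [spE_spH, if_neg h12, neg_zero]
  have e2h2 : sympForm m F e2 h2' = -1 := by rw [spE_spH, if_pos rfl]
  have e0h1 : sympForm m F e0 h1' = 0 := by rw [spE_spH, if_neg h01, neg_zero]
  have e1h1 : sympForm m F e1 h1' = -1 := by rw [spE_spH, if_pos rfl]
  -- step 1: short root elements are in the commutator subgroup
  have step1 : ∀ s : F, spS e0 e1 s ∈ commutator (symplecticGroup (Fin m) F) := by
    intro s
    let g := spS e0 h2' (1 : F)
    let h := spS e2 e1 (-s)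
    have hg2 : ((g : symplecticGroup (Fin m) F) : MM) *ᵥ e2 = e2 + (-1 : F) • e0 := by
      rw [spS_mulVec e0 h2' e0h2, e2h2, e20]; simp
    have hg1 : ((g : symplecticGroup (Fin m) F) : MM) *ᵥ e1 = e1 := by
      rw [spS_mulVec e0 h2' e0h2, e1h2, e10]; simp
    have hh0 : ((h : symplecticGroup (Fin m) F) : MM) *ᵥ e0 = e0 := by
      rw [spS_mulVec e2 e1 e21, e01, e02]; simp
    have hh1' : ((h : symplecticGroup (Fin m) F) : MM) *ᵥ e1 = e1 := by
      rw [spS_mulVec e2 e1 e21, e11, e12]; simp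
    have hc : ⁅g, h⁆ = spS e0 e1 s := by
      rw [commutatorElement_def, sp_conj_S, hg2, hg1, spS_add_left e2 e0 e1 (-1) (-s) e20 e21 e01]
      have h5 : spS e2 e1 (-s) * spS e0 e1 (-1 * -s) * (spS e2 e1 (-s))⁻¹ = spS e0 e1 (-1 * -s) := by
        rw [sp_conj_S]
        change spS (((h : symplecticGroup (Fin m) F) : MM) *ᵥ e0) (((h : symplecticGroup (Fin m) F) : MM) *ᵥ e1) _ = _
        rw [hh0, hh1']
      rw [show (-1 : F) * -s = s by ring] at h5
      rw [show (-1 : F) * -s = s by ring]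
      exact h5
    rw [← hc]
    exact Subgroup.commutator_mem_commutator (Subgroup.mem_top _) (Subgroup.mem_top _)
  let g := spS e0 h1' (1 : F)
  have hg1 : ((g : symplecticGroup (Fin m) F) : MM) *ᵥ e1 = e1 + (-1 : F) • e0 := by
    rw [spS_mulVec e0 h1' e0h1, e1h1, e10]; simp
  have hc : ⁅g, spT e1 t⁆ = spS e1 e0 (-1 * t) * spT e0 t := by
    rw [commutatorElement_def, sp_conj_T, hg1, spT_add_vec, spT_smul, spT_inv, spS_smul_right e1 e0 (-1) t e10]
    have : (-1 : F) * -1 * t = t := by ring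
    rw [this, mul_assoc, mul_assoc, spT_add, add_neg_cancel, spT_zero, mul_one]
  have h6 : spT e0 t = (spS e1 e0 (-1 * t))⁻¹ * ⁅g, spT e1 t⁆ := by
    rw [hc]; group
  rw [h6]
  refine mul_mem (inv_mem ?_) (Subgroup.commutator_mem_commutator (Subgroup.mem_top _) (Subgroup.mem_top _))
  rw [spS_symm e0 e1 _ e01]
  exact step1 _

end perfect

end CfsgLib.ClassGeo
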