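import Mathlib
import Cfsg.Agent.Lib.ClassGeo.SpPerfect
import Cfsg.Agent.S0246

set_option autoImplicit false
set_option linter.unusedSimpArgs false
set_option linter.unusedVariables false

namespace CfsgLib.ClassGeo

open Module Matrix Cfsg
open scoped LinearAlgebra.Projectivization Pointwise

variable {F : Type*} [Field F] {m : ℕ}

local notation "MM" => Matrix (Fin m ⊕ Fin m) (Fin m ⊕ Fin m) F

theorem sp_smul_def (g : symplecticGroup (Fin m) F) (v : Fin m ⊕ Fin m → F) : g • v = (g : MM) *ᵥ v := rfl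

theorem sp_smul_mk (g : symplecticGroup (Fin m) F) (v : Fin m ⊕ Fin m → F) (hv : v ≠ 0) :
    g • Projectivization.mk F v hv = Projectivization.mk F (g • v) ((smul_ne_zero_iff_ne g).mpr hv) :=
  Projectivization.smul_mk g hv

/-- The root group of a vector. -/
noncomputable def spRoot (v : Fin m ⊕ Fin m → F) : Subgroup (symplecticGroup (Fin m) F) where
  carrier := {A | ∃ c, A = spT v c}
  mul_mem' := by
    rintro _ _ ⟨c, rfl⟩ ⟨d, rfl⟩
    exact ⟨c + d, spT_add v c d⟩
  one_mem' := ⟨0, (spT_zero v).symm⟩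
  inv_mem' := by
    rintro _ ⟨c, rfl⟩
    exact ⟨-c, spT_inv v c⟩

theorem mem_spRoot {v : Fin m ⊕ Fin m → F} {A : symplecticGroup (Fin m) F} : A ∈ spRoot v ↔ ∃ c, A = spT v c := Iff.rfl

theorem spRoot_smul (a : F) (ha : a ≠ 0) (v : Fin m ⊕ Fin m → F) : spRoot (a • v) = spRoot v := by
  ext A
  rw [mem_spRoot, mem_spRoot]
  constructor
  · rintro ⟨c, rfl⟩
    exact ⟨a * a * c, spT_smul a v c⟩
  · rintro ⟨c, rfl⟩
    refine ⟨(a * a)⁻¹ * c, ?_⟩
    rw [spT_smul]
    congr 1
    field_simp

theorem spRoot_conj (g : symplecticGroup (Fin m) F) (v : Fin m ⊕ Fin m → F) :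
    spRoot ((g : MM) *ᵥ v) = MulAut.conj g • spRoot v := by
  ext A
  rw [Subgroup.mem_pointwise_smul_iff_inv_smul_mem, mem_spRoot, mem_spRoot]
  simp only [MulAut.smul_def, MulAut.inv_apply, MulAut.conj_symm_apply]
  constructor
  · rintro ⟨c, rfl⟩
    refine ⟨c, ?_⟩
    rw [← sp_conj_T]
    group
  · rintro ⟨c, hc⟩
    refine ⟨c, ?_⟩
    rw [← sp_conj_T, ← hc]
    group

/-- The Iwasawa structure of the symplectic group on the projective space. -/
noncomputable def spIwasawa : MulAction.IwasawaStructure (symplecticGroup (Fin m) F) (ℙ F (Fin m ⊕ Fin m → F)) where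
  T := fun p => spRoot p.rep
  is_comm := by
    intro p
    refine ⟨⟨?_⟩⟩
    rintro ⟨a, c, rfl⟩ ⟨b, d, rfl⟩
    apply Subtype.ext
    change spT p.rep c * spT p.rep d = spT p.rep d * spT p.rep c
    rw [spT_add, spT_add, add_comm]
  is_conj := by
    intro g p
    have h1 : Projectivization.mk F (g • p.rep) ((smul_ne_zero_iff_ne g).mpr p.rep_nonzero) = g • p := by
      rw [← sp_smul_mk g p.rep p.rep_nonzero, Projectivization.mk_rep]
    have h2 : Projectivization.mk F (g • p).rep (g • p).rep_nonzero = Projectivization.mk F (g • p.rep) ((smul_ne_zero_iff_ne g).mpr p.rep_nonzero) := by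
      rw [Projectivization.mk_rep, h1]
    rw [Projectivization.mk_eq_mk_iff'] at h2
    obtain ⟨a, ha⟩ := h2
    have ha0 : a ≠ 0 := by
      rintro rfl
      rw [zero_smul] at ha
      exact (g • p).rep_nonzero ha.symm
    change spRoot (g • p).rep = _
    rw [← ha, spRoot_smul a ha0, sp_smul_def, spRoot_conj]
  is_generator := by
    rw [eq_top_iff, ← sp_TG_eq_top, spTG, Subgroup.closure_le]
    rintro A ⟨w, c, hA⟩
    have hAT : A = spT w c := Subtype.ext hA
    rw [hAT]
    by_cases hw : w = 0
    · subst hw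
      have : spT (0 : Fin m ⊕ Fin m → F) c = 1 := by
        apply sp_ext
        intro x
        rw [spT_mulVec]
        change _ = (1 : MM) *ᵥ x
        simp
      rw [this]
      exact one_mem _
    · let p := Projectivization.mk F w hw
      have h2 : Projectivization.mk F p.rep p.rep_nonzero = Projectivization.mk F w hw := Projectivization.mk_rep p
      rw [Projectivization.mk_eq_mk_iff'] at h2
      obtain ⟨a, ha⟩ := h2
      have ha0 : a ≠ 0 := by
        rintro rfl
        rw [zero_smul] at ha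
        exact p.rep_nonzero ha.symm
      have h3 : spT w c ∈ spRoot w := ⟨c, rfl⟩
      rw [← spRoot_smul a ha0, ha] at h3
      exact (le_iSup (fun p : ℙ F (Fin m ⊕ Fin m → F) => spRoot p.rep) p) h3

instance sp_isPreprimitive : MulAction.IsPreprimitive (symplecticGroup (Fin m) F) (ℙ F (Fin m ⊕ Fin m → F)) := by
  let φ : spGL m F → symplecticGroup (Fin m) F := fun g => ⟨g.1.1, (mem_sp_iff _).mpr g.2⟩
  let f : ℙ F (Fin m ⊕ Fin m → F) →ₑ[φ] ℙ F (Fin m ⊕ Fin m → F) :=
    { toFun := id
      map_smul' := by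
        intro g p
        induction p using Projectivization.ind with | _ v hv => ?_
        rw [id, id, sp_smul_mk, spGL_smul_mk]
        rfl }
  exact MulAction.IsPreprimitive.of_surjective (f := f) Function.surjective_id

/-- A normal subgroup acting trivially is central; otherwise it contains the commutator subgroup. -/
theorem sp_fix_scalar (n : symplecticGroup (Fin m) F) (hn : ∀ p : ℙ F (Fin m ⊕ Fin m → F), n • p = p) :
    n ∈ Subgroup.center (symplecticGroup (Fin m) F) := by
  let f : (Fin m ⊕ Fin m → F) →ₗ[F] (Fin m ⊕ Fin m → F) := Matrix.toLin' (n : MM)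
  have hf : ∀ v, f v = (n : MM) *ᵥ v := fun v => Matrix.toLin'_apply _ _
  have hcoll : ∀ v, ¬ LinearIndependent F ![v, f v] := by
    intro v hli
    have hv : v ≠ 0 := by
      rintro rfl
      have := hli.ne_zero 0
      simp at this
    have h1 := hn (Projectivization.mk F v hv)
    rw [sp_smul_mk, Projectivization.mk_eq_mk_iff'] at h1
    obtain ⟨a, ha⟩ := h1
    rw [LinearIndependent.pair_iff] at hli
    have := hli (-a) 1 (by
      rw [hf, ← sp_smul_def, ← ha, one_smul, neg_smul, neg_add_cancel])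
    exact one_ne_zero this.2
  obtain ⟨a, ha⟩ := LinearMap.exists_eq_smul_id_of_forall_notLinearIndependent hcoll
  have hscal : ∀ v, (n : MM) *ᵥ v = a • v := by
    intro v
    rw [← hf, ha]
    simp
  rw [Subgroup.mem_center_iff]
  intro g
  apply sp_ext
  intro x
  rw [sp_mul_mulVec, sp_mul_mulVec, hscal, hscal, mulVec_smul]

end CfsgLib.ClassGeo
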