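import Mathlib
import Cfsg.Agent.Lib.ClassGeo.Klein2
import Cfsg.Agent.S0245
import Cfsg.Agent.S0269
import Cfsg.Agent.S0270

set_option autoImplicit false
set_option linter.unusedSimpArgs false
set_option linter.unusedVariables false
set_option linter.unusedSectionVars false

namespace CfsgLib.ClassGeo.Klein

open Matrix Cfsg CfsgLib.ClassGeo CfsgLib.ClassGeo.Orth CfsgLib.ClassGeo.OIso

variable {F : Type*} [Field F]

theorem det4 (g : Matrix (Fin 4) (Fin 4) F) : g.det =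
    g 0 0 * (g 1 1 * (g 2 2 * g 3 3 - g 2 3 * g 3 2) - g 1 2 * (g 2 1 * g 3 3 - g 2 3 * g 3 1) + g 1 3 * (g 2 1 * g 3 2 - g 2 2 * g 3 1))
  - g 0 1 * (g 1 0 * (g 2 2 * g 3 3 - g 2 3 * g 3 2) - g 1 2 * (g 2 0 * g 3 3 - g 2 3 * g 3 0) + g 1 3 * (g 2 0 * g 3 2 - g 2 2 * g 3 0))
  + g 0 2 * (g 1 0 * (g 2 1 * g 3 3 - g 2 3 * g 3 1) - g 1 1 * (g 2 0 * g 3 3 - g 2 3 * g 3 0) + g 1 3 * (g 2 0 * g 3 1 - g 2 1 * g 3 0))
  - g 0 3 * (g 1 0 * (g 2 1 * g 3 2 - g 2 2 * g 3 1) - g 1 1 * (g 2 0 * g 3 2 - g 2 2 * g 3 0) + g 1 2 * (g 2 0 * g 3 1 - g 2 1 * g 3 0)) := by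
  rw [Matrix.det_succ_row_zero]
  simp only [Fin.sum_univ_succ, Fin.sum_univ_zero, Matrix.det_fin_three, Matrix.submatrix_apply]
  simp [Fin.succAbove, Fin.succ]
  ring

set_option maxHeartbeats 4000000 in
theorem pf_conj (g : Matrix (Fin 4) (Fin 4) F) (v : Idx → F) :
    quadFormPlus 3 F (act g v) = g.det * quadFormPlus 3 F v := by
  rw [pf_eq, pf_eq, act_apply, det4]
  simp [coords, mat, Matrix.mul_apply, Fin.sum_univ_four]
  ring

/-- coordinates -/
abbrev e4 : Fin 2 ⊕ Fin 2 ≃ Fin 4 := finSumFinEquiv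

/-- reindexing of symplectic matrices -/
def hat (g : Matrix (Fin 2 ⊕ Fin 2) (Fin 2 ⊕ Fin 2) F) : Matrix (Fin 4) (Fin 4) F := Matrix.reindex e4 e4 g

theorem hat_mul (g h : Matrix (Fin 2 ⊕ Fin 2) (Fin 2 ⊕ Fin 2) F) : hat (g * h) = hat g * hat h := by
  simp [hat, Matrix.reindex_apply, Matrix.submatrix_mul_equiv]

theorem hat_one : hat (1 : Matrix (Fin 2 ⊕ Fin 2) (Fin 2 ⊕ Fin 2) F) = 1 := by
  simp [hat]

theorem hat_transpose (g : Matrix (Fin 2 ⊕ Fin 2) (Fin 2 ⊕ Fin 2) F) : hat gᵀ = (hat g)ᵀ := by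
  ext i j
  simp [hat, Matrix.reindex_apply]

theorem det_hat (g : Matrix (Fin 2 ⊕ Fin 2) (Fin 2 ⊕ Fin 2) F) : (hat g).det = g.det := by
  simp [hat]

/-- the invariant element -/
def ω : Idx → F := Sum.elim ![0, -1, 0] ![0, 1, 0]

theorem hat_J : hat (Matrix.J (Fin 2) F) = mat (ω (F := F)) := by
  ext i j
  simp only [hat, Matrix.reindex_apply, Matrix.submatrix_apply, Matrix.J]
  fin_cases i <;> fin_cases j <;> simp [mat, ω, e4, finSumFinEquiv, Fin.addCases, Fin.castLT, Matrix.one_apply] <;> rfl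

theorem hat_sp (g : Matrix.symplecticGroup (Fin 2) F) :
    hat (g : Matrix (Fin 2 ⊕ Fin 2) (Fin 2 ⊕ Fin 2) F) * mat (ω (F := F)) * (hat (g : Matrix (Fin 2 ⊕ Fin 2) (Fin 2 ⊕ Fin 2) F))ᵀ = mat (ω (F := F)) := by
  have h := (SymplecticGroup.mem_iff).mp g.2
  have h2 := congrArg hat h
  rwa [hat_mul, hat_mul, hat_transpose, hat_J] at h2

theorem act_ω (g : Matrix.symplecticGroup (Fin 2) F) :
    act (hat (g : Matrix (Fin 2 ⊕ Fin 2) (Fin 2 ⊕ Fin 2) F)) (ω (F := F)) = ω := by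
  rw [act_apply, hat_sp, coords_mat]

theorem pf_ω : quadFormPlus 3 F (ω (F := F)) = -1 := by
  rw [pf_eq]; simp [ω]

theorem det_hat_sp (g : Matrix.symplecticGroup (Fin 2) F) :
    (hat (g : Matrix (Fin 2 ⊕ Fin 2) (Fin 2 ⊕ Fin 2) F)).det = 1 := by
  have h := pf_conj (hat (g : Matrix (Fin 2 ⊕ Fin 2) (Fin 2 ⊕ Fin 2) F)) (ω (F := F))
  rw [act_ω, pf_ω] at h
  have h3 : (-1 : F) ≠ 0 := by simp
  have h4 : (hat (g : Matrix (Fin 2 ⊕ Fin 2) (Fin 2 ⊕ Fin 2) F)).det * (-1) = 1 * (-1) := by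
    rw [one_mul]; exact h.symm
  exact mul_right_cancel₀ h3 h4

theorem pf_sp (g : Matrix.symplecticGroup (Fin 2) F) (v : Idx → F) :
    quadFormPlus 3 F (act (hat (g : Matrix (Fin 2 ⊕ Fin 2) (Fin 2 ⊕ Fin 2) F)) v) = quadFormPlus 3 F v := by
  rw [pf_conj, det_hat_sp, one_mul]

/-- the hyperplane -/
def up (x : Unit ⊕ (Fin 2 ⊕ Fin 2) → F) : Idx → F :=
  Sum.elim ![x (.inr (.inl 0)), x (.inl ()), x (.inr (.inl 1))] ![x (.inr (.inr 0)), x (.inl ()), x (.inr (.inr 1))]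

def dn (v : Idx → F) : Unit ⊕ (Fin 2 ⊕ Fin 2) → F :=
  Sum.elim (fun _ => v (.inl 1)) (Sum.elim ![v (.inl 0), v (.inl 2)] ![v (.inr 0), v (.inr 2)])

theorem dn_up (x : Unit ⊕ (Fin 2 ⊕ Fin 2) → F) : dn (up x) = x := by
  funext c
  rcases c with c | c | c
  · rfl
  · fin_cases c <;> rfl
  · fin_cases c <;> rfl

theorem up_dn (v : Idx → F) (h : v (.inl 1) = v (.inr 1)) : up (dn v) = v := by
  funext c
  rcases c with c | c <;> fin_cases c
  · rfl
  · rfl
  · rfl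
  · rfl
  · exact h
  · rfl

theorem up_ker (x : Unit ⊕ (Fin 2 ⊕ Fin 2) → F) : up x (.inl 1) = up x (.inr 1) := rfl

theorem pf_up (x : Unit ⊕ (Fin 2 ⊕ Fin 2) → F) : quadFormPlus 3 F (up x) = quadFormOdd 2 F x := by
  rw [pf_eq]
  simp only [up, quadFormOdd, Fin.sum_univ_two, Sum.elim_inl, Sum.elim_inr]
  simp
  ring

/-- the polar form -/
theorem pol_pf (v w : Idx → F) : quadFormPlus 3 F (v + w) = quadFormPlus 3 F v + quadFormPlus 3 F w +
    (v (.inl 0) * w (.inr 0) + w (.inl 0) * v (.inr 0) + (v (.inl 1) * w (.inr 1) + w (.inl 1) * v (.inr 1)) + (v (.inl 2) * w (.inr 2) + w (.inl 2) * v (.inr 2))) := by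
  rw [pf_eq, pf_eq, pf_eq]
  simp only [Pi.add_apply]
  ring

theorem act_ker (g : Matrix.symplecticGroup (Fin 2) F) (v : Idx → F) (h : v (.inl 1) = v (.inr 1)) :
    act (hat (g : Matrix (Fin 2 ⊕ Fin 2) (Fin 2 ⊕ Fin 2) F)) v (.inl 1) = act (hat (g : Matrix (Fin 2 ⊕ Fin 2) (Fin 2 ⊕ Fin 2) F)) v (.inr 1) := by
  set A := hat (g : Matrix (Fin 2 ⊕ Fin 2) (Fin 2 ⊕ Fin 2) F) with hA
  have h1 := pf_sp g (ω + v)
  have hpf : quadFormPlus 3 F (act A v) = quadFormPlus 3 F v := pf_sp g v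
  have hω : act A (ω (F := F)) = ω := act_ω g
  rw [← hA, map_add, hω, pol_pf, pol_pf, hpf] at h1
  have h3 : ∀ w : Idx → F, (ω (F := F)) (.inl 0) * w (.inr 0) + w (.inl 0) * (ω (F := F)) (.inr 0) + ((ω (F := F)) (.inl 1) * w (.inr 1) + w (.inl 1) * (ω (F := F)) (.inr 1)) + ((ω (F := F)) (.inl 2) * w (.inr 2) + w (.inl 2) * (ω (F := F)) (.inr 2)) = w (.inl 1) - w (.inr 1) := by
    intro w
    simp [ω]
    ring
  rw [h3, h3, h, sub_self] at h1
  have h5 : act A v (.inl 1) - act A v (.inr 1) = 0 := by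
    linear_combination h1
  exact sub_eq_zero.mp h5

/-- the action on the five-dimensional space -/
noncomputable def actO (g : Matrix.symplecticGroup (Fin 2) F) : (Unit ⊕ (Fin 2 ⊕ Fin 2) → F) →ₗ[F] (Unit ⊕ (Fin 2 ⊕ Fin 2) → F) where
  toFun x := dn (act (hat (g : Matrix (Fin 2 ⊕ Fin 2) (Fin 2 ⊕ Fin 2) F)) (up x))
  map_add' x y := by
    have : up (x + y) = up x + up y := by
      funext c
      rcases c with c | c <;> fin_cases c <;> rfl
    rw [this, map_add]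
    funext c
    rcases c with c | c | c
    · rfl
    · fin_cases c <;> rfl
    · fin_cases c <;> rfl
  map_smul' a x := by
    have : up (a • x) = a • up x := by
      funext c
      rcases c with c | c <;> fin_cases c <;> rfl
    rw [this, map_smul]
    funext c
    rcases c with c | c | c
    · rfl
    · fin_cases c <;> rfl
    · fin_cases c <;> rfl

theorem actO_apply (g : Matrix.symplecticGroup (Fin 2) F) (x : Unit ⊕ (Fin 2 ⊕ Fin 2) → F) :
    actO g x = dn (act (hat (g : Matrix (Fin 2 ⊕ Fin 2) (Fin 2 ⊕ Fin 2) F)) (up x)) := rfl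

theorem up_actO (g : Matrix.symplecticGroup (Fin 2) F) (x : Unit ⊕ (Fin 2 ⊕ Fin 2) → F) :
    up (actO g x) = act (hat (g : Matrix (Fin 2 ⊕ Fin 2) (Fin 2 ⊕ Fin 2) F)) (up x) :=
  up_dn _ (act_ker g _ (up_ker x))

theorem actO_mul (g h : Matrix.symplecticGroup (Fin 2) F) (x : Unit ⊕ (Fin 2 ⊕ Fin 2) → F) :
    actO (g * h) x = actO g (actO h x) := by
  rw [actO_apply, actO_apply g, up_actO]
  congr 1
  have e : hat ((g * h : Matrix.symplecticGroup (Fin 2) F) : Matrix (Fin 2 ⊕ Fin 2) (Fin 2 ⊕ Fin 2) F) = hat (g : Matrix (Fin 2 ⊕ Fin 2) (Fin 2 ⊕ Fin 2) F) * hat (h : Matrix (Fin 2 ⊕ Fin 2) (Fin 2 ⊕ Fin 2) F) := hat_mul _ _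
  rw [e, act_mul]

theorem actO_one (x : Unit ⊕ (Fin 2 ⊕ Fin 2) → F) : actO (1 : Matrix.symplecticGroup (Fin 2) F) x = x := by
  rw [actO_apply]
  have e : hat ((1 : Matrix.symplecticGroup (Fin 2) F) : Matrix (Fin 2 ⊕ Fin 2) (Fin 2 ⊕ Fin 2) F) = 1 := hat_one
  rw [e, act_one, dn_up]

/-- the homomorphism -/
noncomputable def spHom5 : Matrix.symplecticGroup (Fin 2) F →* ((Unit ⊕ (Fin 2 ⊕ Fin 2) → F) ≃ₗ[F] (Unit ⊕ (Fin 2 ⊕ Fin 2) → F)) :=
  MonoidHom.mk' (fun g => LinearEquiv.ofLinearMap (actO g) (actO g⁻¹)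
      (LinearMap.ext fun v => by
        show actO g (actO g⁻¹ v) = v
        rw [← actO_mul, mul_inv_cancel, actO_one])
      (LinearMap.ext fun v => by
        show actO g⁻¹ (actO g v) = v
        rw [← actO_mul, inv_mul_cancel, actO_one]))
    (fun g h => by
      ext1 v
      exact actO_mul g h v)

theorem spHom5_apply (g : Matrix.symplecticGroup (Fin 2) F) (x : Unit ⊕ (Fin 2 ⊕ Fin 2) → F) : spHom5 g x = actO g x := rfl

theorem spHom5_mem (g : Matrix.symplecticGroup (Fin 2) F) :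
    spHom5 g ∈ fIsom (F := F) (fun a _ : Unit ⊕ (Fin 2 ⊕ Fin 2) → F => quadFormOdd 2 F a) := by
  rw [mem_fIsom]
  intro a _
  show quadFormOdd 2 F (actO g a) = quadFormOdd 2 F a
  rw [← pf_up, up_actO, pf_sp, pf_up]

/-- the homomorphism to the isometry group -/
noncomputable def φ5 : Matrix.symplecticGroup (Fin 2) F →* isometryGroup F (quadFormOdd 2 F) :=
  (preservingEquiv (fun a _ : Unit ⊕ (Fin 2 ⊕ Fin 2) → F => quadFormOdd 2 F a)).symm.toMonoidHom.comp
    (spHom5.codRestrict _ spHom5_mem)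

theorem mem_ker_φ5 (g : Matrix.symplecticGroup (Fin 2) F) : g ∈ (φ5 (F := F)).ker ↔ ∀ v, actO g v = v := by
  rw [MonoidHom.mem_ker]
  constructor
  · intro h v
    have h1 : spHom5.codRestrict _ spHom5_mem g = 1 :=
      (preservingEquiv (fun a _ : Unit ⊕ (Fin 2 ⊕ Fin 2) → F => quadFormOdd 2 F a)).symm.injective (h.trans (map_one _).symm)
    have h2 : spHom5 g = 1 := congrArg Subtype.val h1
    show spHom5 g v = v
    rw [h2]; rfl
  · intro h
    have h2 : spHom5 g = 1 := by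
      ext1 v
      exact h v
    have h1 : spHom5.codRestrict _ spHom5_mem g = 1 := Subtype.ext h2
    show (preservingEquiv (fun a _ : Unit ⊕ (Fin 2 ⊕ Fin 2) → F => quadFormOdd 2 F a)).symm (spHom5.codRestrict _ spHom5_mem g) = 1
    rw [h1, map_one]

/-- the kernel is scalar in odd characteristic -/
theorem ker_φ5_scalar (h2 : (2 : F) ≠ 0) (g : Matrix.symplecticGroup (Fin 2) F) (hg : g ∈ (φ5 (F := F)).ker) :
    ∃ c : F, c * c = 1 ∧ (g : Matrix (Fin 2 ⊕ Fin 2) (Fin 2 ⊕ Fin 2) F) = c • 1 := by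
  rw [mem_ker_φ5] at hg
  set A := hat (g : Matrix (Fin 2 ⊕ Fin 2) (Fin 2 ⊕ Fin 2) F) with hA
  have h5 : ∀ v : Idx → F, v (.inl 1) = v (.inr 1) → act A v = v := by
    intro v hv
    have h1 := hg (dn v)
    have h3 := congrArg up h1
    rw [up_actO, up_dn v hv] at h3
    exact h3
  have hω : act A (ω (F := F)) = ω := act_ω g
  have hall : ∀ v, act A v = v := by
    intro v
    -- v = t ω + w with w in the hyperplane
    obtain ⟨t, ht⟩ : ∃ t : F, 2 * t = v (.inr 1) - v (.inl 1) := ⟨(v (.inr 1) - v (.inl 1)) / 2, by field_simp⟩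
    let w : Idx → F := v - t • ω
    have e1 : (ω (F := F)) (.inl 1) = -1 := rfl
    have e2 : (ω (F := F)) (.inr 1) = 1 := rfl
    have hw : w (.inl 1) = w (.inr 1) := by
      show v (.inl 1) - t * (ω (F := F)) (.inl 1) = v (.inr 1) - t * (ω (F := F)) (.inr 1)
      rw [e1, e2]
      linear_combination ht
    have hv : v = w + t • ω := by simp [w]
    rw [hv, map_add, map_smul, h5 w hw, hω]
  obtain ⟨c, hc, hgc⟩ := ker_scalar A hall
  refine ⟨c, hc, ?_⟩
  ext i j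
  have := congrFun (congrFun hgc (e4 i)) (e4 j)
  simp only [hA, hat, Matrix.reindex_apply, Matrix.submatrix_apply, Equiv.symm_apply_apply, Matrix.smul_apply, Matrix.one_apply, EmbeddingLike.apply_eq_iff_eq] at this
  simpa [Matrix.one_apply] using this

variable [Fintype F]

theorem two_ne_zero_of_odd (hodd : Odd (Fintype.card F)) : (2 : F) ≠ 0 := by
  intro h
  have h1 : ringChar F = 2 := CharP.ringChar_of_prime_eq_zero Nat.prime_two (by exact_mod_cast h)
  have h3 := FiniteField.even_card_of_char_two h1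
  rcases hodd with ⟨k, hk⟩
  omega

theorem three_le_of_odd (hodd : Odd (Fintype.card F)) : 3 ≤ Fintype.card F := by
  have h1 : 1 < Fintype.card F := Fintype.one_lt_card
  rcases hodd with ⟨k, hk⟩
  omega

/-- `PΩ₅(q) ≅ PSp₄(q)` for `q` odd -/
theorem pomega5_iso (hodd : Odd (Fintype.card F)) : Nonempty (POmega F (quadFormOdd 2 F) ≃* PSp 2 F) := by
  classical
  have h2 := two_ne_zero_of_odd hodd
  have h3 := three_le_of_odd hodd
  obtain ⟨q, hF⟩ : ∃ q, Fintype.card F = q := ⟨_, rfl⟩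
  have hcF : Nat.card F = q := by rw [Nat.card_eq_fintype_card, hF]
  have hperf : commutator (Matrix.symplecticGroup (Fin 2) F) = ⊤ := Cfsg.Agent.S0269.result 2 (Or.inr (Or.inl ⟨rfl, h3⟩))
  have hr : (φ5 (F := F)).range ≤ Omega F (quadFormOdd 2 F) := by
    have h1 := Subgroup.map_commutator (⊤ : Subgroup (Matrix.symplecticGroup (Fin 2) F)) ⊤ (φ5 (F := F))
    rw [← commutator_def, hperf] at h1
    rw [MonoidHom.range_eq_map, h1, Omega, commutator_def]
    exact Subgroup.commutator_mono le_top le_top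
  have hk : (φ5 (F := F)).ker ≤ Subgroup.center (Matrix.symplecticGroup (Fin 2) F) := by
    intro g hg
    obtain ⟨c, hc, hgc⟩ := ker_φ5_scalar h2 g hg
    rw [Subgroup.mem_center_iff]
    intro h
    apply Subtype.ext
    show (h : Matrix (Fin 2 ⊕ Fin 2) (Fin 2 ⊕ Fin 2) F) * g = g * h
    rw [hgc]
    simp
  have hc : Subgroup.center (Matrix.symplecticGroup (Fin 2) F ⧸ Subgroup.center (Matrix.symplecticGroup (Fin 2) F)) = ⊥ := by
    haveI : IsSimpleGroup (Matrix.symplecticGroup (Fin 2) F ⧸ Subgroup.center (Matrix.symplecticGroup (Fin 2) F)) :=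
      Cfsg.Agent.S0270.result 2 (le_refl 2) (fun _ => h3)
    exact center_eq_bot_of_simple (commutator_quot_eq_top _ hperf)
  refine pomega_iso (quadFormOdd 2 F) φ5 hr hk hc ?_
  -- orders
  have hker : Nat.card (φ5 (F := F)).ker = 2 := by
    let m : Matrix.symplecticGroup (Fin 2) F := ⟨-1, by
      rw [SymplecticGroup.mem_iff]; simp⟩
    have hm : m ∈ (φ5 (F := F)).ker := by
      rw [mem_ker_φ5]
      intro v
      rw [actO_apply]
      have e : hat (m : Matrix (Fin 2 ⊕ Fin 2) (Fin 2 ⊕ Fin 2) F) = -1 := by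
        show hat (-1) = -1
        ext i j
        simp [hat, Matrix.reindex_apply, Matrix.one_apply]
      rw [e, act_apply]
      simp [coords_mat, dn_up]
    rw [Nat.card_eq_two_iff]
    refine ⟨1, ⟨m, hm⟩, ?_, ?_⟩
    · intro h
      have h1 := congrArg (fun x : (φ5 (F := F)).ker => ((x.1 : Matrix.symplecticGroup (Fin 2) F) : Matrix (Fin 2 ⊕ Fin 2) (Fin 2 ⊕ Fin 2) F) (.inl 0) (.inl 0)) h
      have h3 : (1 : F) = -1 := by simpa [m] using h1
      apply h2
      linear_combination h3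
    · ext ⟨g, hg⟩
      simp only [Set.mem_insert_iff, Set.mem_singleton_iff, Set.mem_univ, iff_true]
      obtain ⟨c, hc, hgc⟩ := ker_φ5_scalar h2 g hg
      have h3 : (c - 1) * (c + 1) = 0 := by linear_combination hc
      rcases mul_eq_zero.mp h3 with h4 | h4
      · left
        apply Subtype.ext
        apply Subtype.ext
        have : c = 1 := sub_eq_zero.mp h4
        rw [this, one_smul] at hgc
        exact hgc
      · right
        apply Subtype.ext
        apply Subtype.ext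
        have : c = -1 := eq_neg_of_add_eq_zero_left h4
        rw [this, neg_one_smul] at hgc
        exact hgc
  rw [hker, Cfsg.Agent.S0245.result hF 2]
  let Q : QuadraticForm F (Unit ⊕ (Fin 2 ⊕ Fin 2) → F) := mkQ (quadFormOdd_nondeg (F := F) h2 2)
  have hQnd : (QuadraticMap.polarBilin Q).Nondegenerate := mkQ_nondeg _
  have h5 := card_Omega_mul_odd (Q := Q) h2 (by simp) hQnd
  have h6 : Nat.card (Omega F (quadFormOdd 2 F)) * 4 = Nat.card (isometryGroup F (quadFormOdd 2 F)) := h5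
  rw [card_isometry_eq, card_isom_odd h2, hcF] at h6
  simp only [Finset.prod_range_succ, Finset.prod_range_zero, one_mul] at h6 ⊢
  norm_num at h6 ⊢
  have h10 : 2 * q ^ 4 * ((q ^ 2 - 1) * (q ^ 4 - 1)) = 2 * (q ^ 4 * ((q ^ 2 - 1) * (q ^ 4 - 1))) := by ring
  rw [h10] at h6
  omega

end CfsgLib.ClassGeo.Klein
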