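import Mathlib
import Cfsg.Agent.Lib.ClassGeo.OStd
import Cfsg.Agent.Lib.ClassGeo.OCore2

/-! Quadratic spaces with a totally singular subspace of half the dimension are hyperbolic. -/

set_option autoImplicit false
set_option linter.unusedSimpArgs false
set_option linter.unusedVariables false
set_option linter.unusedSectionVars false

namespace CfsgLib.ClassGeo.OCoords

open Module Matrix Cfsg CfsgLib.ClassGeo CfsgLib.ClassGeo.Orth

section gen

variable {F V W : Type*} [Field F] [AddCommGroup V] [Module F V] [FiniteDimensional F V]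
  [AddCommGroup W] [Module F W] [FiniteDimensional F W]
variable {Q : QuadraticForm F V}

local notation "𝔹" => QuadraticMap.polar (DFunLike.coe Q)

/-- A linear map between spaces of equal dimension preserving quadratic forms, from a non-degenerate space, is bijective. -/
theorem bijective_of_isometry {Q' : QuadraticForm F W} (hQ' : (QuadraticMap.polarBilin Q').Nondegenerate)
    (f : W →ₗ[F] V) (hf : ∀ x, Q (f x) = Q' x) (hdim : finrank F W = finrank F V) : Function.Bijective f := by
  have hinj : Function.Injective f := by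
    rw [← LinearMap.ker_eq_bot, LinearMap.ker_eq_bot']
    intro x hx
    apply hQ'.1
    intro y
    show QuadraticMap.polar (⇑Q') x y = 0
    have h1 : QuadraticMap.polar (⇑Q') x y = Q (f (x + y)) - Q (f x) - Q (f y) := by
      rw [hf, hf, hf]
      rfl
    rw [h1, map_add, hx]
    simp
  exact ⟨hinj, (LinearMap.injective_iff_surjective_of_finrank_eq_finrank hdim).mp hinj⟩

/-- The same with a mere function on the target. -/
theorem bijective_of_fn {Q' : QuadraticForm F W} (hQ' : (QuadraticMap.polarBilin Q').Nondegenerate)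
    (f : W →ₗ[F] V) (q : V → F) (hf : ∀ x, q (f x) = Q' x) (hdim : finrank F W = finrank F V) : Function.Bijective f := by
  have hinj : Function.Injective f := by
    rw [← LinearMap.ker_eq_bot, LinearMap.ker_eq_bot']
    intro x hx
    apply hQ'.1
    intro y
    show QuadraticMap.polar (⇑Q') x y = 0
    have h0 : q 0 = 0 := by
      have := hf 0
      rw [map_zero] at this
      rw [this, map_zero]
    have h1 : QuadraticMap.polar (⇑Q') x y = q (f (x + y)) - q (f x) - q (f y) := by
      rw [hf, hf, hf]
      rfl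
    rw [h1, map_add, hx, h0]
    simp
  exact ⟨hinj, (LinearMap.injective_iff_surjective_of_finrank_eq_finrank hdim).mp hinj⟩

theorem q_sum_zero {ι : Type*} [DecidableEq ι] (c : ι → V) (h1 : ∀ i, Q (c i) = 0) (h2 : ∀ i j, 𝔹 (c i) (c j) = 0)
    (y : ι → F) (s : Finset ι) : Q (∑ i ∈ s, y i • c i) = 0 ∧ ∀ k, 𝔹 (∑ i ∈ s, y i • c i) (c k) = 0 := by
  induction s using Finset.induction_on with
  | empty =>
    simp
  | insert a s ha ih =>
    rw [Finset.sum_insert ha]
    constructor
    · rw [q_add, ih.1, QuadraticMap.polar_comm, q_smul, h1, QuadraticMap.polar_smul_right, ih.2]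
      simp
    · intro k
      rw [QuadraticMap.polar_add_left, ih.2, QuadraticMap.polar_smul_left, h2]
      simp

/-- A quadratic space with a totally singular subspace of half the dimension is hyperbolic. -/
theorem exists_plus_coords (hQ : (QuadraticMap.polarBilin Q).Nondegenerate) (U : Submodule F V) (hU : ∀ x ∈ U, Q x = 0)
    {d : ℕ} (hd : finrank F U = d) (hV : finrank F V = 2 * d) :
    ∃ P : (Fin d ⊕ Fin d → F) ≃ₗ[F] V, ∀ x, Q (P x) = quadFormPlus d F x := by
  classical
  let b₀ : Basis (Fin d) F U := Module.finBasisOfFinrankEq F U hd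
  let b : Fin d → V := fun i => (b₀ i : V)
  have hbU : ∀ i, b i ∈ U := fun i => (b₀ i).2
  have hli : LinearIndependent F b := b₀.linearIndependent.map' U.subtype (Submodule.ker_subtype U)
  have hpolU : ∀ x ∈ U, ∀ y ∈ U, 𝔹 x y = 0 := by
    intro x hx y hy
    have h := q_add (Q := Q) x y
    rw [hU _ (U.add_mem hx hy), hU x hx, hU y hy] at h
    linear_combination -h
  -- the dual vectors
  have hdual : ∀ j, ∃ w, 𝔹 w (b j) = 1 ∧ ∀ i, i ≠ j → 𝔹 w (b i) = 0 := by
    intro j
    have hnot : b j ∉ Submodule.span F (b '' {i | i ≠ j}) := by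
      have := hli.notMem_span_image (s := {i | i ≠ j}) (x := j) (by simp)
      exact this
    obtain ⟨w, h1, h2⟩ := exists_sep (Q := Q) hQ _ hnot
    exact ⟨w, h1, fun i hi => h2 _ (Submodule.subset_span ⟨i, hi, rfl⟩)⟩
  choose c hc1 hc2 using hdual
  have hcb : ∀ i j, 𝔹 (c i) (b j) = if i = j then 1 else 0 := by
    intro i j
    by_cases h : i = j
    · subst h
      simp [hc1]
    · rw [if_neg h]
      exact hc2 i j (fun h' => h h'.symm)
  let a : Fin d → Fin d → F := fun i j => if i < j then - 𝔹 (c i) (c j) else if i = j then - Q (c j) else 0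
  let c' : Fin d → V := fun j => c j + ∑ i, a i j • b i
  have hA : ∀ x : Fin d → F, ∑ i, x i • b i ∈ U := fun x => U.sum_mem fun i _ => U.smul_mem _ (hbU i)
  have hsumR : ∀ (z : V) (y : Fin d → F) (w : Fin d → V), 𝔹 z (∑ i, y i • w i) = ∑ i, y i * 𝔹 z (w i) := by
    intro z y w
    have := map_sum (QuadraticMap.polarBilin Q z) (fun i => y i • w i) Finset.univ
    simp only [map_smul, smul_eq_mul, QuadraticMap.polarBilin_apply_apply] at this
    exact this
  have hpolA : ∀ (x : Fin d → F) (k : Fin d), 𝔹 (c k) (∑ i, x i • b i) = x k := by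
    intro x k
    rw [hsumR]
    simp [hcb]
  have hq' : ∀ j, Q (c' j) = 0 := by
    intro j
    show Q (c j + ∑ i, a i j • b i) = 0
    rw [q_add, hU _ (hA _), hpolA]
    simp [a]
  have hp' : ∀ i j, 𝔹 (c' i) (c' j) = 0 := by
    intro i j
    show 𝔹 (c i + ∑ k, a k i • b k) (c j + ∑ k, a k j • b k) = 0
    have h3 : 𝔹 (∑ k, a k i • b k) (c j) = a j i := by
      rw [pol_comm]
      exact hpolA _ j
    rw [QuadraticMap.polar_add_left, QuadraticMap.polar_add_right, QuadraticMap.polar_add_right, hpolA, h3,
      hpolU _ (hA _) _ (hA _)]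
    rcases lt_trichotomy i j with h | h | h
    · have h1 : ¬ j < i := not_lt.mpr h.le
      have h2 : j ≠ i := h.ne'
      simp only [a, h, h1, h2, if_true, if_false]
      ring
    · subst h
      have e : 𝔹 (c i) (c i) = 2 * Q (c i) := pol_self _
      simp only [a, lt_irrefl, if_false, if_true, e]
      ring
    · have h1 : ¬ i < j := not_lt.mpr h.le
      have h2 : i ≠ j := h.ne'
      simp only [a, h, h1, h2, if_true, if_false]
      rw [pol_comm (c j) (c i)]
      ring
  have hp'b : ∀ i j, 𝔹 (c' i) (b j) = if i = j then 1 else 0 := by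
    intro i j
    show 𝔹 (c i + ∑ k, a k i • b k) (b j) = _
    rw [QuadraticMap.polar_add_left, hcb, hpolU _ (hA _) _ (hbU j), add_zero]
  -- the coordinates
  let f : (Fin d ⊕ Fin d → F) →ₗ[F] V :=
    { toFun := fun x => ∑ i, x (Sum.inl i) • b i + ∑ i, x (Sum.inr i) • c' i
      map_add' := by
        intro x y
        simp only [Pi.add_apply, add_smul, Finset.sum_add_distrib]
        abel
      map_smul' := by
        intro r x
        simp only [Pi.smul_apply, smul_eq_mul, mul_smul, RingHom.id_apply, smul_add, Finset.smul_sum] }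
  have hf : ∀ x, Q (f x) = quadFormPlus d F x := by
    intro x
    show Q (∑ i, x (Sum.inl i) • b i + ∑ i, x (Sum.inr i) • c' i) = _
    rw [q_add, hU _ (hA _), (q_sum_zero c' hq' hp' (fun i => x (Sum.inr i)) Finset.univ).1, zero_add, zero_add]
    have h1 : ∀ k, 𝔹 (∑ i, x (Sum.inl i) • b i) (c' k) = x (Sum.inl k) := by
      intro k
      rw [pol_comm, hsumR]
      simp [hp'b]
    rw [hsumR]
    simp only [h1, quadFormPlus]
    exact Finset.sum_congr rfl fun i _ => mul_comm _ _
  have hbij := bijective_of_isometry (Q := Q) (Q' := mkQ (quadFormPlus_nondeg (F := F) d)) (mkQ_nondeg _) f hf (by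
    rw [hV]
    simp
    ring)
  exact ⟨LinearEquiv.ofBijective f hbij, hf⟩

end gen

end CfsgLib.ClassGeo.OCoords
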