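import Mathlib
import Cfsg.Agent.Lib.ClassGeo.OCoords
import Cfsg.Agent.Lib.ClassGeo.OMinus4
import Cfsg.Agent.Lib.ClassGeo.HermField
import Cfsg.Agent.Lib.ClassGeo.Bridge

/-! Restriction of scalars from the field with `q²` elements to the field with `q` elements. -/

set_option autoImplicit false
set_option linter.unusedSimpArgs false
set_option linter.unusedVariables false
set_option linter.unusedSectionVars false

namespace CfsgLib.ClassGeo.RS

open Module Matrix Cfsg CfsgLib.ClassGeo CfsgLib.ClassGeo.Orth CfsgLib.ClassGeo.OCoords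

section core

variable {F K : Type*} [Field F] [Field K] [Algebra F K]

/-- A quadratic extension with its involution. -/
structure D (F : Type*) {K : Type*} [Field F] [Field K] [Algebra F K] (σ : K →+* K) : Prop where
  hσ : ∀ x, σ (σ x) = x
  hj : ∀ x : F, σ (algebraMap F K x) = algebraMap F K x
  hfix : ∀ x, σ x = x → ∃ y : F, algebraMap F K y = x
  hne : σ ≠ RingHom.id K

variable {σ : K →+* K}

theorem D.smul (h : D F σ) (a : F) (x : K) : σ (a • x) = a • σ x := by
  rw [Algebra.smul_def, map_mul, h.hj, ← Algebra.smul_def]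

open Classical in
/-- Descent to `F` of fixed elements. -/
noncomputable def desc (h : D F σ) (x : K) : F := if hx : σ x = x then (h.hfix x hx).choose else 0

theorem algebraMap_desc (h : D F σ) {x : K} (hx : σ x = x) : algebraMap F K (desc h x) = x := by
  unfold desc
  rw [dif_pos hx]
  exact (h.hfix x hx).choose_spec

theorem inj : Function.Injective (algebraMap F K) := (algebraMap F K).injective

theorem fix_add (h : D F σ) (x : K) : σ (x + σ x) = x + σ x := by
  rw [map_add, h.hσ, add_comm]

/-- The trace to `F`. -/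
noncomputable def trL (h : D F σ) : K →ₗ[F] F where
  toFun x := desc h (x + σ x)
  map_add' x y := by
    apply inj (F := F) (K := K)
    rw [map_add (algebraMap F K), algebraMap_desc h (fix_add h _), algebraMap_desc h (fix_add h _), algebraMap_desc h (fix_add h _), map_add σ]
    ring
  map_smul' a x := by
    apply inj (F := F) (K := K)
    rw [RingHom.id_apply, smul_eq_mul, map_mul (algebraMap F K), algebraMap_desc h (fix_add h _), algebraMap_desc h (fix_add h _), h.smul]
    simp only [Algebra.smul_def]
    ring

theorem algebraMap_trL (h : D F σ) (x : K) : algebraMap F K (trL h x) = x + σ x := algebraMap_desc h (fix_add h _)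

theorem exists_tr_ne (h : D F σ) : ∃ z : K, trL h z ≠ 0 := by
  by_contra hc
  push Not at hc
  have h1 : ∀ z : K, z + σ z = 0 := by
    intro z
    rw [← algebraMap_trL h, hc, map_zero]
  have h2 : (2 : K) = 0 := by
    have := h1 1
    rw [map_one] at this
    linear_combination this
  apply h.hne
  ext z
  have := h1 z
  rw [RingHom.id_apply]
  linear_combination this - z * h2

/-- The trace form is non-degenerate. -/
theorem tr_nondeg (h : D F σ) {x : K} (hx : ∀ y, trL h (x * y) = 0) : x = 0 := by
  by_contra hne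
  obtain ⟨z, hz⟩ := exists_tr_ne h
  apply hz
  have := hx (x⁻¹ * z)
  rwa [← mul_assoc, mul_inv_cancel₀ hne, one_mul] at this

/-- The hermitian form. -/
def hF (σ : K →+* K) {m : ℕ} (u v : Fin m → K) : K := ∑ i, u i * σ (v i)

variable {m : ℕ}

theorem hF_add_left (u u' v : Fin m → K) : hF σ (u + u') v = hF σ u v + hF σ u' v := by
  simp only [hF, Pi.add_apply, add_mul, Finset.sum_add_distrib]

theorem hF_add_right (u v v' : Fin m → K) : hF σ u (v + v') = hF σ u v + hF σ u v' := by
  simp only [hF, Pi.add_apply, map_add, mul_add, Finset.sum_add_distrib]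

theorem hF_smul_left (a : F) (u v : Fin m → K) : hF σ (a • u) v = a • hF σ u v := by
  simp only [hF, Pi.smul_apply, Algebra.smul_def, Finset.mul_sum]
  exact Finset.sum_congr rfl fun _ _ => by ring

theorem hF_smul_right (h : D F σ) (a : F) (u v : Fin m → K) : hF σ u (a • v) = a • hF σ u v := by
  simp only [hF, Pi.smul_apply, h.smul]
  simp only [Algebra.smul_def, Finset.mul_sum]
  exact Finset.sum_congr rfl fun _ _ => by ring

theorem hF_conj (h : D F σ) (u v : Fin m → K) : σ (hF σ u v) = hF σ v u := by
  simp only [hF, map_sum, map_mul, h.hσ]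
  exact Finset.sum_congr rfl fun _ _ => by ring

theorem hF_single (u : Fin m → K) (i : Fin m) (y : K) : hF σ u (Pi.single i y) = u i * σ y := by
  unfold hF
  rw [Finset.sum_eq_single i]
  · simp
  · intro b _ hb
    simp [hb]
  · simp

/-- The `F`-bilinear form `(u, v) ↦ Tr (ε h(u, v))`. -/
noncomputable def bilT (h : D F σ) (ε : K) : (Fin m → K) →ₗ[F] (Fin m → K) →ₗ[F] F :=
  LinearMap.mk₂ F (fun u v => trL h (ε * hF σ u v))
    (fun u u' v => by rw [hF_add_left, mul_add, map_add])
    (fun a u v => by
      rw [hF_smul_left, mul_smul_comm, map_smul])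
    (fun u v v' => by rw [hF_add_right, mul_add, map_add])
    (fun a u v => by
      rw [hF_smul_right h, mul_smul_comm, map_smul])

theorem bilT_apply (h : D F σ) (ε : K) (u v : Fin m → K) : bilT h ε u v = trL h (ε * hF σ u v) := rfl

theorem bilT_sep (h : D F σ) {ε : K} (hε : ε ≠ 0) (u : Fin m → K) (hu : ∀ v, bilT h ε u v = 0) : u = 0 := by
  funext i
  have h1 : ε * u i = 0 := by
    apply tr_nondeg h
    intro y
    have := hu (Pi.single i (σ y))
    rw [bilT_apply, hF_single, h.hσ, ← mul_assoc] at this
    exact this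
  exact (mul_eq_zero.mp h1).resolve_left hε

theorem exists_eps (h : D F σ) : ∃ ε : K, ε ≠ 0 ∧ σ ε = -ε := by
  obtain ⟨z, hz⟩ : ∃ z, σ z ≠ z := by
    by_contra hc
    push Not at hc
    exact h.hne (RingHom.ext hc)
  refine ⟨z - σ z, sub_ne_zero.mpr hz.symm, ?_⟩
  rw [map_sub, h.hσ]
  ring

theorem bilT_alt (h : D F σ) {ε : K} (hε : σ ε = -ε) (u : Fin m → K) : bilT h ε u u = 0 := by
  apply inj (F := F) (K := K)
  rw [bilT_apply, algebraMap_trL, map_mul, hF_conj h, hε, map_zero]
  ring

/-- The norm form. -/
noncomputable def nV (h : D F σ) (v : Fin m → K) : F := desc h (hF σ v v)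

theorem algebraMap_nV (h : D F σ) (v : Fin m → K) : algebraMap F K (nV h v) = hF σ v v :=
  algebraMap_desc h (hF_conj h v v)

/-- The quadratic form `Σ N(v_i)` over `F`. -/
noncomputable def QN (h : D F σ) (m : ℕ) : QuadraticForm F (Fin m → K) where
  toFun := nV h
  toFun_smul a v := by
    apply inj (F := F) (K := K)
    rw [smul_eq_mul, map_mul, map_mul, algebraMap_nV, algebraMap_nV, hF_smul_left, hF_smul_right h]
    simp only [Algebra.smul_def]
    ring
  exists_companion' := ⟨bilT h 1, fun x y => by
    apply inj (F := F) (K := K)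
    rw [map_add, map_add, algebraMap_nV, algebraMap_nV, algebraMap_nV, bilT_apply, algebraMap_trL, one_mul, hF_conj h,
      hF_add_left, hF_add_right, hF_add_right]
    ring⟩

theorem QN_apply (h : D F σ) (v : Fin m → K) : QN h m v = nV h v := rfl

theorem algebraMap_QN (h : D F σ) (v : Fin m → K) : algebraMap F K (QN h m v) = hF σ v v := algebraMap_nV h v

theorem polar_QN (h : D F σ) (u v : Fin m → K) : QuadraticMap.polar (⇑(QN h m)) u v = bilT h 1 u v := by
  apply inj (F := F) (K := K)
  rw [QuadraticMap.polar, map_sub, map_sub, algebraMap_QN, algebraMap_QN, algebraMap_QN, bilT_apply, algebraMap_trL, one_mul, hF_conj h,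
    hF_add_left, hF_add_right, hF_add_right]
  ring

theorem QN_nondeg (h : D F σ) : (QuadraticMap.polarBilin (QN h m)).Nondegenerate := by
  constructor
  · intro x hx
    apply bilT_sep h one_ne_zero x
    intro y
    rw [← polar_QN]
    exact hx y
  · intro x hx
    apply bilT_sep h one_ne_zero x
    intro y
    rw [← polar_QN, QuadraticMap.polar_comm]
    exact hx y

end core

section homs

variable {F V : Type*} [Field F] [AddCommGroup V] [Module F V]

/-- Conjugation by a linear isomorphism. -/
noncomputable def conjHom {W : Type*} [AddCommGroup W] [Module F W] (P : W ≃ₗ[F] V) : (V ≃ₗ[F] V) →* (W ≃ₗ[F] W) :=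
  MonoidHom.mk' (fun g => P.trans (g.trans P.symm)) (fun g g' => by
    ext1 x
    simp [LinearEquiv.mul_apply])

theorem conjHom_apply {W : Type*} [AddCommGroup W] [Module F W] (P : W ≃ₗ[F] V) (g : V ≃ₗ[F] V) (x : W) :
    conjHom P g x = P.symm (g (P x)) := rfl

theorem conjHom_inj {W : Type*} [AddCommGroup W] [Module F W] (P : W ≃ₗ[F] V) : Function.Injective (conjHom P) := by
  intro g g' e
  ext1 x
  have := congrArg (fun f : W ≃ₗ[F] W => f (P.symm x)) e
  simp only [conjHom_apply, LinearEquiv.apply_symm_apply] at this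
  exact P.symm.injective this

/-- An action preserving a form gives an injection to the isometry group of the standard form. -/
theorem exists_inj_isom {G : Type*} [Group G] (ρ : G →* (V ≃ₗ[F] V)) (hρ : Function.Injective ρ) {ι : Type} [Fintype ι] [DecidableEq ι]
    (q : (ι → F) → F) (Qv : V → F) (hq : ∀ g v, Qv (ρ g v) = Qv v) (P : (ι → F) ≃ₗ[F] V) (hP : ∀ x, Qv (P x) = q x) :
    ∃ φ : G →* ↥(isometryGroup F q), Function.Injective φ := by
  have hmem : ∀ g, (conjHom P).comp ρ g ∈ fIsom (F := F) (fun a _ : ι → F => q a) := by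
    intro g
    rw [mem_fIsom]
    intro a b
    show q (P.symm (ρ g (P a))) = q a
    rw [← hP, ← hP, LinearEquiv.apply_symm_apply, hq]
  let f : G →* fIsom (F := F) (fun a _ : ι → F => q a) := ((conjHom P).comp ρ).codRestrict _ hmem
  refine ⟨(preservingEquiv (fun a _ : ι → F => q a)).symm.toMonoidHom.comp f, ?_⟩
  intro g g' e
  have h1 : f g = f g' := (preservingEquiv (fun a _ : ι → F => q a)).symm.injective e
  have h2 : (conjHom P).comp ρ g = (conjHom P).comp ρ g' := congrArg Subtype.val h1
  exact hρ (conjHom_inj P h2)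

/-- An action preserving an alternating form gives an injection to the symplectic group. -/
theorem exists_inj_sp {G : Type*} [Group G] (ρ : G →* (V ≃ₗ[F] V)) (hρ : Function.Injective ρ) {m : ℕ}
    (B : V → V → F) (hB : ∀ g u v, B (ρ g u) (ρ g v) = B u v) (P : (Fin m ⊕ Fin m → F) ≃ₗ[F] V)
    (hP : ∀ x y, B (P x) (P y) = sympForm m F x y) :
    ∃ φ : G →* ↥(symplecticGroup (Fin m) F), Function.Injective φ := by
  have hmem : ∀ g, (conjHom P).comp ρ g ∈ fIsom (F := F) (sympForm m F) := by
    intro g
    rw [mem_fIsom]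
    intro a b
    show sympForm m F (P.symm (ρ g (P a))) (P.symm (ρ g (P b))) = _
    rw [← hP, ← hP, LinearEquiv.apply_symm_apply, LinearEquiv.apply_symm_apply, hB]
  let f : G →* fIsom (F := F) (sympForm m F) := ((conjHom P).comp ρ).codRestrict _ hmem
  refine ⟨(spEquiv m).symm.toMonoidHom.comp f, ?_⟩
  intro g g' e
  have h1 : f g = f g' := (spEquiv m).symm.injective e
  have h2 : (conjHom P).comp ρ g = (conjHom P).comp ρ g' := congrArg Subtype.val h1
  exact hρ (conjHom_inj P h2)

end homs

end CfsgLib.ClassGeo.RS
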