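import Mathlib
import Cfsg.Agent.Lib.ClassGeo.RS

/-! Coordinates for the restriction of scalars. -/

set_option autoImplicit false
set_option linter.unusedSimpArgs false
set_option linter.unusedVariables false
set_option linter.unusedSectionVars false

namespace CfsgLib.ClassGeo.RS

open Module Matrix Cfsg CfsgLib.ClassGeo CfsgLib.ClassGeo.Orth CfsgLib.ClassGeo.OCoords

section setup

variable {F K : Type*} [Field F] [Fintype F] [Field K] [Fintype K] [Algebra F K] {q : ℕ}

theorem D_qFrob (hF : Fintype.card F = q) (hK : Fintype.card K = q ^ 2) : D F (qFrob hK) := by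
  classical
  have hj : ∀ x : F, qFrob hK (algebraMap F K x) = algebraMap F K x := by
    intro x
    rw [qFrob_apply, ← map_pow, ← hF, FiniteField.pow_card]
  refine ⟨qFrob_qFrob hK, hj, ?_, qFrob_ne hK⟩
  intro x hx
  have h1 : Nat.card (RingHom.eqLocusField (qFrob hK) (RingHom.id K)) = q := card_fixed_field hK
  let f : F → RingHom.eqLocusField (qFrob hK) (RingHom.id K) := fun y => ⟨algebraMap F K y, hj y⟩
  have hinj : Function.Injective f := fun u v huv => (algebraMap F K).injective (congrArg Subtype.val huv)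
  have hbij : Function.Bijective f := by
    rw [Nat.bijective_iff_injective_and_card]
    refine ⟨hinj, ?_⟩
    rw [h1, Nat.card_eq_fintype_card, hF]
  obtain ⟨y, hy⟩ := hbij.2 ⟨x, hx⟩
  exact ⟨y, congrArg Subtype.val hy⟩

theorem finrank_K (hF : Fintype.card F = q) (hK : Fintype.card K = q ^ 2) : finrank F K = 2 := by
  have h1 := Module.card_eq_pow_finrank (K := F) (V := K)
  rw [hF, hK] at h1
  have hq : 2 ≤ q := by
    rw [← hF]
    exact Fintype.one_lt_card
  exact (Nat.pow_right_injective hq h1).symm

theorem finrank_pi_K (hF : Fintype.card F = q) (hK : Fintype.card K = q ^ 2) (m : ℕ) : finrank F (Fin m → K) = m * 2 := by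
  rw [Module.finrank_pi_fintype]
  simp [finrank_K hF hK]

theorem hF_eq_herm (hK : Fintype.card K = q ^ 2) {m : ℕ} (u v : Fin m → K) : hF (qFrob hK) u v = hermForm m K q u v := by
  simp only [hF, hermForm, qFrob_apply]

/-- Restriction of scalars of linear automorphisms. -/
def resHom (F : Type*) {K V : Type*} [Field F] [Field K] [Algebra F K] [AddCommGroup V] [Module K V] [Module F V] [IsScalarTower F K V] :
    (V ≃ₗ[K] V) →* (V ≃ₗ[F] V) :=
  MonoidHom.mk' (fun g => g.restrictScalars F) (fun _ _ => rfl)

theorem resHom_apply {V : Type*} [AddCommGroup V] [Module K V] [Module F V] [IsScalarTower F K V] (g : V ≃ₗ[K] V) (v : V) :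
    resHom F g v = g v := rfl

theorem resHom_inj {V : Type*} [AddCommGroup V] [Module K V] [Module F V] [IsScalarTower F K V] :
    Function.Injective (resHom F (K := K) (V := V)) := by
  intro g g' e
  ext1 v
  exact congrArg (fun f : V ≃ₗ[F] V => f v) e

/-- The action of the unitary group on `K^m` over `F`. -/
noncomputable def guRho (F : Type*) {K : Type*} [Field F] [Field K] [Algebra F K] (m q : ℕ) : ↥(GU m K q) →* ((Fin m → K) ≃ₗ[F] (Fin m → K)) :=
  (resHom F).comp (glLin.toMonoidHom.comp (GU m K q).subtype)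

theorem guRho_apply (m : ℕ) (g : ↥(GU m K q)) (v : Fin m → K) :
    guRho F m q g v = ((g : GL (Fin m) K) : Matrix (Fin m) (Fin m) K) *ᵥ v := rfl

theorem guRho_inj (m : ℕ) : Function.Injective (guRho F (K := K) m q) := by
  intro g g' e
  exact Subtype.ext (glLin.injective (resHom_inj e))

theorem hF_guRho (hK : Fintype.card K = q ^ 2) {m : ℕ} (g : ↥(GU m K q)) (u v : Fin m → K) :
    hF (qFrob hK) (guRho F m q g u) (guRho F m q g v) = hF (qFrob hK) u v := by
  rw [hF_eq_herm, hF_eq_herm, guRho_apply, guRho_apply]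
  exact g.2 u v

/-- `GU_m(q)` embeds in `Sp_{2m}(q)`. -/
theorem gu_sp (hF : Fintype.card F = q) (hK : Fintype.card K = q ^ 2) (m : ℕ) :
    ∃ φ : ↥(GU m K q) →* ↥(symplecticGroup (Fin m) F), Function.Injective φ := by
  classical
  have h := D_qFrob (F := F) hF hK
  obtain ⟨ε, hε0, hε⟩ := exists_eps h
  have hK' : FiniteDimensional F (Fin m → K) := inferInstance
  obtain ⟨m', P, hP⟩ := exists_symp_coords (F := F) (V := Fin m → K) (B := bilT h ε) (fun u => bilT_alt h hε u) (bilT_sep h hε0)
  have hm : m' = m := by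
    have h1 := LinearEquiv.finrank_eq P
    rw [finrank_pi_K hF hK, finrank_symp] at h1
    omega
  subst hm
  refine exists_inj_sp (guRho F m' q) (guRho_inj m') (fun u v => bilT h ε u v) ?_ P hP
  intro g u v
  simp only [bilT_apply, hF_guRho]

/-- The totally singular subspace. -/
theorem exists_even_coords (hF : Fintype.card F = q) (hK : Fintype.card K = q ^ 2) {m : ℕ} (hm : Even m) :
    ∃ P : (Fin m ⊕ Fin m → F) ≃ₗ[F] (Fin m → K), ∀ x, QN (D_qFrob hF hK) m (P x) = quadFormPlus m F x := by
  classical
  obtain ⟨k, rfl⟩ := hm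
  have h := D_qFrob (F := F) hF hK
  set σ := qFrob hK with hσdef
  have hc1 : σ (-1 : K) = -1 := by simp
  obtain ⟨c, hc⟩ := herm_norm_surj σ h.hne h.hσ (-1 : K) (by simp) hc1
  let ι : (Fin k → K) →ₗ[F] (Fin (k + k) → K) :=
    { toFun := fun z => Fin.append z (fun i => c * z i)
      map_add' := by
        intro x y
        funext i
        refine Fin.addCases (fun a => ?_) (fun b => ?_) i
        · simp only [Fin.append_left, Pi.add_apply]
        · simp only [Fin.append_right, Pi.add_apply]
          ring
      map_smul' := by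
        intro a x
        funext i
        refine Fin.addCases (fun b => ?_) (fun b => ?_) i
        · simp only [Fin.append_left, Pi.smul_apply, RingHom.id_apply]
        · simp only [Fin.append_right, Pi.smul_apply, RingHom.id_apply, Algebra.smul_def]
          ring }
  have hι : Function.Injective ι := by
    intro x y e
    funext a
    have := congrFun e (Fin.castAdd k a)
    simpa only [ι, LinearMap.coe_mk, AddHom.coe_mk, Fin.append_left] using this
  have hfr : finrank F (LinearMap.range ι) = k + k := by
    rw [LinearMap.finrank_range_of_inj hι, finrank_pi_K hF hK]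
    ring
  refine exists_plus_coords (QN_nondeg h) (LinearMap.range ι) ?_ hfr (by rw [finrank_pi_K hF hK]; ring)
  rintro _ ⟨z, rfl⟩
  apply (algebraMap F K).injective
  rw [algebraMap_QN, map_zero]
  show ∑ i, ι z i * σ (ι z i) = 0
  rw [Fin.sum_univ_add]
  have e1 : ∀ a, ι z (Fin.castAdd k a) = z a := fun a => by
    show Fin.append z (fun i => c * z i) (Fin.castAdd k a) = z a
    exact Fin.append_left _ _ _
  have e2 : ∀ b, ι z (Fin.natAdd k b) = c * z b := fun b => by
    show Fin.append z (fun i => c * z i) (Fin.natAdd k b) = c * z b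
    exact Fin.append_right _ _ _
  simp only [e1, e2, map_mul]
  rw [← Finset.sum_add_distrib]
  refine Finset.sum_eq_zero fun i _ => ?_
  linear_combination (z i * σ (z i)) * hc

/-- `GU_m(q)` embeds in `O⁺_{2m}(q)` for `m` even. -/
theorem gu_plus (hF : Fintype.card F = q) (hK : Fintype.card K = q ^ 2) {m : ℕ} (hm : Even m) :
    ∃ φ : ↥(GU m K q) →* ↥(isometryGroup F (quadFormPlus m F)), Function.Injective φ := by
  classical
  have h := D_qFrob (F := F) hF hK
  obtain ⟨P, hP⟩ := exists_even_coords hF hK hm
  refine exists_inj_isom (guRho F m q) (guRho_inj m) _ (fun v => QN h m v) ?_ P hP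
  intro g v
  apply (algebraMap F K).injective
  show algebraMap F K (QN h m _) = algebraMap F K (QN h m _)
  rw [algebraMap_QN, algebraMap_QN, hF_guRho]

/-- Coordinates for the elliptic case. -/
theorem exists_odd_coords (hF : Fintype.card F = q) (hK : Fintype.card K = q ^ 2) {m : ℕ} (hm : Even m) (a b : F)
    (hab : ∀ z₁ z₂ : F, z₁ ^ 2 + a * z₁ * z₂ + b * z₂ ^ 2 = 0 → z₁ = 0 ∧ z₂ = 0) (θ : K)
    (hsum : θ + qFrob hK θ = - algebraMap F K a) (hprod : θ * qFrob hK θ = algebraMap F K b) :
    ∃ P : ((Fin m ⊕ Fin m) ⊕ Fin 2 → F) ≃ₗ[F] (Fin (m + 1) → K), ∀ x, QN (D_qFrob hF hK) (m + 1) (P x) = quadFormMinus m F a b x := by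
  classical
  have h := D_qFrob (F := F) hF hK
  set σ := qFrob hK with hσdef
  obtain ⟨P₁, hP₁⟩ := exists_even_coords hF hK hm
  let t : ((Fin m ⊕ Fin m) ⊕ Fin 2 → F) → K := fun v => algebraMap F K (v (.inr 0)) - algebraMap F K (v (.inr 1)) * θ
  let f : ((Fin m ⊕ Fin m) ⊕ Fin 2 → F) →ₗ[F] (Fin (m + 1) → K) :=
    { toFun := fun v => Fin.snoc (α := fun _ => K) (P₁ (v ∘ Sum.inl)) (t v)
      map_add' := by
        intro x y
        funext i
        refine Fin.lastCases ?_ (fun a => ?_) i
        · simp only [Fin.snoc_last, Pi.add_apply, t, map_add]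
          ring
        · simp only [Fin.snoc_castSucc, Pi.add_apply]
          have : (x + y) ∘ Sum.inl = x ∘ Sum.inl + y ∘ Sum.inl := rfl
          rw [this, map_add]
          rfl
      map_smul' := by
        intro r x
        funext i
        refine Fin.lastCases ?_ (fun a => ?_) i
        · simp only [Fin.snoc_last, Pi.smul_apply, t, map_mul, smul_eq_mul, RingHom.id_apply]
          rw [Algebra.smul_def]
          ring
        · simp only [Fin.snoc_castSucc, Pi.smul_apply, RingHom.id_apply]
          have : (r • x) ∘ Sum.inl = r • (x ∘ Sum.inl) := rfl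
          rw [this, map_smul]
          rfl }
  have hf : ∀ v, QN h (m + 1) (f v) = quadFormMinus m F a b v := by
    intro v
    apply (algebraMap F K).injective
    rw [algebraMap_QN]
    show ∑ i, f v i * σ (f v i) = _
    rw [Fin.sum_univ_castSucc]
    have e1 : ∀ i : Fin m, f v i.castSucc = P₁ (v ∘ Sum.inl) i := fun i => by
      show Fin.snoc (α := fun _ => K) (P₁ (v ∘ Sum.inl)) (t v) i.castSucc = _
      rw [Fin.snoc_castSucc]
    have e2 : f v (Fin.last m) = t v := by
      show Fin.snoc (α := fun _ => K) (P₁ (v ∘ Sum.inl)) (t v) (Fin.last m) = _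
      rw [Fin.snoc_last]
    simp only [e1, e2]
    have e3 := algebraMap_QN h (P₁ (v ∘ Sum.inl))
    rw [hP₁] at e3
    have e4 : (∑ i : Fin m, P₁ (v ∘ Sum.inl) i * σ (P₁ (v ∘ Sum.inl) i)) = algebraMap F K (quadFormPlus m F (v ∘ Sum.inl)) := e3.symm
    rw [e4]
    have e5 : quadFormMinus m F a b v = quadFormPlus m F (v ∘ Sum.inl) + (v (.inr 0) ^ 2 + a * v (.inr 0) * v (.inr 1) + b * v (.inr 1) ^ 2) := rfl
    rw [e5, map_add]
    congr 1
    simp only [t, map_sub, map_mul, map_add, map_pow, h.hj]
    linear_combination (- algebraMap F K (v (.inr 0)) * algebraMap F K (v (.inr 1))) * hsum + (algebraMap F K (v (.inr 1)) ^ 2) * hprod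
  have hbij := bijective_of_isometry (Q := QN h (m + 1)) (Q' := mkQ (quadFormMinus_nondeg (F := F) m a b hab)) (mkQ_nondeg _) f hf (by
    rw [finrank_pi_K hF hK]
    simp
    ring)
  exact ⟨LinearEquiv.ofBijective f hbij, hf⟩

/-- `GU_m(q)` embeds in `O⁻_{2m}(q)` for `m` odd. -/
theorem gu_minus (hF : Fintype.card F = q) (hK : Fintype.card K = q ^ 2) {m : ℕ} (hm : Even m) (a b : F)
    (hab : ∀ z₁ z₂ : F, z₁ ^ 2 + a * z₁ * z₂ + b * z₂ ^ 2 = 0 → z₁ = 0 ∧ z₂ = 0) (θ : K)
    (hsum : θ + qFrob hK θ = - algebraMap F K a) (hprod : θ * qFrob hK θ = algebraMap F K b) :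
    ∃ φ : ↥(GU (m + 1) K q) →* ↥(isometryGroup F (quadFormMinus m F a b)), Function.Injective φ := by
  classical
  have h := D_qFrob (F := F) hF hK
  obtain ⟨P, hP⟩ := exists_odd_coords hF hK hm a b hab θ hsum hprod
  refine exists_inj_isom (guRho F (m + 1) q) (guRho_inj (m + 1)) _ (fun v => QN h (m + 1) v) ?_ P hP
  intro g v
  apply (algebraMap F K).injective
  show algebraMap F K (QN h (m + 1) _) = algebraMap F K (QN h (m + 1) _)
  rw [algebraMap_QN, algebraMap_QN, hF_guRho]

/-- The trace of the symplectic form. -/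
noncomputable def spTr {σ : K →+* K} (h : D F σ) (a : ℕ) : (Fin a ⊕ Fin a → K) →ₗ[F] (Fin a ⊕ Fin a → K) →ₗ[F] F :=
  LinearMap.mk₂ F (fun u v => trL h (sympForm a K u v))
    (fun u u' v => by
      have : sympForm a K (u + u') v = sympForm a K u v + sympForm a K u' v := (sympBilin (F := K) a).map_add₂ u u' v
      rw [this, map_add])
    (fun c u v => by
      have : sympForm a K (c • u) v = c • sympForm a K u v := by
        have e : c • u = (algebraMap F K c) • u := by
          funext i
          simp [Algebra.smul_def]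
        have e2 : sympForm a K ((algebraMap F K c) • u) v = (algebraMap F K c) • sympForm a K u v := (sympBilin (F := K) a).map_smul₂ (algebraMap F K c) u v
        rw [e, e2, Algebra.smul_def c, smul_eq_mul]
      rw [this, map_smul])
    (fun u v v' => by
      have : sympForm a K u (v + v') = sympForm a K u v + sympForm a K u v' := ((sympBilin (F := K) a) u).map_add v v'
      rw [this, map_add])
    (fun c u v => by
      have : sympForm a K u (c • v) = c • sympForm a K u v := by
        have e : c • v = (algebraMap F K c) • v := by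
          funext i
          simp [Algebra.smul_def]
        have e2 : sympForm a K u ((algebraMap F K c) • v) = (algebraMap F K c) • sympForm a K u v := ((sympBilin (F := K) a) u).map_smul (algebraMap F K c) v
        rw [e, e2, Algebra.smul_def c, smul_eq_mul]
      rw [this, map_smul])

theorem spTr_apply {σ : K →+* K} (h : D F σ) (a : ℕ) (u v : Fin a ⊕ Fin a → K) : spTr h a u v = trL h (sympForm a K u v) := rfl

/-- `Sp_{2a}(q²)` embeds in `Sp_{4a}(q)`. -/
theorem sp_sp (hF : Fintype.card F = q) (hK : Fintype.card K = q ^ 2) (a : ℕ) :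
    ∃ φ : ↥(symplecticGroup (Fin a) K) →* ↥(symplecticGroup (Fin (2 * a)) F), Function.Injective φ := by
  classical
  have h := D_qFrob (F := F) hF hK
  have hA : (spTr h a).IsAlt := by
    intro u
    rw [spTr_apply, symp_self, map_zero]
  have hsep : ∀ u, (∀ v, spTr h a u v = 0) → u = 0 := by
    intro u hu
    apply sympBilin_sep
    intro v
    apply tr_nondeg h
    intro y
    have := hu (y • v)
    rw [spTr_apply] at this
    have e : sympForm a K u (y • v) = y * sympForm a K u v := ((sympBilin (F := K) a) u).map_smul y v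
    rw [e, mul_comm] at this
    exact this
  obtain ⟨m', P, hP⟩ := exists_symp_coords (F := F) (V := Fin a ⊕ Fin a → K) (B := spTr h a) hA hsep
  have hm : m' = 2 * a := by
    have h1 := LinearEquiv.finrank_eq P
    have h2 : finrank F (Fin a ⊕ Fin a → K) = 4 * a := by
      rw [Module.finrank_pi_fintype]
      simp [finrank_K hF hK]
      ring
    rw [finrank_symp, h2] at h1
    omega
  subst hm
  let ρ : ↥(symplecticGroup (Fin a) K) →* ((Fin a ⊕ Fin a → K) ≃ₗ[F] (Fin a ⊕ Fin a → K)) :=
    (resHom F).comp ((fIsom (F := K) (sympForm a K)).subtype.comp (spEquiv a).toMonoidHom)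
  have hρ : Function.Injective ρ := by
    intro g g' e
    have h1 := resHom_inj e
    exact (spEquiv a).injective (Subtype.ext h1)
  refine exists_inj_sp ρ hρ (fun u v => spTr h a u v) ?_ P hP
  intro g u v
  simp only [spTr_apply]
  congr 1
  exact (spEquiv a g).2 u v

end setup

end CfsgLib.ClassGeo.RS
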