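import Mathlib
import Cfsg.Agent.Lib.ClassGeo.RS2
import Cfsg.Agent.Lib.ClassGeo.KleinSp
import Cfsg.Agent.Lib.ClassGeo.UFrames
import Cfsg.Agent.Lib.ClassGeo.UDet
import Cfsg.Agent.Lib.ClassGeo.USimple
import Cfsg.Agent.Lib.ClassGeo.OMinus4

/-! `PΩ⁻₆(q) ≅ PSU₄(q)` by the twisted Klein correspondence. -/

set_option autoImplicit false
set_option linter.unusedSimpArgs false
set_option linter.unusedVariables false
set_option linter.unusedSectionVars false

namespace CfsgLib.ClassGeo.KleinU

open Matrix Cfsg CfsgLib.ClassGeo CfsgLib.ClassGeo.Orth CfsgLib.ClassGeo.Klein CfsgLib.ClassGeo.OIso CfsgLib.ClassGeo.RS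

section hodge

variable {K : Type*} [Field K]

set_option maxHeartbeats 8000000 in
/-- The Hodge dual under a congruence. -/
theorem hodge (g : Matrix (Fin 4) (Fin 4) K) (v : Idx → K) :
    gᵀ * mat ((act g v) ∘ Sum.swap) * g = g.det • mat (v ∘ Sum.swap) := by
  rw [act_apply, det4]
  ext i j
  fin_cases i <;> fin_cases j <;>
    simp [coords, mat, Matrix.mul_apply, Fin.sum_univ_four, Function.comp] <;> ring

theorem mat_injective {v w : Idx → K} (h : mat v = mat w) : v = w := by
  have := congrArg coords h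
  rwa [coords_mat, coords_mat] at this

/-- The twisted vectors. -/
def wv (σ : K →+* K) (z : Fin 3 → K) : Idx → K := Sum.elim z (fun i => σ (z i))

theorem mat_map (σ : K →+* K) (v : Idx → K) : (mat v).map σ = mat (fun i => σ (v i)) := by
  ext i j
  fin_cases i <;> fin_cases j <;> simp [mat]

theorem coords_map (σ : K →+* K) (X : Matrix (Fin 4) (Fin 4) K) : (fun i => σ (coords X i)) = coords (X.map σ) := by
  funext i
  rcases i with i | i <;> fin_cases i <;> simp [coords]

theorem act_map (σ : K →+* K) (g : Matrix (Fin 4) (Fin 4) K) (v : Idx → K) :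
    (fun i => σ (act g v i)) = act (g.map σ) (fun i => σ (v i)) := by
  rw [act_apply, act_apply, coords_map, ← mat_map]
  congr 1
  rw [Matrix.map_mul, Matrix.map_mul, Matrix.transpose_map]

/-- The act on twisted vectors preserves the twisted vectors. -/
theorem act_swap (σ : K →+* K) (g : Matrix (Fin 4) (Fin 4) K) (hg : gᵀ * g.map σ = 1) (hd : g.det = 1)
    (v : Idx → K) (hv : v ∘ Sum.swap = fun i => σ (v i)) :
    act g v ∘ Sum.swap = fun i => σ (act g v i) := by
  apply mat_injective
  have h0 := hodge g v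
  rw [hd, one_smul, hv] at h0
  have h1 : g.map σ * gᵀ = 1 := mul_eq_one_comm.mp hg
  have h2 : (g.map σ)ᵀ * g = 1 := by
    have := congrArg Matrix.transpose hg
    rwa [Matrix.transpose_mul, Matrix.transpose_transpose, Matrix.transpose_one] at this
  have h3 : g * (g.map σ)ᵀ = 1 := mul_eq_one_comm.mp h2
  have e : mat (act (g.map σ) (fun i => σ (v i))) = g.map σ * mat (fun i => σ (v i)) * (g.map σ)ᵀ := by
    rw [act_apply, mat_coords_conj]
  rw [act_map, e, ← h0]
  calc mat (act g v ∘ Sum.swap)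
      = (g.map σ * gᵀ) * mat (act g v ∘ Sum.swap) * (g * (g.map σ)ᵀ) := by rw [h1, h3, Matrix.one_mul, Matrix.mul_one]
    _ = g.map σ * (gᵀ * mat (act g v ∘ Sum.swap) * g) * (g.map σ)ᵀ := by
        simp only [Matrix.mul_assoc]

theorem wv_swap (σ : K →+* K) (hσ : ∀ x, σ (σ x) = x) (z : Fin 3 → K) : wv σ z ∘ Sum.swap = fun i => σ (wv σ z i) := by
  funext i
  rcases i with i | i <;> simp [wv, hσ]

theorem eq_wv (σ : K →+* K) (v : Idx → K) (hv : v ∘ Sum.swap = fun i => σ (v i)) :
    v = wv σ (fun i => v (.inl i)) := by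
  funext i
  rcases i with i | i
  · rfl
  · have := congrFun hv (.inl i)
    simpa [wv] using this

theorem act_wv (σ : K →+* K) (hσ : ∀ x, σ (σ x) = x) (g : Matrix (Fin 4) (Fin 4) K) (hg : gᵀ * g.map σ = 1) (hd : g.det = 1) (z : Fin 3 → K) :
    act g (wv σ z) = wv σ (fun i => act g (wv σ z) (.inl i)) :=
  eq_wv σ _ (act_swap σ g hg hd _ (wv_swap σ hσ z))

theorem quad_wv (σ : K →+* K) (z : Fin 3 → K) : quadFormPlus 3 K (wv σ z) = hF σ z z := by
  rw [pf_eq]
  simp [wv, hF, Fin.sum_univ_three]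

/-- The twisted vectors span. -/
theorem act_eq_of_wv (σ : K →+* K) (hσ : ∀ x, σ (σ x) = x) (hne : σ ≠ RingHom.id K) (g : Matrix (Fin 4) (Fin 4) K)
    (h : ∀ z, act g (wv σ z) = wv σ z) (v : Idx → K) : act g v = v := by
  obtain ⟨l, hl⟩ : ∃ l, σ l ≠ l := by
    by_contra hc
    push Not at hc
    exact hne (RingHom.ext hc)
  have hd : l - σ l ≠ 0 := fun e => hl (sub_eq_zero.mp e).symm
  let y : Fin 3 → K := fun i => (v (.inl i) - σ (v (.inr i))) * (l - σ l)⁻¹
  let x : Fin 3 → K := fun i => v (.inl i) - l * y i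
  have hy : ∀ i, (l - σ l) * y i = v (.inl i) - σ (v (.inr i)) := by
    intro i
    simp only [y]
    field_simp
  have e : v = wv σ x + l • wv σ y := by
    funext i
    rcases i with i | i
    · simp [wv, x]
    · simp only [wv, Pi.add_apply, Pi.smul_apply, Sum.elim_inr, smul_eq_mul]
      apply σ.injective
      rw [map_add, map_mul, hσ, hσ]
      have hx : x i = v (.inl i) - l * y i := rfl
      rw [hx]
      linear_combination hy i
  rw [e, map_add, map_smul, h, h]

end hodge

section su

variable {K : Type*} [Field K] [Fintype K] {q : ℕ} (hK : Fintype.card K = q ^ 2)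

include hK in
theorem su_transpose (g : ↥(SU 4 K q)) :
    ((g.1 : SpecialLinearGroup (Fin 4) K) : Matrix (Fin 4) (Fin 4) K)ᵀ * ((g.1 : SpecialLinearGroup (Fin 4) K) : Matrix (Fin 4) (Fin 4) K).map (qFrob hK) = 1 := by
  classical
  have hq2 := qfrob_two_le hK
  set M := ((g.1 : SpecialLinearGroup (Fin 4) K) : Matrix (Fin 4) (Fin 4) K) with hM
  have hm : ∀ u v, hermForm 4 K q (M *ᵥ u) (M *ᵥ v) = hermForm 4 K q u v := g.2
  ext i j
  have h := hm (Pi.single i 1) (Pi.single j 1)
  have h2 := stdH_single hK 4 j i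
  rw [stdH_apply] at h2
  rw [h2] at h
  simp only [hermForm, Matrix.mulVec_single_one, Matrix.col_apply] at h
  rw [Matrix.mul_apply]
  simp only [Matrix.transpose_apply, Matrix.map_apply, qFrob_apply, Matrix.one_apply]
  rw [h]
  by_cases hij : i = j
  · simp [hij]
  · simp [hij, Ne.symm hij]

/-- The action on the twisted vectors. -/
noncomputable def A (F : Type*) [Field F] [Algebra F K] (h : D F (qFrob hK)) (g : ↥(SU 4 K q)) : (Fin 3 → K) →ₗ[F] (Fin 3 → K) where
  toFun z := fun i => act ((g.1 : SpecialLinearGroup (Fin 4) K) : Matrix (Fin 4) (Fin 4) K) (wv (qFrob hK) z) (.inl i)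
  map_add' z z' := by
    have e : wv (qFrob hK) (z + z') = wv (qFrob hK) z + wv (qFrob hK) z' := by
      funext i
      rcases i with i | i <;> simp [wv]
    rw [e, map_add]
    rfl
  map_smul' a z := by
    have e : wv (qFrob hK) (a • z) = (algebraMap F K a) • wv (qFrob hK) z := by
      funext i
      rcases i with i | i
      · simp [wv, Algebra.smul_def]
      · simp only [wv, Pi.smul_apply, Sum.elim_inr, smul_eq_mul, h.smul, Algebra.smul_def]
        rw [map_mul, h.hj]
    rw [e, map_smul]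
    funext i
    simp [Algebra.smul_def]

variable {F : Type*} [Field F] [Algebra F K] (h : D F (qFrob hK))

theorem A_apply (g : ↥(SU 4 K q)) (z : Fin 3 → K) (i : Fin 3) :
    A hK F h g z i = act ((g.1 : SpecialLinearGroup (Fin 4) K) : Matrix (Fin 4) (Fin 4) K) (wv (qFrob hK) z) (.inl i) := rfl

theorem wv_A (g : ↥(SU 4 K q)) (z : Fin 3 → K) :
    wv (qFrob hK) (A hK F h g z) = act ((g.1 : SpecialLinearGroup (Fin 4) K) : Matrix (Fin 4) (Fin 4) K) (wv (qFrob hK) z) :=
  (act_wv (qFrob hK) h.hσ _ (su_transpose hK g) g.1.2 z).symm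

theorem wv_inj {z z' : Fin 3 → K} (e : wv (qFrob hK) z = wv (qFrob hK) z') : z = z' := by
  funext i
  exact congrFun e (.inl i)

theorem A_one (z : Fin 3 → K) : A hK F h 1 z = z := by
  apply wv_inj hK
  rw [wv_A]
  show act (1 : Matrix (Fin 4) (Fin 4) K) _ = _
  rw [act_one]

theorem A_mul (g g' : ↥(SU 4 K q)) (z : Fin 3 → K) : A hK F h (g * g') z = A hK F h g (A hK F h g' z) := by
  apply wv_inj hK
  rw [wv_A, wv_A, wv_A]
  show act ((g.1 : SpecialLinearGroup (Fin 4) K) * (g'.1 : SpecialLinearGroup (Fin 4) K) : Matrix (Fin 4) (Fin 4) K) _ = _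
  rw [act_mul]

theorem hF_A (g : ↥(SU 4 K q)) (z : Fin 3 → K) : hF (qFrob hK) (A hK F h g z) (A hK F h g z) = hF (qFrob hK) z z := by
  rw [← quad_wv, ← quad_wv, wv_A, pf_conj, g.1.2, one_mul]

theorem QN_A (g : ↥(SU 4 K q)) (z : Fin 3 → K) : QN h 3 (A hK F h g z) = QN h 3 z := by
  apply (algebraMap F K).injective
  rw [algebraMap_QN, algebraMap_QN, hF_A]

theorem ker_scalar_A (g : ↥(SU 4 K q)) (hg : ∀ z, A hK F h g z = z) :
    ∃ c : K, c * c = 1 ∧ ((g.1 : SpecialLinearGroup (Fin 4) K) : Matrix (Fin 4) (Fin 4) K) = c • 1 := by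
  apply ker_scalar
  apply act_eq_of_wv (qFrob hK) h.hσ h.hne
  intro z
  rw [← wv_A hK h, hg]

end su

section main

variable {K : Type*} [Field K] [Fintype K] {q : ℕ} (hK : Fintype.card K = q ^ 2)

include hK in
theorem su_perfect (n : ℕ) (hn : 4 ≤ n) : commutator (SU n K q) = ⊤ := by
  have h := stdH_hform n hK
  have hfr : Module.finrank K (Fin n → K) = n := by simp
  have p := HGrp_perfect h (by omega) (fun p hp hd => su_le_UT h (by omega) (by omega) p hp hd)
  have h1 := Subgroup.map_commutator (⊤ : Subgroup (HGrp (stdH n hK))) ⊤ (suEquiv hK n).symm.toMonoidHom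
  rw [← commutator_def, p] at h1
  have h2 : (⊤ : Subgroup (HGrp (stdH n hK))).map (suEquiv hK n).symm.toMonoidHom = ⊤ := by
    rw [← MonoidHom.range_eq_map, MonoidHom.range_eq_top]
    exact (suEquiv hK n).symm.surjective
  rw [h2] at h1
  rw [commutator_def, ← h1]

include hK in
theorem card_SU4 : Nat.card (SU 4 K q) = q ^ 6 * (q ^ 2 - 1) * (q ^ 3 + 1) * (q ^ 4 - 1) := by
  have h1 := card_GU_eq hK 4 (by omega)
  rw [card_GU hK 4] at h1
  have e3 : ¬ Even 3 := by decide
  simp [Finset.prod_range_succ, e3] at h1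
  have hq : 0 < q + 1 := by omega
  apply Nat.eq_of_mul_eq_mul_left hq
  rw [h1]
  ring

variable {F : Type*} [Field F] [Fintype F]

include hK in
open CfsgLib.ClassGeo.OLow RS in
theorem main (hF : Fintype.card F = q) (a b : F)
    (hab : ∀ z₁ z₂ : F, z₁ ^ 2 + a * z₁ * z₂ + b * z₂ ^ 2 = 0 → z₁ = 0 ∧ z₂ = 0) :
    Nonempty (POmega F (quadFormMinus 2 F a b) ≃* PSU 4 K q) := by
  classical
  obtain ⟨j, θ, hθ⟩ := OMinus4.exists_HD hF hK a b hab
  letI : Algebra F K := j.toAlgebra
  have h := D_qFrob (F := F) hF hK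
  obtain ⟨P, hP⟩ := exists_odd_coords hF hK (m := 2) (by decide) a b hab θ hθ.hsum hθ.hprod
  have hq : 2 ≤ q := by rw [← hF]; exact Fintype.one_lt_card
  have hcF : Nat.card F = q := by rw [Nat.card_eq_fintype_card, hF]
  have hnd := quadFormMinus_nondeg (F := F) 2 a b hab
  let Q : QuadraticForm F ((Fin 2 ⊕ Fin 2) ⊕ Fin 2 → F) := mkQ hnd
  have hQnd : (QuadraticMap.polarBilin Q).Nondegenerate := mkQ_nondeg _
  have hO : Nat.card (Cfsg.isometryGroup F (Cfsg.quadFormMinus 2 F a b)) = 2 * (q ^ 6 * (q ^ 2 - 1) * (q ^ 3 + 1) * (q ^ 4 - 1)) := by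
    rw [card_isometry_eq, card_isom_minus hab 2, hcF]
    simp [Finset.prod_range_succ]
    ring
  let A' : ↥(SU 4 K q) → (((Fin 2 ⊕ Fin 2) ⊕ Fin 2 → F) →ₗ[F] ((Fin 2 ⊕ Fin 2) ⊕ Fin 2 → F)) :=
    fun g => P.symm.toLinearMap ∘ₗ (A hK F h g) ∘ₗ P.toLinearMap
  have hA' : ∀ g v, A' g v = P.symm (A hK F h g (P v)) := fun _ _ => rfl
  have h1 : ∀ v, A' 1 v = v := by
    intro v
    rw [hA', A_one, LinearEquiv.symm_apply_apply]
  have hm : ∀ g g' v, A' (g * g') v = A' g (A' g' v) := by
    intro g g' v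
    rw [hA', hA', hA', A_mul, LinearEquiv.apply_symm_apply]
  have hqq : ∀ g v, quadFormMinus 2 F a b (A' g v) = quadFormMinus 2 F a b v := by
    intro g v
    rw [← hP, ← hP, hA', LinearEquiv.apply_symm_apply]
    exact QN_A hK h g _
  let φ := isomHom (quadFormMinus 2 F a b) A' h1 hm hqq
  have hker : ∀ g, g ∈ φ.ker ↔ ∀ z, A hK F h g z = z := by
    intro g
    rw [mem_ker_isomHom]
    constructor
    · intro e z
      have := e (P.symm z)
      rw [hA', LinearEquiv.apply_symm_apply] at this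
      have h3 := congrArg P this
      rwa [LinearEquiv.apply_symm_apply, LinearEquiv.apply_symm_apply] at h3
    · intro e v
      rw [hA', e, LinearEquiv.symm_apply_apply]
  have hkc : φ.ker ≤ Subgroup.center (SU 4 K q) := by
    intro g hg
    rw [hker] at hg
    obtain ⟨c, hc, hgc⟩ := ker_scalar_A hK h g hg
    rw [Subgroup.mem_center_iff]
    intro g'
    apply Subtype.ext
    apply Subtype.ext
    show ((g'.1 : SpecialLinearGroup (Fin 4) K) : Matrix (Fin 4) (Fin 4) K) * ((g.1 : SpecialLinearGroup (Fin 4) K) : Matrix (Fin 4) (Fin 4) K) =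
      ((g.1 : SpecialLinearGroup (Fin 4) K) : Matrix (Fin 4) (Fin 4) K) * ((g'.1 : SpecialLinearGroup (Fin 4) K) : Matrix (Fin 4) (Fin 4) K)
    rw [hgc]
    simp
  have hperf := su_perfect hK 4 le_rfl
  have hr : φ.range ≤ Cfsg.Omega F (Cfsg.quadFormMinus 2 F a b) := by
    have h1 := Subgroup.map_commutator (⊤ : Subgroup (SU 4 K q)) ⊤ φ
    rw [← commutator_def, hperf] at h1
    rw [MonoidHom.range_eq_map, h1]
    rw [Cfsg.Omega, commutator_def]
    exact Subgroup.commutator_mono le_top le_top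
  have hcen : Subgroup.center (PSU 4 K q) = ⊥ := by
    haveI : IsSimpleGroup (PSU 4 K q) := PSU_simple hK 4 (by omega) (by omega)
    exact center_eq_bot_of_simple (commutator_quot_eq_top _ hperf)
  refine pomega_iso (Cfsg.quadFormMinus 2 F a b) φ hr hkc hcen ?_
  rw [card_SU4 hK]
  have hjj : ((2 : F) = 0) ↔ ((2 : K) = 0) := by
    constructor
    · intro h2
      have := congrArg j h2
      rwa [map_ofNat, map_zero] at this
    · intro h2
      apply j.injective
      rwa [map_ofNat, map_zero]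
  by_cases h2 : (2 : F) = 0
  · have hk : φ.ker = ⊥ := by
      rw [eq_bot_iff]
      intro g hg
      rw [hker] at hg
      obtain ⟨c, hc, hgc⟩ := ker_scalar_A hK h g hg
      have h2K := hjj.mp h2
      have h3 : (c + 1) ^ 2 = 0 := by
        linear_combination hc + c * h2K + h2K * 1
      have h4 : c + 1 = 0 := pow_eq_zero_iff (two_ne_zero) |>.mp h3
      have h5 : c = 1 := by linear_combination h4 - h2K
      rw [h5, one_smul] at hgc
      rw [Subgroup.mem_bot]
      apply Subtype.ext
      apply Subtype.ext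
      exact hgc
    rw [hk, Subgroup.card_bot, mul_one]
    have h3 := card_Omega_mul_even (Q := Q) h2 (by simp) hQnd (Or.inr (by simp))
    have h4 : Nat.card (Omega F (quadFormMinus 2 F a b)) * 2 = Nat.card (isometryGroup F (quadFormMinus 2 F a b)) := h3
    rw [hO] at h4
    omega
  · have h2K : (2 : K) ≠ 0 := fun e => h2 (hjj.mpr e)
    have hk : Nat.card φ.ker = 2 := by
      let m0 : SpecialLinearGroup (Fin 4) K := ⟨-1, by
        rw [Matrix.det_neg]; simp; norm_num⟩
      have hmS : m0 ∈ SU 4 K q := by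
        rw [mem_SU_iff 4 hK]
        intro x y
        have e : ∀ x, slLin 4 m0 x = -x := by
          intro x
          rw [slLin_apply]
          show (-1 : Matrix (Fin 4) (Fin 4) K) *ᵥ x = -x
          simp [Matrix.neg_mulVec]
        rw [e, e]
        simp only [map_neg, LinearMap.neg_apply, neg_neg]
      have hm0 : (⟨m0, hmS⟩ : ↥(SU 4 K q)) ∈ φ.ker := by
        rw [hker]
        intro z
        apply wv_inj hK
        rw [wv_A hK h]
        show act (-1 : Matrix (Fin 4) (Fin 4) K) _ = _
        rw [act_apply]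
        simp [coords_mat]
      rw [Nat.card_eq_two_iff]
      refine ⟨1, ⟨_, hm0⟩, ?_, ?_⟩
      · intro h
        have h1 := congrArg (fun x : φ.ker => ((x.1.1 : SpecialLinearGroup (Fin 4) K) : Matrix (Fin 4) (Fin 4) K) 0 0) h
        have h3 : (1 : K) = -1 := by simpa [m0] using h1
        apply h2K
        linear_combination h3
      · ext ⟨g, hg⟩
        simp only [Set.mem_insert_iff, Set.mem_singleton_iff, Set.mem_univ, iff_true]
        rw [hker] at hg
        obtain ⟨c, hc, hgc⟩ := ker_scalar_A hK h g hg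
        have h3 : (c - 1) * (c + 1) = 0 := by linear_combination hc
        rcases mul_eq_zero.mp h3 with h4 | h4
        · left
          apply Subtype.ext
          apply Subtype.ext
          apply Subtype.ext
          have : c = 1 := sub_eq_zero.mp h4
          rw [this, one_smul] at hgc
          exact hgc
        · right
          apply Subtype.ext
          apply Subtype.ext
          apply Subtype.ext
          have : c = -1 := eq_neg_of_add_eq_zero_left h4
          rw [this, neg_one_smul] at hgc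
          exact hgc
    rw [hk]
    have h3 := card_Omega_mul_odd (Q := Q) h2 (by simp) hQnd
    have h4 : Nat.card (Omega F (quadFormMinus 2 F a b)) * 4 = Nat.card (isometryGroup F (quadFormMinus 2 F a b)) := h3
    rw [hO] at h4
    omega

end main

end CfsgLib.ClassGeo.KleinU
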