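import Mathlib
import Cfsg.Agent.Lib.ClassGeo.Bridge
import Cfsg.Agent.Lib.ClassGeo.Symp

set_option autoImplicit false
set_option linter.unusedSimpArgs false
set_option linter.unusedVariables false
set_option linter.unusedSectionVars false

namespace CfsgLib.ClassGeo.OChar2

open Matrix Cfsg CfsgLib.ClassGeo Module

variable {F : Type*} [Field F] [CharP F 2] (m : ℕ)

local notation "𝕍" => (Unit ⊕ (Fin m ⊕ Fin m) → F)
local notation "𝕎" => (Fin m ⊕ Fin m → F)

theorem add_self' (a : F) : a + a = 0 := CharTwo.add_self_eq_zero a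

/-- The form on the even part. -/
def q₀ (w : 𝕎) : F := ∑ i : Fin m, w (.inl i) * w (.inr i)

/-- the two components -/
def pt (a : F) (w : 𝕎) : 𝕍 := Sum.elim (fun _ => a) w

def wp (x : 𝕍) : 𝕎 := fun i => x (.inr i)
def ap (x : 𝕍) : F := x (.inl ())

@[simp] theorem wp_pt (a : F) (w : 𝕎) : wp m (pt m a w) = w := rfl
@[simp] theorem ap_pt (a : F) (w : 𝕎) : ap m (pt m a w) = a := rfl

theorem pt_eta (x : 𝕍) : pt m (ap m x) (wp m x) = x := by
  funext c
  rcases c with c | c
  · rfl
  · rfl

theorem wp_add (x y : 𝕍) : wp m (x + y) = wp m x + wp m y := rfl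
theorem ap_add (x y : 𝕍) : ap m (x + y) = ap m x + ap m y := rfl
theorem wp_smul (c : F) (x : 𝕍) : wp m (c • x) = c • wp m x := rfl
theorem ap_smul (c : F) (x : 𝕍) : ap m (c • x) = c * ap m x := rfl
theorem pt_add (a b : F) (u v : 𝕎) : pt m (a + b) (u + v) = pt m a u + pt m b v := by
  funext c; rcases c with c | c <;> rfl
theorem pt_smul (c a : F) (u : 𝕎) : pt m (c * a) (c • u) = c • pt m a u := by
  funext d; rcases d with d | d <;> rfl

theorem Q_eq (x : 𝕍) : quadFormOdd m F x = (ap m x) ^ 2 + q₀ m (wp m x) := rfl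

/-- the polar form of `q₀` is the symplectic form -/
theorem q₀_add (u v : 𝕎) : q₀ m (u + v) = q₀ m u + q₀ m v + sympForm m F u v := by
  rw [symp_apply]
  simp only [q₀, Pi.add_apply, add_mul, mul_add, Finset.sum_add_distrib]
  have h : ∀ a b : F, a - b = a + b := fun a b => by
    have := add_self' b
    linear_combination -this
  have h2 : ∑ i : Fin m, (u (.inr i) * v (.inl i) - u (.inl i) * v (.inr i)) =
      ∑ i : Fin m, u (.inl i) * v (.inr i) + ∑ i : Fin m, v (.inl i) * u (.inr i) := by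
    rw [← Finset.sum_add_distrib]
    refine Finset.sum_congr rfl (fun i _ => ?_)
    rw [h]; ring
  rw [h2]
  ring

theorem q₀_smul (c : F) (u : 𝕎) : q₀ m (c • u) = c ^ 2 * q₀ m u := by
  simp only [q₀, Pi.smul_apply, smul_eq_mul, Finset.mul_sum]
  exact Finset.sum_congr rfl (fun i _ => by ring)

/-- polarity for `Q` -/
theorem Q_add (x y : 𝕍) : quadFormOdd m F (x + y) = quadFormOdd m F x + quadFormOdd m F y + sympForm m F (wp m x) (wp m y) := by
  rw [Q_eq, Q_eq, Q_eq, wp_add, ap_add, q₀_add]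
  have := add_self' (ap m x * ap m y)
  linear_combination this

theorem symp_sep (u : 𝕎) (h : ∀ v, sympForm m F u v = 0) : u = 0 :=
  sympBilin_sep m u h

variable {m}

/-- an isometry of `Q` preserves the symplectic form on the second component -/
theorem symp_wp {g : 𝕍 ≃ₗ[F] 𝕍} (hg : g ∈ fIsom (F := F) (fun a _ : 𝕍 => quadFormOdd m F a)) (x y : 𝕍) :
    sympForm m F (wp m (g x)) (wp m (g y)) = sympForm m F (wp m x) (wp m y) := by
  have h1 : quadFormOdd m F (g (x + y)) = quadFormOdd m F (x + y) := mem_fIsom.mp hg _ 0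
  have h2 : quadFormOdd m F (g x) = quadFormOdd m F x := mem_fIsom.mp hg _ 0
  have h3 : quadFormOdd m F (g y) = quadFormOdd m F y := mem_fIsom.mp hg _ 0
  rw [map_add, Q_add, Q_add, h2, h3] at h1
  exact add_left_cancel h1

/-- the radical vector -/
def e₀ : 𝕍 := pt m 1 0

theorem g_e₀ {g : 𝕍 ≃ₗ[F] 𝕍} (hg : g ∈ fIsom (F := F) (fun a _ : 𝕍 => quadFormOdd m F a)) : g e₀ = e₀ := by
  have hw : wp m (g e₀) = 0 := by
    apply symp_sep
    intro v
    have := symp_wp hg e₀ (g.symm (pt m 0 v))
    rw [LinearEquiv.apply_symm_apply] at this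
    rw [wp_pt] at this
    rw [this]
    have : wp m (e₀ : 𝕍) = 0 := rfl
    rw [this, symp_apply]
    simp
  have hQ : quadFormOdd m F (g e₀) = quadFormOdd m F e₀ := mem_fIsom.mp hg _ 0
  rw [Q_eq, Q_eq, hw] at hQ
  have h0 : q₀ m (0 : 𝕎) = 0 := by simp [q₀]
  have h00 : wp m (e₀ : 𝕍) = 0 := rfl
  have h01 : ap m (e₀ : 𝕍) = 1 := rfl
  rw [h00, h01, h0] at hQ
  have h3 : (ap m (g e₀) + 1) ^ 2 = 0 := by
    have h4 := add_self' (ap m (g e₀))
    have h5 := add_self' (1 : F)
    linear_combination hQ + h4 + h5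
  have h6 : ap m (g e₀) + 1 = 0 := pow_eq_zero_iff (two_ne_zero) |>.mp h3
  have h7 : ap m (g e₀) = 1 := by
    have h5 := add_self' (1 : F)
    linear_combination h6 - h5
  rw [← pt_eta m (g e₀), hw, h7]
  rfl

/-- the induced linear map -/
def bar (g : 𝕍 ≃ₗ[F] 𝕍) : 𝕎 →ₗ[F] 𝕎 where
  toFun w := wp m (g (pt m 0 w))
  map_add' u v := by
    have : pt m (0 : F) (u + v) = pt m 0 u + pt m 0 v := by
      rw [← pt_add]; simp
    rw [this, map_add, wp_add]
  map_smul' c u := by
    have : pt m (0 : F) (c • u) = c • pt m 0 u := by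
      rw [← pt_smul]; simp
    rw [this, map_smul, wp_smul]; rfl

theorem bar_apply (g : 𝕍 ≃ₗ[F] 𝕍) (w : 𝕎) : bar g w = wp m (g (pt m 0 w)) := rfl

theorem split (x : 𝕍) : x = ap m x • e₀ + pt m 0 (wp m x) := by
  funext c
  rcases c with c | c
  · show x (.inl c) = ap m x * 1 + 0
    simp [ap]
  · show x (.inr c) = ap m x * 0 + wp m x c
    simp [wp]

theorem wp_g {g : 𝕍 ≃ₗ[F] 𝕍} (hg : g ∈ fIsom (F := F) (fun a _ : 𝕍 => quadFormOdd m F a)) (x : 𝕍) :
    wp m (g x) = bar g (wp m x) := by
  conv_lhs => rw [split x]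
  rw [map_add, map_smul, g_e₀ hg, wp_add, wp_smul]
  have : wp m (e₀ : 𝕍) = 0 := rfl
  rw [this, smul_zero, zero_add]
  rfl

theorem bar_mul {g h : 𝕍 ≃ₗ[F] 𝕍} (hg : g ∈ fIsom (F := F) (fun a _ : 𝕍 => quadFormOdd m F a))
    (w : 𝕎) : bar (g * h) w = bar g (bar h w) := by
  show wp m (g (h (pt m 0 w))) = _
  rw [wp_g hg]
  rfl

theorem bar_one (w : 𝕎) : bar (1 : 𝕍 ≃ₗ[F] 𝕍) w = w := rfl

/-- from isometries of `Q` to the symplectic group -/
noncomputable def toSp : fIsom (F := F) (fun a _ : 𝕍 => quadFormOdd m F a) →* fIsom (F := F) (sympForm m F) :=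
  MonoidHom.mk'
    (fun g => ⟨LinearEquiv.ofLinearMap (bar g.1) (bar g⁻¹.1)
        (LinearMap.ext fun w => by
          show bar g.1 (bar g⁻¹.1 w) = w
          rw [← bar_mul g.2]
          have : g.1 * g⁻¹.1 = 1 := by
            show (g * g⁻¹).1 = 1
            rw [mul_inv_cancel]; rfl
          rw [this]; rfl)
        (LinearMap.ext fun w => by
          show bar g⁻¹.1 (bar g.1 w) = w
          rw [← bar_mul g⁻¹.2]
          have : g⁻¹.1 * g.1 = 1 := by
            show (g⁻¹ * g).1 = 1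
            rw [inv_mul_cancel]; rfl
          rw [this]; rfl), by
        rw [mem_fIsom]
        intro a b
        show sympForm m F (bar g.1 a) (bar g.1 b) = sympForm m F a b
        rw [bar_apply, bar_apply, symp_wp g.2]
        rfl⟩)
    (fun g h => by
      apply Subtype.ext
      ext1 w
      show bar (g * h).1 w = bar g.1 (bar h.1 w)
      exact bar_mul g.2 w)

theorem toSp_apply (g : fIsom (F := F) (fun a _ : 𝕍 => quadFormOdd m F a)) (w : 𝕎) :
    (toSp g).1 w = wp m (g.1 (pt m 0 w)) := rfl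

theorem toSp_injective : Function.Injective (toSp (F := F) (m := m)) := by
  rw [injective_iff_map_eq_one]
  intro g hg
  have hw : ∀ w, wp m (g.1 (pt m 0 w)) = w := by
    intro w
    have := congrArg (fun h : fIsom (F := F) (sympForm m F) => h.1 w) hg
    exact this
  apply Subtype.ext
  ext1 x
  show g.1 x = x
  conv_lhs => rw [split x]
  rw [map_add, map_smul, g_e₀ g.2]
  have h1 : g.1 (pt m 0 (wp m x)) = pt m 0 (wp m x) := by
    set w := wp m x
    have hQ : quadFormOdd m F (g.1 (pt m 0 w)) = quadFormOdd m F (pt m 0 w) := mem_fIsom.mp g.2 _ 0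
    rw [Q_eq, Q_eq, hw, wp_pt, ap_pt] at hQ
    have h3 : (ap m (g.1 (pt m 0 w))) ^ 2 = 0 := by
      have := add_left_cancel (a := (0 : F) ^ 2) (b := ap m (g.1 (pt m 0 w)) ^ 2) (c := 0) 
      linear_combination hQ
    have h4 : ap m (g.1 (pt m 0 w)) = 0 := pow_eq_zero_iff (two_ne_zero) |>.mp h3
    rw [← pt_eta m (g.1 (pt m 0 w)), h4, hw]
  rw [h1]
  exact (split x).symm

variable [Finite F]

theorem toSp_surjective : Function.Surjective (toSp (F := F) (m := m)) := by
  classical
  haveI : Fintype F := Fintype.ofFinite F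
  rintro ⟨h, hh⟩
  have hsymp : ∀ a b : 𝕎, sympForm m F (h a) (h b) = sympForm m F a b := fun a b => mem_fIsom.mp hh a b
  -- the square root
  have hsq : Function.Surjective (fun x : F => x ^ 2) := by
    have hinj : Function.Injective (fun x : F => x ^ 2) := by
      intro a b hab
      have h3 : (a + b) ^ 2 = 0 := by
        have h4 : a ^ 2 = b ^ 2 := hab
        have := add_self' (a * b)
        linear_combination h4 + this + (2 * b ^ 2 - b ^ 2 * 2 : F) + (add_self' (b ^ 2))
      have h5 : a + b = 0 := pow_eq_zero_iff (two_ne_zero) |>.mp h3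
      have := add_self' b
      linear_combination h5 - this
    exact Finite.injective_iff_surjective.mp hinj
  let σ : F → F := Function.surjInv hsq
  have hσ : ∀ x, σ x ^ 2 = x := Function.surjInv_eq hsq
  have hσadd : ∀ x y, σ (x + y) = σ x + σ y := by
    intro x y
    have h3 : (σ (x + y) + (σ x + σ y)) ^ 2 = 0 := by
      have e1 := hσ (x + y)
      have e2 := hσ x
      have e3 := hσ y
      have e4 := add_self' (σ (x + y) * (σ x + σ y))
      have e5 := add_self' (σ x * σ y)
      have e6 := add_self' (x + y)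
      linear_combination e1 + e2 + e3 + (σ x) * 0 + e4 + e5 + e6 - (x + y) * 0
    have h5 : σ (x + y) + (σ x + σ y) = 0 := pow_eq_zero_iff (two_ne_zero) |>.mp h3
    have := add_self' (σ x + σ y)
    linear_combination h5 - this
  have hσmul : ∀ c x, σ (c ^ 2 * x) = c * σ x := by
    intro c x
    have h3 : (σ (c ^ 2 * x) + c * σ x) ^ 2 = 0 := by
      have e1 := hσ (c ^ 2 * x)
      have e2 := hσ x
      have e4 := add_self' (σ (c ^ 2 * x) * (c * σ x))
      have e6 := add_self' (c ^ 2 * x)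
      linear_combination e1 + c ^ 2 * e2 + e4 + e6
    have h5 : σ (c ^ 2 * x) + c * σ x = 0 := pow_eq_zero_iff (two_ne_zero) |>.mp h3
    have := add_self' (c * σ x)
    linear_combination h5 - this
  -- the defect
  let s : 𝕎 → F := fun w => σ (q₀ m w + q₀ m (h w))
  have hsadd : ∀ u v, s (u + v) = s u + s v := by
    intro u v
    show σ _ = σ _ + σ _
    rw [← hσadd]
    congr 1
    rw [map_add, q₀_add, q₀_add, hsymp]
    have := add_self' (sympForm m F u v)
    linear_combination this
  have hssmul : ∀ (c : F) u, s (c • u) = c * s u := by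
    intro c u
    show σ _ = c * σ _
    rw [← hσmul]
    congr 1
    rw [map_smul, q₀_smul, q₀_smul]
    ring
  have hssq : ∀ w, s w ^ 2 = q₀ m w + q₀ m (h w) := fun w => hσ _
  let gL : 𝕍 →ₗ[F] 𝕍 :=
    { toFun := fun x => pt m (ap m x + s (wp m x)) (h (wp m x))
      map_add' := by
        intro x y
        rw [← pt_add, wp_add, ap_add, hsadd, map_add]
        congr 1
        ring
      map_smul' := by
        intro c x
        simp only [RingHom.id_apply]
        rw [← pt_smul, wp_smul, ap_smul, hssmul, map_smul]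
        congr 1
        ring }
  have hgL : ∀ x, gL x = pt m (ap m x + s (wp m x)) (h (wp m x)) := fun x => rfl
  have hs0 : s 0 = 0 := by
    have := hssmul 0 0
    simpa using this
  have hinj : Function.Injective gL := by
    rw [injective_iff_map_eq_zero]
    intro x hx
    rw [hgL] at hx
    have h1 : h (wp m x) = 0 := congrArg (wp m) hx
    have h2 : wp m x = 0 := by simpa using h1
    have h3 : ap m x + s (wp m x) = 0 := congrArg (ap m) hx
    rw [h2, hs0, add_zero] at h3
    rw [← pt_eta m x, h2, h3]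
    funext c
    rcases c with c | c <;> rfl
  let g : 𝕍 ≃ₗ[F] 𝕍 := LinearEquiv.ofInjectiveEndo gL hinj
  have hgapp : ∀ x, g x = gL x := fun x => rfl
  have hgmem : g ∈ fIsom (F := F) (fun a _ : 𝕍 => quadFormOdd m F a) := by
    rw [mem_fIsom]
    intro a _
    show quadFormOdd m F (g a) = quadFormOdd m F a
    rw [hgapp, hgL, Q_eq, Q_eq, wp_pt, ap_pt, add_pow_two, hssq]
    have e1 := add_self' (q₀ m (h (wp m a)))
    have e2 := add_self' (ap m a * s (wp m a))
    linear_combination e1 + e2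
  refine ⟨⟨g, hgmem⟩, ?_⟩
  apply Subtype.ext
  ext1 w
  show wp m (g (pt m 0 w)) = h w
  rw [hgapp, hgL]
  rfl

/-- `O_{2m+1}(q) ≅ Sp_{2m}(q)` for `q` even. -/
noncomputable def isoSp : fIsom (F := F) (fun a _ : 𝕍 => quadFormOdd m F a) ≃* fIsom (F := F) (sympForm m F) :=
  MulEquiv.ofBijective toSp ⟨toSp_injective, toSp_surjective⟩

end CfsgLib.ClassGeo.OChar2
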