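import Mathlib
import Cfsg.Agent.Lib.ClassGeo.SpOver2

set_option autoImplicit false
set_option linter.unusedSimpArgs false
set_option linter.unusedVariables false
set_option linter.unusedSectionVars false

namespace CfsgLib.ClassGeo

open Module

section abstract

variable {F V : Type*} [Field F] [AddCommGroup V] [Module F V] {B : LinearMap.BilinForm F V}
variable [FiniteDimensional F V]

/-- Orthogonal projection onto a nondegenerate subspace. -/
theorem exists_orth_proj (hA : B.IsAlt) (U : Submodule F V) (hN : ∀ u ∈ U, u ≠ 0 → ∃ x ∈ U, B u x ≠ 0) :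
    ∃ π : V →ₗ[F] U, (∀ x : U, π x = x) ∧ (∀ v, ∀ u ∈ U, B (v - π v) u = 0) := by
  have hskew : ∀ a b, B a b = - B b a := fun a b => (hA.neg_eq b a).symm
  have hC : IsCompl U (B.orthogonal U) := by
    rw [LinearMap.BilinForm.isCompl_orthogonal_iff_disjoint hA.isRefl, disjoint_iff, eq_bot_iff]
    rintro x ⟨hx, hxP⟩
    by_contra hx0
    obtain ⟨y, hy, hxy⟩ := hN x hx hx0
    apply hxy
    have : B y x = 0 := (LinearMap.BilinForm.mem_orthogonal_iff.mp hxP) y hy
    rw [hskew, this, neg_zero]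
  refine ⟨Submodule.linearProjOfIsCompl _ _ hC, fun x => Submodule.linearProjOfIsCompl_apply_left hC x, ?_⟩
  intro v u hu
  have : v ∈ U ⊔ B.orthogonal U := by
    rw [hC.sup_eq_top]
    trivial
  obtain ⟨a, ha, b, hb, rfl⟩ := Submodule.mem_sup.mp this
  have h1 : Submodule.linearProjOfIsCompl _ _ hC (a + b) = ⟨a, ha⟩ := by
    have e1 : Submodule.linearProjOfIsCompl _ _ hC a = ⟨a, ha⟩ := Submodule.linearProjOfIsCompl_apply_left hC ⟨a, ha⟩
    have e2 : Submodule.linearProjOfIsCompl _ _ hC b = 0 := Submodule.linearProjOfIsCompl_apply_right hC ⟨b, hb⟩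
    rw [map_add, e1, e2, add_zero]
  rw [h1]
  have e : a + b - a = b := by abel
  change B (a + b - a) u = 0
  rw [e, hskew]
  have : B u b = 0 := (LinearMap.BilinForm.mem_orthogonal_iff.mp hb) u hu
  rw [this, neg_zero]

theorem orth_proj_eq_zero {U : Submodule F V} (hN : ∀ u ∈ U, u ≠ 0 → ∃ x ∈ U, B u x ≠ 0) {π : V →ₗ[F] U}
    (hπ : ∀ v, ∀ u ∈ U, B (v - π v) u = 0) (v : V) (hv : ∀ u ∈ U, B v u = 0) : π v = 0 := by
  by_contra h
  have h0 : ((π v : U) : V) ≠ 0 := fun h' => h (Subtype.ext h')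
  obtain ⟨x, hx, hx2⟩ := hN _ (π v).2 h0
  apply hx2
  have := hπ v x hx
  rw [map_sub, LinearMap.sub_apply, hv x hx, zero_sub, neg_eq_zero] at this
  exact this

/-- Isometry between nondegenerate alternating subspaces of equal dimension. -/
theorem exists_isom_of_finrank (hA : B.IsAlt) (U U' : Submodule F V) (hN : ∀ u ∈ U, u ≠ 0 → ∃ x ∈ U, B u x ≠ 0)
    (hN' : ∀ u ∈ U', u ≠ 0 → ∃ x ∈ U', B u x ≠ 0) (h : finrank F U = finrank F U') :
    ∃ τ : U ≃ₗ[F] U', ∀ x y : U, B (τ x) (τ y) = B x y := by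
  have aux : ∀ W : Submodule F V, (∀ u ∈ W, u ≠ 0 → ∃ x ∈ W, B u x ≠ 0) →
      ∃ (m : ℕ) (P : (Fin m ⊕ Fin m → F) ≃ₗ[F] W), (∀ x y, B (P x) (P y) = Cfsg.sympForm m F x y) ∧ finrank F W = 2 * m := by
    intro W hW
    have hAW : (B.restrict W).IsAlt := fun x => hA x
    have hsepW : ∀ u : W, (∀ v : W, (B.restrict W) u v = 0) → u = 0 := by
      rintro ⟨u, hu⟩ h2
      by_contra h3
      have h0 : u ≠ 0 := fun h4 => h3 (Subtype.ext h4)
      obtain ⟨x, hx, hx2⟩ := hW u hu h0
      exact hx2 (h2 ⟨x, hx⟩)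
    obtain ⟨m, P, hP⟩ := exists_symp_coords hAW hsepW
    refine ⟨m, P, fun x y => hP x y, ?_⟩
    rw [← LinearEquiv.finrank_eq P]
    exact finrank_symp m
  obtain ⟨m, P, hP, h1⟩ := aux U hN
  obtain ⟨m', P', hP', h2⟩ := aux U' hN'
  have hm : m = m' := by omega
  subst hm
  refine ⟨P.symm.trans P', ?_⟩
  intro x y
  have e1 : ∀ z : U, ((P.symm.trans P') z) = P' (P.symm z) := fun z => rfl
  rw [e1, e1, hP', ← hP]
  simp

/-- The stabiliser of a family of subspaces. -/
def decStab {t : ℕ} (D : Fin t → Submodule F V) : Subgroup (V ≃ₗ[F] V) where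
  carrier := {g | ∃ σ : Equiv.Perm (Fin t), ∀ i, (D i).map (g : V →ₗ[F] V) = D (σ i)}
  mul_mem' := by
    rintro a b ⟨σ, hσ⟩ ⟨τ, hτ⟩
    refine ⟨τ.trans σ, fun i => ?_⟩
    have : ((a * b : V ≃ₗ[F] V) : V →ₗ[F] V) = (a : V →ₗ[F] V) ∘ₗ (b : V →ₗ[F] V) := rfl
    rw [this, Submodule.map_comp, hτ, hσ, Equiv.trans_apply]
  one_mem' := ⟨1, fun i => by
    have : ((1 : V ≃ₗ[F] V) : V →ₗ[F] V) = LinearMap.id := rfl
    rw [this, Submodule.map_id]
    rfl⟩
  inv_mem' := by
    rintro a ⟨σ, hσ⟩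
    refine ⟨σ.symm, fun i => ?_⟩
    have h := hσ (σ.symm i)
    rw [Equiv.apply_symm_apply] at h
    rw [← h, ← Submodule.map_comp]
    have : ((a⁻¹ : V ≃ₗ[F] V) : V →ₗ[F] V) ∘ₗ (a : V →ₗ[F] V) = LinearMap.id := by
      ext x
      change a.symm (a x) = x
      simp
    rw [this, Submodule.map_id]

/-- An orthogonal decomposition into nondegenerate subspaces of equal dimension. -/
structure OrthDec (B : LinearMap.BilinForm F V) {t : ℕ} (k : ℕ) (D : Fin t → Submodule F V) : Prop where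
  two_le : 2 ≤ t
  pos : 0 < k
  finrank_eq : ∀ i, finrank F (D i) = k
  nondeg : ∀ i, ∀ u ∈ D i, u ≠ 0 → ∃ x ∈ D i, B u x ≠ 0
  orth : ∀ i j, i ≠ j → ∀ u ∈ D i, ∀ v ∈ D j, B u v = 0
  top : iSup D = ⊤

variable {t k : ℕ} {D : Fin t → Submodule F V}

theorem OrthDec.inf_zero (hD : OrthDec B k D) {i j : Fin t} (hij : i ≠ j) {x : V} (hi : x ∈ D i) (hj : x ∈ D j) : x = 0 := by
  by_contra h
  obtain ⟨y, hy, h2⟩ := hD.nondeg j x hj h
  exact h2 (hD.orth i j hij x hi y hy)

theorem OrthDec.eq_zero_of_orth (hD : OrthDec B k D) (hsep : ∀ u, (∀ v, B u v = 0) → u = 0) (y : V)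
    (h : ∀ i, ∀ u ∈ D i, B y u = 0) : y = 0 := by
  apply hsep
  have h1 : iSup D ≤ LinearMap.ker (B y) := iSup_le (fun i u hu => h i u hu)
  rw [hD.top] at h1
  intro v
  exact h1 (Submodule.mem_top (x := v))

theorem mem_decStab_of (hD : OrthDec B k D) (g : V ≃ₗ[F] V) (σ : Equiv.Perm (Fin t))
    (h : ∀ i, ∀ x ∈ D i, g x ∈ D (σ i)) : g ∈ decStab D := by
  refine ⟨σ, fun i => ?_⟩
  apply Submodule.eq_of_le_of_finrank_eq
  · rintro _ ⟨x, hx, rfl⟩
    exact h i x hx
  · rw [hD.finrank_eq, LinearEquiv.finrank_map_eq, hD.finrank_eq]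

theorem altT_mem_decStab (hA : B.IsAlt) (hD : OrthDec B k D) (i : Fin t) (a : V) (ha : a ∈ D i) (c : F) : altT hA a c ∈ decStab D := by
  have hskew : ∀ a b, B a b = - B b a := fun a b => (hA.neg_eq b a).symm
  refine mem_decStab_of hD _ 1 ?_
  intro j x hx
  rw [altT_apply]
  change _ ∈ D j
  by_cases hij : j = i
  · subst hij
    exact (D j).add_mem hx ((D j).smul_mem _ ha)
  · rw [hD.orth j i hij x hx a ha]
    simpa using hx

/-- The isometry `+1` on `D i`, `D j` and `-1` on the perp. -/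
theorem exists_rho (hA : B.IsAlt) (hsep : ∀ u, (∀ v, B u v = 0) → u = 0) (hD : OrthDec B k D) {i j : Fin t} (hij : i ≠ j) :
    ∃ ρ ∈ decStab D ⊓ epsIsomGroup (σ := RingHom.id F) B, (∀ x ∈ D i, ρ x = x) ∧ (∀ x ∈ D j, ρ x = x) ∧
      ∀ r, (∀ u ∈ D i, B r u = 0) → (∀ u ∈ D j, B r u = 0) → ρ r = - r := by
  have hskew : ∀ a b, B a b = - B b a := fun a b => (hA.neg_eq b a).symm
  obtain ⟨πi, hπi, hπi'⟩ := exists_orth_proj hA (D i) (hD.nondeg i)
  obtain ⟨πj, hπj, hπj'⟩ := exists_orth_proj hA (D j) (hD.nondeg j)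
  have hzi : ∀ v, (∀ u ∈ D i, B v u = 0) → πi v = 0 := orth_proj_eq_zero (hD.nondeg i) hπi'
  have hzj : ∀ v, (∀ u ∈ D j, B v u = 0) → πj v = 0 := orth_proj_eq_zero (hD.nondeg j) hπj'
  let L : V →ₗ[F] V := (2 : F) • ((D i).subtype ∘ₗ πi) + (2 : F) • ((D j).subtype ∘ₗ πj) - LinearMap.id
  have hL : ∀ x, L x = (2 : F) • (πi x : V) + (2 : F) • (πj x : V) - x := fun x => rfl
  have hLfix : ∀ x r : V, (∀ u ∈ D i, B r u = 0) → (∀ u ∈ D j, B r u = 0) → ∀ a b : V, a ∈ D i → b ∈ D j → x = a + b + r →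
      L x = a + b - r := by
    intro x r hr1 hr2 a b ha hb hx
    have h1 : πi x = ⟨a, ha⟩ := by
      have e0 : πi (x - a) = 0 := by
        apply hzi
        intro u hu
        rw [hx]
        have e : a + b + r - a = b + r := by abel
        rw [e, map_add, LinearMap.add_apply, hr1 u hu, add_zero, hD.orth j i hij.symm b hb u hu]
      rw [map_sub, sub_eq_zero] at e0
      rw [e0]
      exact hπi ⟨a, ha⟩
    have h2 : πj x = ⟨b, hb⟩ := by
      have e0 : πj (x - b) = 0 := by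
        apply hzj
        intro u hu
        rw [hx]
        have e : a + b + r - b = a + r := by abel
        rw [e, map_add, LinearMap.add_apply, hr2 u hu, add_zero, hD.orth i j hij a ha u hu]
      rw [map_sub, sub_eq_zero] at e0
      rw [e0]
      exact hπj ⟨b, hb⟩
    rw [hL, h1, h2, hx]
    simp only [two_smul]
    abel
  have hdec : ∀ x, x = (πi x : V) + (πj x : V) + (x - (πi x : V) - (πj x : V)) := by
    intro x
    abel
  have hr1 : ∀ x, ∀ u ∈ D i, B (x - (πi x : V) - (πj x : V)) u = 0 := by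
    intro x u hu
    rw [map_sub, LinearMap.sub_apply, hπi' x u hu, hD.orth j i hij.symm _ (πj x).2 u hu, sub_zero]
  have hr2 : ∀ x, ∀ u ∈ D j, B (x - (πi x : V) - (πj x : V)) u = 0 := by
    intro x u hu
    have e : x - (πi x : V) - (πj x : V) = x - (πj x : V) - (πi x : V) := by abel
    rw [e, map_sub, LinearMap.sub_apply, hπj' x u hu, hD.orth i j hij _ (πi x).2 u hu, sub_zero]
  have hiso : ∀ x y, B (L x) (L y) = B x y := by
    intro x y
    have hx := hLfix x _ (hr1 x) (hr2 x) _ _ (πi x).2 (πj x).2 (hdec x)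
    have hy := hLfix y _ (hr1 y) (hr2 y) _ _ (πi y).2 (πj y).2 (hdec y)
    rw [hx, hy]
    conv_rhs => rw [hdec x, hdec y]
    set a := (πi x : V)
    set b := (πj x : V)
    set r := x - a - b
    set a' := (πi y : V)
    set b' := (πj y : V)
    set r' := y - a' - b'
    have h1 : B r a' = 0 := hr1 x _ (πi y).2
    have h2 : B r b' = 0 := hr2 x _ (πj y).2
    have h3 : B r' a = 0 := hr1 y _ (πi x).2
    have h4 : B r' b = 0 := hr2 y _ (πj x).2
    have h5 : B a r' = 0 := by rw [hskew, h3, neg_zero]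
    have h6 : B b r' = 0 := by rw [hskew, h4, neg_zero]
    simp only [map_add, map_sub, LinearMap.add_apply, LinearMap.sub_apply, h1, h2, h5, h6]
    ring
  obtain ⟨ρ, hρ, hρL⟩ := (altEps hA hsep).toEquiv L hiso
  refine ⟨ρ, ⟨?_, hρ⟩, ?_, ?_, ?_⟩
  · refine mem_decStab_of hD ρ 1 ?_
    intro l x hx
    change ρ x ∈ D l
    rw [hρL]
    by_cases hli : l = i
    · subst hli
      rw [hLfix x 0 (by simp) (by simp) x 0 hx (D j).zero_mem (by simp)]
      simpa using hx
    · by_cases hlj : l = j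
      · subst hlj
        rw [hLfix x 0 (by simp) (by simp) 0 x (D i).zero_mem hx (by simp)]
        simpa using hx
      · rw [hLfix x x (fun u hu => hD.orth l i hli x hx u hu) (fun u hu => hD.orth l j hlj x hx u hu) 0 0 (D i).zero_mem (D j).zero_mem (by simp)]
        simpa using hx
  · intro x hx
    rw [hρL, hLfix x 0 (by simp) (by simp) x 0 hx (D j).zero_mem (by simp)]
    simp
  · intro x hx
    rw [hρL, hLfix x 0 (by simp) (by simp) 0 x (D i).zero_mem hx (by simp)]
    simp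
  · intro r h1 h2
    rw [hρL, hLfix r r h1 h2 0 0 (D i).zero_mem (D j).zero_mem (by simp)]
    simp

/-- The isometry swapping `D a` and `D b`. -/
theorem exists_swap (hA : B.IsAlt) (hsep : ∀ u, (∀ v, B u v = 0) → u = 0) (hD : OrthDec B k D) {a b : Fin t} (hab : a ≠ b) :
    ∃ s ∈ decStab D ⊓ epsIsomGroup (σ := RingHom.id F) B, ∀ l, ∀ x ∈ D l, s x ∈ D (Equiv.swap a b l) := by
  have hskew : ∀ a b, B a b = - B b a := fun a b => (hA.neg_eq b a).symm
  obtain ⟨πa, hπa, hπa'⟩ := exists_orth_proj hA (D a) (hD.nondeg a)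
  obtain ⟨πb, hπb, hπb'⟩ := exists_orth_proj hA (D b) (hD.nondeg b)
  have hza : ∀ v, (∀ u ∈ D a, B v u = 0) → πa v = 0 := orth_proj_eq_zero (hD.nondeg a) hπa'
  have hzb : ∀ v, (∀ u ∈ D b, B v u = 0) → πb v = 0 := orth_proj_eq_zero (hD.nondeg b) hπb'
  obtain ⟨τ, hτ⟩ := exists_isom_of_finrank hA (D a) (D b) (hD.nondeg a) (hD.nondeg b) (by rw [hD.finrank_eq, hD.finrank_eq])
  have hτ' : ∀ x y : D b, B (τ.symm x) (τ.symm y) = B x y := by
    intro x y
    have := hτ (τ.symm x) (τ.symm y)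
    simp only [LinearEquiv.apply_symm_apply] at this
    exact this.symm
  let L : V →ₗ[F] V := (D b).subtype ∘ₗ (τ : D a →ₗ[F] D b) ∘ₗ πa + (D a).subtype ∘ₗ (τ.symm : D b →ₗ[F] D a) ∘ₗ πb
    + (LinearMap.id - (D a).subtype ∘ₗ πa - (D b).subtype ∘ₗ πb)
  have hL : ∀ x, L x = (τ (πa x) : V) + (τ.symm (πb x) : V) + (x - (πa x : V) - (πb x : V)) := fun x => rfl
  have hr1 : ∀ x, ∀ u ∈ D a, B (x - (πa x : V) - (πb x : V)) u = 0 := by
    intro x u hu
    rw [map_sub, LinearMap.sub_apply, hπa' x u hu, hD.orth b a hab.symm _ (πb x).2 u hu, sub_zero]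
  have hr2 : ∀ x, ∀ u ∈ D b, B (x - (πa x : V) - (πb x : V)) u = 0 := by
    intro x u hu
    have e : x - (πa x : V) - (πb x : V) = x - (πb x : V) - (πa x : V) := by abel
    rw [e, map_sub, LinearMap.sub_apply, hπb' x u hu, hD.orth a b hab _ (πa x).2 u hu, sub_zero]
  have hdec : ∀ x, x = (πa x : V) + (πb x : V) + (x - (πa x : V) - (πb x : V)) := by
    intro x
    abel
  have hiso : ∀ x y, B (L x) (L y) = B x y := by
    intro x y
    rw [hL, hL]
    conv_rhs => rw [hdec x, hdec y]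
    have h7 := hτ (πa x) (πa y)
    have h8 := hτ' (πb x) (πb y)
    have e1 := hr1 x
    have e2 := hr2 x
    have e3 := hr1 y
    have e4 := hr2 y
    have o1 : B (τ (πa x) : V) (τ.symm (πb y) : V) = 0 := hD.orth b a hab.symm _ (τ (πa x)).2 _ (τ.symm (πb y)).2
    have o2 : B (τ.symm (πb x) : V) (τ (πa y) : V) = 0 := hD.orth a b hab _ (τ.symm (πb x)).2 _ (τ (πa y)).2
    have o3 : B (πa x : V) (πb y : V) = 0 := hD.orth a b hab _ (πa x).2 _ (πb y).2
    have o4 : B (πb x : V) (πa y : V) = 0 := hD.orth b a hab.symm _ (πb x).2 _ (πa y).2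
    generalize hr : x - (πa x : V) - (πb x : V) = r at *
    generalize hr' : y - (πa y : V) - (πb y : V) = r' at *
    have f1 : B r (τ (πa y) : V) = 0 := e2 _ (τ (πa y)).2
    have f2 : B r (τ.symm (πb y) : V) = 0 := e1 _ (τ.symm (πb y)).2
    have f3 : B (τ (πa x) : V) r' = 0 := by rw [hskew, e4 _ (τ (πa x)).2, neg_zero]
    have f4 : B (τ.symm (πb x) : V) r' = 0 := by rw [hskew, e3 _ (τ.symm (πb x)).2, neg_zero]
    have f5 : B r (πa y : V) = 0 := e1 _ (πa y).2
    have f6 : B r (πb y : V) = 0 := e2 _ (πb y).2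
    have f7 : B (πa x : V) r' = 0 := by rw [hskew, e3 _ (πa x).2, neg_zero]
    have f8 : B (πb x : V) r' = 0 := by rw [hskew, e4 _ (πb x).2, neg_zero]
    simp only [map_add, LinearMap.add_apply, f1, f2, f3, f4, f5, f6, f7, f8, o1, o2, o3, o4, h7, h8]
  obtain ⟨s, hs, hsL⟩ := (altEps hA hsep).toEquiv L hiso
  have hperm : ∀ l, ∀ x ∈ D l, s x ∈ D (Equiv.swap a b l) := by
    intro l x hx
    rw [hsL, hL]
    by_cases hla : l = a
    · subst hla
      have h1 : πa x = ⟨x, hx⟩ := hπa ⟨x, hx⟩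
      have h2 : πb x = 0 := hzb x (fun u hu => hD.orth l b hab x hx u hu)
      rw [h1, h2, Equiv.swap_apply_left]
      simp
    · by_cases hlb : l = b
      · subst hlb
        have h1 : πb x = ⟨x, hx⟩ := hπb ⟨x, hx⟩
        have h2 : πa x = 0 := hza x (fun u hu => hD.orth l a hla x hx u hu)
        rw [h1, h2, Equiv.swap_apply_right]
        simp
      · have h1 : πa x = 0 := hza x (fun u hu => hD.orth l a hla x hx u hu)
        have h2 : πb x = 0 := hzb x (fun u hu => hD.orth l b hlb x hx u hu)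
        rw [h1, h2, Equiv.swap_apply_of_ne_of_ne hla hlb]
        simpa using hx
  exact ⟨s, ⟨mem_decStab_of hD s _ hperm, hs⟩, hperm⟩

/-- The pair property: some vector of `S` has exact support `{p, q}`. -/
def PairS (hA : B.IsAlt) (H : Subgroup (V ≃ₗ[F] V)) (D : Fin t → Submodule F V) (p q : Fin t) : Prop :=
  ∃ x ∈ D p, x ≠ 0 ∧ ∃ y ∈ D q, y ≠ 0 ∧ x + y ∈ altS hA H

theorem PairS.all (hA : B.IsAlt) (hD : OrthDec B k D) {H : Subgroup (V ≃ₗ[F] V)}
    (hS : ∀ i, ∀ u ∈ D i, u ∈ altS hA H) {p q : Fin t} (hpq : p ≠ q) (h : PairS hA H D p q)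
    (x' y' : V) (hx' : x' ∈ D p) (hx'0 : x' ≠ 0) (hy' : y' ∈ D q) (hy'0 : y' ≠ 0) : x' + y' ∈ altS hA H := by
  have hskew : ∀ a b, B a b = - B b a := fun a b => (hA.neg_eq b a).symm
  obtain ⟨x, hx, hx0, y, hy, hy0, hxy⟩ := h
  have h1 := altS_move hA (D p) (hD.nondeg p) (hS p) x x' y hx hx0 hx' hx'0 (fun u hu => hD.orth q p hpq.symm y hy u hu) hxy
  rw [add_comm] at h1
  have h2 := altS_move hA (D q) (hD.nondeg q) (hS q) y y' x' hy hy0 hy' hy'0 (fun u hu => hD.orth p q hpq x' hx' u hu) h1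
  rwa [add_comm] at h2

theorem PairS.swap (hA : B.IsAlt) (hsep : ∀ u, (∀ v, B u v = 0) → u = 0) (hD : OrthDec B k D) {H : Subgroup (V ≃ₗ[F] V)}
    (hle : decStab D ⊓ epsIsomGroup (σ := RingHom.id F) B ≤ H) {p q : Fin t} (h : PairS hA H D p q) (a b : Fin t) :
    PairS hA H D (Equiv.swap a b p) (Equiv.swap a b q) := by
  by_cases hab : a = b
  · subst hab
    simpa using h
  obtain ⟨s, hs, hperm⟩ := exists_swap hA hsep hD hab
  obtain ⟨x, hx, hx0, y, hy, hy0, hxy⟩ := h
  refine ⟨s x, hperm p x hx, ?_, s y, hperm q y hy, ?_, ?_⟩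
  · intro h0
    exact hx0 (s.injective (by rw [h0, map_zero]))
  · intro h0
    exact hy0 (s.injective (by rw [h0, map_zero]))
  · rw [← map_add]
    exact altS_conj hA hxy (hle hs) hs.2

theorem PairS.trans (hA : B.IsAlt) (hsep : ∀ u, (∀ v, B u v = 0) → u = 0) (hD : OrthDec B k D) {H : Subgroup (V ≃ₗ[F] V)}
    (hle : decStab D ⊓ epsIsomGroup (σ := RingHom.id F) B ≤ H) {p q : Fin t} (hpq : p ≠ q) (h : PairS hA H D p q)
    (p' q' : Fin t) (hpq' : p' ≠ q') : PairS hA H D p' q' := by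
  have h1 := PairS.swap hA hsep hD hle h p p'
  rw [Equiv.swap_apply_left] at h1
  have hne : p' ≠ Equiv.swap p p' q := by
    intro h2
    have := congrArg (Equiv.swap p p') h2
    rw [Equiv.swap_apply_right, Equiv.swap_apply_self] at this
    exact hpq this
  have h2 := PairS.swap hA hsep hD hle h1 (Equiv.swap p p' q) q'
  rw [Equiv.swap_apply_left, Equiv.swap_apply_of_ne_of_ne hne hpq'] at h2
  exact h2

/-- From all pairs to all vectors. -/
theorem altS_all_of_pairs (hA : B.IsAlt) (hsep : ∀ u, (∀ v, B u v = 0) → u = 0) (hD : OrthDec B k D) {H : Subgroup (V ≃ₗ[F] V)}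
    (hS : ∀ i, ∀ u ∈ D i, u ∈ altS hA H)
    (hP : ∀ p q, p ≠ q → ∀ x ∈ D p, x ≠ 0 → ∀ y ∈ D q, y ≠ 0 → x + y ∈ altS hA H) (v : V) : v ∈ altS hA H := by
  classical
  have hskew : ∀ a b, B a b = - B b a := fun a b => (hA.neg_eq b a).symm
  have hzero : (0 : V) ∈ altS hA H := by
    intro c
    rw [altT_zero]
    exact H.one_mem
  have key : ∀ A : Finset (Fin t), ∀ u ∈ (⨆ i ∈ A, D i), u ∈ altS hA H := by
    intro A
    induction A using Finset.induction_on with
    | empty =>
      intro u hu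
      simp only [Finset.notMem_empty, iSup_false, iSup_bot, Submodule.mem_bot] at hu
      rw [hu]
      exact hzero
    | insert j A hj ih =>
      intro v hv
      rw [Finset.iSup_insert, Submodule.mem_sup] at hv
      obtain ⟨b, hb, u, hu, rfl⟩ := hv
      by_cases hb0 : b = 0
      · rw [hb0, zero_add]
        exact ih u hu
      by_cases hu0 : u = 0
      · rw [hu0, add_zero]
        exact hS j b hb
      have horth : ∀ l, l ∉ A → ∀ c ∈ D l, B u c = 0 := by
        intro l hl c hc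
        have h1 : (⨆ i ∈ A, D i) ≤ LinearMap.ker (B.flip c) := by
          refine iSup₂_le ?_
          intro i hi x hx
          have hil : i ≠ l := fun h => hl (h ▸ hi)
          exact hD.orth i l hil x hx c hc
        exact h1 hu
      obtain ⟨i, hi, c, hc, huc⟩ : ∃ i ∈ A, ∃ c ∈ D i, B u c ≠ 0 := by
        by_contra hcon
        push Not at hcon
        apply hu0
        apply hD.eq_zero_of_orth hsep
        intro l c hc
        by_cases hl : l ∈ A
        · exact hcon l hl c hc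
        · exact horth l hl c hc
      have hc0 : c ≠ 0 := by
        rintro rfl
        exact huc (map_zero _)
      have hcA : c ∈ (⨆ i ∈ A, D i) := (le_iSup₂_of_le (f := fun i _ => D i) i hi le_rfl : D i ≤ _) hc
      have hij : i ≠ j := fun h => hj (h ▸ hi)
      have h1 : u - c ∈ altS hA H := ih _ (Submodule.sub_mem _ hu hcA)
      have h2 : c + b ∈ altS hA H := hP i j hij c hc hc0 b hb hb0
      have h3 : B (u - c) (c + b) ≠ 0 := by
        rw [map_add, map_sub, LinearMap.sub_apply, LinearMap.sub_apply, hA.self_eq_zero c, hD.orth i j hij c hc b hb, horth j hj b hb]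
        simpa using huc
      have h4 := altS_add hA h2 h1 h3 1
      have e : u - c + (1 : F) • (c + b) = b + u := by
        rw [one_smul]
        abel
      rwa [e] at h4
  have h1 : (⨆ i ∈ (Finset.univ : Finset (Fin t)), D i) = ⊤ := by
    simp only [Finset.mem_univ, iSup_pos]
    exact hD.top
  exact key Finset.univ v (by rw [h1]; trivial)

/-- A vector not in any member has two nonzero components. -/
theorem exists_two_components (hA : B.IsAlt) (hsep : ∀ u, (∀ v, B u v = 0) → u = 0) (hD : OrthDec B k D)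
    (π : ∀ i, V →ₗ[F] D i) (hπ : ∀ i, ∀ x : D i, π i x = x) (hπ' : ∀ i, ∀ v, ∀ u ∈ D i, B (v - π i v) u = 0)
    (v : V) (hv : ∀ l, v ∉ D l) : ∃ i j, i ≠ j ∧ π i v ≠ 0 ∧ π j v ≠ 0 := by
  have hskew : ∀ a b, B a b = - B b a := fun a b => (hA.neg_eq b a).symm
  have hz : ∀ i, π i v = 0 → ∀ u ∈ D i, B v u = 0 := by
    intro i h u hu
    have := hπ' i v u hu
    rwa [h, Submodule.coe_zero, sub_zero] at this
  obtain ⟨i, hi⟩ : ∃ i, π i v ≠ 0 := by
    by_contra hcon
    push Not at hcon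
    have : v = 0 := hD.eq_zero_of_orth hsep v (fun i => hz i (hcon i))
    have l : Fin t := ⟨0, by have := hD.two_le; omega⟩
    exact hv l (this ▸ (D l).zero_mem)
  by_contra hcon
  push Not at hcon
  apply hv i
  have h1 : v - (π i v : V) = 0 := by
    apply hD.eq_zero_of_orth hsep
    intro l u hu
    by_cases hl : l = i
    · subst hl
      exact hπ' l v u hu
    · have h2 := hz l (hcon i l (Ne.symm hl) hi) u hu
      rw [map_sub, LinearMap.sub_apply, h2, hD.orth i l (Ne.symm hl) _ (π i v).2 u hu, sub_zero]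
  rw [sub_eq_zero.mp h1]
  exact (π i v).2

/-- Maximality of the stabiliser of an orthogonal decomposition. -/
theorem dec_maximal (hA : B.IsAlt) (hsep : ∀ u, (∀ v, B u v = 0) → u = 0) (hD : OrthDec B k D)
    (hP : ∀ i, ∀ u ∈ D i, u ≠ 0 → ∃ c ∈ D i, c ≠ 0 ∧ c ≠ - u ∧ B u c = 0) (H : Subgroup (V ≃ₗ[F] V))
    (hle : decStab D ⊓ epsIsomGroup (σ := RingHom.id F) B ≤ H) (hH : H ≤ epsIsomGroup (σ := RingHom.id F) B)
    (hnot : ¬ H ≤ decStab D) : H = epsIsomGroup (σ := RingHom.id F) B := by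
  refine le_antisymm hH (isom_le_of_altS hA hsep ?_)
  have hskew : ∀ a b, B a b = - B b a := fun a b => (hA.neg_eq b a).symm
  have hS : ∀ i, ∀ u ∈ D i, u ∈ altS hA H := fun i u hu c => hle ⟨altT_mem_decStab hA hD i u hu c, altT_mem hA u c⟩
  choose π hπ hπ' using fun i => exists_orth_proj hA (D i) (hD.nondeg i)
  have hz : ∀ j, ∀ v, (∀ u ∈ D j, B v u = 0) → π j v = 0 := fun j => orth_proj_eq_zero (hD.nondeg j) (hπ' j)
  obtain ⟨g, hgH, hg⟩ := SetLike.not_le_iff_exists.mp hnot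
  have hgI := hH hgH
  have hne : ∀ i, D i ≠ ⊥ := by
    intro i h
    have := hD.finrank_eq i
    rw [h, finrank_bot] at this
    have := hD.pos
    omega
  have hex : ∃ i, ∃ x ∈ D i, ∀ l, g x ∉ D l := by
    by_contra hcon
    push Not at hcon
    apply hg
    have hi : ∀ i, ∃ j, ∀ x ∈ D i, g x ∈ D j := by
      intro i
      obtain ⟨x₀, hx₀, hx₀0⟩ := Submodule.exists_mem_ne_zero_of_ne_bot (hne i)
      obtain ⟨j, hj⟩ := hcon i x₀ hx₀
      refine ⟨j, fun y hy => ?_⟩
      obtain ⟨l, hl⟩ := hcon i y hy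
      by_cases hlj : l = j
      · subst hlj
        exact hl
      obtain ⟨p, hp⟩ := hcon i (x₀ + y) ((D i).add_mem hx₀ hy)
      rw [map_add] at hp
      by_cases hpj : p = j
      · subst hpj
        have := (D p).sub_mem hp hj
        rwa [add_sub_cancel_left] at this
      · have h1 : π j (g x₀ + g y) = 0 := hz j _ (fun u hu => hD.orth p j hpj _ hp u hu)
        have h2 : π j (g y) = 0 := hz j _ (fun u hu => hD.orth l j hlj _ hl u hu)
        have h3 : π j (g x₀) = ⟨g x₀, hj⟩ := hπ j ⟨_, hj⟩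
        rw [map_add, h2, h3, add_zero] at h1
        have h4 : g x₀ = 0 := congrArg Subtype.val h1
        exact absurd (g.injective (h4.trans (map_zero g).symm)) hx₀0
    choose σ hσ using hi
    have hmap : ∀ i, (D i).map (g : V →ₗ[F] V) = D (σ i) := by
      intro i
      apply Submodule.eq_of_le_of_finrank_eq
      · rintro _ ⟨x, hx, rfl⟩
        exact hσ i x hx
      · rw [hD.finrank_eq, LinearEquiv.finrank_map_eq, hD.finrank_eq]
    have hinj : Function.Injective σ := by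
      intro i i' h
      by_contra hii
      obtain ⟨x, hx, hx0⟩ := Submodule.exists_mem_ne_zero_of_ne_bot (hne i)
      have h1 : g x ∈ (D i').map (g : V →ₗ[F] V) := by
        rw [hmap, ← h]
        exact hσ i x hx
      obtain ⟨y, hy, hyx⟩ := h1
      have h2 : y = x := g.injective hyx
      rw [h2] at hy
      exact hx0 (hD.inf_zero hii hx hy)
    exact mem_decStab_of hD g (Equiv.ofBijective σ (Finite.injective_iff_bijective.mp hinj)) hσ
  obtain ⟨i₀, x, hx, hxl⟩ := hex
  have hv : g x ∈ altS hA H := altS_conj hA (hS i₀ x hx) hgH hgI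
  obtain ⟨i, j, hij, hi, hj⟩ := exists_two_components hA hsep hD π hπ hπ' (g x) hxl
  set v := g x with hvdef
  set a : V := (π i v : V) with ha
  set b : V := (π j v : V) with hb
  have haD : a ∈ D i := (π i v).2
  have hbD : b ∈ D j := (π j v).2
  have ha0 : a ≠ 0 := fun h => hi (Subtype.ext h)
  have hb0 : b ≠ 0 := fun h => hj (Subtype.ext h)
  set r : V := v - a - b with hr
  have hr1 : ∀ u ∈ D i, B r u = 0 := by
    intro u hu
    rw [hr, map_sub, LinearMap.sub_apply, hπ' i v u hu, hD.orth j i hij.symm b hbD u hu, sub_zero]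
  have hr2 : ∀ u ∈ D j, B r u = 0 := by
    intro u hu
    have e : r = v - b - a := by rw [hr]; abel
    rw [e, map_sub, LinearMap.sub_apply, hπ' j v u hu, hD.orth i j hij a haD u hu, sub_zero]
  have hvdec : v = a + b + r := by
    rw [hr]
    abel
  obtain ⟨ρ, hρ, hρi, hρj, hρr⟩ := exists_rho hA hsep hD hij
  have h1 : a + (b - r) ∈ altS hA H := by
    have := altS_conj hA hv (hle hρ) hρ.2
    rw [hvdec, map_add, map_add, hρi a haD, hρj b hbD, hρr r hr1 hr2] at this
    have e : a + b + -r = a + (b - r) := by abel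
    rwa [e] at this
  obtain ⟨d, hd, hdd⟩ := hD.nondeg i a haD ha0
  obtain ⟨c, hc, hc0, hcb, hbc⟩ := hP j b hbD hb0
  have h2 : d + (b - r) ∈ altS hA H := by
    refine altS_move hA (D i) (hD.nondeg i) (hS i) a d (b - r) haD ha0 hd ?_ ?_ h1
    · rintro rfl
      exact hdd (map_zero _)
    · intro u hu
      rw [map_sub, LinearMap.sub_apply, hD.orth j i hij.symm b hbD u hu, hr1 u hu, sub_zero]
  have h3 : c + (d - r) ∈ altS hA H := by
    refine altS_move hA (D j) (hD.nondeg j) (hS j) b c (d - r) hbD hb0 hc hc0 ?_ ?_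
    · intro u hu
      rw [map_sub, LinearMap.sub_apply, hD.orth i j hij d hd u hu, hr2 u hu, sub_zero]
    · have e : b + (d - r) = d + (b - r) := by abel
      rwa [e]
  have h4 : B v (c + (d - r)) ≠ 0 := by
    have o1 : B a c = 0 := hD.orth i j hij a haD c hc
    have o2 : B b d = 0 := hD.orth j i hij.symm b hbD d hd
    have o3 : B a r = 0 := by rw [hskew, hr1 a haD, neg_zero]
    have o4 : B b r = 0 := by rw [hskew, hr2 b hbD, neg_zero]
    have o5 : B r c = 0 := hr2 c hc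
    have o6 : B r d = 0 := hr1 d hd
    have o7 : B r r = 0 := hA.self_eq_zero r
    rw [hvdec]
    simp only [map_add, map_sub, LinearMap.add_apply, o1, o2, o3, o4, o5, o6, o7, hbc]
    simpa using hdd
  have h5 := altS_add hA h3 hv h4 1
  have e : v + (1 : F) • (c + (d - r)) = (a + d) + (b + c) := by
    rw [one_smul, hvdec]
    abel
  rw [e] at h5
  have hpair : PairS hA H D i j := by
    refine ⟨a + d, (D i).add_mem haD hd, ?_, b + c, (D j).add_mem hbD hc, ?_, h5⟩
    · intro h0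
      have := congrArg (B a) h0
      rw [map_add, hA.self_eq_zero a, zero_add, map_zero] at this
      exact hdd this
    · intro h0
      exact hcb (eq_neg_of_add_eq_zero_right h0)
  apply altS_all_of_pairs hA hsep hD hS
  intro p q hpq x' hx' hx'0 y' hy' hy'0
  exact PairS.all hA hD hS hpq (PairS.trans hA hsep hD hle hij hpair p q hpq) x' y' hx' hx'0 hy' hy'0

/-- A transvection not in the stabiliser of an orthogonal decomposition. -/
theorem exists_altT_not_decStab (hA : B.IsAlt) (hsep : ∀ u, (∀ v, B u v = 0) → u = 0) (hD : OrthDec B k D) :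
    ∃ v, altT hA v 1 ∉ decStab D := by
  have hne : ∀ i, D i ≠ ⊥ := by
    intro i h
    have := hD.finrank_eq i
    rw [h, finrank_bot] at this
    have := hD.pos
    omega
  have htwo := hD.two_le
  let i₀ : Fin t := ⟨0, by omega⟩
  let i₁ : Fin t := ⟨1, by omega⟩
  have h01 : i₀ ≠ i₁ := by
    intro h
    have := congrArg Fin.val h
    simp [i₀, i₁] at this
  obtain ⟨a, ha, ha0⟩ := Submodule.exists_mem_ne_zero_of_ne_bot (hne i₀)
  obtain ⟨b, hb, hb0⟩ := Submodule.exists_mem_ne_zero_of_ne_bot (hne i₁)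
  obtain ⟨a', ha', haa'⟩ := hD.nondeg i₀ a ha ha0
  refine ⟨a' + b, ?_⟩
  rintro ⟨σ, hσ⟩
  have h1 : altT hA (a' + b) 1 a ∈ D (σ i₀) := by
    rw [← hσ]
    exact ⟨a, ha, rfl⟩
  rw [altT_apply] at h1
  have hab : B a b = 0 := hD.orth i₀ i₁ h01 a ha b hb
  set e := B a a' with he
  have e1 : a + ((1 : F) * B a (a' + b)) • (a' + b) = (a + e • a') + e • b := by
    rw [map_add, hab, add_zero, one_mul, smul_add]
    abel
  rw [e1] at h1
  have hy : a + e • a' ∈ D i₀ := (D i₀).add_mem ha ((D i₀).smul_mem _ ha')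
  have hb' : e • b ∈ D i₁ := (D i₁).smul_mem _ hb
  have hb'0 : e • b ≠ 0 := smul_ne_zero haa' hb0
  have hy0 : a + e • a' ≠ 0 := by
    intro h0
    have := congrArg (B a) h0
    rw [map_add, map_smul, hA.self_eq_zero a, zero_add, map_zero, smul_eq_mul] at this
    exact haa' (mul_self_eq_zero.mp this)
  by_cases hl : σ i₀ = i₀
  · rw [hl] at h1
    have := (D i₀).sub_mem h1 hy
    rw [add_sub_cancel_left] at this
    exact hb'0 (hD.inf_zero h01 this hb')
  · obtain ⟨u, hu, huu⟩ := hD.nondeg i₀ _ hy hy0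
    apply huu
    have h2 := hD.orth _ _ hl _ h1 u hu
    rw [map_add, LinearMap.add_apply, hD.orth i₁ i₀ h01.symm _ hb' u hu, add_zero] at h2
    exact h2

theorem dec_isMaximalIn (hA : B.IsAlt) (hsep : ∀ u, (∀ v, B u v = 0) → u = 0) (hD : OrthDec B k D)
    (hP : ∀ i, ∀ u ∈ D i, u ≠ 0 → ∃ c ∈ D i, c ≠ 0 ∧ c ≠ - u ∧ B u c = 0) :
    Cfsg.Geo.IsMaximalIn (epsIsomGroup (σ := RingHom.id F) B) (decStab D ⊓ epsIsomGroup (σ := RingHom.id F) B) := by
  constructor
  · refine lt_of_le_of_ne inf_le_right ?_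
    intro h
    obtain ⟨v, hv⟩ := exists_altT_not_decStab hA hsep hD
    have : altT hA v 1 ∈ decStab D ⊓ epsIsomGroup (σ := RingHom.id F) B := by
      rw [h]
      exact altT_mem hA v 1
    exact hv this.1
  · intro M h1 h2
    by_cases hM : M ≤ decStab D
    · left
      exact le_antisymm (le_inf hM h2) h1
    · right
      exact dec_maximal hA hsep hD hP M h1 h2 hM

/-- The vector `c` needed in the proof, outside the exceptional case. -/
theorem exists_c_of_not_exc [Fintype F] (hA : B.IsAlt) (U : Submodule F V) (hN : ∀ u ∈ U, u ≠ 0 → ∃ x ∈ U, B u x ≠ 0)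
    (hex : ¬ (finrank F U = 2 ∧ Fintype.card F = 2)) (u : V) (hu : u ∈ U) (hu0 : u ≠ 0) :
    ∃ c ∈ U, c ≠ 0 ∧ c ≠ - u ∧ B u c = 0 := by
  classical
  by_cases hF : Fintype.card F = 2
  · obtain ⟨x, hx, hux⟩ := hN u hu hu0
    have h1 := finrank_inf_ker_add_one U (B u) x hx hux
    have h2 : finrank F ↥(U ⊓ LinearMap.ker (B u)) ≠ 0 := by
      intro h3
      have h4 : U ⊓ LinearMap.ker (B u) = ⊥ := Submodule.finrank_eq_zero.mp h3
      have h5 : u ∈ U ⊓ LinearMap.ker (B u) := ⟨hu, hA.self_eq_zero u⟩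
      rw [h4] at h5
      exact hu0 ((Submodule.mem_bot F).mp h5)
    have h3 : finrank F ↥(U ⊓ LinearMap.ker (B u)) ≠ 1 := by
      intro h3
      exact hex ⟨by omega, hF⟩
    have h4 : ¬ (U ⊓ LinearMap.ker (B u)) ≤ Submodule.span F {u} := by
      intro h5
      have h6 := Submodule.finrank_mono h5
      rw [finrank_span_singleton hu0] at h6
      omega
    obtain ⟨c, hc, hcu⟩ := SetLike.not_le_iff_exists.mp h4
    refine ⟨c, hc.1, ?_, ?_, hc.2⟩
    · rintro rfl
      exact hcu (Submodule.zero_mem _)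
    · rintro rfl
      exact hcu (Submodule.neg_mem _ (Submodule.mem_span_singleton_self u))
  · have h3 : 2 < Fintype.card F := by
      have := Fintype.one_lt_card (α := F)
      omega
    obtain ⟨l, hl0, hl1⟩ : ∃ l : F, l ≠ 0 ∧ l ≠ -1 := by
      by_contra hcon
      push Not at hcon
      have : (Finset.univ : Finset F) ⊆ {0, -1} := by
        intro l _
        by_cases hl : l = 0
        · simp [hl]
        · simp [hcon l hl]
      have h4 := Finset.card_le_card this
      have h5 := Finset.card_le_two (a := (0 : F)) (b := -1)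
      rw [Finset.card_univ] at h4
      omega
    refine ⟨l • u, U.smul_mem _ hu, smul_ne_zero hl0 hu0, ?_, ?_⟩
    · intro h
      have h4 : (l + 1) • u = 0 := by
        rw [add_smul, one_smul, h]
        simp
      rcases smul_eq_zero.mp h4 with h5 | h5
      · exact hl1 (eq_neg_of_add_eq_zero_left h5)
      · exact hu0 h5
    · rw [map_smul, hA.self_eq_zero u, smul_zero]

end abstract

section bridge

variable {F : Type*} [Field F] {ι : Type} [Fintype ι] [DecidableEq ι]

theorem map_decompositionStabilizer {t : ℕ} (D : Fin t → Submodule F (ι → F)) :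
    (Cfsg.Geo.decompositionStabilizer D).map (glLin (ι := ι) (F := F)).toMonoidHom = decStab D := by
  ext g
  constructor
  · rintro ⟨a, ⟨σ, hσ⟩, rfl⟩
    exact ⟨σ, fun i => hσ i⟩
  · rintro ⟨σ, hσ⟩
    refine ⟨glLin.symm g, ⟨σ, fun i => ?_⟩, by simp⟩
    rw [← hσ i]
    congr 1
    apply LinearMap.ext
    intro x
    rw [Matrix.toLin'_apply, glLin_symm_mulVec]
    rfl

end bridge

end CfsgLib.ClassGeo
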