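import Mathlib
import Cfsg.Agent.Lib.ClassGeo.OFam
import Cfsg.Agent.Lib.ClassGeo.SpOver3

set_option autoImplicit false
set_option linter.unusedSimpArgs false
set_option linter.unusedVariables false
set_option linter.unusedSectionVars false

namespace CfsgLib.ClassGeo.Orth

open Module CfsgLib.ClassGeo
open scoped commutatorElement

section fam

variable {F V : Type*} [Field F] [AddCommGroup V] [Module F V] [FiniteDimensional F V]
variable {Q : QuadraticForm F V}

local notation "𝔹" => QuadraticMap.polar (DFunLike.coe Q)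

/-- The neighbour of a maximal totally singular subspace in the direction of a singular vector. -/
theorem exists_neighbor (hQ : (QuadraticMap.polarBilin Q).Nondegenerate) {W : Submodule F V} (hW : MaxTS Q W) {x : V} (hxQ : Q x = 0) (hxN : x ∉ W) :
    ∃ W', MaxTS Q W' ∧ x ∈ W' ∧ W ⊓ perp Q (Submodule.span F {x}) ≤ W' ∧ finrank F (W ⊓ W' : Submodule F V) + 1 = finrank F W := by
  have hx0 : x ≠ 0 := by
    rintro rfl
    exact hxN (Submodule.zero_mem _)
  have hxts : ∀ y ∈ Submodule.span F {x}, Q y = 0 := by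
    intro y hy
    obtain ⟨c, rfl⟩ := Submodule.mem_span_singleton.mp hy
    rw [q_smul, hxQ, mul_zero]
  have hW' := ts_sup_perp hQ hW hxts
  obtain ⟨W', hW'def⟩ : ∃ W', W' = (W ⊓ perp Q (Submodule.span F {x})) ⊔ Submodule.span F {x} := ⟨_, rfl⟩
  rw [← hW'def] at hW'
  have hxW' : x ∈ W' := by
    rw [hW'def]
    exact Submodule.mem_sup_right (Submodule.mem_span_singleton_self x)
  have hne : W ≠ W' := by
    intro h
    rw [← h] at hxW'
    exact hxN hxW'
  have h1 : W ⊓ perp Q (Submodule.span F {x}) ≤ W' := by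
    rw [hW'def]
    exact le_sup_left
  refine ⟨W', hW', hxW', h1, ?_⟩
  have h2 : W ⊓ perp Q (Submodule.span F {x}) ≤ W ⊓ W' := le_inf inf_le_left h1
  have h3 := Submodule.finrank_mono h2
  have h4 := finrank_inf_perp hQ W (Submodule.span F {x})
  rw [finrank_span_singleton hx0] at h4
  have h5 : W ⊓ W' < W := by
    refine lt_of_le_of_ne inf_le_left ?_
    intro h6
    have h7 : W ≤ W' := inf_eq_left.mp h6
    exact hne (Submodule.eq_of_le_of_finrank_eq h7 (by rw [hW.finrank_eq hW']))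
  have h6 := Submodule.finrank_lt_finrank_of_lt h5
  omega

theorem exists_other_cover (hQ : (QuadraticMap.polarBilin Q).Nondegenerate) {A D : Submodule F V} (hA : MaxTS Q A) (hDA : D ≤ A) (hd : finrank F D + 1 = finrank F A) :
    ∃ B, MaxTS Q B ∧ D ≤ B ∧ B ≠ A ∧ finrank F (A ⊓ B : Submodule F V) + 1 = finrank F A := by
  have hlt : D < A := by
    refine lt_of_le_of_ne hDA ?_
    rintro rfl
    omega
  obtain ⟨a, ha, haN⟩ := SetLike.exists_of_lt hlt
  obtain ⟨f, hfQ, haf, hfS⟩ := exists_partner_perp hQ (hA.ts a ha) D haN (fun s hs => ts_polar hA.ts ha (hDA hs))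
  have hfN : f ∉ A := by
    intro h
    rw [ts_polar hA.ts ha h] at haf
    exact zero_ne_one haf
  obtain ⟨B, hB, hfB, hle, hdim⟩ := exists_neighbor hQ hA hfQ hfN
  refine ⟨B, hB, ?_, ?_, hdim⟩
  · intro x hx
    apply hle
    refine ⟨hDA hx, mem_perp.mpr ?_⟩
    intro w hw
    obtain ⟨c, rfl⟩ := Submodule.mem_span_singleton.mp hw
    rw [QuadraticMap.polar_smul_left, hfS x hx]
    simp
  · rintro rfl
    exact hfN hfB

theorem exists_cover_pair (hQ : (QuadraticMap.polarBilin Q).Nondegenerate) {P D : Submodule F V} (hP : MaxTS Q P) (hDts : ∀ x ∈ D, Q x = 0)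
    (hd : 2 * (finrank F D + 1) = finrank F V) :
    ∃ A B, MaxTS Q A ∧ MaxTS Q B ∧ D ≤ A ∧ D ≤ B ∧ A ≠ B ∧ finrank F (A ⊓ B : Submodule F V) + 1 = finrank F A := by
  have hA := ts_sup_perp hQ hP hDts
  have hd' : finrank F D + 1 = finrank F ((P ⊓ perp Q D) ⊔ D : Submodule F V) := by
    have := hA.dim
    omega
  obtain ⟨B, hB, hDB, hne, hdim⟩ := exists_other_cover hQ hA le_sup_right hd'
  exact ⟨_, B, hA, hB, le_sup_right, hDB, hne.symm, hdim⟩

theorem ts_hyper_between [Finite F] (hQ : (QuadraticMap.polarBilin Q).Nondegenerate) (hn : 5 ≤ finrank F V) {P W : Submodule F V} (hP : MaxTS Q P)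
    (hW : ∀ x ∈ W, Q x = 0) (hd : 2 * (finrank F W + 1) = finrank F V) :
    ∃ K : Subgroup (V ≃ₗ[F] V), linStab W ⊓ EG Q < K ∧ K < EG Q := by
  obtain ⟨A, B, hA, hB, hWA, hWB, hne, hdim⟩ := exists_cover_pair hQ hP hW hd
  have hAd := hA.dim
  have hW0 : W ≠ ⊥ := by
    rintro rfl
    simp at hd
    omega
  have hA0 : A ≠ ⊥ := by
    rintro rfl
    simp at hAd
    omega
  refine ⟨linStab A ⊓ EG Q, lt_of_le_of_ne ?_ ?_, (para_isMaximalIn hQ hn A hA.ts hA0 (Or.inl (by omega))).1⟩
  · rintro g ⟨hg1, hg2⟩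
    refine ⟨?_, hg2⟩
    have hgO := EG_le hg2
    have hE := hA.map hgO
    have hWE : W ≤ A.map (g : V →ₗ[F] V) := by
      intro x hx
      refine ⟨g.symm x, hWA ((hg1 (g.symm x)).mpr (by simpa using hx)), by simp⟩
    have hd' : finrank F W + 1 = finrank F A := by omega
    rcases ts_two_cover hQ hA hB hE hWA hWB hWE hd' hne with h | h
    · apply mem_linStab_of_le
      intro x hx
      rw [← h]
      exact ⟨x, hx, rfl⟩
    · exfalso
      have h1 := even_of_comm hQ hA (EG_le_comm hQ (Or.inr hn) hg2)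
      rw [h] at h1
      have h2 : finrank F A - finrank F (A ⊓ B : Submodule F V) = 1 := by omega
      rw [h2] at h1
      exact absurd h1 (by decide)
  · intro heq
    have hlt : W < A := by
      refine lt_of_le_of_ne hWA ?_
      rintro rfl
      omega
    obtain ⟨a, ha, haN⟩ := SetLike.exists_of_lt hlt
    obtain ⟨x, hx, hx0⟩ := Submodule.exists_mem_ne_zero_of_ne_bot hW0
    have hxN : x ∉ Submodule.span F {a} := by
      intro h
      obtain ⟨c, rfl⟩ := Submodule.mem_span_singleton.mp h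
      have hc : c ≠ 0 := by
        rintro rfl
        simp at hx0
      apply haN
      have e : a = c⁻¹ • c • a := by rw [smul_smul, inv_mul_cancel₀ hc, one_smul]
      rw [e]
      exact W.smul_mem _ hx
    obtain ⟨z, hzx, hzS⟩ := exists_sep (Q := Q) hQ _ hxN
    have hza := hzS a (Submodule.mem_span_singleton_self a)
    have haz : 𝔹 a z = 0 := by rw [pol_comm]; exact hza
    have h1 : sE Q a z ∈ linStab A ⊓ EG Q := ⟨sE_mem_linStab_of_mem hA.ts ha haz, sE_mem_EG _ _⟩
    rw [← heq] at h1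
    have h2 := (h1.1 x).mp hx
    have hax : 𝔹 a x = 0 := ts_polar hA.ts ha (hWA hx)
    rw [sE_apply (hA.ts a ha) haz, hzx, hax] at h2
    apply haN
    have e : a = (x + (1 : F) • a - (0 : F) • z - (Q z * 0) • a) - x := by simp
    rw [e]
    exact W.sub_mem h2 hx

theorem lag_pair_between [Finite F] (hQ : (QuadraticMap.polarBilin Q).Nondegenerate) (hn : 5 ≤ finrank F V) (D : Fin 2 → Submodule F V)
    (hA : MaxTS Q (D 0)) (hB : MaxTS Q (D 1)) (hdisj : D 0 ⊓ D 1 = ⊥) (hodd : Odd (finrank F (D 0))) :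
    ∃ K : Subgroup (V ≃ₗ[F] V), decStab D ⊓ EG Q < K ∧ K < EG Q := by
  have hAd := hA.dim
  have hBd := hB.dim
  have hA0 : D 0 ≠ ⊥ := by
    intro h
    rw [h] at hAd
    simp at hAd
    omega
  have hB0 : D 1 ≠ ⊥ := by
    intro h
    rw [h] at hBd
    simp at hBd
    omega
  refine ⟨linStab (D 0) ⊓ EG Q, lt_of_le_of_ne ?_ ?_, (para_isMaximalIn hQ hn (D 0) hA.ts hA0 (Or.inl (by omega))).1⟩
  · rintro g ⟨⟨σ, hσ⟩, hg2⟩
    refine ⟨?_, hg2⟩
    by_cases hs : σ 0 = 0
    · apply mem_linStab_of_le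
      intro x hx
      have h1 := hσ 0
      rw [hs] at h1
      rw [← h1]
      exact ⟨x, hx, rfl⟩
    · exfalso
      have hs' : σ 0 = 1 := by
        have := (σ 0).2
        apply Fin.ext
        have h3 : (σ 0).1 ≠ 0 := fun h => hs (Fin.ext h)
        change (σ 0).1 = 1
        omega
      have h1 := even_of_comm hQ hA (EG_le_comm hQ (Or.inr hn) hg2)
      have h2 := hσ 0
      rw [hs'] at h2
      rw [h2, hdisj, finrank_bot, Nat.sub_zero] at h1
      exact (Nat.not_even_iff_odd.mpr hodd) h1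
  · intro heq
    obtain ⟨a, ha, ha0⟩ := Submodule.exists_mem_ne_zero_of_ne_bot hA0
    obtain ⟨x, hx, hx0, hax⟩ := exists_perp_in (Q := Q) (A := D 1) (by omega) a
    have hint : ∀ y, y ∈ D 0 → y ∈ D 1 → y = 0 := by
      intro y h1 h2
      have : y ∈ D 0 ⊓ D 1 := ⟨h1, h2⟩
      rw [hdisj] at this
      simpa using this
    have hxN : x ∉ Submodule.span F {a} := by
      intro h
      obtain ⟨c, rfl⟩ := Submodule.mem_span_singleton.mp h
      exact hx0 (hint _ (Submodule.smul_mem _ _ ha) hx)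
    obtain ⟨z, hzx, hzS⟩ := exists_sep (Q := Q) hQ _ hxN
    have hza := hzS a (Submodule.mem_span_singleton_self a)
    have haz : 𝔹 a z = 0 := by rw [pol_comm]; exact hza
    have hgS := sE_mem_linStab_of_mem hA.ts ha haz
    have h1 : sE Q a z ∈ linStab (D 0) ⊓ EG Q := ⟨hgS, sE_mem_EG _ _⟩
    rw [← heq] at h1
    obtain ⟨⟨σ, hσ⟩, -⟩ := h1
    have hmap : (D 0).map ((sE Q a z : V ≃ₗ[F] V) : V →ₗ[F] V) = D 0 := by
      apply Submodule.eq_of_le_of_finrank_eq
      · rintro _ ⟨y, hy, rfl⟩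
        exact (hgS y).mp hy
      · exact LinearEquiv.finrank_map_eq _ _
    have hs : σ 0 = 0 := by
      by_contra hs
      have hs' : σ 0 = 1 := by
        have := (σ 0).2
        apply Fin.ext
        have h3 : (σ 0).1 ≠ 0 := fun h => hs (Fin.ext h)
        change (σ 0).1 = 1
        omega
      have h2 := hσ 0
      rw [hs', hmap] at h2
      rw [h2, inf_idem] at hdisj
      exact hB0 hdisj
    have hs1 : σ 1 = 1 := by
      have h3 : σ 1 ≠ 0 := by
        intro h
        have : σ 1 = σ 0 := by rw [h, hs]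
        have h4 := σ.injective this
        exact absurd h4 (by decide)
      have := (σ 1).2
      apply Fin.ext
      have h4 : (σ 1).1 ≠ 0 := fun h => h3 (Fin.ext h)
      change (σ 1).1 = 1
      omega
    have h2 := hσ 1
    rw [hs1] at h2
    have h3 : sE Q a z x ∈ D 1 := by
      rw [← h2]
      exact ⟨x, hx, rfl⟩
    rw [sE_apply (hA.ts a ha) haz, hzx, hax] at h3
    apply ha0
    apply hint a ha
    have e : a = (x + (1 : F) • a - (0 : F) • z - (Q z * 0) • a) - x := by simp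
    rw [e]
    exact Submodule.sub_mem _ h3 hx

end fam

section bridge

variable {F : Type*} [Field F] {ι : Type} [Fintype ι] [DecidableEq ι]

theorem maxTS_of_plus {Q : (ι → F) → F} (hQ : Cfsg.Geo.IsNondegenerateQuadraticForm Q) (hplus : Cfsg.Geo.IsPlusTypeOn Q ⊤) : ∃ P, MaxTS (mkQ hQ) P := by
  obtain ⟨P, -, hts, hd⟩ := hplus
  exact ⟨P, hts, by rw [hd, finrank_top]⟩

theorem omega_ts_hyper_between [Fintype F] {Q : (ι → F) → F} (hQ : Cfsg.Geo.IsNondegenerateQuadraticForm Q)
    (hn : 5 ≤ Fintype.card ι) (hplus : Cfsg.Geo.IsPlusTypeOn Q ⊤) (W : Submodule F (ι → F)) (hW : Cfsg.Geo.IsTotallySingularQuad Q W)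
    (hd : 2 * (finrank F W + 1) = Fintype.card ι) :
    ∃ K : Subgroup (Matrix.GeneralLinearGroup ι F), Cfsg.Geo.subspaceStabilizer W ⊓ Cfsg.Geo.omegaGL Q < K ∧ K < Cfsg.Geo.omegaGL Q := by
  have hnd := mkQ_nondeg hQ
  have hfr : finrank F (ι → F) = Fintype.card ι := by simp
  refine exists_between_omega_of (mkQ hQ) hnd (by omega) (Or.inr hn) _ ?_
  rw [map_subspaceStabilizer]
  obtain ⟨P, hP⟩ := maxTS_of_plus hQ hplus
  exact ts_hyper_between hnd (by omega) hP hW (by omega)

theorem omega_lag_pair_between [Fintype F] {Q : (ι → F) → F} (hQ : Cfsg.Geo.IsNondegenerateQuadraticForm Q)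
    (hn : 5 ≤ Fintype.card ι) {k : ℕ} (hk : 2 * k = Fintype.card ι) (hko : Odd k) (D : Fin 2 → Submodule F (ι → F)) (hD : Cfsg.Geo.IsMDecomposition k D)
    (hts : ∀ i, Cfsg.Geo.IsTotallySingularQuad Q (D i)) :
    ∃ K : Subgroup (Matrix.GeneralLinearGroup ι F), Cfsg.Geo.decompositionStabilizer D ⊓ Cfsg.Geo.omegaGL Q < K ∧ K < Cfsg.Geo.omegaGL Q := by
  have hnd := mkQ_nondeg hQ
  have hfr : finrank F (ι → F) = Fintype.card ι := by simp
  refine exists_between_omega_of (mkQ hQ) hnd (by omega) (Or.inr hn) _ ?_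
  rw [map_decompositionStabilizer]
  have h0 := hD.finrank_eq 0
  have h1 := hD.finrank_eq 1
  refine lag_pair_between hnd (by omega) D ⟨hts 0, by omega⟩ ⟨hts 1, by omega⟩ ?_ (by rwa [h0])
  have := hD.indep.pairwiseDisjoint (by decide : (0 : Fin 2) ≠ 1)
  exact this.eq_bot

end bridge

end CfsgLib.ClassGeo.Orth
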