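import Mathlib
import Cfsg.Agent.Lib.ClassGeo.OFam2

set_option autoImplicit false
set_option linter.unusedSimpArgs false
set_option linter.unusedVariables false
set_option linter.unusedSectionVars false

namespace CfsgLib.ClassGeo.Orth

open Module CfsgLib.ClassGeo
open scoped commutatorElement

section lag

variable {F V : Type*} [Field F] [AddCommGroup V] [Module F V] [FiniteDimensional F V]
variable {Q : QuadraticForm F V}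

local notation "𝔹" => QuadraticMap.polar (DFunLike.coe Q)

theorem lag_inf {W₀ W₁ : Submodule F V} (hdis : W₀ ⊓ W₁ = ⊥) {x : V} (h0 : x ∈ W₀) (h1 : x ∈ W₁) : x = 0 := by
  have : x ∈ W₀ ⊓ W₁ := ⟨h0, h1⟩
  rw [hdis] at this
  simpa using this

theorem lag_sup {W₀ W₁ : Submodule F V} (hW₀ : MaxTS Q W₀) (hW₁ : MaxTS Q W₁) (hdis : W₀ ⊓ W₁ = ⊥) : W₀ ⊔ W₁ = ⊤ := by
  apply Submodule.eq_top_of_finrank_eq
  have h1 := Submodule.finrank_sup_add_finrank_inf_eq W₀ W₁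
  rw [hdis, finrank_bot, add_zero] at h1
  have h2 := hW₀.dim
  have h3 := hW₁.dim
  omega

theorem lag_dec {W₀ W₁ : Submodule F V} (hW₀ : MaxTS Q W₀) (hW₁ : MaxTS Q W₁) (hdis : W₀ ⊓ W₁ = ⊥) (v : V) : ∃ a ∈ W₀, ∃ b ∈ W₁, v = a + b := by
  have h : v ∈ W₀ ⊔ W₁ := by
    rw [lag_sup hW₀ hW₁ hdis]
    trivial
  obtain ⟨a, ha, b, hb, e⟩ := Submodule.mem_sup.mp h
  exact ⟨a, ha, b, hb, e.symm⟩

/-- Separation: the pairing of the two halves is perfect. -/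
theorem lag_sep (hQ : (QuadraticMap.polarBilin Q).Nondegenerate) {W₀ W₁ S : Submodule F V} (hW₁ : MaxTS Q W₁) (hdis : W₀ ⊓ W₁ = ⊥)
    (hS : S ≤ W₀) {y : V} (hy : y ∈ W₀) (hyS : y ∉ S) : ∃ b ∈ W₁, 𝔹 b y = 1 ∧ ∀ s ∈ S, 𝔹 b s = 0 := by
  have hn : y ∉ S ⊔ W₁ := by
    intro h
    obtain ⟨s, hs, w, hw, e⟩ := Submodule.mem_sup.mp h
    have h1 : w = y - s := by rw [← e]; abel
    have h2 : w ∈ W₀ := by
      rw [h1]
      exact W₀.sub_mem hy (hS hs)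
    have h3 := lag_inf hdis h2 hw
    rw [h3, add_zero] at e
    exact hyS (e ▸ hs)
  obtain ⟨z, h1, h2⟩ := exists_sep (Q := Q) hQ _ hn
  refine ⟨z, ?_, h1, fun s hs => h2 s (Submodule.mem_sup_left hs)⟩
  rw [← hW₁.perp_eq hQ, mem_perp]
  intro p hp
  rw [pol_comm]
  exact h2 p (Submodule.mem_sup_right hp)

theorem exists_mem_not_mem {T R : Submodule F V} (h : finrank F R < finrank F T) : ∃ a ∈ T, a ∉ R := by
  by_contra hc
  push Not at hc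
  have := Submodule.finrank_mono (show T ≤ R from hc)
  omega

/-- The root element attached to a pair from the two halves stabilises both halves. -/
theorem sE_pair_stab {W₀ W₁ : Submodule F V} (hW₀ : MaxTS Q W₀) (hW₁ : MaxTS Q W₁) {a b : V} (ha : a ∈ W₀) (hb : b ∈ W₁) (hab : 𝔹 a b = 0) :
    (∀ x ∈ W₀, sE Q a b x ∈ W₀) ∧ (∀ x ∈ W₁, sE Q a b x ∈ W₁) := by
  have haQ := hW₀.ts a ha
  have hbQ := hW₁.ts b hb
  constructor
  · intro x hx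
    rw [sE_apply haQ hab, ts_polar hW₀.ts ha hx, hbQ]
    simp only [zero_smul, mul_zero, sub_zero, zero_mul]
    exact W₀.add_mem hx (W₀.smul_mem _ ha)
  · intro x hx
    rw [sE_apply haQ hab, ts_polar hW₁.ts hb hx, hbQ]
    simp only [zero_smul, add_zero, zero_mul, sub_zero]
    exact W₁.sub_mem hx (W₁.smul_mem _ hb)

section core

variable {W₀ W₁ : Submodule F V} {M : Subgroup (V ≃ₗ[F] V)}

/-- The reduction step of the argument. -/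
theorem lag_step (hQ : (QuadraticMap.polarBilin Q).Nondegenerate) (hW₀ : MaxTS Q W₀) (hW₁ : MaxTS Q W₁) (hdis : W₀ ⊓ W₁ = ⊥) (hk : 8 ≤ finrank F W₀)
    (hM : M ≤ EG Q) (hst : ∀ g ∈ EG Q, (∀ x ∈ W₀, g x ∈ W₀) → (∀ x ∈ W₁, g x ∈ W₁) → g ∈ M)
    {x₀ x₁ y₀ y₁ : V} (hx₀ : x₀ ∈ W₀) (hx₁ : x₁ ∈ W₁) (hy₀ : y₀ ∈ W₀) (hy₁ : y₁ ∈ W₁) (hxy : 𝔹 (x₀ + x₁) (y₀ + y₁) = 0)
    (hxQ : Q (x₀ + x₁) = 0)
    (hc : ∀ c : F, sE Q (x₀ + x₁) (c • (y₀ + y₁)) ∈ M) (hN : y₀ ∉ Submodule.span F {x₀}) :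
    ∃ a₀ ∈ W₀, a₀ ∉ Submodule.span F {x₀} ∧ ∀ c : F, sE Q a₀ (c • x₀) ∈ M := by
  have hMO : M ≤ quadIsomGroup Q := hM.trans EG_le
  have h1 := finrank_inf_perp hQ W₀ (Submodule.span F {x₁, y₁})
  have h2 := finrank_span_pair_le (F := F) x₁ y₁
  have h3 := finrank_span_pair_le (F := F) x₀ y₀
  obtain ⟨a₀, ha₀, ha₀N⟩ := exists_mem_not_mem (T := W₀ ⊓ perp Q (Submodule.span F {x₁, y₁})) (R := Submodule.span F {x₀, y₀}) (by omega)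
  obtain ⟨ha₀W, ha₀p⟩ := ha₀
  have ha₀x₁ : 𝔹 x₁ a₀ = 0 := mem_perp.mp ha₀p x₁ (Submodule.subset_span (by simp))
  have ha₀y₁ : 𝔹 y₁ a₀ = 0 := mem_perp.mp ha₀p y₁ (Submodule.subset_span (by simp))
  have hNx : a₀ ∉ Submodule.span F {x₀} := by
    intro h
    apply ha₀N
    obtain ⟨c, rfl⟩ := Submodule.mem_span_singleton.mp h
    exact Submodule.smul_mem _ _ (Submodule.subset_span (by simp))
  refine ⟨a₀, ha₀W, hNx, ?_⟩
  have hy₀N : y₀ ∉ Submodule.span F {x₀, a₀} := by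
    intro h
    obtain ⟨α, β, e⟩ := Submodule.mem_span_pair.mp h
    by_cases hβ : β = 0
    · rw [hβ, zero_smul, add_zero] at e
      exact hN (e ▸ Submodule.smul_mem _ _ (Submodule.mem_span_singleton_self x₀))
    · apply ha₀N
      have e2 : a₀ = β⁻¹ • y₀ - (β⁻¹ * α) • x₀ := by
        rw [← e, smul_add, smul_smul, smul_smul, inv_mul_cancel₀ hβ, one_smul]
        abel
      rw [e2]
      exact Submodule.sub_mem _ (Submodule.smul_mem _ _ (Submodule.subset_span (by simp))) (Submodule.smul_mem _ _ (Submodule.subset_span (by simp)))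
  have hSle : Submodule.span F {x₀, a₀} ≤ W₀ := by
    rw [Submodule.span_le]
    intro w hw
    rcases hw with rfl | rfl
    · exact hx₀
    · exact ha₀W
  obtain ⟨b₀, hb₀, hb₀y, hb₀S⟩ := lag_sep hQ hW₁ hdis hSle hy₀ hy₀N
  have hb₀x := hb₀S x₀ (Submodule.subset_span (by simp))
  have hb₀a := hb₀S a₀ (Submodule.subset_span (by simp))
  have ha₀Q := hW₀.ts a₀ ha₀W
  have hb₀Q := hW₁.ts b₀ hb₀
  have ha₀b₀ : 𝔹 a₀ b₀ = 0 := by rw [pol_comm]; exact hb₀a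
  obtain ⟨hS0, hS1⟩ := sE_pair_stab hW₀ hW₁ ha₀W hb₀ ha₀b₀
  have hhM : sE Q a₀ b₀ ∈ M := hst _ (sE_mem_EG _ _) hS0 hS1
  have ha₀x₀ : 𝔹 a₀ x₀ = 0 := ts_polar hW₀.ts ha₀W hx₀
  have ha₀y₀ : 𝔹 a₀ y₀ = 0 := ts_polar hW₀.ts ha₀W hy₀
  have hb₀x₁ : 𝔹 b₀ x₁ = 0 := ts_polar hW₁.ts hb₀ hx₁
  have hb₀y₁ : 𝔹 b₀ y₁ = 0 := ts_polar hW₁.ts hb₀ hy₁
  have ha₀x₁' : 𝔹 a₀ x₁ = 0 := by rw [pol_comm]; exact ha₀x₁
  have ha₀y₁' : 𝔹 a₀ y₁ = 0 := by rw [pol_comm]; exact ha₀y₁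
  have hhx : sE Q a₀ b₀ (x₀ + x₁) = x₀ + x₁ := by
    rw [sE_apply ha₀Q ha₀b₀, QuadraticMap.polar_add_right, QuadraticMap.polar_add_right, hb₀x, hb₀x₁, ha₀x₀, ha₀x₁']
    simp
  have hhy : sE Q a₀ b₀ (y₀ + y₁) = (y₀ + y₁) + a₀ := by
    rw [sE_apply ha₀Q ha₀b₀, QuadraticMap.polar_add_right, QuadraticMap.polar_add_right, hb₀y, hb₀y₁, ha₀y₀, ha₀y₁']
    simp
  have hxa₀ : 𝔹 (x₀ + x₁) a₀ = 0 := by
    rw [QuadraticMap.polar_add_left, ha₀x₁, pol_comm x₀ a₀, ha₀x₀, add_zero]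
  have hMain : ∀ c : F, sE Q (x₀ + x₁) (c • a₀) ∈ M := by
    intro c
    have h4 := sE_conj (sE Q a₀ b₀) (hMO hhM) hxQ (z := c • (y₀ + y₁)) (by rw [QuadraticMap.polar_smul_right, hxy]; simp)
    rw [hhx, map_smul, hhy] at h4
    have h5 : sE Q (x₀ + x₁) (c • ((y₀ + y₁) + a₀)) ∈ M := by
      rw [← h4]
      exact M.mul_mem (M.mul_mem hhM (hc c)) (M.inv_mem hhM)
    have e1 : sE Q (x₀ + x₁) (c • (y₀ + y₁)) * sE Q (x₀ + x₁) (c • a₀) = sE Q (x₀ + x₁) (c • ((y₀ + y₁) + a₀)) := by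
      rw [smul_add c (y₀ + y₁) a₀]
      apply sE_mul hxQ
      · rw [QuadraticMap.polar_smul_right, hxy]; simp
      · rw [QuadraticMap.polar_smul_right, hxa₀]; simp
    have e2 : sE Q (x₀ + x₁) (c • a₀) = (sE Q (x₀ + x₁) (c • (y₀ + y₁)))⁻¹ * sE Q (x₀ + x₁) (c • ((y₀ + y₁) + a₀)) := by
      rw [← e1, inv_mul_cancel_left]
    rw [e2]
    exact M.mul_mem (M.inv_mem (hc c)) h5
  have hA : ∀ c : F, sE Q a₀ (c • (x₀ + x₁)) ∈ M := by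
    intro c
    have h5 := hMain (-c)
    rw [sE_symm (Q := Q) hxQ (by rw [q_smul, ha₀Q, mul_zero]) (by rw [QuadraticMap.polar_smul_right, hxa₀]; simp),
      sE_smul_left ha₀Q (by rw [QuadraticMap.polar_neg_right, pol_comm, hxa₀, neg_zero])] at h5
    have e : (-c) • (-(x₀ + x₁)) = c • (x₀ + x₁) := by module
    rwa [e] at h5
  intro c
  have hB : sE Q a₀ (c • x₁) ∈ M := by
    have hz : 𝔹 a₀ (c • x₁) = 0 := by rw [QuadraticMap.polar_smul_right, ha₀x₁']; simp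
    obtain ⟨h6, h7⟩ := sE_pair_stab hW₀ hW₁ ha₀W (W₁.smul_mem c hx₁) hz
    exact hst _ (sE_mem_EG _ _) h6 h7
  have e1 : sE Q a₀ (c • x₀) * sE Q a₀ (c • x₁) = sE Q a₀ (c • (x₀ + x₁)) := by
    rw [smul_add]
    apply sE_mul ha₀Q
    · rw [QuadraticMap.polar_smul_right, ha₀x₀]; simp
    · rw [QuadraticMap.polar_smul_right, ha₀x₁']; simp
  have e2 : sE Q a₀ (c • x₀) = sE Q a₀ (c • (x₀ + x₁)) * (sE Q a₀ (c • x₁))⁻¹ := by
    rw [← e1, mul_inv_cancel_right]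
  rw [e2]
  exact M.mul_mem (hA c) (M.inv_mem hB)

/-- One root element from an independent pair in `W₀` gives all root elements with centre `x₀`. -/
theorem lag_good (hQ : (QuadraticMap.polarBilin Q).Nondegenerate) (hW₀ : MaxTS Q W₀) (hW₁ : MaxTS Q W₁) (hdis : W₀ ⊓ W₁ = ⊥)
    (hM : M ≤ EG Q) (hst : ∀ g ∈ EG Q, (∀ x ∈ W₀, g x ∈ W₀) → (∀ x ∈ W₁, g x ∈ W₁) → g ∈ M)
    {a₀ x₀ : V} (ha₀ : a₀ ∈ W₀) (hx₀ : x₀ ∈ W₀) (hN : a₀ ∉ Submodule.span F {x₀}) (hc : ∀ c : F, sE Q a₀ (c • x₀) ∈ M) : x₀ ∈ SSet Q M := by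
  have hMO : M ≤ quadIsomGroup Q := hM.trans EG_le
  have hx₀Q := hW₀.ts x₀ hx₀
  have ha₀Q := hW₀.ts a₀ ha₀
  have hxa : 𝔹 x₀ a₀ = 0 := ts_polar hW₀.ts hx₀ ha₀
  have h1 : ∀ c : F, sE Q x₀ (c • a₀) ∈ M := by
    intro c
    have h5 := hc (-c)
    rw [sE_symm (Q := Q) ha₀Q (by rw [q_smul, hx₀Q, mul_zero]) (by rw [QuadraticMap.polar_smul_right, pol_comm, hxa]; simp),
      sE_smul_left hx₀Q (by rw [QuadraticMap.polar_neg_right, hxa, neg_zero])] at h5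
    have e : (-c) • (-a₀) = c • a₀ := by module
    rwa [e] at h5
  have hsp : Submodule.span F {x₀} ≤ W₀ := by rwa [Submodule.span_singleton_le_iff_mem]
  obtain ⟨b', hb', hb'a, hb'S⟩ := lag_sep hQ hW₁ hdis hsp ha₀ hN
  have hb'x := hb'S x₀ (Submodule.mem_span_singleton_self x₀)
  have hb'Q := hW₁.ts b' hb'
  have h2 : ∀ a' ∈ W₀, 𝔹 a' b' = 0 → ∀ c : F, sE Q x₀ (c • a') ∈ M := by
    intro a' ha' hab c
    have ha'Q := hW₀.ts a' ha'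
    obtain ⟨hS0, hS1⟩ := sE_pair_stab hW₀ hW₁ ha' hb' hab
    have hhM : sE Q a' b' ∈ M := hst _ (sE_mem_EG _ _) hS0 hS1
    have hhx : sE Q a' b' x₀ = x₀ := by
      rw [sE_apply ha'Q hab, hb'x, ts_polar hW₀.ts ha' hx₀]
      simp
    have hha : sE Q a' b' a₀ = a₀ + a' := by
      rw [sE_apply ha'Q hab, hb'a, ts_polar hW₀.ts ha' ha₀]
      simp
    have hxa' : 𝔹 x₀ a' = 0 := ts_polar hW₀.ts hx₀ ha'
    have h4 := sE_conj (sE Q a' b') (hMO hhM) hx₀Q (z := c • a₀) (by rw [QuadraticMap.polar_smul_right, hxa]; simp)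
    rw [hhx, map_smul, hha] at h4
    have h5 : sE Q x₀ (c • (a₀ + a')) ∈ M := by
      rw [← h4]
      exact M.mul_mem (M.mul_mem hhM (h1 c)) (M.inv_mem hhM)
    have e1 : sE Q x₀ (c • a₀) * sE Q x₀ (c • a') = sE Q x₀ (c • (a₀ + a')) := by
      rw [smul_add]
      apply sE_mul hx₀Q
      · rw [QuadraticMap.polar_smul_right, hxa]; simp
      · rw [QuadraticMap.polar_smul_right, hxa']; simp
    have e2 : sE Q x₀ (c • a') = (sE Q x₀ (c • a₀))⁻¹ * sE Q x₀ (c • (a₀ + a')) := by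
      rw [← e1, inv_mul_cancel_left]
    rw [e2]
    exact M.mul_mem (M.inv_mem (h1 c)) h5
  have h3 : ∀ z ∈ W₀, sE Q x₀ z ∈ M := by
    intro z hz
    obtain ⟨d, hd⟩ : ∃ d, d = 𝔹 b' z := ⟨_, rfl⟩
    obtain ⟨a', ha'⟩ : ∃ a', a' = z - d • a₀ := ⟨_, rfl⟩
    have ha'W : a' ∈ W₀ := by
      rw [ha']
      exact W₀.sub_mem hz (W₀.smul_mem _ ha₀)
    have hab : 𝔹 a' b' = 0 := by
      rw [pol_comm, ha', QuadraticMap.polar_sub_right, QuadraticMap.polar_smul_right, hb'a, ← hd]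
      simp
    have e : z = d • a₀ + (1 : F) • a' := by
      rw [ha']
      module
    rw [e, ← sE_mul hx₀Q (by rw [QuadraticMap.polar_smul_right, hxa]; simp) (by rw [QuadraticMap.polar_smul_right, ts_polar hW₀.ts hx₀ ha'W]; simp)]
    exact M.mul_mem (h1 d) (h2 a' ha'W hab 1)
  refine ⟨hx₀Q, fun z hz => ?_⟩
  obtain ⟨z₀, hz₀, z₁, hz₁, rfl⟩ := lag_dec hW₀ hW₁ hdis z
  have hz₀' : 𝔹 x₀ z₀ = 0 := ts_polar hW₀.ts hx₀ hz₀
  have hz₁' : 𝔹 x₀ z₁ = 0 := by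
    rw [QuadraticMap.polar_add_right, hz₀', zero_add] at hz
    exact hz
  rw [← sE_mul hx₀Q hz₀' hz₁']
  apply M.mul_mem (h3 z₀ hz₀)
  obtain ⟨h6, h7⟩ := sE_pair_stab hW₀ hW₁ hx₀ hz₁ hz₁'
  exact hst _ (sE_mem_EG _ _) h6 h7

/-- Transitivity on the nonzero vectors of `W₀`. -/
theorem lag_trans (hQ : (QuadraticMap.polarBilin Q).Nondegenerate) (hW₀ : MaxTS Q W₀) (hW₁ : MaxTS Q W₁) (hdis : W₀ ⊓ W₁ = ⊥)
    (hM : M ≤ EG Q) (hst : ∀ g ∈ EG Q, (∀ x ∈ W₀, g x ∈ W₀) → (∀ x ∈ W₁, g x ∈ W₁) → g ∈ M)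
    {x₀ : V} (hx₀ : x₀ ∈ W₀) (hx₀0 : x₀ ≠ 0) (hS : x₀ ∈ SSet Q M) : ∀ a ∈ W₀, a ∈ SSet Q M := by
  have hMO : M ≤ quadIsomGroup Q := hM.trans EG_le
  intro a ha
  by_cases hsp : a ∈ Submodule.span F {x₀}
  · obtain ⟨c, rfl⟩ := Submodule.mem_span_singleton.mp hsp
    exact SSet.smul hS c
  have hsub : a - x₀ ∈ W₀ := W₀.sub_mem ha hx₀
  have hN : x₀ ∉ Submodule.span F {a - x₀} := by
    intro h
    obtain ⟨c, hc⟩ := Submodule.mem_span_singleton.mp h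
    have hc0 : c ≠ 0 := by
      rintro rfl
      rw [zero_smul] at hc
      exact hx₀0 hc.symm
    apply hsp
    have e : a = (c⁻¹ + 1) • x₀ := by
      rw [add_smul, one_smul]
      nth_rewrite 1 [← hc]
      rw [smul_smul, inv_mul_cancel₀ hc0, one_smul]
      abel
    rw [e]
    exact Submodule.smul_mem _ _ (Submodule.mem_span_singleton_self x₀)
  have hsl : Submodule.span F {a - x₀} ≤ W₀ := by rwa [Submodule.span_singleton_le_iff_mem]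
  obtain ⟨b', hb', hb'x, hb'S⟩ := lag_sep hQ hW₁ hdis hsl hx₀ hN
  have hb'a := hb'S _ (Submodule.mem_span_singleton_self (a - x₀))
  have hab : 𝔹 (a - x₀) b' = 0 := by rw [pol_comm]; exact hb'a
  obtain ⟨hS0, hS1⟩ := sE_pair_stab hW₀ hW₁ hsub hb' hab
  have hhM : sE Q (a - x₀) b' ∈ M := hst _ (sE_mem_EG _ _) hS0 hS1
  have h1 := SSet.conj hMO hS hhM
  rw [sE_apply (hW₀.ts _ hsub) hab, hb'x, ts_polar hW₀.ts hsub hx₀] at h1
  have e : x₀ + (1 : F) • (a - x₀) - (0 : F) • b' - (Q b' * 0) • (a - x₀) = a := by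
    simp
  rwa [e] at h1

/-- Finishing the proof from the good vectors in both halves. -/
theorem lag_final (hQ : (QuadraticMap.polarBilin Q).Nondegenerate) (hW₀ : MaxTS Q W₀) (hW₁ : MaxTS Q W₁) (hdis : W₀ ⊓ W₁ = ⊥)
    (hM : M ≤ EG Q) (h0 : ∀ a ∈ W₀, a ∈ SSet Q M) (h1 : ∀ a ∈ W₁, a ∈ SSet Q M) : EG Q ≤ M := by
  have hMO : M ≤ quadIsomGroup Q := hM.trans EG_le
  apply EG_le_of_SSet
  intro y hy
  obtain ⟨y₀, hy₀, y₁, hy₁, rfl⟩ := lag_dec hW₀ hW₁ hdis y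
  by_cases hy10 : y₁ = 0
  · rw [hy10, add_zero]
    exact h0 y₀ hy₀
  have hnm : y₁ ∉ (⊥ : Submodule F V) := by simpa using hy10
  obtain ⟨a, ha, hay, -⟩ := lag_sep hQ hW₀ (W₀ := W₁) (by rw [inf_comm]; exact hdis) bot_le hy₁ hnm
  apply sset_move hMO (h0 a ha) (h1 y₁ hy₁) hy
  · rw [hay]; exact one_ne_zero
  · rw [QuadraticMap.polar_add_right, ts_polar hW₀.ts ha hy₀, hay, zero_add]
    exact one_ne_zero

/-- All of `EG` follows from one good vector in `W₀` and an interchanging element. -/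
theorem lag_all (hQ : (QuadraticMap.polarBilin Q).Nondegenerate) (hW₀ : MaxTS Q W₀) (hW₁ : MaxTS Q W₁) (hdis : W₀ ⊓ W₁ = ⊥)
    (hM : M ≤ EG Q) (hst : ∀ g ∈ EG Q, (∀ x ∈ W₀, g x ∈ W₀) → (∀ x ∈ W₁, g x ∈ W₁) → g ∈ M)
    {s : V ≃ₗ[F] V} (hs : s ∈ M) (hs0 : ∀ x ∈ W₀, s x ∈ W₁)
    {x₀ : V} (hx₀ : x₀ ∈ W₀) (hx₀0 : x₀ ≠ 0) (hS : x₀ ∈ SSet Q M) : EG Q ≤ M := by
  have hMO : M ≤ quadIsomGroup Q := hM.trans EG_le
  have h0 := lag_trans hQ hW₀ hW₁ hdis hM hst hx₀ hx₀0 hS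
  refine lag_final hQ hW₀ hW₁ hdis hM h0 ?_
  have hmap : W₀.map (s : V →ₗ[F] V) = W₁ := by
    apply Submodule.eq_of_le_of_finrank_eq
    · rintro _ ⟨x, hx, rfl⟩
      exact hs0 x hx
    · rw [LinearEquiv.finrank_map_eq s W₀, hW₀.finrank_eq hW₁]
  intro a ha
  rw [← hmap] at ha
  obtain ⟨x, hx, rfl⟩ := ha
  exact SSet.conj hMO (h0 x hx) hs

/-- The core: an element of `M` sending `W₀` out of both halves yields everything. -/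
theorem lag_core (hQ : (QuadraticMap.polarBilin Q).Nondegenerate) (hW₀ : MaxTS Q W₀) (hW₁ : MaxTS Q W₁) (hdis : W₀ ⊓ W₁ = ⊥) (hk : 8 ≤ finrank F W₀)
    (hM : M ≤ EG Q) (hst : ∀ g ∈ EG Q, (∀ x ∈ W₀, g x ∈ W₀) → (∀ x ∈ W₁, g x ∈ W₁) → g ∈ M)
    {s : V ≃ₗ[F] V} (hs : s ∈ M) (hs0 : ∀ x ∈ W₀, s x ∈ W₁) (hs1 : ∀ x ∈ W₁, s x ∈ W₀)
    {g : V ≃ₗ[F] V} (hg : g ∈ M) (hg0 : ¬ ∀ x ∈ W₀, g x ∈ W₀) (hg1 : ¬ ∀ x ∈ W₀, g x ∈ W₁) : EG Q ≤ M := by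
  have hMO : M ≤ quadIsomGroup Q := hM.trans EG_le
  have hgO := hMO hg
  have hB := isom_polar hgO
  have hq : ∀ v, Q (g v) = Q v := hgO
  have hdis' : W₁ ⊓ W₀ = ⊥ := by rw [inf_comm]; exact hdis
  have hst' : ∀ g ∈ EG Q, (∀ x ∈ W₁, g x ∈ W₁) → (∀ x ∈ W₀, g x ∈ W₀) → g ∈ M := fun g hg h1 h0 => hst g hg h0 h1
  -- a mixed vector
  obtain ⟨a, ha, hxN₀, hxN₁⟩ : ∃ a ∈ W₀, g a ∉ W₀ ∧ g a ∉ W₁ := by
    push Not at hg0 hg1
    obtain ⟨a₁, ha₁, h1⟩ := hg0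
    obtain ⟨a₂, ha₂, h2⟩ := hg1
    by_cases h3 : g a₁ ∈ W₁
    · by_cases h4 : g a₂ ∈ W₀
      · refine ⟨a₁ + a₂, W₀.add_mem ha₁ ha₂, ?_, ?_⟩
        · rw [map_add]
          intro h5
          apply h1
          have e : g a₁ = (g a₁ + g a₂) - g a₂ := by abel
          rw [e]
          exact W₀.sub_mem h5 h4
        · rw [map_add]
          intro h5
          apply h2
          have e : g a₂ = (g a₁ + g a₂) - g a₁ := by abel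
          rw [e]
          exact W₁.sub_mem h5 h3
      · exact ⟨a₂, ha₂, h4, h2⟩
    · exact ⟨a₁, ha₁, h1, h3⟩
  have haQ := hW₀.ts a ha
  have ha0 : a ≠ 0 := by
    rintro rfl
    rw [map_zero] at hxN₀
    exact hxN₀ (Submodule.zero_mem _)
  obtain ⟨x₀, hx₀, x₁, hx₁, hxdec⟩ := lag_dec hW₀ hW₁ hdis (g a)
  have hx₀0 : x₀ ≠ 0 := by
    rintro rfl
    rw [zero_add] at hxdec
    exact hxN₁ (hxdec ▸ hx₁)
  have hx₁0 : x₁ ≠ 0 := by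
    rintro rfl
    rw [add_zero] at hxdec
    exact hxN₀ (hxdec ▸ hx₀)
  have hxQ : Q (x₀ + x₁) = 0 := by rw [← hxdec, hq, haQ]
  -- the space of second components
  obtain ⟨Y, hY⟩ : ∃ Y, Y = (W₁ ⊓ perp Q (Submodule.span F {a})).map (g : V →ₗ[F] V) := ⟨_, rfl⟩
  have hYd : finrank F Y + 1 ≥ finrank F W₁ := by
    have h1 := finrank_inf_perp hQ W₁ (Submodule.span F {a})
    rw [finrank_span_singleton ha0] at h1
    rw [hY, LinearEquiv.finrank_map_eq g]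
    omega
  have hk₁ : finrank F W₀ = finrank F W₁ := hW₀.finrank_eq hW₁
  have h2 := finrank_span_pair_le (F := F) x₀ x₁
  obtain ⟨y, hyY, hyN⟩ := exists_mem_not_mem (T := Y) (R := Submodule.span F {x₀, x₁}) (by omega)
  rw [hY] at hyY
  obtain ⟨b, ⟨hbW, hbp⟩, hby⟩ := hyY
  change g b = y at hby
  have hab : 𝔹 a b = 0 := mem_perp.mp hbp a (Submodule.mem_span_singleton_self a)
  obtain ⟨y₀, hy₀, y₁, hy₁, hydec⟩ := lag_dec hW₀ hW₁ hdis y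
  have hxy : 𝔹 (x₀ + x₁) (y₀ + y₁) = 0 := by
    rw [← hxdec, ← hydec, ← hby, hB, hab]
  have hroot : ∀ c : F, sE Q (x₀ + x₁) (c • (y₀ + y₁)) ∈ M := by
    intro c
    have hz : 𝔹 a (c • b) = 0 := by rw [QuadraticMap.polar_smul_right, hab]; simp
    have e := sE_conj g hgO haQ (z := c • b) hz
    rw [map_smul, hby, hxdec, hydec] at e
    rw [← e]
    obtain ⟨h6, h7⟩ := sE_pair_stab hW₀ hW₁ ha (W₁.smul_mem c hbW) hz
    exact M.mul_mem (M.mul_mem hg (hst _ (sE_mem_EG _ _) h6 h7)) (M.inv_mem hg)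
  by_cases hcase : y₀ ∈ Submodule.span F {x₀}
  · -- then the component in `W₁` must move
    have hcase' : y₁ ∉ Submodule.span F {x₁} := by
      intro h
      apply hyN
      rw [hydec]
      obtain ⟨c, rfl⟩ := Submodule.mem_span_singleton.mp hcase
      obtain ⟨d, rfl⟩ := Submodule.mem_span_singleton.mp h
      exact Submodule.add_mem _ (Submodule.smul_mem _ _ (Submodule.subset_span (by simp))) (Submodule.smul_mem _ _ (Submodule.subset_span (by simp)))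
    have hroot' : ∀ c : F, sE Q (x₁ + x₀) (c • (y₁ + y₀)) ∈ M := by
      intro c
      rw [add_comm x₁ x₀, add_comm y₁ y₀]
      exact hroot c
    obtain ⟨a₁, ha₁, ha₁N, ha₁c⟩ := lag_step hQ hW₁ hW₀ hdis' (by omega) hM hst' hx₁ hx₀ hy₁ hy₀ (by rw [add_comm x₁ x₀, add_comm y₁ y₀]; exact hxy) (by rw [add_comm x₁ x₀]; exact hxQ) hroot' hcase'
    have hG := lag_good hQ hW₁ hW₀ hdis' hM hst' ha₁ hx₁ ha₁N ha₁c
    exact lag_all hQ hW₁ hW₀ hdis' hM hst' hs hs1 hx₁ hx₁0 hG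
  · obtain ⟨a₁, ha₁, ha₁N, ha₁c⟩ := lag_step hQ hW₀ hW₁ hdis hk hM hst hx₀ hx₁ hy₀ hy₁ hxy hxQ hroot hcase
    have hG := lag_good hQ hW₀ hW₁ hdis hM hst ha₁ hx₀ ha₁N ha₁c
    exact lag_all hQ hW₀ hW₁ hdis hM hst hs hs0 hx₀ hx₀0 hG

end core

end lag

end CfsgLib.ClassGeo.Orth
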