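import Mathlib
import Cfsg.Agent.Lib.ClassGeo.OLag

set_option autoImplicit false
set_option linter.unusedSimpArgs false
set_option linter.unusedVariables false
set_option linter.unusedSectionVars false

namespace CfsgLib.ClassGeo.Orth

open Module CfsgLib.ClassGeo
open scoped commutatorElement

section lag

variable {F V : Type*} [Field F] [AddCommGroup V] [Module F V] [FiniteDimensional F V]
variable {Q : QuadraticForm F V}

local notation "𝔹" => QuadraticMap.polar (DFunLike.coe Q)

theorem prod_refl_mem_EG [Finite F] (hQ : (QuadraticMap.polarBilin Q).Nondegenerate) (hn : 4 ≤ finrank F V) {c : F} (hc : c ≠ 0) :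
    ∀ L : List V, (∀ t ∈ L, Q t = c) → Even L.length → (L.map (rT Q)).prod ∈ EG Q
  | [], _, _ => by simpa using (EG Q).one_mem
  | [a], _, h => by simp at h
  | a :: b :: l, h1, h2 => by
    have ha := h1 a (by simp)
    have hb := h1 b (by simp)
    have hl := prod_refl_mem_EG hQ hn hc l (fun t ht => h1 t (by simp [ht])) (by
      simp only [List.length_cons] at h2
      rw [Nat.even_add_one, Nat.even_add_one] at h2
      simpa using h2)
    simp only [List.map_cons, List.prod_cons]
    rw [← mul_assoc]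
    refine (EG Q).mul_mem (rT_mul_rT_mem hQ hn (by rw [hb]; exact hc) (by rw [ha, hb])) hl

/-- The element interchanging two complementary maximal totally singular subspaces of even dimension. -/
theorem exists_lag_swap [Finite F] (hQ : (QuadraticMap.polarBilin Q).Nondegenerate) (hn : 4 ≤ finrank F V) {W₀ W₁ : Submodule F V} (hW₀ : MaxTS Q W₀) (hW₁ : MaxTS Q W₁)
    (hdis : W₀ ⊓ W₁ = ⊥) (hev : Even (finrank F W₀)) :
    ∃ s ∈ EG Q, (∀ x ∈ W₀, s x ∈ W₁) ∧ (∀ x ∈ W₁, s x ∈ W₀) := by
  classical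
  obtain ⟨k, hk⟩ : ∃ k, k = finrank F W₀ := ⟨_, rfl⟩
  let b := Module.finBasis F W₀
  let e : Fin (finrank F W₀) → V := fun i => (b i : V)
  have heW : ∀ i, e i ∈ W₀ := fun i => (b i).2
  have hli : LinearIndependent F e := b.linearIndependent.map' W₀.subtype (Submodule.ker_subtype _)
  have hdual : ∀ i, ∃ f ∈ W₁, ∀ j, 𝔹 f (e j) = if j = i then 1 else 0 := by
    intro i
    have hN : e i ∉ Submodule.span F (e '' {j | j ≠ i}) := hli.notMem_span_image (by simp)
    have hS : Submodule.span F (e '' {j | j ≠ i}) ≤ W₀ := by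
      rw [Submodule.span_le]
      rintro _ ⟨j, -, rfl⟩
      exact heW j
    obtain ⟨f, hf, hfi, hfS⟩ := lag_sep hQ hW₁ hdis hS (heW i) hN
    refine ⟨f, hf, fun j => ?_⟩
    by_cases hj : j = i
    · rw [if_pos hj, hj, hfi]
    · rw [if_neg hj]
      exact hfS _ (Submodule.subset_span ⟨j, hj, rfl⟩)
  choose f hfW hfe using hdual
  have hee : ∀ i j, 𝔹 (e i) (e j) = 0 := fun i j => ts_polar hW₀.ts (heW i) (heW j)
  have hff : ∀ i j, 𝔹 (f i) (f j) = 0 := fun i j => ts_polar hW₁.ts (hfW i) (hfW j)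
  have hef : ∀ i j, 𝔹 (e i) (f j) = if i = j then 1 else 0 := by
    intro i j
    rw [pol_comm, hfe]
  obtain ⟨t, ht⟩ : ∃ t : Fin (finrank F W₀) → V, ∀ i, t i = e i - f i := ⟨fun i => e i - f i, fun i => rfl⟩
  have htQ : ∀ i, Q (t i) = -1 := by
    intro i
    rw [ht, q_sub, hW₀.ts _ (heW i), hW₁.ts _ (hfW i), hef, if_pos rfl]
    ring
  have htQ0 : ∀ i, Q (t i) ≠ 0 := fun i => by
    rw [htQ]
    exact neg_ne_zero.mpr one_ne_zero
  have hte : ∀ i j, 𝔹 (t i) (e j) = - (if j = i then 1 else 0) := by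
    intro i j
    rw [ht, QuadraticMap.polar_sub_left, hee, hfe]
    ring
  have htf : ∀ i j, 𝔹 (t i) (f j) = if i = j then 1 else 0 := by
    intro i j
    rw [ht, QuadraticMap.polar_sub_left, hff, hef]
    ring
  have hre : ∀ i j, rT Q (t i) (e j) = if j = i then f j else e j := by
    intro i j
    rw [rT_apply (htQ0 i), hte, htQ]
    by_cases hj : j = i
    · subst hj
      rw [if_pos rfl, if_pos rfl, ht]
      have e1 : ((-1 : F))⁻¹ * (-1) = 1 := by
        rw [inv_mul_cancel₀ (neg_ne_zero.mpr one_ne_zero)]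
      rw [e1]
      module
    · rw [if_neg hj, if_neg hj]
      simp
  have hrf : ∀ i j, rT Q (t i) (f j) = if j = i then e j else f j := by
    intro i j
    rw [rT_apply (htQ0 i), htf, htQ]
    by_cases hj : j = i
    · subst hj
      rw [if_pos rfl, if_pos rfl, ht]
      have e1 : ((-1 : F))⁻¹ * 1 = -1 := by
        rw [mul_one, inv_neg, inv_one]
      rw [e1]
      module
    · rw [if_neg (fun h => hj h.symm), if_neg hj]
      simp
  have hbeh : ∀ L : List (Fin (finrank F W₀)), L.Nodup → ∀ j,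
      ((L.map (fun i => rT Q (t i))).prod (e j) = if j ∈ L then f j else e j) ∧
      ((L.map (fun i => rT Q (t i))).prod (f j) = if j ∈ L then e j else f j) := by
    intro L
    induction L with
    | nil =>
      intro _ j
      simp
    | cons i l ih =>
      intro hnd j
      rw [List.nodup_cons] at hnd
      obtain ⟨hi, hl⟩ := hnd
      obtain ⟨h1, h2⟩ := ih hl j
      simp only [List.map_cons, List.prod_cons]
      change (rT Q (t i) ((l.map (fun i => rT Q (t i))).prod (e j)) = _) ∧ (rT Q (t i) ((l.map (fun i => rT Q (t i))).prod (f j)) = _)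
      rw [h1, h2]
      by_cases hjl : j ∈ l
      · have hji : j ≠ i := fun h => hi (h ▸ hjl)
        rw [if_pos hjl, if_pos hjl, hre, hrf, if_neg hji, if_neg hji, if_pos (List.mem_cons_of_mem _ hjl), if_pos (List.mem_cons_of_mem _ hjl)]
        exact ⟨rfl, rfl⟩
      · rw [if_neg hjl, if_neg hjl]
        by_cases hji : j = i
        · subst hji
          constructor <;> simp [hre, hrf]
        · have : j ∉ i :: l := by
            rw [List.mem_cons]
            rintro (h | h)
            · exact hji h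
            · exact hjl h
          rw [hre, hrf, if_neg hji, if_neg hji, if_neg this, if_neg this]
          exact ⟨rfl, rfl⟩
  obtain ⟨s, hs⟩ : ∃ s, s = ((List.finRange (finrank F W₀)).map (fun i => rT Q (t i))).prod := ⟨_, rfl⟩
  have hsE : s ∈ EG Q := by
    have h1 := prod_refl_mem_EG hQ hn (c := (-1 : F)) (neg_ne_zero.mpr one_ne_zero) ((List.finRange (finrank F W₀)).map t) (by
      intro x hx
      obtain ⟨i, -, rfl⟩ := List.mem_map.mp hx
      exact htQ i) (by simpa using hev)
    rw [List.map_map] at h1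
    rw [hs]
    exact h1
  have hse : ∀ j, s (e j) = f j := by
    intro j
    have := (hbeh _ (List.nodup_finRange _) j).1
    rw [if_pos (List.mem_finRange j), ← hs] at this
    exact this
  have hsf : ∀ j, s (f j) = e j := by
    intro j
    have := (hbeh _ (List.nodup_finRange _) j).2
    rw [if_pos (List.mem_finRange j), ← hs] at this
    exact this
  refine ⟨s, hsE, ?_, ?_⟩
  · intro x hx
    have h1 : x = ∑ j, (b.repr ⟨x, hx⟩ j) • e j := by
      have h := congrArg W₀.subtype (b.sum_repr ⟨x, hx⟩)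
      rw [map_sum] at h
      simp only [map_smul, Submodule.subtype_apply] at h
      exact h.symm
    rw [h1, map_sum]
    apply Submodule.sum_mem
    intro j _
    rw [map_smul, hse]
    exact W₁.smul_mem _ (hfW j)
  · intro y hy
    obtain ⟨y', hy'⟩ : ∃ y', y' = y - ∑ j, 𝔹 y (e j) • f j := ⟨_, rfl⟩
    have hy'W : y' ∈ W₁ := by
      rw [hy']
      exact W₁.sub_mem hy (Submodule.sum_mem _ fun j _ => W₁.smul_mem _ (hfW j))
    have hy'e : ∀ i, 𝔹 y' (e i) = 0 := by
      intro i
      have e1 : 𝔹 y' (e i) = (QuadraticMap.polarBilin Q).flip (e i) y' := rfl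
      rw [e1, hy', map_sub, map_sum]
      have e2 : ∀ j, (QuadraticMap.polarBilin Q).flip (e i) (𝔹 y (e j) • f j) = 𝔹 y (e j) * (if i = j then 1 else 0) := by
        intro j
        rw [map_smul, smul_eq_mul]
        congr 1
        exact hfe j i
      simp only [e2, mul_ite, mul_one, mul_zero, Finset.sum_ite_eq, Finset.mem_univ, if_true]
      change 𝔹 y (e i) - _ = 0
      simp
    have hy'0 : y' = 0 := by
      have hm : y' ∈ perp Q W₀ := by
        rw [mem_perp]
        intro x hx
        have h1 : x = ∑ j, (b.repr ⟨x, hx⟩ j) • e j := by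
          have h := congrArg W₀.subtype (b.sum_repr ⟨x, hx⟩)
          rw [map_sum] at h
          simp only [map_smul, Submodule.subtype_apply] at h
          exact h.symm
        have e1 : 𝔹 x y' = (QuadraticMap.polarBilin Q).flip y' x := rfl
        rw [e1, h1, map_sum]
        apply Finset.sum_eq_zero
        intro j _
        rw [map_smul, smul_eq_mul]
        have e2 : (QuadraticMap.polarBilin Q).flip y' (e j) = 𝔹 (e j) y' := rfl
        rw [e2, pol_comm, hy'e, mul_zero]
      rw [hW₀.perp_eq hQ] at hm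
      exact lag_inf hdis hm hy'W
    have hy2 : y = ∑ j, 𝔹 y (e j) • f j := by
      rw [hy'] at hy'0
      exact sub_eq_zero.mp hy'0
    rw [hy2, map_sum]
    apply Submodule.sum_mem
    intro j _
    rw [map_smul, hsf]
    exact W₀.smul_mem _ (heW j)

/-- Maximality of the stabiliser of a pair of complementary maximal totally singular subspaces of even dimension. -/
theorem lag_isMaximalIn [Finite F] (hQ : (QuadraticMap.polarBilin Q).Nondegenerate) (D : Fin 2 → Submodule F V) (hA : MaxTS Q (D 0)) (hB : MaxTS Q (D 1))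
    (hdis : D 0 ⊓ D 1 = ⊥) (hk : 8 ≤ finrank F (D 0)) (hev : Even (finrank F (D 0))) :
    Cfsg.Geo.IsMaximalIn (EG Q) (decStab D ⊓ EG Q) := by
  have hdim := hA.dim
  have hdim' := hB.dim
  have hfr : finrank F (D 0) = finrank F (D 1) := hA.finrank_eq hB
  have hdis' : D 1 ⊓ D 0 = ⊥ := by rw [inf_comm]; exact hdis
  have hmapeq : ∀ (g : V ≃ₗ[F] V) (i j : Fin 2), (∀ x ∈ D i, g x ∈ D j) → (D i).map (g : V →ₗ[F] V) = D j := by
    intro g i j h
    apply Submodule.eq_of_le_of_finrank_eq
    · rintro _ ⟨x, hx, rfl⟩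
      exact h x hx
    · rw [LinearEquiv.finrank_map_eq g]
      have h0 : ∀ l : Fin 2, finrank F (D l) = finrank F (D 0) := by
        intro l
        fin_cases l
        · rfl
        · exact hfr.symm
      rw [h0 i, h0 j]
  have hstab : ∀ g : V ≃ₗ[F] V, (∀ x ∈ D 0, g x ∈ D 0) → (∀ x ∈ D 1, g x ∈ D 1) → g ∈ decStab D := by
    intro g h0 h1
    refine ⟨1, fun i => ?_⟩
    fin_cases i
    · exact hmapeq g 0 0 h0
    · exact hmapeq g 1 1 h1
  have hswapmem : ∀ g : V ≃ₗ[F] V, (∀ x ∈ D 0, g x ∈ D 1) → (∀ x ∈ D 1, g x ∈ D 0) → g ∈ decStab D := by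
    intro g h0 h1
    refine ⟨Equiv.swap 0 1, fun i => ?_⟩
    fin_cases i
    · have : (Equiv.swap (0 : Fin 2) 1) 0 = 1 := by simp
      change (D 0).map _ = D ((Equiv.swap (0 : Fin 2) 1) 0)
      rw [this]
      exact hmapeq g 0 1 h0
    · have : (Equiv.swap (0 : Fin 2) 1) 1 = 0 := by simp
      change (D 1).map _ = D ((Equiv.swap (0 : Fin 2) 1) 1)
      rw [this]
      exact hmapeq g 1 0 h1
  constructor
  · refine lt_of_le_of_ne inf_le_right ?_
    intro heq
    have hA0 : D 0 ≠ ⊥ := by
      intro h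
      rw [h, finrank_bot] at hk
      omega
    obtain ⟨a, ha, ha0⟩ := Submodule.exists_mem_ne_zero_of_ne_bot hA0
    obtain ⟨a', ha', ha'N⟩ := exists_not_mem_span (T := D 0) (by omega) a
    have hsp : Submodule.span F {a} ≤ D 0 := by rwa [Submodule.span_singleton_le_iff_mem]
    obtain ⟨y, hy, hya', hyS⟩ := lag_sep hQ hB hdis hsp ha' ha'N
    have hya := hyS a (Submodule.mem_span_singleton_self a)
    have haa' : 𝔹 a a' = 0 := ts_polar hA.ts ha ha'
    have h1 : sE Q a a' ∈ decStab D ⊓ EG Q := by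
      rw [heq]
      exact sE_mem_EG _ _
    obtain ⟨⟨σ, hσ⟩, -⟩ := h1
    have hS := sE_mem_linStab_of_mem hA.ts ha haa'
    have hm0 : (D 0).map ((sE Q a a' : V ≃ₗ[F] V) : V →ₗ[F] V) = D 0 := hmapeq _ 0 0 (fun x hx => (hS x).mp hx)
    have hs : σ 0 = 0 := by
      by_contra hs
      have hs' : σ 0 = 1 := by
        have := (σ 0).2
        apply Fin.ext
        have h3 : (σ 0).1 ≠ 0 := fun h => hs (Fin.ext h)
        change (σ 0).1 = 1
        omega
      have h2 := hσ 0
      rw [hs', hm0] at h2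
      rw [h2, inf_idem] at hdis
      exact hA0 (h2.trans hdis)
    have hs1 : σ 1 = 1 := by
      have h3 : σ 1 ≠ 0 := by
        intro h
        have : σ 1 = σ 0 := by rw [h, hs]
        have h4 := σ.injective this
        exact absurd h4 (by decide)
      have := (σ 1).2
      apply Fin.ext
      have h4 : (σ 1).1 ≠ 0 := fun h => h3 (Fin.ext h)
      change (σ 1).1 = 1
      omega
    have h2 := hσ 1
    rw [hs1] at h2
    have h3 : sE Q a a' y ∈ D 1 := by
      rw [← h2]
      exact ⟨y, hy, rfl⟩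
    have hay : 𝔹 a y = 0 := by rw [pol_comm]; exact hya
    have ha'y : 𝔹 a' y = 1 := by rw [pol_comm]; exact hya'
    rw [sE_apply (hA.ts a ha) haa', ha'y, hay] at h3
    apply ha0
    apply lag_inf hdis ha
    have e : a = (y + (1 : F) • a - (0 : F) • a' - (Q a' * 0) • a) - y := by simp
    rw [e]
    exact Submodule.sub_mem _ h3 hy
  · intro M h1 h2
    by_cases hM : M ≤ decStab D
    · left
      exact le_antisymm (le_inf hM h2) h1
    · right
      apply le_antisymm h2
      obtain ⟨g, hg, hgN⟩ := SetLike.not_le_iff_exists.mp hM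
      have hst : ∀ g ∈ EG Q, (∀ x ∈ D 0, g x ∈ D 0) → (∀ x ∈ D 1, g x ∈ D 1) → g ∈ M := fun g hg h0 h1' => h1 ⟨hstab g h0 h1', hg⟩
      have hst' : ∀ g ∈ EG Q, (∀ x ∈ D 1, g x ∈ D 1) → (∀ x ∈ D 0, g x ∈ D 0) → g ∈ M := fun g hg h0 h1' => hst g hg h1' h0
      have hfn : 4 ≤ finrank F V := by omega
      obtain ⟨s, hsE, hs0, hs1⟩ := exists_lag_swap hQ hfn hA hB hdis hev
      have hsM : s ∈ M := h1 ⟨hswapmem s hs0 hs1, hsE⟩
      -- the element cannot map both halves into one
      have hnot : ∀ i : Fin 2, ¬ ((∀ x ∈ D 0, g x ∈ D i) ∧ (∀ x ∈ D 1, g x ∈ D i)) := by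
        rintro i ⟨h3, h4⟩
        have h5 : ∀ v, g v ∈ D i := by
          intro v
          obtain ⟨a, ha, b, hb, rfl⟩ := lag_dec hA hB hdis v
          rw [map_add]
          exact Submodule.add_mem _ (h3 a ha) (h4 b hb)
        have h6 : D i = ⊤ := by
          rw [eq_top_iff]
          intro v _
          have := h5 (g.symm v)
          simpa using this
        have h7 : finrank F (D i) = finrank F (D 0) := by
          fin_cases i
          · rfl
          · exact hfr.symm
        rw [h6, finrank_top] at h7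
        omega
      by_cases hc0 : ∀ x ∈ D 0, g x ∈ D 0
      · have h3 : ¬ ∀ x ∈ D 1, g x ∈ D 1 := fun h => hgN (hstab g hc0 h)
        have h4 : ¬ ∀ x ∈ D 1, g x ∈ D 0 := fun h => hnot 0 ⟨hc0, h⟩
        exact lag_core hQ hB hA hdis' (by omega) h2 hst' hsM hs1 hs0 hg h3 h4
      by_cases hc1 : ∀ x ∈ D 0, g x ∈ D 1
      · have h3 : ¬ ∀ x ∈ D 1, g x ∈ D 1 := fun h => hnot 1 ⟨hc1, h⟩
        have h4 : ¬ ∀ x ∈ D 1, g x ∈ D 0 := fun h => hgN (hswapmem g hc1 h)
        exact lag_core hQ hB hA hdis' (by omega) h2 hst' hsM hs1 hs0 hg h3 h4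
      exact lag_core hQ hA hB hdis hk h2 hst hsM hs0 hs1 hg hc0 hc1

end lag

section bridge

variable {F : Type*} [Field F] {ι : Type} [Fintype ι] [DecidableEq ι]

theorem omega_lag_pair_isMaximalIn [Fintype F] {Q : (ι → F) → F} (hQ : Cfsg.Geo.IsNondegenerateQuadraticForm Q)
    {k : ℕ} (hk : 2 * k = Fintype.card ι) (hk8 : 8 ≤ k) (hke : Even k) (D : Fin 2 → Submodule F (ι → F)) (hD : Cfsg.Geo.IsMDecomposition k D)
    (hts : ∀ i, Cfsg.Geo.IsTotallySingularQuad Q (D i)) :
    Cfsg.Geo.IsMaximalIn (Cfsg.Geo.omegaGL Q) (Cfsg.Geo.decompositionStabilizer D ⊓ Cfsg.Geo.omegaGL Q) := by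
  have hnd := mkQ_nondeg hQ
  have hfr : finrank F (ι → F) = Fintype.card ι := by simp
  refine isMaximalIn_omega_of (mkQ hQ) hnd (by omega) (Or.inr (by omega)) _ ?_
  rw [map_decompositionStabilizer]
  have h0 := hD.finrank_eq 0
  have h1 := hD.finrank_eq 1
  refine lag_isMaximalIn hnd D ⟨hts 0, by omega⟩ ⟨hts 1, by omega⟩ ?_ (by omega) (by rwa [h0])
  have := hD.indep.pairwiseDisjoint (by decide : (0 : Fin 2) ≠ 1)
  exact this.eq_bot

end bridge

end CfsgLib.ClassGeo.Orth
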