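import Mathlib
import Cfsg.Agent.Lib.ClassGeo.ONot

set_option autoImplicit false
set_option linter.unusedSimpArgs false
set_option linter.unusedVariables false
set_option linter.unusedSectionVars false

namespace CfsgLib.ClassGeo.Orth

open Module CfsgLib.ClassGeo
open scoped commutatorElement

section nd

variable {F V : Type*} [Field F] [AddCommGroup V] [Module F V] [FiniteDimensional F V]
variable {Q : QuadraticForm F V}

local notation "𝔹" => QuadraticMap.polar (DFunLike.coe Q)

theorem exists_sqrt_char_two [Finite F] (h2 : (2 : F) = 0) (a : F) : ∃ b : F, b * b = a := by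
  classical
  haveI := Fintype.ofFinite F
  have hc : ringChar F = 2 := by
    haveI : CharP F 2 := CharTwo.of_one_ne_zero_of_two_eq_zero one_ne_zero h2
    exact ringChar.eq F 2
  obtain ⟨b, hb⟩ := FiniteField.isSquare_of_char_two hc a
  exact ⟨b, hb.symm⟩

/-- In characteristic two, a vector orthogonal to a non-singular vector `v` can be made singular. -/
theorem exists_make_singular [Finite F] (h2 : (2 : F) = 0) {v a : V} (hv : Q v ≠ 0) (hav : 𝔹 a v = 0) : ∃ l : F, Q (a + l • v) = 0 := by
  obtain ⟨l, hl⟩ := exists_sqrt_char_two h2 (Q a / Q v)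
  refine ⟨l, ?_⟩
  rw [q_add, q_smul, QuadraticMap.polar_smul_right, hav, smul_zero, add_zero]
  have e : l * l * Q v = Q a := by
    rw [hl]
    field_simp
  have e2 : l ^ 2 * Q v = Q a := by rw [← e]; ring
  rw [e2]
  linear_combination (Q a) * h2

theorem nonsing_line_overgroup [Finite F] (hQ : (QuadraticMap.polarBilin Q).Nondegenerate) (hn : 7 ≤ finrank F V) (h2 : (2 : F) = 0) {v : V} (hv : Q v ≠ 0)
    {M : Subgroup (V ≃ₗ[F] V)} (hM : M ≤ EG Q) (hH : linStab (Submodule.span F {v}) ⊓ EG Q ≤ M) (hNot : ¬ M ≤ linStab (Submodule.span F {v})) : EG Q ≤ M := by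
  have hv0 : v ≠ 0 := by
    rintro rfl
    exact hv q_zero
  have hvv : 𝔹 v v = 0 := by rw [pol_self, h2, zero_mul]
  have hMO : M ≤ quadIsomGroup Q := hM.trans EG_le
  -- root elements inside the stabiliser
  have hrootH : ∀ a z, Q a = 0 → 𝔹 a v = 0 → 𝔹 z v = 0 → 𝔹 a z = 0 → sE Q a z ∈ M := by
    intro a z haQ hav hzv haz
    apply hH
    refine ⟨?_, sE_mem_EG _ _⟩
    apply mem_linStab_of_le
    intro x hx
    obtain ⟨c, rfl⟩ := Submodule.mem_span_singleton.mp hx
    rw [map_smul, sE_apply haQ haz, hzv, hav]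
    simp only [zero_smul, mul_zero, add_zero, sub_zero]
    exact Submodule.smul_mem _ _ (Submodule.mem_span_singleton_self v)
  have hsmul : ∀ c : F, c ≠ 0 → Q (c • v) ≠ 0 := by
    intro c hc
    rw [q_smul]
    exact mul_ne_zero (pow_ne_zero 2 hc) hv
  have hnotspan : ∀ y : V, Q y = 0 → y ≠ 0 → y ∉ Submodule.span F {v} := by
    intro y hy hy0 hm
    obtain ⟨c, rfl⟩ := Submodule.mem_span_singleton.mp hm
    have hc : c ≠ 0 := by
      rintro rfl
      simp at hy0
    exact hsmul c hc hy
  obtain ⟨g, hg, hgN⟩ := SetLike.not_le_iff_exists.mp hNot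
  have hgO := hMO hg
  have hgq : ∀ x, Q (g x) = Q x := hgO
  have hgB := isom_polar hgO
  obtain ⟨w, hw⟩ : ∃ w, w = g v := ⟨_, rfl⟩
  have hwN : w ∉ Submodule.span F {v} := by
    intro h
    apply hgN
    apply mem_linStab_of_le
    intro x hx
    obtain ⟨c, rfl⟩ := Submodule.mem_span_singleton.mp hx
    rw [map_smul, ← hw]
    exact Submodule.smul_mem _ _ h
  -- root elements inside the conjugate stabiliser
  have hrootH' : ∀ a z, Q a = 0 → 𝔹 a w = 0 → 𝔹 z w = 0 → 𝔹 a z = 0 → sE Q a z ∈ M := by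
    intro a z haQ haw hzw haz
    have h1 : g (g.symm a) = a := by simp
    have h3 : g (g.symm z) = z := by simp
    have ha' : Q (g.symm a) = 0 := by rw [← hgq, h1, haQ]
    have haz' : 𝔹 (g.symm a) (g.symm z) = 0 := by rw [← hgB, h1, h3, haz]
    have hav' : 𝔹 (g.symm a) v = 0 := by rw [← hgB, h1, ← hw, haw]
    have hzv' : 𝔹 (g.symm z) v = 0 := by rw [← hgB, h3, ← hw, hzw]
    have h4 := sE_conj g hgO ha' haz'
    rw [h1, h3] at h4
    rw [← h4]
    exact M.mul_mem (M.mul_mem hg (hrootH _ _ ha' hav' hzv' haz')) (M.inv_mem hg)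
  -- a singular vector in `v^⊥ ∩ w^⊥`
  have hRd := finrank_span_pair_le (F := F) v w
  have hSd := finrank_add_perp hQ (Submodule.span F {v, w})
  obtain ⟨u, hu, huN, huQ⟩ := exists_singular_not_mem (Q := Q) (perp Q (Submodule.span F {v, w})) (Submodule.span F {v, w}) (by omega)
  have hvu : 𝔹 v u = 0 := mem_perp.mp hu v (Submodule.subset_span (by simp))
  have hwu : 𝔹 w u = 0 := mem_perp.mp hu w (Submodule.subset_span (by simp))
  have huv : 𝔹 u v = 0 := by rw [pol_comm]; exact hvu
  have huw : 𝔹 u w = 0 := by rw [pol_comm]; exact hwu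
  have hu0 : u ≠ 0 := by
    rintro rfl
    exact huN (Submodule.zero_mem _)
  have hvN : v ∉ Submodule.span F {u, w} := by
    intro h
    obtain ⟨α, β, h3⟩ := Submodule.mem_span_pair.mp h
    by_cases hα : α = 0
    · rw [hα, zero_smul, zero_add] at h3
      apply hwN
      have hβ : β ≠ 0 := by
        rintro rfl
        rw [zero_smul] at h3
        exact hv0 h3.symm
      have e : w = β⁻¹ • v := by
        rw [← h3, smul_smul, inv_mul_cancel₀ hβ, one_smul]
      rw [e]
      exact Submodule.smul_mem _ _ (Submodule.mem_span_singleton_self v)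
    · apply huN
      have e : u = α⁻¹ • v - (α⁻¹ * β) • w := by
        rw [← h3]
        rw [smul_add, smul_smul, smul_smul, inv_mul_cancel₀ hα, one_smul]
        abel
      rw [e]
      exact Submodule.sub_mem _ (Submodule.smul_mem _ _ (Submodule.subset_span (by simp))) (Submodule.smul_mem _ _ (Submodule.subset_span (by simp)))
  obtain ⟨z', hz'v, hz'S⟩ := exists_sep (Q := Q) hQ _ hvN
  have hz'u := hz'S u (Submodule.subset_span (by simp))
  have hz'w := hz'S w (Submodule.subset_span (by simp))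
  have huz' : 𝔹 u z' = 0 := by rw [pol_comm]; exact hz'u
  -- `u` lies in the set of good singular vectors
  have hU : u ∈ SSet Q M := by
    refine ⟨huQ, fun z huz => ?_⟩
    obtain ⟨c, hc⟩ : ∃ c, c = 𝔹 z v := ⟨_, rfl⟩
    have h3 : sE Q u (c • z') ∈ M := by
      apply hrootH' u _ huQ huw
      · rw [QuadraticMap.polar_smul_left, hz'w]; simp
      · rw [QuadraticMap.polar_smul_right, huz']; simp
    have h4 : sE Q u (z - c • z') ∈ M := by
      apply hrootH u _ huQ huv
      · rw [QuadraticMap.polar_sub_left, QuadraticMap.polar_smul_left, hz'v, ← hc]; simp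
      · rw [QuadraticMap.polar_sub_right, QuadraticMap.polar_smul_right, huz', huz]; simp
    have e : sE Q u (z - c • z') * sE Q u (c • z') = sE Q u z := by
      rw [sE_mul huQ (by rw [QuadraticMap.polar_sub_right, QuadraticMap.polar_smul_right, huz', huz]; simp) (by rw [QuadraticMap.polar_smul_right, huz']; simp)]
      congr 1
      abel
    rw [← e]
    exact M.mul_mem h4 h3
  -- separating vectors inside `v^⊥`
  have hsep : ∀ y : V, y ∉ Submodule.span F {v} → ∃ x, 𝔹 x y = 1 ∧ 𝔹 x v = 0 := by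
    intro y hy
    obtain ⟨x, h3, h4⟩ := exists_sep (Q := Q) hQ _ hy
    exact ⟨x, h3, h4 v (Submodule.mem_span_singleton_self v)⟩
  have hT : ∀ y, Q y = 0 → 𝔹 y v = 0 → y ∈ SSet Q M := by
    intro y hyQ hyv
    by_cases hy0 : y = 0
    · have := SSet.smul hU (0 : F)
      rwa [zero_smul, ← hy0] at this
    have hyN := hnotspan y hyQ hy0
    have huN' := hnotspan u huQ hu0
    obtain ⟨x₁, hx₁u, hx₁v⟩ := hsep u huN'
    obtain ⟨x₂, hx₂y, hx₂v⟩ := hsep y hyN
    obtain ⟨x₃, hx₃v, hx₃u, hx₃y⟩ : ∃ x₃, 𝔹 x₃ v = 0 ∧ 𝔹 x₃ u ≠ 0 ∧ 𝔹 x₃ y ≠ 0 := by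
      by_cases h3 : 𝔹 x₁ y = 0
      · by_cases h4 : 𝔹 x₂ u = 0
        · refine ⟨x₁ + x₂, ?_, ?_, ?_⟩
          · rw [QuadraticMap.polar_add_left, hx₁v, hx₂v, add_zero]
          · rw [QuadraticMap.polar_add_left, hx₁u, h4, add_zero]
            exact one_ne_zero
          · rw [QuadraticMap.polar_add_left, h3, hx₂y, zero_add]
            exact one_ne_zero
        · refine ⟨x₂, hx₂v, h4, ?_⟩
          rw [hx₂y]
          exact one_ne_zero
      · refine ⟨x₁, hx₁v, ?_, h3⟩
        rw [hx₁u]
        exact one_ne_zero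
    obtain ⟨l, hl⟩ := exists_make_singular h2 hv hx₃v
    obtain ⟨a, ha⟩ : ∃ a, a = x₃ + l • v := ⟨_, rfl⟩
    rw [← ha] at hl
    have hav : 𝔹 a v = 0 := by
      rw [ha, QuadraticMap.polar_add_left, QuadraticMap.polar_smul_left, hx₃v, hvv]
      simp
    have hau : 𝔹 a u = 𝔹 x₃ u := by
      rw [ha, QuadraticMap.polar_add_left, QuadraticMap.polar_smul_left, hvu]
      simp
    have hay : 𝔹 a y = 𝔹 x₃ y := by
      have hvy : 𝔹 v y = 0 := by rw [pol_comm]; exact hyv
      rw [ha, QuadraticMap.polar_add_left, QuadraticMap.polar_smul_left, hvy]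
      simp
    apply sset_move' hMO hl hU hyQ (by rw [hau]; exact hx₃u) (by rw [hay]; exact hx₃y)
    apply hrootH _ _ hl hav
    · rw [QuadraticMap.polar_sub_left, QuadraticMap.polar_smul_left, QuadraticMap.polar_smul_left, huv, hyv]
      simp
    · rw [QuadraticMap.polar_sub_right, QuadraticMap.polar_smul_right, QuadraticMap.polar_smul_right, smul_eq_mul, smul_eq_mul,
        inv_mul_cancel₀ (by rw [hau]; exact hx₃u), inv_mul_cancel₀ (by rw [hay]; exact hx₃y), sub_self]
  apply EG_le_of_SSet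
  intro y hyQ
  by_cases hyv : 𝔹 y v = 0
  · exact hT y hyQ hyv
  have hvy : 𝔹 v y ≠ 0 := by rwa [pol_comm]
  -- a partner of `u` inside `v^⊥`
  obtain ⟨x₁, hx₁u, hx₁v⟩ := hsep u (hnotspan u huQ hu0)
  obtain ⟨l₁, hl₁⟩ := exists_make_singular h2 hv hx₁v
  obtain ⟨b, hb⟩ : ∃ b, b = x₁ + l₁ • v := ⟨_, rfl⟩
  rw [← hb] at hl₁
  have hbv : 𝔹 b v = 0 := by
    rw [hb, QuadraticMap.polar_add_left, QuadraticMap.polar_smul_left, hx₁v, hvv]
    simp
  have hbu : 𝔹 b u = 1 := by
    rw [hb, QuadraticMap.polar_add_left, QuadraticMap.polar_smul_left, hvu, hx₁u]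
    simp
  have hub : 𝔹 u b = 1 := by rw [pol_comm]; exact hbu
  have hB := hT b hl₁ hbv
  by_cases h1 : 𝔹 u y = 0
  · by_cases h3 : 𝔹 b y = 0
    · have hne : Q (u + b) ≠ 0 := by
        rw [q_add, huQ, hl₁, hub]
        simp
      obtain ⟨l, hl⟩ := exists_make_singular h2 hv (a := u + b) (by rw [QuadraticMap.polar_add_left, huv, hbv, add_zero])
      have hl0 : l ≠ 0 := by
        rintro rfl
        rw [zero_smul, add_zero] at hl
        exact hne hl
      obtain ⟨a, ha⟩ : ∃ a, a = u + b + l • v := ⟨_, rfl⟩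
      rw [← ha] at hl
      have hav : 𝔹 a v = 0 := by
        rw [ha, QuadraticMap.polar_add_left, QuadraticMap.polar_add_left, QuadraticMap.polar_smul_left, huv, hbv, hvv]
        simp
      have hau : 𝔹 a u = 1 := by
        have huu : 𝔹 u u = 0 := by rw [pol_self, huQ]; ring
        rw [ha, QuadraticMap.polar_add_left, QuadraticMap.polar_add_left, QuadraticMap.polar_smul_left, huu, hbu, hvu]
        simp
      have hay : 𝔹 a y ≠ 0 := by
        rw [ha, QuadraticMap.polar_add_left, QuadraticMap.polar_add_left, QuadraticMap.polar_smul_left, h1, h3]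
        simp only [add_zero, zero_add, smul_eq_mul]
        exact mul_ne_zero hl0 hvy
      exact sset_move hMO (hT a hl hav) hU hyQ (by rw [hau]; exact one_ne_zero) hay
    · exact sset_move hMO hB hU hyQ (by rw [hbu]; exact one_ne_zero) h3
  · exact sset_move hMO hU hB hyQ (by rw [hub]; exact one_ne_zero) h1

theorem nonsing_line_isMaximalIn [Finite F] (hQ : (QuadraticMap.polarBilin Q).Nondegenerate) (hn : 7 ≤ finrank F V) (h2 : (2 : F) = 0) {v : V} (hv : Q v ≠ 0) :
    Cfsg.Geo.IsMaximalIn (EG Q) (linStab (Submodule.span F {v}) ⊓ EG Q) := by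
  have hv0 : v ≠ 0 := by
    rintro rfl
    exact hv q_zero
  constructor
  · refine lt_of_le_of_ne inf_le_right ?_
    intro heq
    -- a singular vector not orthogonal to `v`
    have hYnd : NdSub Q ⊤ := by
      intro x _ h
      exact hQ.1 x (fun y => h y trivial)
    obtain ⟨e₀, -, f₀, -, he₀, hf₀, he₀f₀, -, -⟩ := hyp_in hQ hYnd ⊥ bot_le (by simp; omega)
    obtain ⟨e, heQ, hev⟩ : ∃ e, Q e = 0 ∧ 𝔹 e v ≠ 0 := by
      by_contra hc
      push Not at hc
      have hle := span_singular (S := ⊤) (T := perp Q (Submodule.span F {v})) (e := e₀) (f := f₀) trivial trivial he₀ hf₀ he₀f₀ (by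
        intro u _ hu
        rw [mem_perp]
        intro w hw
        obtain ⟨c, rfl⟩ := Submodule.mem_span_singleton.mp hw
        rw [QuadraticMap.polar_smul_left, pol_comm, hc u hu]
        simp)
      apply hv0
      apply hQ.1
      intro y
      have := hle (Submodule.mem_top (x := y))
      exact mem_perp.mp this v (Submodule.mem_span_singleton_self v)
    have he0 : e ≠ 0 := by
      rintro rfl
      rw [QuadraticMap.polar_zero_left] at hev
      exact hev rfl
    have hd1 := finrank_add_perp hQ (Submodule.span F {e})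
    rw [finrank_span_singleton he0] at hd1
    have hd2 := finrank_span_pair_le (F := F) e v
    obtain ⟨z, hz, hzN, -⟩ := exists_singular_not_mem (Q := Q) (perp Q (Submodule.span F {e})) (Submodule.span F {e, v}) (by omega)
    have hez : 𝔹 e z = 0 := mem_perp.mp hz e (Submodule.mem_span_singleton_self e)
    have h1 : sE Q e z ∈ linStab (Submodule.span F {v}) ⊓ EG Q := by
      rw [heq]
      exact sE_mem_EG _ _
    have h3 := (h1.1 v).mp (Submodule.mem_span_singleton_self v)
    rw [sE_apply heQ hez] at h3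
    obtain ⟨c, hc⟩ := Submodule.mem_span_singleton.mp h3
    apply hzN
    have e1 : z = (𝔹 e v)⁻¹ • ((1 - c) • v + (𝔹 z v - Q z * 𝔹 e v) • e) := by
      have e2 : (𝔹 e v) • z = (1 - c) • v + (𝔹 z v - Q z * 𝔹 e v) • e := by
        have e3 : c • v = v + 𝔹 z v • e - 𝔹 e v • z - (Q z * 𝔹 e v) • e := hc
        have e4 : (1 - c) • v = v - c • v := by module
        rw [e4, e3]
        module
      rw [← e2, smul_smul, inv_mul_cancel₀ hev, one_smul]
    rw [e1]
    exact Submodule.smul_mem _ _ (Submodule.add_mem _ (Submodule.smul_mem _ _ (Submodule.subset_span (by simp))) (Submodule.smul_mem _ _ (Submodule.subset_span (by simp))))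
  · intro M h1 h3
    by_cases hM : M ≤ linStab (Submodule.span F {v})
    · left
      exact le_antisymm (le_inf hM h3) h1
    · right
      exact le_antisymm h3 (nonsing_line_overgroup hQ hn h2 hv h3 h1 hM)

end nd

section bridge

variable {F : Type*} [Field F] {ι : Type} [Fintype ι] [DecidableEq ι]

theorem omega_line_isMaximalIn [Fintype F] {Q : (ι → F) → F} (hQ : Cfsg.Geo.IsNondegenerateQuadraticForm Q)
    (hn : 7 ≤ Fintype.card ι) (h2 : (2 : F) = 0) {v : ι → F} (hv : Q v ≠ 0) :
    Cfsg.Geo.IsMaximalIn (Cfsg.Geo.omegaGL Q) (Cfsg.Geo.subspaceStabilizer (Submodule.span F {v}) ⊓ Cfsg.Geo.omegaGL Q) := by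
  have hnd := mkQ_nondeg hQ
  have hfr : finrank F (ι → F) = Fintype.card ι := by simp
  refine isMaximalIn_omega_of (mkQ hQ) hnd (by omega) (Or.inr (by omega)) _ ?_
  rw [map_subspaceStabilizer]
  exact nonsing_line_isMaximalIn hnd (by omega) h2 hv

end bridge

end CfsgLib.ClassGeo.Orth
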