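import Mathlib
import Cfsg.Agent.Lib.ClassGeo.Basic
import Cfsg.Agent.Lib.ClassGeo.SLGen
import Cfsg.Agent.Lib.ClassGeo.USimple
import Cfsg.Agent.Lib.H9.PSLSimple

/-! `PSL₂(7) ≃ PSL₃(2)` through the extended Hamming code of length `8`. -/

set_option autoImplicit false
set_option linter.unusedSimpArgs false
set_option linter.unusedVariables false
set_option linter.unusedSectionVars false

namespace CfsgLib.ClassGeo.PSL27

open Matrix

instance fact_prime_seven : Fact (Nat.Prime 7) := ⟨by norm_num⟩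

/-- Projective congruence. -/
theorem psl_congr {n : ℕ} {R S : Type*} [Field R] [Field S] (e : R ≃+* S) :
    Nonempty (ProjectiveSpecialLinearGroup (Fin n) R ≃* ProjectiveSpecialLinearGroup (Fin n) S) := by
  let φ : SpecialLinearGroup (Fin n) R →* SpecialLinearGroup (Fin n) S := SpecialLinearGroup.map e.toRingHom
  let ψ : SpecialLinearGroup (Fin n) S →* SpecialLinearGroup (Fin n) R := SpecialLinearGroup.map e.symm.toRingHom
  have h1 : ∀ g, ψ (φ g) = g := by
    intro g
    ext i j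
    simp [φ, ψ]
  have h2 : ∀ g, φ (ψ g) = g := by
    intro g
    ext i j
    simp [φ, ψ]
  let E : SpecialLinearGroup (Fin n) R ≃* SpecialLinearGroup (Fin n) S :=
    { toFun := φ, invFun := ψ, left_inv := h1, right_inv := h2, map_mul' := φ.map_mul }
  exact ⟨QuotientGroup.congr _ _ E (map_center_of_equiv E)⟩

/-- Points of the projective line. -/
def vx (p : Fin 8) : ZMod 7 := if p.1 = 7 then 1 else (p.1 : ZMod 7)
def vy (p : Fin 8) : ZMod 7 := if p.1 = 7 then 0 else 1

/-- The label of a point. -/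
def lab (u v : ZMod 7) : Fin 8 :=
  if v = 0 then 7 else ⟨(u * v ^ 5).val, lt_of_lt_of_le (ZMod.val_lt _) (by norm_num)⟩

set_option maxRecDepth 100000 in
theorem lab_scale : ∀ c u v : ZMod 7, c ≠ 0 → lab (c * u) (c * v) = lab u v := by decide

set_option maxRecDepth 100000 in
theorem lab_vec : ∀ p : Fin 8, lab (vx p) (vy p) = p := by decide

set_option maxRecDepth 100000 in
theorem vec_lab : ∀ u v : ZMod 7, (u ≠ 0 ∨ v ≠ 0) → ∃ c : ZMod 7, c ≠ 0 ∧ u = c * vx (lab u v) ∧ v = c * vy (lab u v) := by decide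

set_option maxRecDepth 100000 in
theorem vec_ne : ∀ p : Fin 8, vx p ≠ 0 ∨ vy p ≠ 0 := by decide

/-- Action on points. -/
def act (g : SpecialLinearGroup (Fin 2) (ZMod 7)) (p : Fin 8) : Fin 8 :=
  lab (g 0 0 * vx p + g 0 1 * vy p) (g 1 0 * vx p + g 1 1 * vy p)

theorem ne_of_act (g : SpecialLinearGroup (Fin 2) (ZMod 7)) (p : Fin 8) :
    (g 0 0 * vx p + g 0 1 * vy p ≠ 0) ∨ (g 1 0 * vx p + g 1 1 * vy p ≠ 0) := by
  by_contra h
  push Not at h
  have hd := g.2
  rw [Matrix.det_fin_two] at hd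
  have h1 : vx p = 0 := by
    linear_combination (g 1 1) * h.1 - (g 0 1) * h.2 - (vx p) * hd
  have h2 : vy p = 0 := by
    linear_combination (-(g 1 0)) * h.1 + (g 0 0) * h.2 - (vy p) * hd
  rcases vec_ne p with h3 | h3
  · exact h3 h1
  · exact h3 h2

theorem act_mul (g h : SpecialLinearGroup (Fin 2) (ZMod 7)) (p : Fin 8) : act (g * h) p = act g (act h p) := by
  obtain ⟨c, hc, h1, h2⟩ := vec_lab _ _ (ne_of_act h p)
  have e : act g (act h p) = lab (c * (g 0 0 * vx (act h p) + g 0 1 * vy (act h p))) (c * (g 1 0 * vx (act h p) + g 1 1 * vy (act h p))) := by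
    rw [lab_scale _ _ _ hc]; rfl
  rw [e]
  have hq : lab (h 0 0 * vx p + h 0 1 * vy p) (h 1 0 * vx p + h 1 1 * vy p) = act h p := rfl
  rw [hq] at h1 h2
  generalize act h p = q at h1 h2 ⊢
  unfold act
  have m0 : ∀ i j, (g * h) i j = g i 0 * h 0 j + g i 1 * h 1 j := by
    intro i j
    show (g.1 * h.1) i j = _
    rw [Matrix.mul_apply, Fin.sum_univ_two]
  rw [m0, m0, m0, m0]
  congr 1
  · linear_combination (g 0 0) * h1 + (g 0 1) * h2
  · linear_combination (g 1 0) * h1 + (g 1 1) * h2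

theorem act_one (p : Fin 8) : act 1 p = p := by
  unfold act
  simp [lab_vec]

theorem act_scalar (g : SpecialLinearGroup (Fin 2) (ZMod 7)) (r : ZMod 7) (hr : r ≠ 0)
    (hg : (g : Matrix (Fin 2) (Fin 2) (ZMod 7)) = Matrix.scalar (Fin 2) r) (p : Fin 8) : act g p = p := by
  unfold act
  rw [hg]
  simp only [Matrix.scalar_apply, Matrix.diagonal_apply]
  simp
  rw [lab_scale _ _ _ hr, lab_vec]

/-- Codewords. -/
def cw (i : Fin 3) (p : Fin 8) : ZMod 2 :=
  (![![0, 1, 1, 0, 1, 0, 0, 1], ![0, 0, 1, 1, 0, 1, 0, 1], ![0, 0, 0, 1, 1, 0, 1, 1]] : Fin 3 → Fin 8 → ZMod 2) i p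

def pa (j : Fin 3) : Fin 8 := 0
def pb (j : Fin 3) : Fin 8 := (![1, 5, 6] : Fin 3 → Fin 8) j

set_option maxRecDepth 100000 in
theorem dual : ∀ i j : Fin 3, cw i (pa j) + cw i (pb j) = if i = j then 1 else 0 := by decide

def wd (x y z w : ZMod 2) (p : Fin 8) : ZMod 2 := x * cw 0 p + y * cw 1 p + z * cw 2 p + w

/-- Preservation of the code. -/
def Pres (f : Fin 8 → Fin 8) : Prop :=
  ∀ x y z w : ZMod 2, ∃ x' y' z' w' : ZMod 2, ∀ p, wd x y z w (f p) = wd x' y' z' w' p

set_option maxRecDepth 100000 in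
theorem pres_up : ∀ a : ZMod 7, ∀ x y z w : ZMod 2, ∃ x' y' z' w' : ZMod 2, ∀ p,
    wd x y z w (lab (vx p + a * vy p) (vy p)) = wd x' y' z' w' p := by decide +kernel

set_option maxRecDepth 100000 in
theorem pres_down : ∀ a : ZMod 7, ∀ x y z w : ZMod 2, ∃ x' y' z' w' : ZMod 2, ∀ p,
    wd x y z w (lab (vx p) (a * vx p + vy p)) = wd x' y' z' w' p := by decide +kernel

theorem pres_act (g : SpecialLinearGroup (Fin 2) (ZMod 7)) : Pres (act g) := by
  induction g using CfsgLib.ClassGeo.SL_transvection_induction with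
  | htransvec i j hij a =>
    intro x y z w
    fin_cases i <;> fin_cases j <;> simp at hij
    · obtain ⟨x', y', z', w', h⟩ := pres_up a x y z w
      refine ⟨x', y', z', w', fun p => ?_⟩
      rw [← h p]
      unfold act
      simp [SpecialLinearGroup.transvection, Matrix.transvection, Matrix.single]
    · obtain ⟨x', y', z', w', h⟩ := pres_down a x y z w
      refine ⟨x', y', z', w', fun p => ?_⟩
      rw [← h p]
      unfold act
      simp [SpecialLinearGroup.transvection, Matrix.transvection, Matrix.single]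
  | hmul A B hA hB =>
    intro x y z w
    obtain ⟨x1, y1, z1, w1, h1⟩ := hA x y z w
    obtain ⟨x2, y2, z2, w2, h2⟩ := hB x1 y1 z1 w1
    refine ⟨x2, y2, z2, w2, fun p => ?_⟩
    rw [act_mul, h1, h2]

/-- The matrix of `g` on the code modulo the all-one vector. -/
def TT (g : SpecialLinearGroup (Fin 2) (ZMod 7)) : Matrix (Fin 3) (Fin 3) (ZMod 2) :=
  fun i j => cw i (act g (pa j)) + cw i (act g (pb j))

theorem two0 (w : ZMod 2) : w + w = 0 := by
  revert w; decide

theorem TT_mul (g h : SpecialLinearGroup (Fin 2) (ZMod 7)) : TT (g * h) = TT g * TT h := by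
  ext i j
  rw [Matrix.mul_apply, Fin.sum_univ_three]
  -- expansion of the image of the `i`-th word
  have hx : ∃ x y z w : ZMod 2, ∀ p, cw i (act g p) = wd x y z w p := by
    obtain ⟨x, y, z, w, h1⟩ := pres_act g (if i = 0 then 1 else 0) (if i = 1 then 1 else 0) (if i = 2 then 1 else 0) 0
    refine ⟨x, y, z, w, fun p => ?_⟩
    rw [← h1 p]
    fin_cases i <;> simp [wd]
  obtain ⟨x, y, z, w, h1⟩ := hx
  have h2 : ∀ k, TT g i k = (if 0 = k then x else 0) + (if 1 = k then y else 0) + (if 2 = k then z else 0) := by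
    intro k
    unfold TT
    rw [h1, h1]
    unfold wd
    have d0 := dual 0 k
    have d1 := dual 1 k
    have d2 := dual 2 k
    have e : x * cw 0 (pa k) + y * cw 1 (pa k) + z * cw 2 (pa k) + w + (x * cw 0 (pb k) + y * cw 1 (pb k) + z * cw 2 (pb k) + w)
        = x * (cw 0 (pa k) + cw 0 (pb k)) + y * (cw 1 (pa k) + cw 1 (pb k)) + z * (cw 2 (pa k) + cw 2 (pb k)) + (w + w) := by ring
    rw [e, d0, d1, d2, two0]
    split_ifs <;> simp
  rw [h2, h2, h2]
  show cw i (act (g * h) (pa j)) + cw i (act (g * h) (pb j)) = _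
  rw [act_mul, act_mul, h1, h1]
  unfold TT wd
  simp
  have e2 := two0 w
  linear_combination e2

theorem TT_one : TT 1 = 1 := by
  ext i j
  unfold TT
  rw [act_one, act_one, dual]
  simp [Matrix.one_apply]

/-- The homomorphism to the special linear group. -/
def TS : SpecialLinearGroup (Fin 2) (ZMod 7) →* SpecialLinearGroup (Fin 3) (ZMod 2) where
  toFun g := ⟨TT g, by
    have h1 : TT g * TT g⁻¹ = 1 := by rw [← TT_mul, mul_inv_cancel, TT_one]
    have h2 : (TT g).det * (TT g⁻¹).det = 1 := by rw [← Matrix.det_mul, h1, Matrix.det_one]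
    have h3 : ∀ a b : ZMod 2, a * b = 1 → a = 1 := by decide
    exact h3 _ _ h2⟩
  map_one' := by
    apply Subtype.ext
    exact TT_one
  map_mul' g h := by
    apply Subtype.ext
    exact TT_mul g h

theorem center_sl3 : Subgroup.center (SpecialLinearGroup (Fin 3) (ZMod 2)) = ⊥ := by
  rw [eq_bot_iff]
  intro A hA
  rw [Matrix.SpecialLinearGroup.mem_center_iff] at hA
  obtain ⟨r, hr, h⟩ := hA
  have h3 : ∀ r : ZMod 2, r ^ 3 = 1 → r = 1 := by decide
  have : r = 1 := h3 r (by simpa using hr)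
  rw [Subgroup.mem_bot]
  apply Subtype.ext
  rw [← h, this]
  simp

theorem TS_center (g : SpecialLinearGroup (Fin 2) (ZMod 7)) (hg : g ∈ Subgroup.center _) : TS g = 1 := by
  rw [Matrix.SpecialLinearGroup.mem_center_iff] at hg
  obtain ⟨r, hr, h⟩ := hg
  have hr0 : r ≠ 0 := by
    rintro rfl
    simp at hr
  apply Subtype.ext
  show TT g = 1
  rw [← TT_one]
  ext i j
  unfold TT
  rw [act_scalar g r hr0 h.symm, act_scalar g r hr0 h.symm, act_one, act_one]

/-- The induced homomorphism between projective groups. -/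
def PT : ProjectiveSpecialLinearGroup (Fin 2) (ZMod 7) →* ProjectiveSpecialLinearGroup (Fin 3) (ZMod 2) :=
  QuotientGroup.lift _ ((QuotientGroup.mk' _).comp TS) (by
    intro g hg
    show (QuotientGroup.mk' _) (TS g) = 1
    rw [TS_center g hg, map_one])

theorem PT_inj : Function.Injective PT := by
  have hs : ∃ x : ZMod 7, x ≠ 0 ∧ x ^ 2 ≠ 1 := ⟨2, by decide, by decide⟩
  haveI := CfsgLib.H9.PSLSimple.simple (F := ZMod 7) (n := 2) (Or.inr ⟨rfl, hs⟩)
  rcases IsSimpleGroup.eq_bot_or_eq_top_of_normal PT.ker inferInstance with h | h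
  · exact (MonoidHom.ker_eq_bot_iff _).1 h
  · exfalso
    let g0 : SpecialLinearGroup (Fin 2) (ZMod 7) := SpecialLinearGroup.transvection (i := 0) (j := 1) (by decide) 1
    have h1 : PT (QuotientGroup.mk g0) = 1 := by
      have : (QuotientGroup.mk g0 : ProjectiveSpecialLinearGroup (Fin 2) (ZMod 7)) ∈ PT.ker := by rw [h]; trivial
      exact this
    have h2 : (QuotientGroup.mk (TS g0) : ProjectiveSpecialLinearGroup (Fin 3) (ZMod 2)) = 1 := h1
    rw [QuotientGroup.eq_one_iff, center_sl3, Subgroup.mem_bot] at h2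
    have h3 : TT g0 = 1 := congrArg Subtype.val h2
    have h4 : TT g0 0 0 = 1 := by rw [h3]; simp
    have h5 : act g0 0 = 1 := by
      unfold act
      simp [g0, SpecialLinearGroup.transvection, Matrix.transvection, Matrix.single, vx, vy]
      decide
    have h6 : act g0 1 = 2 := by
      unfold act
      simp [g0, SpecialLinearGroup.transvection, Matrix.transvection, Matrix.single, vx, vy]
      decide
    unfold TT at h4
    simp only [pa, pb] at h4
    simp at h4
    rw [h5, h6] at h4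
    exact absurd h4 (by decide)

theorem main_std : Nonempty (ProjectiveSpecialLinearGroup (Fin 2) (ZMod 7) ≃* ProjectiveSpecialLinearGroup (Fin 3) (ZMod 2)) := by
  have c7 : Fintype.card (ZMod 7) = 7 := ZMod.card 7
  have c2 : Fintype.card (ZMod 2) = 2 := ZMod.card 2
  have h1 := q_sub_one_mul_card_SL c7 2 (by norm_num)
  have h2 := card_PSL_mul c7 2 (by norm_num)
  have h3 := q_sub_one_mul_card_SL c2 3 (by norm_num)
  have h4 := card_PSL_mul c2 3 (by norm_num)
  simp [Fin.prod_univ_two, Fin.prod_univ_three] at h1 h3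
  norm_num at h2 h4
  have hcard : Nat.card (ProjectiveSpecialLinearGroup (Fin 2) (ZMod 7)) = Nat.card (ProjectiveSpecialLinearGroup (Fin 3) (ZMod 2)) := by
    simp only [Nat.card_eq_fintype_card]
    omega
  haveI : Finite (ProjectiveSpecialLinearGroup (Fin 3) (ZMod 2)) := by
    unfold ProjectiveSpecialLinearGroup
    infer_instance
  have hbij : Function.Bijective PT := (Nat.bijective_iff_injective_and_card _).2 ⟨PT_inj, hcard⟩
  exact ⟨MulEquiv.ofBijective PT hbij⟩

theorem main {F K : Type*} [Field F] [Fintype F] [Field K] [Fintype K] (hF : Fintype.card F = 7) (hK : Fintype.card K = 2) :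
    Nonempty (ProjectiveSpecialLinearGroup (Fin 2) F ≃* ProjectiveSpecialLinearGroup (Fin 3) K) := by
  obtain ⟨e⟩ := main_std
  haveI : Fact (Nat.Prime 7) := ⟨by norm_num⟩
  haveI : Fact (Nat.Prime 2) := ⟨Nat.prime_two⟩
  have hF' : Fintype.card F = Nat.card F := by simp
  obtain ⟨e7⟩ : Nonempty (ZMod 7 ≃+* F) := ⟨ZMod.ringEquivOfPrime F (by norm_num) hF⟩
  obtain ⟨e2⟩ : Nonempty (ZMod 2 ≃+* K) := ⟨ZMod.ringEquivOfPrime K (by norm_num) hK⟩
  obtain ⟨a⟩ := psl_congr (n := 2) e7
  obtain ⟨b⟩ := psl_congr (n := 3) e2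
  exact ⟨a.symm.trans (e.trans b)⟩

end CfsgLib.ClassGeo.PSL27
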