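import Mathlib
import Cfsg.Prelude.Def_ClassicalGeometry

set_option autoImplicit false
set_option linter.unusedSimpArgs false
set_option linter.unusedVariables false

namespace CfsgLib.ClassGeo

open Matrix Cfsg

variable {F : Type*} [Field F]

/-- Index splitting. -/
def splitEquiv (n k : ℕ) (hk : k ≤ n) : Fin k ⊕ Fin (n - k) ≃ Fin n :=
  finSumFinEquiv.trans (finCongr (by omega))

theorem splitEquiv_inl (n k : ℕ) (hk : k ≤ n) (a : Fin k) : ((splitEquiv n k hk (Sum.inl a) : Fin n) : ℕ) = a := by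
  simp [splitEquiv]

theorem splitEquiv_inr (n k : ℕ) (hk : k ≤ n) (b : Fin (n - k)) : ((splitEquiv n k hk (Sum.inr b) : Fin n) : ℕ) = k + b := by
  simp [splitEquiv]

/-- The coordinate subspace of the first `k` coordinates. -/
def firstK (n k : ℕ) (F : Type*) [Field F] : Set (Fin n → F) := {v | ∀ i : Fin n, k ≤ (i : ℕ) → v i = 0}

theorem mem_firstK_iff (n k : ℕ) (hk : k ≤ n) (v : Fin n → F) :
    v ∈ firstK n k F ↔ (v ∘ splitEquiv n k hk) ∘ Sum.inr = 0 := by
  constructor
  · intro h
    ext b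
    apply h
    rw [splitEquiv_inr]
    omega
  · intro h i hi
    obtain ⟨x, rfl⟩ := (splitEquiv n k hk).surjective i
    rcases x with a | b
    · rw [splitEquiv_inl] at hi
      have := a.2
      omega
    · exact congrFun h b

/-- Block upper triangular matrix with given blocks. -/
def parMat (n k : ℕ) (hk : k ≤ n) (A : Matrix (Fin k) (Fin k) F) (D : Matrix (Fin (n - k)) (Fin (n - k)) F)
    (B : Matrix (Fin k) (Fin (n - k)) F) : Matrix (Fin n) (Fin n) F :=
  (fromBlocks A B 0 D).submatrix (splitEquiv n k hk).symm (splitEquiv n k hk).symm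

theorem parMat_det (n k : ℕ) (hk : k ≤ n) (A : Matrix (Fin k) (Fin k) F) (D : Matrix (Fin (n - k)) (Fin (n - k)) F)
    (B : Matrix (Fin k) (Fin (n - k)) F) : (parMat n k hk A D B).det = A.det * D.det := by
  rw [parMat, det_submatrix_equiv_self, det_fromBlocks_zero₂₁]

theorem parMat_mulVec (n k : ℕ) (hk : k ≤ n) (A : Matrix (Fin k) (Fin k) F) (D : Matrix (Fin (n - k)) (Fin (n - k)) F)
    (B : Matrix (Fin k) (Fin (n - k)) F) (v : Fin n → F) :
    ((parMat n k hk A D B *ᵥ v) ∘ splitEquiv n k hk) = (fromBlocks A B 0 D) *ᵥ (v ∘ splitEquiv n k hk) := by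
  rw [parMat, submatrix_mulVec_equiv]
  ext x
  simp

/-- Block description of the stabiliser of the first `k` coordinates. -/
theorem mem_par_iff (n k : ℕ) (hk : k ≤ n) (g : GL (Fin n) F) :
    g ∈ stabilizing (glToMat (Fin n) F) (firstK n k F) ↔
      ∃ (A : GL (Fin k) F) (D : GL (Fin (n - k)) F) (B : Matrix (Fin k) (Fin (n - k)) F),
        (g : Matrix (Fin n) (Fin n) F) = parMat n k hk A D B := by
  constructor
  · intro hg
    set N : Matrix (Fin k ⊕ Fin (n - k)) (Fin k ⊕ Fin (n - k)) F :=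
      (g : Matrix (Fin n) (Fin n) F).submatrix (splitEquiv n k hk) (splitEquiv n k hk) with hN
    have h21 : N.toBlocks₂₁ = 0 := by
      ext b a
      have hv : (Pi.single (splitEquiv n k hk (Sum.inl a)) 1 : Fin n → F) ∈ firstK n k F := by
        intro i hi
        apply Pi.single_eq_of_ne
        rintro rfl
        rw [splitEquiv_inl] at hi
        have := a.2
        omega
      have h2 := (hg _).mp hv (splitEquiv n k hk (Sum.inr b)) (by rw [splitEquiv_inr]; omega)
      simpa [hN, toBlocks₂₁, glToMat] using h2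
    have hN2 : N = fromBlocks N.toBlocks₁₁ N.toBlocks₁₂ 0 N.toBlocks₂₂ := by
      have := fromBlocks_toBlocks N
      rw [h21] at this
      exact this.symm
    have hdetN : N.det ≠ 0 := by
      rw [hN, det_submatrix_equiv_self]
      simpa using (GeneralLinearGroup.det g).ne_zero
    have hdet2 := hdetN
    rw [hN2, det_fromBlocks_zero₂₁] at hdet2
    have hA : N.toBlocks₁₁.det ≠ 0 := left_ne_zero_of_mul hdet2
    have hD : N.toBlocks₂₂.det ≠ 0 := right_ne_zero_of_mul hdet2
    refine ⟨GeneralLinearGroup.mkOfDetNeZero _ hA, GeneralLinearGroup.mkOfDetNeZero _ hD, N.toBlocks₁₂, ?_⟩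
    change _ = parMat n k hk N.toBlocks₁₁ N.toBlocks₂₂ N.toBlocks₁₂
    rw [parMat, ← hN2, hN]
    ext i j
    simp
  · rintro ⟨A, D, B, hg⟩ v
    change v ∈ firstK n k F ↔ (g : Matrix (Fin n) (Fin n) F) *ᵥ v ∈ firstK n k F
    rw [mem_firstK_iff n k hk, mem_firstK_iff n k hk, hg, parMat_mulVec, fromBlocks_mulVec]
    rw [Sum.elim_comp_inr, zero_mulVec, zero_add]
    constructor
    · intro h
      rw [h, mulVec_zero]
    · intro h
      have hDD : ((D⁻¹ : GL (Fin (n - k)) F) : Matrix (Fin (n - k)) (Fin (n - k)) F) * (D : Matrix (Fin (n - k)) (Fin (n - k)) F) = 1 := by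
        rw [← Units.val_mul, inv_mul_cancel]; rfl
      have := congrArg (fun z => ((D⁻¹ : GL (Fin (n - k)) F) : Matrix (Fin (n - k)) (Fin (n - k)) F) *ᵥ z) h
      simp only [mulVec_mulVec, hDD, one_mulVec, mulVec_zero] at this
      exact this

/-- The parabolic as a set is in bijection with `GL_k × GL_{n-k} × Mat`. -/
theorem card_par [Fintype F] (n k : ℕ) (hk : k ≤ n) :
    Nat.card (stabilizing (glToMat (Fin n) F) (firstK n k F)) =
      Nat.card (GL (Fin k) F) * Nat.card (GL (Fin (n - k)) F) * Fintype.card F ^ (k * (n - k)) := by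
  classical
  let f : GL (Fin k) F × GL (Fin (n - k)) F × Matrix (Fin k) (Fin (n - k)) F → stabilizing (glToMat (Fin n) F) (firstK n k F) :=
    fun x => ⟨GeneralLinearGroup.mkOfDetNeZero (parMat n k hk x.1 x.2.1 x.2.2) (by
      rw [parMat_det]
      have h1 : ((x.1 : Matrix (Fin k) (Fin k) F)).det ≠ 0 := by simpa using (GeneralLinearGroup.det x.1).ne_zero
      have h2 : ((x.2.1 : Matrix (Fin (n - k)) (Fin (n - k)) F)).det ≠ 0 := by simpa using (GeneralLinearGroup.det x.2.1).ne_zero
      exact mul_ne_zero h1 h2), (mem_par_iff n k hk _).mpr ⟨x.1, x.2.1, x.2.2, rfl⟩⟩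
  have hf : Function.Bijective f := by
    constructor
    · rintro ⟨A, D, B⟩ ⟨A', D', B'⟩ h
      have h1 : parMat n k hk A D B = parMat n k hk A' D' B' := congrArg (fun g => ((g.1 : GL (Fin n) F) : Matrix (Fin n) (Fin n) F)) h
      rw [parMat, parMat] at h1
      have h3 : fromBlocks (A : Matrix (Fin k) (Fin k) F) B 0 (D : Matrix (Fin (n - k)) (Fin (n - k)) F) = fromBlocks (A' : Matrix (Fin k) (Fin k) F) B' 0 (D' : Matrix (Fin (n - k)) (Fin (n - k)) F) := by
        ext i j
        have := congrFun (congrFun h1 (splitEquiv n k hk i)) (splitEquiv n k hk j)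
        simpa using this
      obtain ⟨h4, h5, _, h6⟩ := fromBlocks_inj.mp h3
      have hA : A = A' := Units.ext h4
      have hD : D = D' := Units.ext h6
      rw [hA, hD, h5]
    · rintro ⟨g, hg⟩
      obtain ⟨A, D, B, h⟩ := (mem_par_iff n k hk g).mp hg
      refine ⟨(A, D, B), ?_⟩
      apply Subtype.ext
      apply Units.ext
      exact h.symm
  rw [← Nat.card_congr (Equiv.ofBijective f hf), Nat.card_prod, Nat.card_prod, mul_assoc]
  congr 2
  change Nat.card (Fin k → Fin (n - k) → F) = _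
  rw [Nat.card_fun, Nat.card_fun]
  simp only [Nat.card_eq_fintype_card, Fintype.card_fin]
  rw [← pow_mul, mul_comm]

end CfsgLib.ClassGeo
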