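import Mathlib
import Cfsg.Agent.Lib.ClassGeo.SubStabGL
import Cfsg.Agent.Lib.ClassGeo.Parab
import Cfsg.Prelude.Def_GeometricClasses

set_option autoImplicit false
set_option linter.unusedSimpArgs false
set_option linter.unusedVariables false

namespace CfsgLib.ClassGeo

open Module Matrix Cfsg

variable {F : Type*} [Field F]

/-- The coordinate subspace on the first `k` coordinates. -/
def coordW (n k : ℕ) (F : Type*) [Field F] : Submodule F (Fin n → F) where
  carrier := {v | ∀ i : Fin n, k ≤ (i : ℕ) → v i = 0}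
  add_mem' := by
    intro a b ha hb i hi
    simp [ha i hi, hb i hi]
  zero_mem' := by
    intro i _
    rfl
  smul_mem' := by
    intro c x hx i hi
    simp [hx i hi]

theorem coe_coordW (n k : ℕ) : (coordW n k F : Set (Fin n → F)) = {v | ∀ i : Fin n, k ≤ (i : ℕ) → v i = 0} := rfl

theorem coordW_ne_bot (n k : ℕ) (hk0 : 0 < k) (hkn : k < n) : coordW n k F ≠ ⊥ := by
  intro h
  have h1 : (Pi.single (⟨0, by omega⟩ : Fin n) (1 : F) : Fin n → F) ∈ coordW n k F := by
    intro i hi
    apply Pi.single_eq_of_ne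
    intro h2
    rw [h2] at hi
    simp at hi
    omega
  rw [h] at h1
  have h2 := congrFun ((Submodule.mem_bot F).mp h1) (⟨0, by omega⟩ : Fin n)
  simp at h2

theorem coordW_ne_top (n k : ℕ) (hkn : k < n) : coordW n k F ≠ ⊤ := by
  intro h
  have h1 : (Pi.single (⟨k, hkn⟩ : Fin n) (1 : F) : Fin n → F) ∈ coordW n k F := by
    rw [h]; trivial
  have h2 := h1 ⟨k, hkn⟩ (le_refl k)
  simp at h2

theorem finrank_coordW (n k : ℕ) (hk : k ≤ n) : finrank F (coordW n k F) = k := by
  let e : coordW n k F ≃ₗ[F] (Fin k → F) :=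
    { toFun := fun v a => v.1 (Fin.castLE hk a)
      map_add' := fun _ _ => rfl
      map_smul' := fun _ _ => rfl
      invFun := fun x => ⟨fun i => if h : (i : ℕ) < k then x ⟨i, h⟩ else 0, by
        intro i hi
        simp [not_lt.mpr hi]⟩
      left_inv := by
        rintro ⟨v, hv⟩
        apply Subtype.ext
        funext i
        by_cases h : (i : ℕ) < k
        · simp [h]
        · simp [h]
          exact (hv i (not_lt.mp h)).symm
      right_inv := by
        intro x
        funext a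
        simp }
  rw [LinearEquiv.finrank_eq e]
  simp

/-- Entry description of the parabolic. -/
theorem mem_coord_iff (n k : ℕ) (g : GL (Fin n) F) :
    g ∈ stabGL (coordW n k F) ↔ ∀ i j : Fin n, k ≤ (i : ℕ) → (j : ℕ) < k → (g : Matrix (Fin n) (Fin n) F) i j = 0 := by
  rw [mem_stabGL_iff]
  constructor
  · intro h i j hi hj
    have h1 : (Pi.single j (1 : F) : Fin n → F) ∈ coordW n k F := by
      intro i' hi'
      apply Pi.single_eq_of_ne
      rintro rfl
      omega
    have h2 := h _ h1 i hi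
    simpa using h2
  · intro h x hx i hi
    simp only [mulVec, dotProduct]
    apply Finset.sum_eq_zero
    intro j _
    by_cases hj : (j : ℕ) < k
    · rw [h i j hi hj, zero_mul]
    · rw [hx j (not_lt.mp hj), mul_zero]

/-- The inverse-transpose-reversal automorphism. -/
def revAut (n : ℕ) (F : Type*) [Field F] : GL (Fin n) F →* GL (Fin n) F where
  toFun g :=
    { val := (((g⁻¹ : GL (Fin n) F) : Matrix (Fin n) (Fin n) F)ᵀ).submatrix Fin.revPerm Fin.revPerm
      inv := ((g : Matrix (Fin n) (Fin n) F)ᵀ).submatrix Fin.revPerm Fin.revPerm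
      val_inv := by
        rw [submatrix_mul_equiv, ← transpose_mul, ← Units.val_mul, mul_inv_cancel]
        simp
      inv_val := by
        rw [submatrix_mul_equiv, ← transpose_mul, ← Units.val_mul, inv_mul_cancel]
        simp }
  map_one' := by
    apply Units.ext
    simp
  map_mul' g h := by
    apply Units.ext
    change (((g * h)⁻¹ : GL (Fin n) F) : Matrix (Fin n) (Fin n) F)ᵀ.submatrix _ _ = (((g⁻¹ : GL (Fin n) F) : Matrix (Fin n) (Fin n) F)ᵀ.submatrix Fin.revPerm Fin.revPerm) * (((h⁻¹ : GL (Fin n) F) : Matrix (Fin n) (Fin n) F)ᵀ.submatrix Fin.revPerm Fin.revPerm)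
    rw [_root_.mul_inv_rev, Units.val_mul, transpose_mul, submatrix_mul_equiv]

theorem revAut_apply (n : ℕ) (g : GL (Fin n) F) (i j : Fin n) :
    (revAut n F g : Matrix (Fin n) (Fin n) F) i j = ((g⁻¹ : GL (Fin n) F) : Matrix (Fin n) (Fin n) F) (Fin.rev j) (Fin.rev i) := rfl

theorem revAut_revAut (n : ℕ) (g : GL (Fin n) F) : revAut n F (revAut n F g) = g := by
  apply Units.ext
  ext i j
  rw [revAut_apply, ← map_inv, revAut_apply]
  simp

theorem revAut_mem (n k k' : ℕ) (hkk : k + k' = n) (g : GL (Fin n) F) (hg : g ∈ stabGL (coordW n k F)) :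
    revAut n F g ∈ stabGL (coordW n k' F) := by
  rw [mem_coord_iff]
  intro i j hi hj
  rw [revAut_apply]
  apply (mem_coord_iff n k g⁻¹).mp (inv_mem hg)
  · rw [Fin.val_rev]; omega
  · rw [Fin.val_rev]
    have := i.2
    omega

/-- Parabolics of complementary ranks are isomorphic. -/
def parabIso (n k k' : ℕ) (hkk : k + k' = n) : stabGL (coordW n k F) ≃* stabGL (coordW n k' F) where
  toFun g := ⟨revAut n F g.1, revAut_mem n k k' hkk g.1 g.2⟩
  invFun g := ⟨revAut n F g.1, revAut_mem n k' k (by omega) g.1 g.2⟩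
  left_inv g := Subtype.ext (revAut_revAut n g.1)
  right_inv g := Subtype.ext (revAut_revAut n g.1)
  map_mul' g h := Subtype.ext (map_mul _ _ _)

/-- Stabilisers determine subspaces. -/
theorem stabGL_inj_aux {ι : Type} [Fintype ι] [DecidableEq ι] (A B : Submodule F (ι → F)) (hB0 : B ≠ ⊥)
    (h : stabGL A ≤ stabGL B) : A ≤ B := by
  intro a ha
  by_contra hnot
  obtain ⟨b, hb, hb0⟩ := Submodule.exists_mem_ne_zero_of_ne_bot hB0
  have hnot2 : b ∉ Submodule.span F {a} := by
    intro hmem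
    obtain ⟨c, hc⟩ := Submodule.mem_span_singleton.mp hmem
    have hc0 : c ≠ 0 := by
      rintro rfl
      rw [zero_smul] at hc
      exact hb0 hc.symm
    apply hnot
    have : a = c⁻¹ • b := by rw [← hc, smul_smul, inv_mul_cancel₀ hc0, one_smul]
    rw [this]
    exact B.smul_mem _ hb
  obtain ⟨f₀, hf₀, hf₀'⟩ := Submodule.exists_dual_map_eq_bot_of_notMem hnot2 inferInstance
  have hf₀a : f₀ a = 0 := by
    have : f₀ a ∈ Submodule.map f₀ (Submodule.span F {a}) := ⟨a, Submodule.mem_span_singleton_self a, rfl⟩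
    rw [hf₀'] at this
    simpa using this
  have h1 := h (tv_mem_stab A f₀ a hf₀a (Or.inl ha))
  have h2 := (mem_stabGL_iff B _).mp h1 b hb
  rw [glLin_symm_mulVec, LinearEquiv.transvection.apply] at h2
  apply hnot
  have h3 := B.sub_mem h2 hb
  rw [add_sub_cancel_left] at h3
  have h4 := B.smul_mem (f₀ b)⁻¹ h3
  rwa [smul_smul, inv_mul_cancel₀ hf₀, one_smul] at h4

theorem stabGL_inj {ι : Type} [Fintype ι] [DecidableEq ι] (A B : Submodule F (ι → F)) (hA0 : A ≠ ⊥) (hB0 : B ≠ ⊥)
    (h : stabGL A = stabGL B) : A = B :=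
  le_antisymm (stabGL_inj_aux A B hB0 h.le) (stabGL_inj_aux B A hA0 h.ge)

/-- Conjugation of a subspace stabiliser. -/
theorem stabGL_conj {ι : Type} [Fintype ι] [DecidableEq ι] (A : Submodule F (ι → F)) (g : GL ι F) :
    (stabGL A).map (MulAut.conj g).toMonoidHom = stabGL (A.map (glLin g : (ι → F) →ₗ[F] (ι → F))) := by
  ext x
  constructor
  · rintro ⟨y, hy, rfl⟩
    replace hy := (mem_stabGL_iff A y).mp hy
    rw [mem_stabGL_iff]
    rintro v ⟨a, ha, rfl⟩
    refine ⟨(y : Matrix ι ι F) *ᵥ a, hy a ha, ?_⟩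
    change (glLin g) ((y : Matrix ι ι F) *ᵥ a) = ((g * y * g⁻¹ : GL ι F) : Matrix ι ι F) *ᵥ (glLin g a)
    rw [← glLin_apply, ← glLin_apply, map_mul, map_mul, map_inv]
    change glLin g (glLin y a) = glLin g (glLin y ((glLin g).symm (glLin g a)))
    simp
  · intro hx
    rw [mem_stabGL_iff] at hx
    refine ⟨g⁻¹ * x * g, ?_, by
      change g * (g⁻¹ * x * g) * g⁻¹ = x
      group⟩
    rw [SetLike.mem_coe, mem_stabGL_iff]
    intro a ha
    obtain ⟨c, hc, hc'⟩ := hx (glLin g a) ⟨a, ha, rfl⟩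
    have h1 : ((g⁻¹ * x * g : GL ι F) : Matrix ι ι F) *ᵥ a = c := by
      rw [← glLin_apply, map_mul, map_mul, map_inv]
      change (glLin g).symm (glLin x (glLin g a)) = c
      rw [glLin_apply x, ← hc']
      simp
    rw [h1]
    exact hc

end CfsgLib.ClassGeo

namespace CfsgLib.ClassGeo

open Module Matrix Cfsg

variable {F : Type*} [Field F] {ι : Type} [Fintype ι] [DecidableEq ι]

/-- A determinant-one element stabilising `W`, but not `U`, when `U` is not in `W` and `U` is proper. -/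
theorem exists_stab_not_stab (W U : Submodule F (ι → F)) (hUW : ¬ U ≤ W) (hU : U ≠ ⊤) :
    ∃ t : GL ι F, (t : Matrix ι ι F).det = 1 ∧ t ∈ stabGL W ∧ t ∉ stabGL U := by
  obtain ⟨u, huU, huW⟩ := SetLike.not_le_iff_exists.mp hUW
  obtain ⟨y, hy⟩ := SetLike.exists_not_mem_of_ne_top U hU rfl
  obtain ⟨f₀, hf₀, hf₀'⟩ := Submodule.exists_dual_map_eq_bot_of_notMem huW inferInstance
  have hW : ∀ x ∈ W, f₀ x = 0 := by
    intro x hx
    have : f₀ x ∈ Submodule.map f₀ W := ⟨x, hx, rfl⟩
    rw [hf₀'] at this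
    simpa using this
  let f : Dual F (ι → F) := (f₀ u)⁻¹ • f₀
  have hfu : f u = 1 := by
    change (f₀ u)⁻¹ * f₀ u = 1
    exact inv_mul_cancel₀ hf₀
  have hfW : ∀ x ∈ W, f x = 0 := by
    intro x hx
    change (f₀ u)⁻¹ * f₀ x = 0
    rw [hW x hx, mul_zero]
  let v : ι → F := y - f y • u
  have hv : f v = 0 := by
    change f (y - f y • u) = 0
    rw [map_sub, map_smul, hfu, smul_eq_mul, mul_one, sub_self]
  have hvU : v ∉ U := by
    intro h
    apply hy
    have := U.add_mem h (U.smul_mem (f y) huU)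
    rwa [sub_add_cancel] at this
  refine ⟨glLin.symm (LinearEquiv.transvection hv), tv_det f v hv, tv_mem_stab W f v hv (Or.inr hfW), ?_⟩
  intro hmem
  have h2 := (mem_stabGL_iff U _).mp hmem u huU
  rw [glLin_symm_mulVec, LinearEquiv.transvection.apply, hfu, one_smul] at h2
  apply hvU
  have := U.sub_mem h2 huU
  rwa [add_sub_cancel_left] at this

/-- Two-subspace stabilisers are not maximal in `SL`. -/
theorem stab_two_not_maximal (W U : Submodule F (ι → F)) (hW0 : W ≠ ⊥) (hW1 : W ≠ ⊤) (hUW : ¬ U ≤ W) (hU : U ≠ ⊤) :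
    ∃ K : Subgroup (GL ι F), stabGL W ⊓ stabGL U ⊓ Cfsg.Geo.specialLinear ι F < K ∧ K < Cfsg.Geo.specialLinear ι F := by
  refine ⟨stabGL W ⊓ Cfsg.Geo.specialLinear ι F, ?_, ?_⟩
  · refine lt_of_le_of_ne (le_inf (inf_le_left.trans inf_le_left) inf_le_right) ?_
    intro h
    obtain ⟨t, ht, htW, htU⟩ := exists_stab_not_stab W U hUW hU
    have hdet : t ∈ Cfsg.Geo.specialLinear ι F := by
      change GeneralLinearGroup.det t = 1
      apply Units.ext
      exact ht
    have : t ∈ stabGL W ⊓ stabGL U ⊓ Cfsg.Geo.specialLinear ι F := by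
      rw [h]
      exact ⟨htW, hdet⟩
    exact htU this.1.2
  · refine lt_of_le_of_ne inf_le_right ?_
    intro h
    obtain ⟨t, ht, htW⟩ := exists_not_stab W hW0 hW1
    have hdet : t ∈ Cfsg.Geo.specialLinear ι F := by
      change GeneralLinearGroup.det t = 1
      apply Units.ext
      exact ht
    rw [← h] at hdet
    exact htW hdet.1

end CfsgLib.ClassGeo
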