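import Mathlib
import Cfsg.Agent.Lib.ClassGeo.PermMod
import Cfsg.Agent.Lib.ClassGeo.SpOver
import Cfsg.Agent.Lib.ClassGeo.Bridge

set_option autoImplicit false
set_option linter.unusedSimpArgs false
set_option linter.unusedVariables false
set_option linter.unusedSectionVars false

namespace CfsgLib.ClassGeo.PermMod

open Matrix Cfsg CfsgLib.ClassGeo Module

variable {F : Type*} [Field F] [CharP F 2]

variable (n : ℕ)

local notation "𝕊" => Fin (2 * n)
local notation "𝔼" => (Fin (2 * n) → F)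

/-- the symmetric group on `2n` letters in the symplectic group over a field of characteristic two. -/
theorem exists_sp_hom (hn : 3 ≤ n) :
    ∃ f : Equiv.Perm (Fin (2 * n)) →* Matrix.symplecticGroup (Fin (n - 1)) F, Function.Injective f := by
  classical
  have h2F : (2 : F) = 0 := by exact_mod_cast CharP.cast_eq_zero F 2
  let one : 𝔼 := fun _ => 1
  have hone : ∑ i, one i = 0 := by
    simp only [one, Finset.sum_const, Finset.card_univ, nsmul_eq_mul, mul_one]
    have : ((Fintype.card (Fin (2 * n)) : ℕ) : F) = 2 * n := by simp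
    rw [this, h2F, zero_mul]
  have honeone : one ⬝ᵥ one = 0 := by
    simp only [dotProduct, one, mul_one]
    exact hone
  have hdot1 : ∀ x : 𝔼, one ⬝ᵥ x = ∑ i, x i := by
    intro x; simp [dotProduct, one]
  have hdot2 : ∀ x : 𝔼, x ⬝ᵥ one = ∑ i, x i := by
    intro x; simp [dotProduct, one]
  let sumL : 𝔼 →ₗ[F] F :=
    { toFun := fun x => ∑ i, x i
      map_add' := fun x y => by simp [Finset.sum_add_distrib]
      map_smul' := fun c x => by simp [Finset.mul_sum] }
  let V₀ : Submodule F 𝔼 := LinearMap.ker sumL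
  have hV₀ : ∀ x, x ∈ V₀ ↔ ∑ i, x i = 0 := fun x => Iff.rfl
  let i0 : 𝕊 := ⟨0, by omega⟩
  have hsumL : Function.Surjective sumL := by
    intro c
    refine ⟨c • Pi.single i0 1, ?_⟩
    show ∑ i, (c • Pi.single i0 (1 : F) : 𝔼) i = c
    simp only [Pi.smul_apply, smul_eq_mul]
    rw [← Finset.mul_sum, Finset.sum_pi_single']
    simp
  have hfinV₀ : finrank F V₀ = 2 * n - 1 := by
    have h := LinearMap.finrank_range_add_finrank_ker sumL
    rw [LinearMap.range_eq_top.mpr hsumL, finrank_top, finrank_self] at h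
    have h3 : finrank F 𝔼 = 2 * n := by
      show finrank F (Fin (2 * n) → F) = _
      simp
    rw [h3] at h
    show finrank F (LinearMap.ker sumL) = _
    omega
  let oneV : V₀ := ⟨one, hone⟩
  have honeV : oneV ≠ 0 := by
    intro h
    have := congrFun (congrArg Subtype.val h) i0
    exact one_ne_zero this
  let R' : Submodule F V₀ := Submodule.span F {oneV}
  have hfinR' : finrank F R' = 1 := finrank_span_singleton honeV
  obtain ⟨W', hW'⟩ := Submodule.exists_isCompl R'
  have hfinW' : finrank F W' = 2 * n - 2 := by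
    have := Submodule.finrank_add_eq_of_isCompl hW'
    omega
  let ι₀ : W' →ₗ[F] 𝔼 := V₀.subtype ∘ₗ W'.subtype
  have hι₀inj : Function.Injective ι₀ := fun a b h => Subtype.ext (Subtype.ext h)
  have hι₀sum : ∀ a, ∑ i, ι₀ a i = 0 := fun a => (a.1).2
  let B₀ : LinearMap.BilinForm F W' :=
    LinearMap.mk₂ F (fun a b => ι₀ a ⬝ᵥ ι₀ b)
      (fun a b c => by simp [add_dotProduct])
      (fun c a b => by simp [smul_dotProduct])
      (fun a b c => by simp [dotProduct_add])
      (fun c a b => by simp [dotProduct_smul])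
  have hB₀ : ∀ a b, B₀ a b = ι₀ a ⬝ᵥ ι₀ b := fun a b => rfl
  have hdec : ∀ y : 𝔼, ∑ i, y i = 0 → ∃ (w : W') (c : F), y = ι₀ w + c • one := by
    intro y hy
    have hmem : (⟨y, hy⟩ : V₀) ∈ W' ⊔ R' := by
      rw [hW'.symm.sup_eq_top]; trivial
    obtain ⟨w, hw, r, hr, hsum⟩ := Submodule.mem_sup.mp hmem
    obtain ⟨c, hc⟩ := Submodule.mem_span_singleton.mp hr
    refine ⟨⟨w, hw⟩, c, ?_⟩
    have := congrArg Subtype.val hsum
    rw [← hc] at this
    exact this.symm
  have hAlt : B₀.IsAlt := by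
    intro a
    rw [hB₀]
    have h := hι₀sum a
    have h3 : (∑ i, ι₀ a i) ^ 2 = ∑ i, (ι₀ a i) ^ 2 := sum_pow_char 2 _ _
    rw [h] at h3
    simp only [dotProduct]
    calc ∑ i, ι₀ a i * ι₀ a i = ∑ i, (ι₀ a i) ^ 2 := Finset.sum_congr rfl (fun i _ => by ring)
      _ = 0 := by rw [← h3]; ring
  have hsep : ∀ u, (∀ v, B₀ u v = 0) → u = 0 := by
    intro u hu
    have hperp : ∀ y : 𝔼, ∑ i, y i = 0 → ι₀ u ⬝ᵥ y = 0 := by
      intro y hy
      obtain ⟨w, c, rfl⟩ := hdec y hy
      rw [dotProduct_add, dotProduct_smul, hdot2, hι₀sum, ← hB₀, hu]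
      simp
    have hconst : ∀ i, ι₀ u i = ι₀ u i0 := by
      intro i
      by_cases hi : i = i0
      · rw [hi]
      have h3 := hperp (Pi.single i 1 + Pi.single i0 1) (by
        simp [Finset.sum_add_distrib, Finset.sum_pi_single']
        linear_combination h2F)
      rw [dotProduct_add] at h3
      simp only [dotProduct_single, mul_one] at h3
      have h4 : ι₀ u i0 + ι₀ u i0 = 0 := CharTwo.add_self_eq_zero _
      linear_combination h3 - h4
    have hmem : u.1 ∈ R' := by
      refine Submodule.mem_span_singleton.mpr ⟨ι₀ u i0, ?_⟩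
      apply Subtype.ext
      funext i
      show ι₀ u i0 * 1 = ι₀ u i
      rw [mul_one, hconst i]
    have := Submodule.mem_inf.mpr ⟨u.2, hmem⟩
    rw [hW'.symm.inf_eq_bot, Submodule.mem_bot] at this
    exact Subtype.ext this
  obtain ⟨m, P, hP⟩ := exists_symp_coords (F := F) (V := W') (B := B₀) hAlt hsep
  have hm : m = n - 1 := by
    have h3 := LinearEquiv.finrank_eq P
    rw [hfinW'] at h3
    have h4 : finrank F (Fin m ⊕ Fin m → F) = 2 * m := finrank_symp m
    omega
  subst hm
  -- the coordinates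
  let ι := Fin (n - 1) ⊕ Fin (n - 1)
  let Ψ : (ι → F) →ₗ[F] 𝔼 := ι₀ ∘ₗ P.toLinearMap
  have hΨ : ∀ v w, Ψ v ⬝ᵥ Ψ w = sympForm (n - 1) F v w := fun v w => hP v w
  have hΨsum : ∀ v, ∑ i, Ψ v i = 0 := fun v => hι₀sum _
  let Ψ' : ((ι → F) × F) →ₗ[F] 𝔼 := Ψ.coprod (LinearMap.toSpanSingleton F 𝔼 one)
  have hΨ' : ∀ p, Ψ' p = Ψ p.1 + p.2 • one := fun p => by simp [Ψ']
  have hinj : LinearMap.ker Ψ' = ⊥ := by
    rw [LinearMap.ker_eq_bot]
    rw [injective_iff_map_eq_zero]
    rintro ⟨v, c⟩ h
    rw [hΨ'] at h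
    -- Pv ∈ W' ∩ R'
    have h3 : (P v).1 ∈ R' := by
      refine Submodule.mem_span_singleton.mpr ⟨-c, ?_⟩
      apply Subtype.ext
      show (-c) • one = Ψ v
      have h4 : Ψ v = - (c • one) := eq_neg_of_add_eq_zero_left h
      rw [h4, neg_smul]
    have h5 := Submodule.mem_inf.mpr ⟨(P v).2, h3⟩
    rw [hW'.symm.inf_eq_bot, Submodule.mem_bot] at h5
    have h6 : P v = 0 := Subtype.ext h5
    have h7 : v = 0 := by simpa using h6
    subst h7
    simp only [map_zero, zero_add, Ψ] at h
    have h8 : c = 0 := by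
      have := congrFun h i0
      simpa [one] using this
    subst h8
    rfl
  obtain ⟨L, hL⟩ := LinearMap.exists_leftInverse_of_injective Ψ' hinj
  have hLap : ∀ p, L (Ψ' p) = p := fun p => LinearMap.congr_fun hL p
  let ρ : 𝔼 →ₗ[F] (ι → F) := LinearMap.fst F _ _ ∘ₗ L
  have hρΨ : ∀ v, ρ (Ψ v) = v := by
    intro v
    have := hLap (v, 0)
    rw [hΨ'] at this
    simp only [zero_smul, add_zero] at this
    show (L (Ψ v)).1 = v
    rw [this]
  have hρone : ρ one = 0 := by
    have := hLap (0, 1)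
    rw [hΨ'] at this
    simp only [map_zero, one_smul, zero_add] at this
    show (L one).1 = 0
    rw [this]
  have hdecΨ : ∀ y : 𝔼, ∑ i, y i = 0 → ∃ c : F, y = Ψ (ρ y) + c • one := by
    intro y hy
    obtain ⟨w, c, hyw⟩ := hdec y hy
    refine ⟨c, ?_⟩
    have hw : ι₀ w = Ψ (P.symm w) := by simp [Ψ]
    have : ρ y = P.symm w := by
      rw [hyw, map_add, map_smul, hρone, smul_zero, add_zero, hw, hρΨ]
    rw [this, ← hw]
    exact hyw
  -- the data
  let D : Data F 𝕊 ι :=
    { U := LinearMap.toMatrix' Ψ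
      C := LinearMap.toMatrix' ρ
      r := 1
      h1 := by
        rw [← LinearMap.toMatrix'_comp]
        have : ρ ∘ₗ Ψ = LinearMap.id := LinearMap.ext hρΨ
        rw [this, LinearMap.toMatrix'_id]
      h2 := by
        intro x hx
        obtain ⟨c, hc⟩ := hdecΨ x hx
        refine ⟨c, ?_⟩
        rw [LinearMap.toMatrix'_mulVec, LinearMap.toMatrix'_mulVec]
        conv_lhs => rw [hc]
        funext i
        simp [one]
      h3 := by
        intro a
        have := hΨsum (Pi.single a 1)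
        simpa [LinearMap.toMatrix'_apply, Pi.single_apply] using this
      h4 := by
        intro b
        rw [one_mul]
        have h5 : ∑ i, LinearMap.toMatrix' ρ b i = (ρ one) b := by
          rw [← LinearMap.toMatrix'_mulVec]
          simp [Matrix.mulVec, dotProduct, one]
        rw [h5, hρone]
        rfl }
  have hU : ∀ v, D.U *ᵥ v = Ψ v := fun v => LinearMap.toMatrix'_mulVec _ _
  have hC : ∀ y, D.C *ᵥ y = ρ y := fun y => LinearMap.toMatrix'_mulVec _ _
  have hom_mem : ∀ π, D.hom π ∈ fIsom (F := F) (sympForm (n - 1) F) := by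
    intro π
    rw [mem_fIsom]
    intro v w
    rw [← hΨ, ← hΨ]
    -- decompose
    have hx : ∑ i, Data.P π (Ψ v) i = 0 := by rw [Data.P_sum, hΨsum]
    have hy : ∑ i, Data.P π (Ψ w) i = 0 := by rw [Data.P_sum, hΨsum]
    obtain ⟨c, hc⟩ := hdecΨ _ hx
    obtain ⟨d, hd⟩ := hdecΨ _ hy
    have e1 : Ψ (D.hom π v) = Data.P π (Ψ v) + c • one := by
      have : D.hom π v = ρ (Data.P π (Ψ v)) := by
        rw [Data.hom_apply, hU, hC]
      rw [this]
      conv_rhs => rw [hc]
      rw [add_assoc]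
      have h6 : c • one + c • one = 0 := by
        funext i; exact CharTwo.add_self_eq_zero _
      rw [h6, add_zero]
    have e2 : Ψ (D.hom π w) = Data.P π (Ψ w) + d • one := by
      have : D.hom π w = ρ (Data.P π (Ψ w)) := by
        rw [Data.hom_apply, hU, hC]
      rw [this]
      conv_rhs => rw [hd]
      rw [add_assoc]
      have h6 : d • one + d • one = 0 := by
        funext i; exact CharTwo.add_self_eq_zero _
      rw [h6, add_zero]
    rw [e1, e2]
    rw [dotProduct_add, add_dotProduct, add_dotProduct, dotProduct_smul, dotProduct_smul, smul_dotProduct, smul_dotProduct,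
      hdot2, hx, hdot1, hy, honeone]
    simp only [smul_eq_mul, mul_zero, add_zero, zero_add]
    exact Equiv.sum_comp (π⁻¹ : Equiv.Perm 𝕊) (fun i => Ψ v i * Ψ w i)
  let f0 : Equiv.Perm 𝕊 →* fIsom (F := F) (sympForm (n - 1) F) := D.hom.codRestrict _ hom_mem
  refine ⟨(spEquiv (F := F) (n - 1)).symm.toMonoidHom.comp f0, ?_⟩
  intro a b hab
  have h1 : f0 a = f0 b := (spEquiv (F := F) (n - 1)).symm.injective hab
  have h2 : D.hom (a * b⁻¹) = 1 := by
    rw [map_mul, map_inv]
    have : D.hom a = D.hom b := congrArg Subtype.val h1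
    rw [this, mul_inv_cancel]
  have h3 : a * b⁻¹ = 1 := by
    apply D.faithful
    · simp; omega
    · intro v
      rw [h2]; rfl
  exact mul_inv_eq_one.mp h3

end CfsgLib.ClassGeo.PermMod
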