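import Mathlib

set_option autoImplicit false
set_option linter.unusedSimpArgs false
set_option linter.unusedVariables false

namespace CfsgLib.ClassGeo

open Polynomial

variable {F : Type*} [Field F]

/-- A root outside the fixed field of Frobenius of a quadratic with constant term one has norm one. -/
theorem quad_norm_one [Fintype F] {E : Type*} [Field E] [Algebra F E] (t : F) (α : E)
    (hα : α ^ 2 - algebraMap F E t * α + 1 = 0) (hne : α ^ Fintype.card F ≠ α) :
    α ^ (Fintype.card F + 1) = 1 := by
  have hfrob : (α ^ Fintype.card F) ^ 2 - algebraMap F E t * (α ^ Fintype.card F) + 1 = 0 := by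
    have h1 := congrArg (FiniteField.frobeniusAlgHom F E) hα
    simp only [map_add, map_sub, map_mul, map_pow, map_one, map_zero] at h1
    simp only [FiniteField.frobeniusAlgHom_apply] at h1
    rw [← map_pow, FiniteField.pow_card] at h1
    exact h1
  set β := α ^ Fintype.card F with hβ
  have hsum : α + β = algebraMap F E t := by
    have h : (α - β) * (α + β - algebraMap F E t) = 0 := by linear_combination hα - hfrob
    have h2 := (mul_eq_zero.mp h).resolve_left (sub_ne_zero.mpr hne.symm)
    linear_combination h2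
  rw [pow_succ, ← hβ, mul_comm]
  rw [← hsum] at hα
  linear_combination -hα

/-- Quadratic with constant term one, irreducible over `𝔽_q`: the root has norm one, so it divides `X^(q+1) - 1`. -/
theorem quad_dvd_pow_succ_sub_one [Fintype F] (t : F) (hroot : ∀ x : F, x ^ 2 - t * x + 1 ≠ 0) :
    (X ^ 2 - C t * X + 1 : F[X]) ∣ X ^ (Fintype.card F + 1) - 1 := by
  classical
  set f : F[X] := X ^ 2 - C t * X + 1 with hf
  have hdeg : f.natDegree = 2 := by
    rw [hf]; compute_degree!
  have hmonic : f.Monic := by
    rw [hf]; monicity!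
  have hirr : Irreducible f := by
    rw [hmonic.irreducible_iff_roots_eq_zero_of_degree_le_three (by omega) (by omega)]
    rw [Multiset.eq_zero_iff_forall_notMem]
    intro x hx
    rw [mem_roots hmonic.ne_zero] at hx
    apply hroot x
    simpa [hf, IsRoot] using hx
  have : Fact (Irreducible f) := ⟨hirr⟩
  have hα : (AdjoinRoot.root f) ^ 2 - algebraMap F (AdjoinRoot f) t * (AdjoinRoot.root f) + 1 = 0 := by
    have := AdjoinRoot.eval₂_root f
    simpa [hf, eval₂_add, eval₂_sub, eval₂_mul, eval₂_pow] using this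
  have hne : (AdjoinRoot.root f) ^ Fintype.card F ≠ AdjoinRoot.root f := by
    intro heq
    have h1 : AdjoinRoot.mk f (X ^ Fintype.card F - X) = 0 := by
      rw [map_sub, map_pow, AdjoinRoot.mk_X, heq, sub_self]
    rw [AdjoinRoot.mk_eq_zero] at h1
    have hs : Splits (X ^ Fintype.card F - X : F[X]) := by
      rw [splits_iff_card_roots, FiniteField.roots_X_pow_card_sub_X,
        FiniteField.X_pow_card_sub_X_natDegree_eq F Fintype.one_lt_card]
      simp
    have hs2 := hs.of_dvd (FiniteField.X_pow_card_sub_X_ne_zero F Fintype.one_lt_card) h1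
    obtain ⟨x, hx⟩ := hs2.exists_eval_eq_zero (by
      rw [degree_eq_natDegree hmonic.ne_zero, hdeg]; norm_num)
    apply hroot x
    simpa [hf] using hx
  have h2 := quad_norm_one t _ hα hne
  rw [← AdjoinRoot.mk_eq_zero, map_sub, map_pow, AdjoinRoot.mk_X, h2, map_one, sub_self]

/-- Cayley-Hamilton for `SL₂`: a divisibility by the characteristic polynomial gives a power equal to one. -/
theorem sl2_pow_eq_one (g : Matrix.SpecialLinearGroup (Fin 2) F) (n : ℕ)
    (h : (X ^ 2 - C (Matrix.trace (g : Matrix (Fin 2) (Fin 2) F)) * X + 1 : F[X]) ∣ X ^ n - 1) : g ^ n = 1 := by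
  have h1 : aeval (g : Matrix (Fin 2) (Fin 2) F) (X ^ 2 - C (Matrix.trace (g : Matrix (Fin 2) (Fin 2) F)) * X + 1 : F[X]) = 0 := by
    have := Matrix.aeval_self_charpoly (g : Matrix (Fin 2) (Fin 2) F)
    rw [Matrix.charpoly_fin_two, g.det_coe] at this
    simpa using this
  have h2 := aeval_eq_zero_of_dvd_aeval_eq_zero h h1
  rw [map_sub, map_pow, aeval_X, map_one, sub_eq_zero] at h2
  apply Subtype.ext
  simpa using h2

/-- The order of a semisimple element of `SL₂(q)` divides `q - 1` or `q + 1`; powers version. -/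
theorem sl2_cases [Fintype F] (p : ℕ) [Fact p.Prime] [CharP F p] (g : Matrix.SpecialLinearGroup (Fin 2) F) :
    g ^ (Fintype.card F - 1) = 1 ∨ g ^ (Fintype.card F + 1) = 1 ∨ g ^ (2 * p) = 1 := by
  classical
  set t := Matrix.trace (g : Matrix (Fin 2) (Fin 2) F) with ht
  by_cases hroot : ∀ x : F, x ^ 2 - t * x + 1 ≠ 0
  · right; left
    exact sl2_pow_eq_one g _ (quad_dvd_pow_succ_sub_one t hroot)
  · push Not at hroot
    obtain ⟨l, hl⟩ := hroot
    have hl0 : l ≠ 0 := by
      rintro rfl
      simp at hl
    set m := t - l with hm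
    have hlm : l * m = 1 := by rw [hm]; linear_combination -hl
    have hf : (X ^ 2 - C t * X + 1 : F[X]) = (X - C l) * (X - C m) := by
      have h1 : t = l + m := by rw [hm]; ring
      have h2 : (1 : F[X]) = C l * C m := by rw [← C_mul, hlm, C_1]
      rw [h1, h2, C_add]
      ring
    by_cases hne : l = m
    · right; right
      have h1 : (X ^ 2 - C t * X + 1 : F[X]) = (X - C l) ^ 2 := by
        rw [hf, ← hne]; ring
      have h2 : (X - C l : F[X]) ^ p = X ^ p - C (l ^ p) := by
        rw [sub_pow_char, C_pow]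
      apply sl2_pow_eq_one
      rw [h1]
      have hp2 : 2 ≤ p := (Fact.out : p.Prime).two_le
      have h3 : (X - C l : F[X]) ^ 2 ∣ X ^ p - C (l ^ p) := by
        rw [← h2]; exact pow_dvd_pow _ hp2
      refine h3.trans ?_
      have hll : l ^ 2 = 1 := by
        have : l * l = 1 := by
          nth_rewrite 2 [hne]; exact hlm
        rw [sq, this]
      have h4 : (X ^ p - C (l ^ p) : F[X]) ∣ (X ^ p) ^ 2 - (C (l ^ p)) ^ 2 := sub_dvd_pow_sub_pow _ _ 2
      have h5 : (C (l ^ p) : F[X]) ^ 2 = 1 := by
        rw [← C_pow, ← pow_mul, mul_comm, pow_mul, hll, one_pow, C_1]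
      rw [h5, ← pow_mul, mul_comm p 2] at h4
      exact h4
    · left
      apply sl2_pow_eq_one
      rw [hf]
      apply IsCoprime.mul_dvd
      · exact isCoprime_X_sub_C_of_isUnit_sub (sub_ne_zero.mpr hne).isUnit
      · rw [dvd_iff_isRoot]
        simp [IsRoot, FiniteField.pow_card_sub_one_eq_one l hl0]
      · rw [dvd_iff_isRoot]
        have hm0 : m ≠ 0 := by
          rintro h0
          rw [h0, mul_zero] at hlm
          exact zero_ne_one hlm
        simp [IsRoot, FiniteField.pow_card_sub_one_eq_one m hm0]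

end CfsgLib.ClassGeo
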