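import Mathlib
import Cfsg.Agent.Lib.ClassGeo.SL2Inv2

/-! Tori of `SL₂(q)`: Sylow subgroups for odd primes and for the prime two. -/

set_option autoImplicit false
set_option linter.unusedVariables false
set_option linter.style.haveILetI false
set_option linter.unusedSectionVars false
set_option linter.unusedSimpArgs false

namespace CfsgLib.ClassGeo.SL2Tori

open CfsgLib.H9.SL2Cl Matrix
open CfsgLib.H9.BorelChar (zS zS_00 zS_01 zS_10 zS_11 zS_central zS_sq)
open CfsgLib.H9.Torus CfsgLib.H9.PSL2 CfsgLib.ClassGeo.SL2Inv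

/-- A Sylow subgroup is cyclic when a cyclic subgroup carries the full power of the prime. -/
theorem sylow_cyclic_of_le {G : Type*} [Group G] [Finite G] (r : ℕ) [Fact r.Prime] (T : Subgroup G) [IsCyclic T]
    (hT : (Nat.card G).factorization r ≤ (Nat.card T).factorization r) (R : Sylow r G) :
    IsCyclic (R : Subgroup G) := by
  have hdvd : r ^ (Nat.card G).factorization r ∣ Nat.card T :=
    (Nat.Prime.pow_dvd_iff_le_factorization (Fact.out) Nat.card_pos.ne').2 hT
  obtain ⟨K, hK⟩ := Sylow.exists_subgroup_card_pow_prime r hdvd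
  let H : Subgroup G := K.map T.subtype
  have hH : Nat.card H = r ^ (Nat.card G).factorization r := by
    rw [← hK]
    exact Subgroup.card_map_of_injective T.subtype_injective
  let R' : Sylow r G := Sylow.ofCard H hH
  have e : (R' : Subgroup G) = H := rfl
  have hcK : IsCyclic K := inferInstance
  have hcH : IsCyclic H := by
    have e2 : K ≃* H := Subgroup.equivMapOfInjective K T.subtype T.subtype_injective
    exact isCyclic_of_surjective e2 e2.surjective
  have e3 : (R : Subgroup G) ≃* (R' : Subgroup G) := Sylow.equiv R R'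
  haveI : IsCyclic (R' : Subgroup G) := by rw [e]; exact hcH
  exact isCyclic_of_surjective e3.symm e3.symm.surjective

variable {F : Type*} [Field F] [Fintype F]

/-- The diagonal torus. -/
noncomputable def diagHom (F : Type*) [Field F] : Fˣ →* SL2 F where
  toFun a := D (a : F) a.ne_zero
  map_one' := by
    apply sl_ext <;> simp [D]
  map_mul' a b := by
    apply sl_ext <;> simp [D, mul_00, mul_01, mul_10, mul_11, mul_comm]

theorem diagHom_inj : Function.Injective (diagHom F) := by
  intro a b h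
  have h1 := congrArg (fun x : SL2 F => x.1 0 0) h
  apply Units.ext
  simpa [diagHom, D] using h1

theorem card_diag : Nat.card (diagHom F).range = Fintype.card F - 1 := by
  rw [← Nat.card_congr (MonoidHom.ofInjective (diagHom_inj (F := F))).toEquiv, Nat.card_units,
    Nat.card_eq_fintype_card]

instance diag_cyclic : IsCyclic (diagHom F).range :=
  isCyclic_of_surjective (diagHom F).rangeRestrict (MonoidHom.rangeRestrict_surjective _)

/-- A lower bound on the norm one torus. -/
theorem cent_ell_card {g : SL2 F} (hg : Ell g) :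
    ∃ d, d ∣ Fintype.card F - 1 ∧
      Nat.card (Subgroup.centralizer ({g} : Set (SL2 F))) * d = Fintype.card F ^ 2 - 1 := by
  classical
  haveI hfact : Fact (∀ r : F, r ^ 2 ≠ -1 + trS g * r) := ⟨fun r hr => hg.no_root r (by linear_combination hr)⟩
  have hc : Nat.card (Subgroup.centralizer ({g} : Set (SL2 F))) = Nat.card (normK g) := by
    rw [← psi_range hg]
    exact (Nat.card_congr (MonoidHom.ofInjective (psi_inj hg.h10)).toEquiv).symm
  refine ⟨(normK g).index, ?_, ?_⟩
  · rw [normK, Subgroup.index_ker]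
    have := Subgroup.card_subgroup_dvd_card (Units.map (QuadraticAlgebra.norm : QA g →* F)).range
    rw [Nat.card_units, Nat.card_eq_fintype_card (α := F)] at this
    exact this
  · rw [hc, Subgroup.card_mul_index, Nat.card_units, card_QA]

theorem fact_sq (q : ℕ) (hq : 1 ≤ q) : q ^ 2 - 1 = (q - 1) * (q + 1) := by
  obtain ⟨k, rfl⟩ : ∃ k, q = k + 1 := ⟨q - 1, by omega⟩
  simp only [Nat.add_sub_cancel]
  have : (k + 1) ^ 2 = k * (k + 1 + 1) + 1 := by ring
  omega

/-- Sylow subgroups for odd primes different from the characteristic. -/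
theorem sylow_odd (p : ℕ) [Fact p.Prime] [CharP F p] (r : ℕ) [hrp : Fact r.Prime] (hr : r ≠ 2) (hrc : r ≠ p)
    (R : Sylow r (SL2 F)) : IsCyclic (R : Subgroup (SL2 F)) := by
  classical
  have hq1 := Fintype.one_lt_card (α := F)
  set q := Fintype.card F with hq
  have hcard : Nat.card (SL2 F) = q * ((q - 1) * (q + 1)) := by
    rw [CfsgLib.ClassGeo.card_SL2, fact_sq _ (by omega)]
  have hrq : ¬ r ∣ q := by
    obtain ⟨n, hp, hn⟩ := FiniteField.card F p
    intro h
    rw [hq, hn] at h
    exact hrc ((Nat.prime_dvd_prime_iff_eq hrp.out (Fact.out)).1 (hrp.out.dvd_of_dvd_pow h))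
  have hq0 : q ≠ 0 := by omega
  have hq2 : q - 1 ≠ 0 := by omega
  have hq3 : q + 1 ≠ 0 := by omega
  have hfac : (Nat.card (SL2 F)).factorization r = (q - 1).factorization r + (q + 1).factorization r := by
    rw [hcard, Nat.factorization_mul hq0 (mul_ne_zero hq2 hq3), Nat.factorization_mul hq2 hq3]
    simp [Nat.factorization_eq_zero_of_not_dvd hrq]
  by_cases h : r ∣ q - 1
  · refine sylow_cyclic_of_le r (diagHom F).range ?_ R
    rw [card_diag, ← hq, hfac]
    have h3 : ¬ r ∣ q + 1 := by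
      intro h3
      have h4 : r ∣ 2 := by
        have := Nat.dvd_sub h3 h
        have e : q + 1 - (q - 1) = 2 := by omega
        rwa [e] at this
      exact hr ((Nat.prime_dvd_prime_iff_eq hrp.out Nat.prime_two).1 h4)
    simp [Nat.factorization_eq_zero_of_not_dvd h3]
  · obtain ⟨g, hg⟩ := exists_ell (F := F)
    haveI := cent_cyclic hg
    refine sylow_cyclic_of_le r (Subgroup.centralizer ({g} : Set (SL2 F))) ?_ R
    obtain ⟨d, hd, hc⟩ := cent_ell_card hg
    rw [← hq, fact_sq _ (by omega)] at hc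
    have hd0 : d ≠ 0 := by
      rintro rfl
      rw [mul_zero] at hc
      exact mul_ne_zero hq2 hq3 hc.symm
    have hC0 : Nat.card (Subgroup.centralizer ({g} : Set (SL2 F))) ≠ 0 := Nat.card_pos.ne'
    have h5 := congrArg (fun n => n.factorization r) hc
    rw [Nat.factorization_mul hC0 hd0, Nat.factorization_mul hq2 hq3] at h5
    have h6 : d.factorization r = 0 := by
      apply Nat.factorization_eq_zero_of_not_dvd
      intro h7
      exact h (h7.trans hd)
    have h7 : (q - 1).factorization r = 0 := Nat.factorization_eq_zero_of_not_dvd h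
    simp only [Finsupp.add_apply] at h5
    rw [hfac]
    omega

theorem tr_A : trS (sl2A : SL2 F) = 0 := by
  simp [trS, sl2A]

theorem cent_A_mem {z : SL2 F} (hz : z ∈ Subgroup.centralizer ({sl2A} : Set (SL2 F))) :
    z.1 1 1 = z.1 0 0 ∧ z.1 0 1 = - z.1 1 0 := by
  rw [Subgroup.mem_centralizer_singleton_iff] at hz
  have h1 := congrArg (fun x : SL2 F => x.1 0 0) hz
  have h2 := congrArg (fun x : SL2 F => x.1 0 1) hz
  simp only [mul_00, mul_01] at h1 h2
  simp only [sl2A] at h1 h2
  simp at h1 h2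
  exact ⟨h2.symm, h1⟩

theorem cent_A_X {z : SL2 F} (hz : z ∈ Subgroup.centralizer ({sl2A} : Set (SL2 F))) (s t : F) (h : s ^ 2 + t ^ 2 = -1) :
    z * sl2X s t h * z = sl2X s t h := by
  obtain ⟨h1, h2⟩ := cent_A_mem hz
  have hd := det_eq z
  rw [h1, h2] at hd
  have x00 : (sl2X s t h).1 0 0 = s := rfl
  have x01 : (sl2X s t h).1 0 1 = t := rfl
  have x10 : (sl2X s t h).1 1 0 = t := rfl
  have x11 : (sl2X s t h).1 1 1 = -s := rfl
  apply sl_ext <;> simp only [mul_00, mul_01, mul_10, mul_11, x00, x01, x10, x11, h1, h2]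
  · linear_combination s * hd
  · linear_combination t * hd
  · linear_combination t * hd
  · linear_combination (-s) * hd

/-- The split case: embedding into the multiplicative group. -/
noncomputable def mF (i : F) (hi : i * i = -1) : Subgroup.centralizer ({sl2A} : Set (SL2 F)) →* F where
  toFun z := z.1.1 0 0 + i * z.1.1 1 0
  map_one' := by simp
  map_mul' z w := by
    obtain ⟨h1, h2⟩ := cent_A_mem z.2
    obtain ⟨h3, h4⟩ := cent_A_mem w.2
    show (z.1 * w.1).1 0 0 + i * (z.1 * w.1).1 1 0 = _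
    simp only [mul_00, mul_10, h1, h2]
    linear_combination (-(z.1.1 1 0 * w.1.1 1 0)) * hi

theorem cent_A_cyclic (hodd : Odd (Fintype.card F)) : IsCyclic (Subgroup.centralizer ({sl2A} : Set (SL2 F))) := by
  have h2 : (2 : F) ≠ 0 := two_ne hodd
  by_cases hs : IsSquare (-1 : F)
  · obtain ⟨i, hi⟩ := hs
    have hi' := hi.symm
    refine isCyclic_of_injective (mF i hi').toHomUnits ?_
    rw [injective_iff_map_eq_one]
    intro z hz
    have hz1 : mF i hi' z = 1 := by
      have := congrArg Units.val hz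
      simpa using this
    have hz2 : z.1.1 0 0 + i * z.1.1 1 0 = 1 := hz1
    obtain ⟨h1, h3⟩ := cent_A_mem z.2
    have hd := det_eq z.1
    rw [h1, h3] at hd
    have h4 : (z.1.1 0 0 + i * z.1.1 1 0) * (z.1.1 0 0 - i * z.1.1 1 0) = 1 := by
      linear_combination hd - (z.1.1 1 0) ^ 2 * hi'
    rw [hz2, one_mul] at h4
    have h5 : 2 * z.1.1 0 0 = 2 * 1 := by linear_combination hz2 + h4
    have h6 := mul_left_cancel₀ h2 h5
    have hi0 : i ≠ 0 := by
      rintro rfl
      simp at hi'
    have h7 : 2 * (i * z.1.1 1 0) = 0 := by linear_combination hz2 - h4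
    have h8 : z.1.1 1 0 = 0 := by
      rcases mul_eq_zero.1 h7 with h9 | h9
      · exact absurd h9 h2
      · exact (mul_eq_zero.1 h9).resolve_left hi0
    apply Subtype.ext
    apply sl_ext
    · simpa using h6
    · rw [h3, h8]; simp
    · rw [h8]; simp
    · rw [h1, h6]; simp
  · exact cent_cyclic (ell_of_nonsq tr_A hs)

/-- Sylow `2`-subgroups of `SL₂(q)`, `q` odd, are generalised quaternion. -/
theorem sylow_two (hodd : Odd (Fintype.card F)) (P : Sylow 2 (SL2 F)) :
    ∃ k : ℕ, 1 ≤ k ∧ Nonempty ((P : Subgroup (SL2 F)) ≃* QuaternionGroup (2 ^ k)) := by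
  classical
  have h2 : (2 : F) ≠ 0 := two_ne hodd
  have hq1 := Fintype.one_lt_card (α := F)
  have hq2 : Fintype.card F % 2 = 1 := Nat.odd_iff.1 hodd
  set q := Fintype.card F with hq
  set C := Subgroup.centralizer ({sl2A} : Set (SL2 F)) with hC
  haveI : IsCyclic C := cent_A_cyclic hodd
  have hcc := card_cent_tr0 hodd (tr_A (F := F))
  -- the arithmetic of the order
  obtain ⟨c', hc1, hc2, hc3⟩ : ∃ c', Nat.card (SL2 F) = q * (Nat.card C * c') ∧ 4 ∣ Nat.card C ∧ c' % 4 = 2 := by
    have hcard : Nat.card (SL2 F) = q * ((q - 1) * (q + 1)) := by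
      rw [CfsgLib.ClassGeo.card_SL2, fact_sq _ (by omega)]
    have h4 : q % 4 = 1 ∨ q % 4 = 3 := by omega
    rcases h4 with h4 | h4
    · refine ⟨q + 1, ?_, ?_, by omega⟩
      · rw [hcc.1 h4, hcard]
      · rw [hcc.1 h4]; omega
    · refine ⟨q - 1, ?_, ?_, by omega⟩
      · rw [hcc.2 h4, hcard, ← hq]; ring
      · rw [hcc.2 h4]; omega
  obtain ⟨a, m, hm, hcm⟩ := Nat.exists_eq_pow_mul_and_not_dvd (n := Nat.card C) Nat.card_pos.ne' 2 (by norm_num)
  have hm2 : m % 2 = 1 := by omega
  obtain ⟨b, rfl⟩ : ∃ b, a = b + 2 := by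
    rcases a with _ | _ | b
    · exfalso
      rw [hcm] at hc2
      omega
    · exfalso
      rw [hcm] at hc2
      omega
    · exact ⟨b, rfl⟩
  obtain ⟨g₀, hg₀⟩ := IsCyclic.exists_generator (α := C)
  have hord0 : orderOf g₀ = Nat.card C := orderOf_eq_card_of_forall_mem_zpowers hg₀
  have hm0 : m ≠ 0 := by omega
  have hmd : m ∣ orderOf g₀ := by
    rw [hord0, hcm]
    exact Dvd.intro_left _ rfl
  have hord1 : orderOf (g₀ ^ m) = 2 ^ (b + 2) := by
    rw [orderOf_pow_of_dvd hm0 hmd, hord0, hcm]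
    exact Nat.mul_div_cancel _ (by omega)
  set a₀ : SL2 F := ((g₀ ^ m : C) : SL2 F) with ha₀
  have hmem : a₀ ∈ C := (g₀ ^ m).2
  have hord : orderOf a₀ = 2 * 2 ^ (b + 1) := by
    rw [ha₀, Subgroup.orderOf_coe, hord1]
    ring
  have hnpos : 0 < 2 ^ (b + 1) := by positivity
  have hn1 : a₀ ^ (2 ^ (b + 1)) = zS F := by
    have h3 : (a₀ ^ (2 ^ (b + 1))) * (a₀ ^ (2 ^ (b + 1))) = 1 := by
      rw [← pow_add, ← two_mul, ← hord]
      exact pow_orderOf_eq_one a₀
    have h4 : a₀ ^ (2 ^ (b + 1)) ≠ 1 := by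
      apply pow_ne_one_of_lt_orderOf hnpos.ne'
      rw [hord]
      omega
    exact (sq_one_cases h2 h3).resolve_left h4
  obtain ⟨s, t, hst⟩ := exists_norm_eq hq2 h2 0 (-1) (by
    intro h
    apply h2
    have h4 : (2 : F) * 2 = 0 := by linear_combination -h
    exact (mul_eq_zero.1 h4).elim id id)
  have hst' : s ^ 2 + t ^ 2 = -1 := by linear_combination hst
  have hX : trS (sl2X s t hst') = 0 := by
    show s + -s = 0
    ring
  haveI : NeZero (2 ^ (b + 1)) := ⟨hnpos.ne'⟩
  obtain ⟨Q, -, -, hQc, ⟨e⟩⟩ := CfsgLib.ClassGeo.exists_quat_of_rel (2 ^ (b + 1)) a₀ (sl2X s t hst')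
    (by rw [pow_two, sq_of_tr0 hX, hn1]) (cent_A_X hmem s t hst') hord
    (by
      apply pow_ne_one_of_lt_orderOf (by norm_num)
      rw [hord]
      have : 1 ≤ 2 ^ b := Nat.one_le_two_pow
      have e1 : 2 * 2 ^ (b + 1) = 4 * 2 ^ b := by ring
      omega)
  have hodd2 : ¬ 2 ∣ q * m * (c' / 2) := by
    rw [Nat.Prime.dvd_mul Nat.prime_two, Nat.Prime.dvd_mul Nat.prime_two]
    omega
  have hGc : Nat.card (SL2 F) = 2 ^ (b + 3) * (q * m * (c' / 2)) := by
    rw [hc1, hcm]
    have : c' = 2 * (c' / 2) := by omega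
    conv_lhs => rw [this]
    ring
  have hQ' : Nat.card Q = 2 ^ (Nat.card (SL2 F)).factorization 2 := by
    rw [hGc, CfsgLib.ClassGeo.pow_factorization_eq 2 (b + 3) _ Nat.prime_two hodd2, hQc]
    ring
  let S : Sylow 2 (SL2 F) := Sylow.ofCard Q hQ'
  have e1 : (P : Subgroup (SL2 F)) ≃* (S : Subgroup (SL2 F)) := Sylow.equiv P S
  exact ⟨b + 1, by omega, ⟨e1.trans e⟩⟩

end CfsgLib.ClassGeo.SL2Tori
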