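import Mathlib
import Cfsg.Agent.Lib.ClassGeo.SUOver2
import Cfsg.Agent.Lib.ClassGeo.SpOver3

set_option autoImplicit false
set_option linter.unusedSimpArgs false
set_option linter.unusedVariables false
set_option linter.unusedSectionVars false

namespace CfsgLib.ClassGeo

open Module

section linalg

variable {F V : Type*} [Field F] [AddCommGroup V] [Module F V] [FiniteDimensional F V]

/-- A linear map with image in a line on `H` has a kernel of codimension at most one in `H`. -/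
theorem rank_small (β : V →ₗ[F] V) (H : Submodule F V) (v : V) (hb : ∀ b ∈ H, β b ∈ Submodule.span F {v}) :
    finrank F H ≤ finrank F ↥(H ⊓ LinearMap.ker β) + 1 := by
  let φ : H →ₗ[F] Submodule.span F {v} := (β.domRestrict H).codRestrict (Submodule.span F {v}) (fun x => hb x x.2)
  have h1 := LinearMap.finrank_range_add_finrank_ker φ
  have h2 : finrank F (LinearMap.range φ) ≤ 1 := by
    refine (Submodule.finrank_le _).trans ?_
    by_cases hv : v = 0
    · rw [hv, Submodule.span_zero_singleton, finrank_bot]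
      omega
    · rw [finrank_span_singleton hv]
  have h3 : finrank F (LinearMap.ker φ) ≤ finrank F ↥(H ⊓ LinearMap.ker β) := by
    refine LinearMap.finrank_le_finrank_of_injective (f := LinearMap.codRestrict (H ⊓ LinearMap.ker β) (H.subtype ∘ₗ (LinearMap.ker φ).subtype) ?_) ?_
    · intro x
      refine ⟨(x : H).2, ?_⟩
      have hx : φ x = 0 := x.2
      have : β ((x : H) : V) = 0 := congrArg Subtype.val hx
      exact this
    · intro x y hxy
      have := congrArg Subtype.val hxy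
      exact Subtype.ext (Subtype.ext this)
  omega

theorem finrank_inf_ker_ge (W : Submodule F V) (f : V →ₗ[F] F) : finrank F W ≤ finrank F ↥(W ⊓ LinearMap.ker f) + 1 := by
  by_cases h : ∃ v ∈ W, f v ≠ 0
  · obtain ⟨v, hv, hf⟩ := h
    exact (finrank_inf_ker_add_one W f v hv hf).ge
  · push Not at h
    have : W ⊓ LinearMap.ker f = W := inf_eq_left.mpr (fun x hx => h x hx)
    rw [this]
    omega

end linalg

section goodness

variable {F V : Type*} [Field F] [AddCommGroup V] [Module F V] [FiniteDimensional F V]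

/-- The core of the goodness argument. -/
theorem good_core {σ : F →+* F} {B : V →ₛₗ[σ] V →ₗ[F] F} (hzs : ∀ x y, B x y = 0 → B y x = 0) (A₀ A₁ : V →ₗ[F] V) (A C : Submodule F V)
    (hK : finrank F ↥(C ⊓ LinearMap.ker A₁) + 4 ≤ finrank F C) (hA : 3 ≤ finrank F A)
    (hyp : ∀ a ∈ A, a ≠ 0 → ∀ b ∈ C, B b a = 0 → A₀ b ∈ Submodule.span F {A₀ a} ∨ A₁ b ∈ Submodule.span F {A₁ a}) :
    ∀ b ∈ C, A₀ b = 0 := by
  have step1 : ∀ a ∈ A, a ≠ 0 → ∀ b ∈ C, B b a = 0 → A₀ b ∈ Submodule.span F {A₀ a} := by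
    intro a ha ha0 b hb hba
    obtain ⟨H, hH⟩ : ∃ H, H = C ⊓ LinearMap.ker (B a) := ⟨_, rfl⟩
    have hH1 : finrank F C ≤ finrank F H + 1 := by
      rw [hH]
      exact finrank_inf_ker_ge C (B a)
    have hbH : b ∈ H := by
      rw [hH]
      exact ⟨hb, hzs _ _ hba⟩
    have hex : ∃ b₂ ∈ H, A₁ b₂ ∉ Submodule.span F {A₁ a} := by
      by_contra hcon
      push Not at hcon
      have h1 := rank_small A₁ H (A₁ a) hcon
      have h2 : finrank F ↥(H ⊓ LinearMap.ker A₁) ≤ finrank F ↥(C ⊓ LinearMap.ker A₁) := by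
        apply Submodule.finrank_mono
        apply inf_le_inf_right
        rw [hH]
        exact inf_le_left
      omega
    obtain ⟨b₂, hb₂, hb₂n⟩ := hex
    have hb₂C : b₂ ∈ C := by
      rw [hH] at hb₂
      exact hb₂.1
    have hb₂a : B b₂ a = 0 := by
      rw [hH] at hb₂
      exact hzs _ _ hb₂.2
    have hb₂0 : A₀ b₂ ∈ Submodule.span F {A₀ a} := (hyp a ha ha0 b₂ hb₂C hb₂a).resolve_right hb₂n
    by_cases hb1 : A₁ b ∈ Submodule.span F {A₁ a}
    · have hn : A₁ (b + b₂) ∉ Submodule.span F {A₁ a} := by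
        intro h3
        apply hb₂n
        have := Submodule.sub_mem _ h3 hb1
        rwa [map_add, add_sub_cancel_left] at this
      have h4 := (hyp a ha ha0 (b + b₂) (C.add_mem hb hb₂C) (by rw [map_add, LinearMap.add_apply, hba, hb₂a, add_zero])).resolve_right hn
      have := Submodule.sub_mem _ h4 hb₂0
      rwa [map_add, add_sub_cancel_right] at this
    · exact (hyp a ha ha0 b hb hba).resolve_right hb1
  intro b₀ hb₀
  by_contra hb₀0
  obtain ⟨A', hA'⟩ : ∃ A', A' = A ⊓ LinearMap.ker (B b₀) := ⟨_, rfl⟩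
  have hA'1 : finrank F A ≤ finrank F A' + 1 := by
    rw [hA']
    exact finrank_inf_ker_ge A (B b₀)
  have key : ∀ a ∈ A', a ≠ 0 → A₀ a ≠ 0 ∧ A₀ a ∈ Submodule.span F {A₀ b₀} := by
    intro a ha ha0
    have haA : a ∈ A := by
      rw [hA'] at ha
      exact ha.1
    have h0 : B b₀ a = 0 := by
      rw [hA'] at ha
      exact ha.2
    obtain ⟨t, ht⟩ := Submodule.mem_span_singleton.mp (step1 a haA ha0 b₀ hb₀ h0)
    have ht0 : t ≠ 0 := by
      rintro rfl
      rw [zero_smul] at ht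
      exact hb₀0 ht.symm
    have hAa : A₀ a ≠ 0 := by
      intro h1
      rw [h1, smul_zero] at ht
      exact hb₀0 ht.symm
    refine ⟨hAa, Submodule.mem_span_singleton.mpr ⟨t⁻¹, ?_⟩⟩
    rw [← ht, smul_smul, inv_mul_cancel₀ ht0, one_smul]
  have h1 := rank_small A₀ A' (A₀ b₀) (by
    intro a ha
    by_cases ha0 : a = 0
    · rw [ha0, map_zero]
      exact Submodule.zero_mem _
    · exact (key a ha ha0).2)
  have h2 : A' ⊓ LinearMap.ker A₀ ≠ ⊥ := by
    intro h0
    rw [h0, finrank_bot] at h1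
    omega
  obtain ⟨a, ha, ha0⟩ := Submodule.exists_mem_ne_zero_of_ne_bot h2
  exact (key a ha.1 ha0).1 ha.2

theorem good_both {σ : F →+* F} {B : V →ₛₗ[σ] V →ₗ[F] F} (hzs : ∀ x y, B x y = 0 → B y x = 0) (A₀ A₁ : V →ₗ[F] V) (A C : Submodule F V)
    (hC : 7 ≤ finrank F C) (hA : 3 ≤ finrank F A) (hinj : ∀ b ∈ C, A₀ b = 0 → A₁ b = 0 → b = 0)
    (hyp : ∀ a ∈ A, a ≠ 0 → ∀ b ∈ C, B b a = 0 → A₀ b ∈ Submodule.span F {A₀ a} ∨ A₁ b ∈ Submodule.span F {A₁ a}) :
    (∀ b ∈ C, A₀ b = 0) ∨ (∀ b ∈ C, A₁ b = 0) := by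
  have hdisj : (C ⊓ LinearMap.ker A₀) ⊓ (C ⊓ LinearMap.ker A₁) = ⊥ := by
    rw [eq_bot_iff]
    rintro x ⟨⟨hx, h0⟩, ⟨-, h1⟩⟩
    exact hinj x hx h0 h1
  have h1 := Submodule.finrank_sup_add_finrank_inf_eq (C ⊓ LinearMap.ker A₀) (C ⊓ LinearMap.ker A₁)
  rw [hdisj, finrank_bot, add_zero] at h1
  have h2 : finrank F ↥((C ⊓ LinearMap.ker A₀) ⊔ (C ⊓ LinearMap.ker A₁)) ≤ finrank F C :=
    Submodule.finrank_mono (sup_le inf_le_left inf_le_left)
  by_cases h3 : finrank F ↥(C ⊓ LinearMap.ker A₁) + 4 ≤ finrank F C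
  · left
    exact good_core hzs A₀ A₁ A C h3 hA hyp
  · right
    refine good_core hzs A₁ A₀ A C (by omega) hA ?_
    intro a ha ha0 b hb hba
    exact (hyp a ha ha0 b hb hba).symm

end goodness

section ZM

variable {F V : Type*} [Field F] [AddCommGroup V] [Module F V] {σ : F →+* F} {B : V →ₛₗ[σ] V →ₗ[F] F}
variable [FiniteDimensional F V]

theorem IsE.conj {c z : V} {k : F} {p : V ≃ₗ[F] V} (hp : IsE B c z k p) (g : V ≃ₗ[F] V) (hg : ∀ x y, B (g x) (g y) = B x y) :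
    IsE B (g c) (g z) k (g * p * g⁻¹) := by
  intro x
  change g (p (g⁻¹ x)) = _
  have e : g (g⁻¹ x) = x := g.apply_symm_apply x
  have e2 : ∀ y, B (g y) x = B y (g⁻¹ x) := by
    intro y
    conv_lhs => rw [← e, hg]
  rw [hp, map_add, map_sub, map_add, map_smul, map_smul, map_smul, e, e2, e2]

/-- The Eichler directions along `c` available in `M`. -/
def ZM (M : Subgroup (V ≃ₗ[F] V)) (B : V →ₛₗ[σ] V →ₗ[F] F) (c z : V) : Prop :=
  B z c = 0 ∧ ∃ k p, p ∈ M ∧ IsE B c z k p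

theorem ZM.add (hf : FForm σ B) {M : Subgroup (V ≃ₗ[F] V)} {c z z' : V} (hcc : B c c = 0) (h1 : ZM M B c z) (h2 : ZM M B c z') : ZM M B c (z + z') := by
  obtain ⟨hz, k, p, hp, hE⟩ := h1
  obtain ⟨hz', k', p', hp', hE'⟩ := h2
  refine ⟨by rw [map_add, LinearMap.add_apply, hz, hz', add_zero], _, _, M.mul_mem hp hp', hE.mul hE' hcc hz (hf.zero_symm hz')⟩

theorem ZM.neg (hf : FForm σ B) {M : Subgroup (V ≃ₗ[F] V)} {c z : V} (hcc : B c c = 0) (h1 : ZM M B c z) : ZM M B c (-z) := by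
  obtain ⟨hz, k, p, hp, hE⟩ := h1
  have hcz : B c z = 0 := hf.zero_symm hz
  refine ⟨by rw [map_neg, LinearMap.neg_apply, hz, neg_zero], - k - B z z, p⁻¹, M.inv_mem hp, ?_⟩
  intro x
  change p.symm x = _
  rw [LinearEquiv.symm_apply_eq, hE]
  simp only [map_neg, LinearMap.neg_apply, map_add, map_sub, LinearMap.add_apply, map_smul, hcc, hcz, hz, smul_eq_mul, mul_zero, add_zero, sub_zero, neg_zero, neg_smul, sub_neg_eq_add, smul_neg]
  module

theorem ZM.sub (hf : FForm σ B) {M : Subgroup (V ≃ₗ[F] V)} {c z z' : V} (hcc : B c c = 0) (h1 : ZM M B c z) (h2 : ZM M B c z') : ZM M B c (z - z') := by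
  rw [sub_eq_add_neg]
  exact h1.add hf hcc (h2.neg hf hcc)

theorem ZM.conj {M : Subgroup (V ≃ₗ[F] V)} {c z : V} (h1 : ZM M B c z) (r : V ≃ₗ[F] V) (hrM : r ∈ M) (hr : ∀ x y, B (r x) (r y) = B x y) (hrc : r c = c) : ZM M B c (r z) := by
  obtain ⟨hz, k, p, hp, hE⟩ := h1
  refine ⟨by conv_lhs => rw [← hrc, hr]; exact hz, k, r * p * r⁻¹, M.mul_mem (M.mul_mem hrM hp) (M.inv_mem hrM), ?_⟩
  have := hE.conj r hr
  rwa [hrc] at this

theorem ZM.comm (hf : FForm σ B) {M : Subgroup (V ≃ₗ[F] V)} {c z z' : V} (hcc : B c c = 0) (h1 : ZM M B c z) (h2 : ZM M B c z') :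
    uT c (B z' z - B z z') hcc ∈ M := by
  obtain ⟨hz, k, p, hp, hE⟩ := h1
  obtain ⟨hz', k', p', hp', hE'⟩ := h2
  have hcz : B c z = 0 := hf.zero_symm hz
  have hcz' : B c z' = 0 := hf.zero_symm hz'
  have e1 := hE.mul hE' hcc hz hcz'
  have e2 := hE'.mul hE hcc hz' hcz
  have : uT c (B z' z - B z z') hcc = (p * p') * (p' * p)⁻¹ := by
    rw [eq_mul_inv_iff_mul_eq]
    ext x
    change uT c (B z' z - B z z') hcc ((p' * p) x) = (p * p') x
    rw [uT_apply hf, e1 x, e2 x]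
    simp only [map_add, map_sub, LinearMap.add_apply, map_smul, hcc, hcz, hcz', smul_eq_mul, mul_zero, add_zero, sub_zero]
    module
  rw [this]
  exact M.mul_mem (M.mul_mem hp hp') (M.inv_mem (M.mul_mem hp' hp))

end ZM

end CfsgLib.ClassGeo
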