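import Mathlib
import Cfsg.Agent.Lib.ClassGeo.SULag

set_option autoImplicit false
set_option linter.unusedSimpArgs false
set_option linter.unusedVariables false
set_option linter.unusedSectionVars false

namespace CfsgLib.ClassGeo

open Module

section ctx

variable {F V : Type*} [Field F] [AddCommGroup V] [Module F V] {σ : F →+* F} {B : V →ₛₗ[σ] V →ₗ[F] F}
variable [FiniteDimensional F V] [Finite F]

/-- A pair of complementary totally singular subspaces together with projections. -/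
structure LagPair (σ : F →+* F) (B : V →ₛₗ[σ] V →ₗ[F] F) (W₀ W₁ : Submodule F V) (P₀ P₁ : V →ₗ[F] V) : Prop where
  h : HForm σ B
  ts₀ : ∀ x ∈ W₀, ∀ y ∈ W₀, B x y = 0
  ts₁ : ∀ x ∈ W₁, ∀ y ∈ W₁, B x y = 0
  P₀W : ∀ x, P₀ x ∈ W₀
  P₁W : ∀ x, P₁ x ∈ W₁
  Psum : ∀ x, P₀ x + P₁ x = x

variable {W₀ W₁ : Submodule F V} {P₀ P₁ : V →ₗ[F] V}

theorem LagPair.swap (L : LagPair σ B W₀ W₁ P₀ P₁) : LagPair σ B W₁ W₀ P₁ P₀ :=
  ⟨L.h, L.ts₁, L.ts₀, L.P₁W, L.P₀W, fun x => by rw [add_comm]; exact L.Psum x⟩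

theorem LagPair.disj (L : LagPair σ B W₀ W₁ P₀ P₁) (x : V) (h0 : x ∈ W₀) (h1 : x ∈ W₁) : x = 0 := by
  apply L.h.sep
  intro y
  rw [← L.Psum y, map_add, L.ts₀ x h0 _ (L.P₀W y), L.ts₁ x h1 _ (L.P₁W y), add_zero]

theorem LagPair.P₁_of_mem (L : LagPair σ B W₀ W₁ P₀ P₁) {x : V} (h0 : x ∈ W₀) : P₁ x = 0 := by
  apply L.disj _ _ (L.P₁W x)
  have := L.Psum x
  have e : P₁ x = x - P₀ x := by rw [eq_sub_iff_add_eq, add_comm]; exact this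
  rw [e]
  exact W₀.sub_mem h0 (L.P₀W x)

theorem LagPair.P₀_of_mem (L : LagPair σ B W₀ W₁ P₀ P₁) {x : V} (h1 : x ∈ W₁) : P₀ x = 0 := L.swap.P₁_of_mem h1

theorem LagPair.P₀_self (L : LagPair σ B W₀ W₁ P₀ P₁) {x : V} (h0 : x ∈ W₀) : P₀ x = x := by
  have := L.Psum x
  rwa [L.P₁_of_mem h0, add_zero] at this

theorem LagPair.P₁_self (L : LagPair σ B W₀ W₁ P₀ P₁) {x : V} (h1 : x ∈ W₁) : P₁ x = x := L.swap.P₀_self h1

/-- Pairing only sees the other component. -/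
theorem LagPair.pair_r (L : LagPair σ B W₀ W₁ P₀ P₁) {y : V} (hy : y ∈ W₀) (x : V) : B y x = B y (P₁ x) := by
  conv_lhs => rw [← L.Psum x]
  rw [map_add, L.ts₀ y hy _ (L.P₀W x), zero_add]

theorem LagPair.pair_l (L : LagPair σ B W₀ W₁ P₀ P₁) {y : V} (hy : y ∈ W₀) (x : V) : B x y = B (P₁ x) y := by
  conv_lhs => rw [← L.Psum x]
  rw [map_add, LinearMap.add_apply, L.ts₀ _ (L.P₀W x) y hy, zero_add]

theorem LagPair.sep (L : LagPair σ B W₀ W₁ P₀ P₁) (S : Submodule F V) (hS : S ≤ W₁) (y : V) (hy1 : y ∈ W₁) (hy : y ∉ S) :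
    ∃ a ∈ W₀, B a y = 1 ∧ ∀ s ∈ S, B a s = 0 := by
  obtain ⟨w, hw, hwS⟩ := L.h.toF.exists_sep S y hy
  refine ⟨P₀ w, L.P₀W w, ?_, fun s hs => ?_⟩
  · have := L.swap.pair_l hy1 w
    rw [← this, hw]
  · have := L.swap.pair_l (hS hs) w
    rw [← this, hwS s hs]

/-- Elements stabilising both subspaces. -/
theorem LagPair.exists_E (L : LagPair σ B W₀ W₁ P₀ P₁) (a b : V) (ha : a ∈ W₀) (hb : b ∈ W₁) (hba : B b a = 0) :
    ∃ p ∈ suG B, (∀ x ∈ W₀, p x ∈ W₀) ∧ (∀ x ∈ W₁, p x ∈ W₁) ∧ IsE B a b 0 p := by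
  have hf := L.h.toF
  have hbb : B b b = 0 := L.ts₁ b hb b hb
  have haa : B a a = 0 := L.ts₀ a ha a ha
  have hd : (0 : F) + σ 0 = B b b := by simp [hbb]
  have hform : ∀ x, eich hf a b 0 haa hba x = x + B b x • a - B a x • b := by
    intro x
    rw [eich_apply, hbb]
    simp
  refine ⟨eich hf a b 0 haa hba, eich_mem_suG hf a b 0 haa hba hd, ?_, ?_, ?_⟩
  · intro x hx
    rw [hform, L.ts₀ a ha x hx]
    simp only [zero_smul, sub_zero]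
    exact W₀.add_mem hx (W₀.smul_mem _ ha)
  · intro x hx
    rw [hform, L.ts₁ b hb x hx]
    simp only [zero_smul, add_zero]
    exact W₁.sub_mem hx (W₁.smul_mem _ hb)
  · intro x
    rw [hform]
    simp

/-- From good data, a transvection in `M`. -/
theorem LagPair.uT_of_good (L : LagPair σ B W₀ W₁ P₀ P₁) (hk : 7 ≤ finrank F W₁) (M : Subgroup (V ≃ₗ[F] V)) (hle : M ≤ suG B)
    (hst : ∀ p ∈ suG B, (∀ x ∈ W₀, p x ∈ W₀) → (∀ x ∈ W₁, p x ∈ W₁) → p ∈ M)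
    (c d : V) (hcc : B c c = 0) (hZ : ZM M B c d) (h₀ : P₀ d ∉ Submodule.span F {P₀ c}) (h₁ : P₁ d ∉ Submodule.span F {P₁ c}) :
    ∃ x, x ≠ 0 ∧ x + σ x = 0 ∧ uT c x hcc ∈ M := by
  classical
  have h := L.h
  have hf := h.toF
  obtain ⟨c₀, hc₀⟩ : ∃ c₀, c₀ = P₀ c := ⟨_, rfl⟩
  obtain ⟨c₁, hc₁⟩ : ∃ c₁, c₁ = P₁ c := ⟨_, rfl⟩
  obtain ⟨d₀, hd₀⟩ : ∃ d₀, d₀ = P₀ d := ⟨_, rfl⟩
  obtain ⟨d₁, hd₁⟩ : ∃ d₁, d₁ = P₁ d := ⟨_, rfl⟩
  rw [← hc₀, ← hd₀] at h₀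
  rw [← hc₁, ← hd₁] at h₁
  have hc₀W : c₀ ∈ W₀ := hc₀ ▸ L.P₀W c
  have hc₁W : c₁ ∈ W₁ := hc₁ ▸ L.P₁W c
  have hd₀W : d₀ ∈ W₀ := hd₀ ▸ L.P₀W d
  have hd₁W : d₁ ∈ W₁ := hd₁ ▸ L.P₁W d
  have hspan : ∀ (U : Submodule F V) (x : V), x ∈ U → Submodule.span F {x} ≤ U := fun U x hx => (Submodule.span_singleton_le_iff_mem x U).mpr hx
  obtain ⟨a₁, ha₁, ha₁d, ha₁c⟩ := L.sep _ (hspan W₁ c₁ hc₁W) d₁ hd₁W h₁
  obtain ⟨b₁, hb₁, hb₁d, hb₁c⟩ := L.swap.sep _ (hspan W₀ c₀ hc₀W) d₀ hd₀W h₀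
  have ha₁c' : B a₁ c₁ = 0 := ha₁c c₁ (Submodule.mem_span_singleton_self c₁)
  have hb₁c' : B b₁ c₀ = 0 := hb₁c c₀ (Submodule.mem_span_singleton_self c₀)
  have e1 : ∀ y ∈ W₀, ∀ x, B y x = B y (P₁ x) := fun y hy x => L.pair_r hy x
  have e2 : ∀ y ∈ W₁, ∀ x, B y x = B y (P₀ x) := fun y hy x => L.swap.pair_r hy x
  -- elements of `W₁`
  have pure1 : ∀ b' ∈ W₁, B b' c₀ = 0 → B a₁ b' = 0 → B b' d₀ = 0 → ZM M B c b' := by
    intro b' hb' h1 h2 h3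
    obtain ⟨p, hpI, hp0, hp1, hpE⟩ := L.exists_E a₁ b' ha₁ hb' (hf.zero_symm h2)
    have hpM := hst p hpI hp0 hp1
    have hform : ∀ x, p x = x + B b' x • a₁ - B a₁ x • b' := by
      intro x
      rw [hpE x]
      simp
    have hpc : p c = c := by
      rw [hform, e2 b' hb' c, ← hc₀, h1, e1 a₁ ha₁ c, ← hc₁, ha₁c']
      simp
    have hpd : p d = d - b' := by
      rw [hform, e2 b' hb' d, ← hd₀, h3, e1 a₁ ha₁ d, ← hd₁, ha₁d]
      simp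
    have h4 := hZ.conj p hpM hpI.1 hpc
    have h5 := hZ.sub hf hcc h4
    rw [hpd] at h5
    simpa using h5
  have pure0 : ∀ a' ∈ W₀, B a' c₁ = 0 → B b₁ a' = 0 → B a' d₁ = 0 → ZM M B c a' := by
    intro a' ha' h1 h2 h3
    obtain ⟨p, hpI, hp0, hp1, hpE⟩ := L.exists_E a' b₁ ha' hb₁ h2
    have hpM := hst p hpI hp0 hp1
    have hform : ∀ x, p x = x + B b₁ x • a' - B a' x • b₁ := by
      intro x
      rw [hpE x]
      simp
    have hpc : p c = c := by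
      rw [hform, e2 b₁ hb₁ c, ← hc₀, hb₁c', e1 a' ha' c, ← hc₁, h1]
      simp
    have hpd : p d = d + a' := by
      rw [hform, e2 b₁ hb₁ d, ← hd₀, hb₁d, e1 a' ha' d, ← hd₁, h3]
      simp
    have h4 := hZ.conj p hpM hpI.1 hpc
    have h5 := h4.sub hf hcc hZ
    rw [hpd] at h5
    simpa using h5
  -- dimension count
  obtain ⟨Y, hY⟩ : ∃ Y, Y = W₁ ⊓ LinearMap.ker (B c₀) ⊓ LinearMap.ker (B a₁) ⊓ LinearMap.ker (B d₀) := ⟨_, rfl⟩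
  have hYr : finrank F W₁ ≤ finrank F Y + 3 := by
    have r1 := finrank_inf_ker_ge W₁ (B c₀)
    have r2 := finrank_inf_ker_ge (W₁ ⊓ LinearMap.ker (B c₀)) (B a₁)
    have r3 := finrank_inf_ker_ge (W₁ ⊓ LinearMap.ker (B c₀) ⊓ LinearMap.ker (B a₁)) (B d₀)
    rw [hY]
    omega
  obtain ⟨S, hS⟩ : ∃ S, S = Submodule.span F {c₁, b₁, d₁} := ⟨_, rfl⟩
  have hSr : finrank F S ≤ 3 := by
    rw [hS]
    have := finrank_span_finset_le_card (R := F) ({c₁, b₁, d₁} : Finset V)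
    simp only [Finset.coe_insert, Finset.coe_singleton] at this
    refine this.trans ?_
    exact Finset.card_le_three
  have hSW : S ≤ W₁ := by
    rw [hS, Submodule.span_le]
    rintro x (rfl | rfl | rfl)
    · exact hc₁W
    · exact hb₁
    · exact hd₁W
  obtain ⟨y₁, hy₁Y, hy₁S⟩ : ∃ y₁ ∈ Y, y₁ ∉ S := by
    by_contra hcon
    push Not at hcon
    have := Submodule.finrank_mono (show Y ≤ S from fun x hx => hcon x hx)
    omega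
  have hy₁W : y₁ ∈ W₁ := by
    rw [hY] at hy₁Y
    exact hy₁Y.1.1.1
  have hy1 : B c₀ y₁ = 0 := by
    rw [hY] at hy₁Y
    exact hy₁Y.1.1.2
  have hy2 : B a₁ y₁ = 0 := by
    rw [hY] at hy₁Y
    exact hy₁Y.1.2
  have hy3 : B d₀ y₁ = 0 := by
    rw [hY] at hy₁Y
    exact hy₁Y.2
  obtain ⟨a', ha', ha'y, ha'S⟩ := L.sep S hSW y₁ hy₁W hy₁S
  have hac : B a' c₁ = 0 := ha'S c₁ (by rw [hS]; exact Submodule.subset_span (by simp))
  have hab : B a' b₁ = 0 := ha'S b₁ (by rw [hS]; exact Submodule.subset_span (by simp))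
  have had : B a' d₁ = 0 := ha'S d₁ (by rw [hS]; exact Submodule.subset_span (by simp))
  have hZ1 : ZM M B c y₁ := pure1 y₁ hy₁W (hf.zero_symm hy1) hy2 (hf.zero_symm hy3)
  obtain ⟨t, ht⟩ := h.exists_moved
  have hZ0 : ZM M B c (t • a') := by
    refine pure0 _ (W₀.smul_mem _ ha') ?_ ?_ ?_
    · rw [LinearMap.map_smulₛₗ₂, hac, smul_zero]
    · rw [map_smul, hf.zero_symm hab, smul_zero]
    · rw [LinearMap.map_smulₛₗ₂, had, smul_zero]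
  have hcomm := hZ0.comm hf hcc hZ1
  have e3 : B y₁ (t • a') - B (t • a') y₁ = t - σ t := by
    have e4 : B y₁ a' = 1 := by rw [← hf.symm, ha'y, map_one]
    rw [map_smul, LinearMap.map_smulₛₗ₂, ha'y, e4]
    simp
  refine ⟨B y₁ (t • a') - B (t • a') y₁, ?_, ?_, hcomm⟩
  · rw [e3]
    exact sub_ne_zero.mpr (Ne.symm ht)
  · rw [e3, map_sub, hf.σσ]
    ring

end ctx

end CfsgLib.ClassGeo
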