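import Mathlib
import Cfsg.Agent.Lib.ClassGeo.SULag2

set_option autoImplicit false
set_option linter.unusedSimpArgs false
set_option linter.unusedVariables false
set_option linter.unusedSectionVars false

namespace CfsgLib.ClassGeo

open Module

section ctx

variable {F V : Type*} [Field F] [AddCommGroup V] [Module F V] {σ : F →+* F} {B : V →ₛₗ[σ] V →ₗ[F] F}
variable [FiniteDimensional F V] [Finite F]
variable {W₀ W₁ : Submodule F V} {P₀ P₁ : V →ₗ[F] V}

/-- An element of `SU` interchanging the two subspaces. -/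
theorem LagPair.exists_swap (L : LagPair σ B W₀ W₁ P₀ P₁) (hk : finrank F W₀ = finrank F W₁) :
    ∃ t ∈ suG B, (∀ x ∈ W₀, t x ∈ W₁) ∧ (∀ x ∈ W₁, t x ∈ W₀) := by
  classical
  have h := L.h
  have hf := h.toF
  obtain ⟨a, ha0, ha⟩ := h.exists_anti
  let e := finBasis F W₀
  let Θ : W₁ →ₗ[F] (Fin (finrank F W₀) → F) := LinearMap.pi fun i => (B (e i : V)).comp W₁.subtype
  have hΘ : ∀ (y : W₁) i, Θ y i = B (e i : V) y := fun y i => rfl
  have hinj : Function.Injective Θ := by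
    rw [← LinearMap.ker_eq_bot, LinearMap.ker_eq_bot']
    intro y hy
    apply Subtype.ext
    apply h.sep
    intro x
    apply hf.zero_symm
    rw [← L.Psum x, map_add, LinearMap.add_apply, L.ts₁ _ (L.P₁W x) _ y.2, add_zero]
    have hx := e.sum_repr ⟨P₀ x, L.P₀W x⟩
    have hx' := congrArg Subtype.val hx
    simp only [Submodule.coe_sum, Submodule.coe_smul] at hx'
    change _ = P₀ x at hx'
    rw [← hx']
    simp only [map_sum, LinearMap.sum_apply, LinearMap.map_smulₛₗ₂, smul_eq_mul]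
    refine Finset.sum_eq_zero fun i _ => ?_
    have : B (e i : V) y = 0 := by
      have h1 := congrFun hy i
      rw [hΘ] at h1
      exact h1
    rw [this, mul_zero]
  have hsurj : Function.Surjective Θ := by
    refine (LinearMap.injective_iff_surjective_of_finrank_eq_finrank ?_).mp hinj
    simp [hk]
  choose f₀ hf₀ using fun j => hsurj (Pi.single j 1)
  obtain ⟨f, hfd⟩ : ∃ f : Fin (finrank F W₀) → V, f = fun j => (f₀ j : V) := ⟨_, rfl⟩
  have hfW : ∀ j, f j ∈ W₁ := fun j => by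
    rw [hfd]
    exact (f₀ j).2
  have hef : ∀ i j, B (e i : V) (f j) = if i = j then 1 else 0 := by
    intro i j
    rw [hfd]
    have := congrFun (hf₀ j) i
    rw [hΘ] at this
    change B (e i : V) (f₀ j) = _
    rw [this, Pi.single_apply]
  have hfe : ∀ i j, B (f j) (e i : V) = if i = j then 1 else 0 := by
    intro i j
    rw [← hf.symm, hef]
    split_ifs <;> simp
  have hee : ∀ i j, B (e i : V) (e j : V) = 0 := fun i j => L.ts₀ _ (e i).2 _ (e j).2
  have hff : ∀ i j, B (f i) (f j) = 0 := fun i j => L.ts₁ _ (hfW i) _ (hfW j)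
  have key : ∀ S : Finset (Fin (finrank F W₀)), ∃ t ∈ UT B, (∀ i ∈ S, t (e i : V) = - (a⁻¹ • f i) ∧ t (f i) = a • (e i : V)) ∧
      (∀ i, i ∉ S → t (e i : V) = (e i : V) ∧ t (f i) = f i) := by
    intro S
    induction S using Finset.induction_on with
    | empty =>
      refine ⟨1, (UT B).one_mem, by simp, fun i _ => ⟨rfl, rfl⟩⟩
    | insert j S hj ih =>
      obtain ⟨t, ht, h1, h2⟩ := ih
      obtain ⟨w, hw, hfix, hwe, hwf⟩ := exists_weyl h (W := Submodule.span F {(e j : V), f j}) (e j : V) (f j)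
        (Submodule.subset_span (by simp)) (Submodule.subset_span (by simp)) (hee j j) (hff j j) (by rw [hef, if_pos rfl]) a ha0 ha
      have hperpe : ∀ i, i ≠ j → (e i : V) ∈ hperp B (Submodule.span F {(e j : V), f j}) := by
        intro i hij x hx
        obtain ⟨α, β, rfl⟩ := Submodule.mem_span_pair.mp hx
        simp only [map_add, LinearMap.add_apply, LinearMap.map_smulₛₗ₂, LinearMap.smul_apply, smul_eq_mul, hee, hfe, if_neg hij]
        simp
      have hperpf : ∀ i, i ≠ j → f i ∈ hperp B (Submodule.span F {(e j : V), f j}) := by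
        intro i hij x hx
        obtain ⟨α, β, rfl⟩ := Submodule.mem_span_pair.mp hx
        simp only [map_add, LinearMap.add_apply, LinearMap.map_smulₛₗ₂, LinearMap.smul_apply, smul_eq_mul, hef, hff, if_neg (Ne.symm hij)]
        simp
      have hwe' : ∀ i, i ≠ j → w (e i : V) = (e i : V) := fun i hij => hfix _ (hperpe i hij)
      have hwf' : ∀ i, i ≠ j → w (f i) = f i := fun i hij => hfix _ (hperpf i hij)
      refine ⟨w * t, (UT B).mul_mem hw ht, ?_, ?_⟩
      · intro i hi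
        change w (t (e i : V)) = _ ∧ w (t (f i)) = _
        rcases Finset.mem_insert.mp hi with rfl | hi2
        · rw [(h2 i hj).1, (h2 i hj).2]
          exact ⟨hwe, hwf⟩
        · have hij : i ≠ j := by
            intro h5
            rw [h5] at hi2
            exact hj hi2
          rw [(h1 i hi2).1, (h1 i hi2).2, map_neg, map_smul, map_smul, hwe' i hij, hwf' i hij]
          exact ⟨rfl, rfl⟩
      · intro i hi
        have hi1 : i ∉ S := fun h3 => hi (Finset.mem_insert_of_mem h3)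
        have hij : i ≠ j := by
          rintro rfl
          exact hi (Finset.mem_insert_self _ _)
        change w (t (e i : V)) = _ ∧ w (t (f i)) = _
        rw [(h2 i hi1).1, (h2 i hi1).2]
        exact ⟨hwe' i hij, hwf' i hij⟩
  obtain ⟨t, ht, h1, -⟩ := key Finset.univ
  refine ⟨t, UT_le_suG hf ht, ?_, ?_⟩
  · intro x hx
    have hx' := congrArg Subtype.val (e.sum_repr ⟨x, hx⟩)
    simp only [Submodule.coe_sum, Submodule.coe_smul] at hx'
    change _ = x at hx'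
    rw [← hx', map_sum]
    refine W₁.sum_mem fun i _ => ?_
    rw [map_smul, (h1 i (Finset.mem_univ i)).1]
    exact W₁.smul_mem _ (W₁.neg_mem (W₁.smul_mem _ (hfW i)))
  · intro y hy
    have e3 : y = ∑ j, (Θ ⟨y, hy⟩ j) • f j := by
      have h3 : (⟨y, hy⟩ : W₁) = ∑ j, (Θ ⟨y, hy⟩ j) • f₀ j := by
        apply hinj
        rw [map_sum]
        simp only [map_smul, hf₀]
        ext i
        simp [Finset.sum_apply, Pi.single_apply]
      have h4 := congrArg Subtype.val h3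
      simp only [Submodule.coe_sum, Submodule.coe_smul] at h4
      rw [hfd]
      exact h4
    rw [e3, map_sum]
    refine W₀.sum_mem fun i _ => ?_
    rw [map_smul, (h1 i (Finset.mem_univ i)).2]
    exact W₀.smul_mem _ (W₀.smul_mem _ (e i).2)

/-- Transitivity on non-zero vectors of one subspace. -/
theorem LagPair.exists_move (L : LagPair σ B W₀ W₁ P₀ P₁) (hk : 2 ≤ finrank F W₀) (M : Subgroup (V ≃ₗ[F] V)) (hle : M ≤ suG B)
    (hst : ∀ p ∈ suG B, (∀ x ∈ W₀, p x ∈ W₀) → (∀ x ∈ W₁, p x ∈ W₁) → p ∈ M)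
    (u v : V) (hu : u ∈ W₀) (hv : v ∈ W₀) (hu0 : u ≠ 0) (hv0 : v ≠ 0) : ∃ p ∈ M, p u = v := by
  have step : ∀ u v : V, u ∈ W₀ → v ∈ W₀ → u ≠ 0 → v ∉ Submodule.span F {u} → ∃ p ∈ M, p u = v := by
    intro u v hu hv hu0 hvu
    obtain ⟨z, hz⟩ : ∃ z, z = v - u := ⟨_, rfl⟩
    have hzW : z ∈ W₀ := by
      rw [hz]
      exact W₀.sub_mem hv hu
    have huz : u ∉ Submodule.span F {z} := by
      intro hm
      obtain ⟨t, ht⟩ := Submodule.mem_span_singleton.mp hm
      rw [hz] at ht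
      have ht0 : t ≠ 0 := by
        rintro rfl
        rw [zero_smul] at ht
        exact hu0 ht.symm
      apply hvu
      refine Submodule.mem_span_singleton.mpr ⟨(1 + t) * t⁻¹, ?_⟩
      have e1 : t • v = (1 + t) • u := by
        calc t • v = t • (v - u) + t • u := by module
          _ = u + t • u := by rw [ht]
          _ = (1 + t) • u := by module
      rw [mul_comm, mul_smul, ← e1, smul_smul, inv_mul_cancel₀ ht0, one_smul]
    obtain ⟨b, hb, hbu, hbS⟩ := L.swap.sep (Submodule.span F {z}) ((Submodule.span_singleton_le_iff_mem z W₀).mpr hzW) u hu huz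
    have hbz : B b z = 0 := hbS z (Submodule.mem_span_singleton_self z)
    obtain ⟨p, hpI, hp0, hp1, hpE⟩ := L.exists_E z b hzW hb hbz
    refine ⟨p, hst p hpI hp0 hp1, ?_⟩
    rw [hpE u, hbu, L.ts₀ z hzW u hu, hz]
    simp
  by_cases hvu : v ∈ Submodule.span F {u}
  · obtain ⟨w, hw, hwu⟩ : ∃ w ∈ W₀, w ∉ Submodule.span F {u} := by
      by_contra hcon
      push Not at hcon
      have h1 := Submodule.finrank_mono (show W₀ ≤ Submodule.span F {u} from fun x hx => hcon x hx)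
      rw [finrank_span_singleton hu0] at h1
      omega
    have hw0 : w ≠ 0 := by
      rintro rfl
      exact hwu (Submodule.zero_mem _)
    obtain ⟨p₁, hp₁, e₁⟩ := step u w hu hw hu0 hwu
    have hvw : v ∉ Submodule.span F {w} := by
      intro hm
      obtain ⟨t, ht⟩ := Submodule.mem_span_singleton.mp hm
      obtain ⟨s, hs⟩ := Submodule.mem_span_singleton.mp hvu
      have ht0 : t ≠ 0 := by
        rintro rfl
        rw [zero_smul] at ht
        exact hv0 ht.symm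
      apply hwu
      refine Submodule.mem_span_singleton.mpr ⟨t⁻¹ * s, ?_⟩
      rw [mul_smul, hs, ← ht, smul_smul, inv_mul_cancel₀ ht0, one_smul]
    obtain ⟨p₂, hp₂, e₂⟩ := step w v hw hv hw0 hvw
    refine ⟨p₂ * p₁, M.mul_mem hp₂ hp₁, ?_⟩
    change p₂ (p₁ u) = v
    rw [e₁, e₂]
  · exact step u v hu hv hu0 hvu

/-- Overgroups of the stabiliser of a pair of complementary totally singular subspaces. -/
theorem su_lag (L : LagPair σ B W₀ W₁ P₀ P₁) (hk : finrank F W₀ = finrank F W₁) (hk₀ : 7 ≤ finrank F W₀) (M : Subgroup (V ≃ₗ[F] V)) (hle : M ≤ suG B)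
    (hst : ∀ p ∈ suG B, (∀ x ∈ W₀, p x ∈ W₀) → (∀ x ∈ W₁, p x ∈ W₁) → p ∈ M)
    (hsw : ∀ p ∈ suG B, (∀ x ∈ W₀, p x ∈ W₁) → (∀ x ∈ W₁, p x ∈ W₀) → p ∈ M)
    (g : V ≃ₗ[F] V) (hgM : g ∈ M) (hg1 : ¬ ((∀ x ∈ W₀, g x ∈ W₀) ∧ (∀ x ∈ W₁, g x ∈ W₁))) (hg2 : ¬ ((∀ x ∈ W₀, g x ∈ W₁) ∧ (∀ x ∈ W₁, g x ∈ W₀))) :
    suG B ≤ M := by
  have h := L.h
  have hf := h.toF
  have hzs : ∀ x y, B x y = 0 → B y x = 0 := fun x y hxy => hf.zero_symm hxy
  have hk₁ : 7 ≤ finrank F W₁ := hk ▸ hk₀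
  have hgI := (hle hgM).1
  have hVdim : 4 ≤ finrank F V := by
    have := Submodule.finrank_le W₀
    by_contra hc
    have h2 : W₀ ⊓ W₁ = ⊥ := by
      rw [eq_bot_iff]
      rintro x ⟨h0, h1⟩
      exact L.disj x h0 h1
    have h3 := Submodule.finrank_sup_add_finrank_inf_eq W₀ W₁
    rw [h2, finrank_bot] at h3
    have h4 := Submodule.finrank_le (W₀ ⊔ W₁)
    omega
  obtain ⟨A₀, hA₀⟩ : ∃ A₀ : V →ₗ[F] V, A₀ = P₀ ∘ₗ (g : V →ₗ[F] V) := ⟨_, rfl⟩
  obtain ⟨A₁, hA₁⟩ : ∃ A₁ : V →ₗ[F] V, A₁ = P₁ ∘ₗ (g : V →ₗ[F] V) := ⟨_, rfl⟩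
  have hA₀a : ∀ x, A₀ x = P₀ (g x) := fun x => by rw [hA₀]; rfl
  have hA₁a : ∀ x, A₁ x = P₁ (g x) := fun x => by rw [hA₁]; rfl
  have hinj : ∀ x, A₀ x = 0 → A₁ x = 0 → x = 0 := by
    intro x h0 h1
    rw [hA₀a] at h0
    rw [hA₁a] at h1
    have := L.Psum (g x)
    rw [h0, h1, add_zero] at this
    have h2 : g x = 0 := this.symm
    exact (map_eq_zero_iff g g.injective).mp h2
  -- finding good data
  have hgood : ∃ a ∈ W₀, ∃ b ∈ W₁, B b a = 0 ∧ ((a ≠ 0 ∧ A₀ b ∉ Submodule.span F {A₀ a} ∧ A₁ b ∉ Submodule.span F {A₁ a}) ∨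
      (b ≠ 0 ∧ A₀ a ∉ Submodule.span F {A₀ b} ∧ A₁ a ∉ Submodule.span F {A₁ b})) := by
    by_contra hcon
    push Not at hcon
    have hI : (∀ b ∈ W₁, A₀ b = 0) ∨ (∀ b ∈ W₁, A₁ b = 0) := by
      refine good_both hzs A₀ A₁ W₀ W₁ hk₁ (by omega) (fun b _ => hinj b) ?_
      intro a ha ha0 b hb hba
      by_contra hc
      push Not at hc
      exact hc.2 ((hcon a ha b hb hba).1 ha0 hc.1)
    have hII : (∀ b ∈ W₀, A₀ b = 0) ∨ (∀ b ∈ W₀, A₁ b = 0) := by
      refine good_both hzs A₀ A₁ W₁ W₀ hk₀ (by omega) (fun b _ => hinj b) ?_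
      intro b hb hb0 a ha hab
      by_contra hc
      push Not at hc
      exact hc.2 ((hcon a ha b hb (hzs _ _ hab)).2 hb0 hc.1)
    have hW₀0 : W₀ ≠ ⊥ := by
      rintro h0
      rw [h0, finrank_bot] at hk₀
      omega
    have hW₁0 : W₁ ≠ ⊥ := by
      rintro h0
      rw [h0, finrank_bot] at hk₁
      omega
    have mem0 : ∀ x, P₀ x = 0 → x ∈ W₁ := by
      intro x hx
      have := L.Psum x
      rw [hx, zero_add] at this
      rw [← this]
      exact L.P₁W x
    have mem1 : ∀ x, P₁ x = 0 → x ∈ W₀ := by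
      intro x hx
      have := L.Psum x
      rw [hx, add_zero] at this
      rw [← this]
      exact L.P₀W x
    rcases hI with hI | hI <;> rcases hII with hII | hII
    · -- all of `V` maps into `W₁`
      obtain ⟨x, hx, hx0⟩ := Submodule.exists_mem_ne_zero_of_ne_bot hW₀0
      have h1 : g.symm x = P₀ (g.symm x) + P₁ (g.symm x) := (L.Psum _).symm
      have h2 : x = g (P₀ (g.symm x)) + g (P₁ (g.symm x)) := by
        rw [← map_add, ← h1, LinearEquiv.apply_symm_apply]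
      have h3 : g (P₀ (g.symm x)) ∈ W₁ := mem0 _ (by rw [← hA₀a]; exact hII _ (L.P₀W _))
      have h4 : g (P₁ (g.symm x)) ∈ W₁ := mem0 _ (by rw [← hA₀a]; exact hI _ (L.P₁W _))
      exact hx0 (L.disj x hx (by rw [h2]; exact W₁.add_mem h3 h4))
    · exact hg1 ⟨fun x hx => mem1 _ (by rw [← hA₁a]; exact hII x hx), fun x hx => mem0 _ (by rw [← hA₀a]; exact hI x hx)⟩
    · exact hg2 ⟨fun x hx => mem0 _ (by rw [← hA₀a]; exact hII x hx), fun x hx => mem1 _ (by rw [← hA₁a]; exact hI x hx)⟩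
    · obtain ⟨x, hx, hx0⟩ := Submodule.exists_mem_ne_zero_of_ne_bot hW₁0
      have h1 : g.symm x = P₀ (g.symm x) + P₁ (g.symm x) := (L.Psum _).symm
      have h2 : x = g (P₀ (g.symm x)) + g (P₁ (g.symm x)) := by
        rw [← map_add, ← h1, LinearEquiv.apply_symm_apply]
      have h3 : g (P₀ (g.symm x)) ∈ W₀ := mem1 _ (by rw [← hA₁a]; exact hII _ (L.P₀W _))
      have h4 : g (P₁ (g.symm x)) ∈ W₀ := mem1 _ (by rw [← hA₁a]; exact hI _ (L.P₁W _))
      exact hx0 (L.disj x (by rw [h2]; exact W₀.add_mem h3 h4) hx)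
  -- a transvection along a vector of `W₀`
  have hpure : ∃ a₀ ∈ W₀, a₀ ≠ 0 ∧ ∃ x, x ≠ 0 ∧ x + σ x = 0 ∧ ∃ ha₀ : B a₀ a₀ = 0, uT a₀ x ha₀ ∈ M := by
    obtain ⟨t, ht, ht0, ht1⟩ := L.exists_swap hk
    have htM := hsw t ht ht0 ht1
    obtain ⟨a, ha, b, hb, hba, hc⟩ := hgood
    have haa : B a a = 0 := L.ts₀ a ha a ha
    have hbb : B b b = 0 := L.ts₁ b hb b hb
    have hab : B a b = 0 := hzs _ _ hba
    obtain ⟨p, hpI, hp0, hp1, hpE⟩ := L.exists_E a b ha hb hba
    have hpM := hst p hpI hp0 hp1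
    have back : ∀ (v : V) (hv : B v v = 0) (x : F) (hgv : B (g v) (g v) = 0), uT (g v) x hgv ∈ M → uT v x hv ∈ M := by
      intro v hv x hgv hm
      have := uT_conj' hf g hgI v x hv hgv
      rw [this] at hm
      have h3 := M.mul_mem (M.mul_mem (M.inv_mem hgM) hm) hgM
      have e : g⁻¹ * (g * uT v x hv * g⁻¹) * g = uT v x hv := by group
      rwa [e] at h3
    rcases hc with ⟨ha0, h₀, h₁⟩ | ⟨hb0, h₀, h₁⟩
    · have hcc : B (g a) (g a) = 0 := by rw [hgI, haa]
      have hZ : ZM M B (g a) (g b) := by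
        refine ⟨by rw [hgI, hba], 0, g * p * g⁻¹, M.mul_mem (M.mul_mem hgM hpM) (M.inv_mem hgM), hpE.conj g hgI⟩
      rw [hA₀a, hA₀a] at h₀
      rw [hA₁a, hA₁a] at h₁
      obtain ⟨x, hx0, hx, hxM⟩ := L.uT_of_good hk₁ M hle hst (g a) (g b) hcc hZ h₀ h₁
      exact ⟨a, ha, ha0, x, hx0, hx, haa, back a haa x hcc hxM⟩
    · have hcc : B (g b) (g b) = 0 := by rw [hgI, hbb]
      have hE' : IsE B b (-a) 0 p := by
        intro x
        rw [hpE x]
        simp only [map_neg, LinearMap.neg_apply, neg_smul, smul_neg, zero_mul, zero_smul, add_zero]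
        abel
      have hZ : ZM M B (g b) (g (-a)) := by
        refine ⟨by rw [hgI, map_neg, LinearMap.neg_apply, hab, neg_zero], 0, g * p * g⁻¹, M.mul_mem (M.mul_mem hgM hpM) (M.inv_mem hgM), hE'.conj g hgI⟩
      have h₀' : P₀ (g (-a)) ∉ Submodule.span F {P₀ (g b)} := by
        rw [hA₀a, hA₀a] at h₀
        rw [map_neg, map_neg]
        exact fun hm => h₀ (by simpa using Submodule.neg_mem _ hm)
      have h₁' : P₁ (g (-a)) ∉ Submodule.span F {P₁ (g b)} := by
        rw [hA₁a, hA₁a] at h₁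
        rw [map_neg, map_neg]
        exact fun hm => h₁ (by simpa using Submodule.neg_mem _ hm)
      obtain ⟨x, hx0, hx, hxM⟩ := L.uT_of_good hk₁ M hle hst (g b) (g (-a)) hcc hZ h₀' h₁'
      have hbM := back b hbb x hcc hxM
      have htbb : B (t b) (t b) = 0 := by rw [ht.1, hbb]
      refine ⟨t b, ht1 b hb, ?_, x, hx0, hx, htbb, ?_⟩
      · intro h0
        exact hb0 ((map_eq_zero_iff t t.injective).mp h0)
      · rw [uT_conj' hf t ht.1 b x hbb htbb]
        exact M.mul_mem (M.mul_mem htM hbM) (M.inv_mem htM)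
  obtain ⟨a₀, ha₀W, ha₀0, x₀, hx₀0, hx₀, ha₀, hT⟩ := hpure
  -- all vectors of `W₀`
  have hall : ∀ v ∈ W₀, v ≠ 0 → ∃ hv : B v v = 0, uT v x₀ hv ∈ M := by
    intro v hv hv0
    obtain ⟨p, hp, hpe⟩ := L.exists_move (by omega) M hle hst a₀ v ha₀W hv ha₀0 hv0
    have hvv : B v v = 0 := L.ts₀ v hv v hv
    refine ⟨hvv, ?_⟩
    have hpv : B (p a₀) (p a₀) = 0 := by rw [hpe, hvv]
    have := uT_conj' hf p (hle hp).1 a₀ x₀ ha₀ hpv
    have h3 : uT (p a₀) x₀ hpv ∈ M := by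
      rw [this]
      exact M.mul_mem (M.mul_mem hp hT) (M.inv_mem hp)
    subst hpe
    exact h3
  have hσx₀ : σ x₀ = - x₀ := by linear_combination hx₀
  have hW₀S : ∀ v ∈ W₀, v ∈ TS M B := by
    intro v hv
    have hvv : B v v = 0 := L.ts₀ v hv v hv
    refine ⟨hvv, fun a' ha' => ?_⟩
    by_cases hv0 : v = 0
    · have e : uT v a' hvv = 1 := by
        ext y
        rw [uT_apply hf, hv0]
        simp
      rw [e]
      exact M.one_mem
    by_cases ha'0 : a' = 0
    · have e : uT v a' hvv = 1 := by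
        ext y
        rw [uT_apply hf, ha'0]
        simp
      rw [e]
      exact M.one_mem
    have hσa' : σ a' = - a' := by linear_combination ha'
    obtain ⟨c, hc⟩ := herm_norm_surj σ h.ne h.σσ (a' / x₀) (div_ne_zero ha'0 hx₀0) (by
      rw [map_div₀, hσa', hσx₀, neg_div_neg_eq])
    have hc0 : c ≠ 0 := by
      rintro rfl
      rw [zero_mul] at hc
      exact div_ne_zero ha'0 hx₀0 hc.symm
    obtain ⟨hcv, hcM⟩ := hall (c • v) (W₀.smul_mem _ hv) (smul_ne_zero hc0 hv0)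
    rw [uT_smul hf c v x₀ hvv hcv] at hcM
    have e : x₀ * (σ c * c) = a' := by
      have : a' / x₀ * x₀ = a' := div_mul_cancel₀ _ hx₀0
      linear_combination x₀ * hc + this
    rwa [e] at hcM
  obtain ⟨t, ht, ht0, ht1⟩ := L.exists_swap hk
  have htM := hsw t ht ht0 ht1
  have hW₁S : ∀ v ∈ W₁, v ∈ TS M B := by
    intro v hv
    have h1 : W₀.map (t : V →ₗ[F] V) ≤ W₁ := by
      rintro _ ⟨x, hx, rfl⟩
      exact ht0 x hx
    have h2 : W₀.map (t : V →ₗ[F] V) = W₁ := Submodule.eq_of_le_of_finrank_eq h1 (by rw [LinearEquiv.finrank_map_eq]; exact hk)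
    rw [← h2] at hv
    obtain ⟨x, hx, rfl⟩ := hv
    exact TS.conj hf htM ht.1 (hW₀S x hx)
  refine (suG_le_UT h (by omega) (by omega)).trans (UT_le_of_TS hf ?_)
  -- non-orthogonal mixed vectors
  have hmix : ∀ x₀' ∈ W₀, ∀ x₁ ∈ W₁, B (x₀' + x₁) (x₀' + x₁) = 0 → B x₀' x₁ ≠ 0 → x₀' + x₁ ∈ TS M B := by
    intro x₀' hx₀' x₁ hx₁ hN hs
    have hx₀x₀ : B x₀' x₀' = 0 := L.ts₀ _ hx₀' _ hx₀'
    have hx₁x₁ : B x₁ x₁ = 0 := L.ts₁ _ hx₁ _ hx₁
    have hN' : B x₀' x₁ + σ (B x₀' x₁) = 0 := by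
      simp only [map_add, LinearMap.add_apply, hx₀x₀, hx₁x₁] at hN
      rw [hf.symm]
      linear_combination hN
    have ha : (B x₀' x₁)⁻¹ + σ (B x₀' x₁)⁻¹ = 0 := by
      have hσ : σ (B x₀' x₁) = - B x₀' x₁ := by linear_combination hN'
      rw [map_inv₀, hσ, inv_neg]
      ring
    have hT' := (hW₀S x₀' hx₀').2 _ ha
    have h1 := TS.conj hf hT' ((hle hT').1) (hW₁S x₁ hx₁)
    rw [uT_apply hf, inv_mul_cancel₀ hs, one_smul, add_comm] at h1
    exact h1
  intro x hx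
  have hdec := L.Psum x
  obtain ⟨x₀', hx₀'⟩ : ∃ x₀', x₀' = P₀ x := ⟨_, rfl⟩
  obtain ⟨x₁, hx₁⟩ : ∃ x₁, x₁ = P₁ x := ⟨_, rfl⟩
  rw [← hx₀', ← hx₁] at hdec
  have hx₀W : x₀' ∈ W₀ := hx₀' ▸ L.P₀W x
  have hx₁W : x₁ ∈ W₁ := hx₁ ▸ L.P₁W x
  rw [← hdec] at hx ⊢
  by_cases hx₀0 : x₀' = 0
  · rw [hx₀0, zero_add]
    exact hW₁S x₁ hx₁W
  by_cases hx₁0 : x₁ = 0
  · rw [hx₁0, add_zero]
    exact hW₀S x₀' hx₀W
  by_cases hs : B x₀' x₁ = 0
  · -- orthogonal components
    obtain ⟨v, hv, hv1, -⟩ := L.sep ⊥ bot_le x₁ hx₁W (by simpa using hx₁0)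
    obtain ⟨a, ha0, ha⟩ := h.exists_anti
    have hσa : σ a = - a := by linear_combination ha
    have hvv : B v v = 0 := L.ts₀ v hv v hv
    have hT' := (hW₀S v hv).2 a ha
    have hI' := (hle hT').1
    have hp : B v (x₀' + x₁) = 1 := by
      rw [map_add, L.ts₀ v hv x₀' hx₀W, hv1, zero_add]
    have hy : uT v a hvv (x₀' + x₁) = (x₀' + a • v) + x₁ := by
      rw [uT_apply hf, hp, mul_one]
      abel
    have hyN : B ((x₀' + a • v) + x₁) ((x₀' + a • v) + x₁) = 0 := by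
      rw [← hy, hI']
      exact hx
    have hs' : B (x₀' + a • v) x₁ ≠ 0 := by
      rw [map_add, LinearMap.add_apply, hs, LinearMap.map_smulₛₗ₂, hv1, hσa]
      simpa using ha0
    have hyS := hmix _ (W₀.add_mem hx₀W (W₀.smul_mem _ hv)) x₁ hx₁W hyN hs'
    rw [← hy] at hyS
    have h3 := TS.conj hf (M.inv_mem hT') (((suG B).inv_mem (hle hT')).1) hyS
    have h4 : (uT v a hvv)⁻¹ (uT v a hvv (x₀' + x₁)) = x₀' + x₁ := (uT v a hvv).symm_apply_apply _
    rwa [h4] at h3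
  · exact hmix x₀' hx₀W x₁ hx₁W hx hs

theorem decStab_two_pres (D : Fin 2 → Submodule F V) (g : V ≃ₗ[F] V) (h0 : ∀ x ∈ D 0, g x ∈ D 0) (h1 : ∀ x ∈ D 1, g x ∈ D 1) : g ∈ decStab D := by
  refine ⟨1, fun i => ?_⟩
  have hi : ∀ x ∈ D i, g x ∈ D i := by
    revert i
    rw [Fin.forall_fin_two]
    exact ⟨h0, h1⟩
  refine Submodule.eq_of_le_of_finrank_eq ?_ (LinearEquiv.finrank_map_eq g _)
  rintro _ ⟨x, hx, rfl⟩
  exact hi x hx

theorem decStab_two_swap (D : Fin 2 → Submodule F V) (hk : finrank F (D 0) = finrank F (D 1)) (g : V ≃ₗ[F] V) (h0 : ∀ x ∈ D 0, g x ∈ D 1) (h1 : ∀ x ∈ D 1, g x ∈ D 0) : g ∈ decStab D := by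
  refine ⟨Equiv.swap 0 1, fun i => ?_⟩
  have hi : ∀ x ∈ D i, g x ∈ D (Equiv.swap 0 1 i) := by
    revert i
    rw [Fin.forall_fin_two]
    simp only [Equiv.swap_apply_left, Equiv.swap_apply_right]
    exact ⟨h0, h1⟩
  refine Submodule.eq_of_le_of_finrank_eq ?_ ?_
  · rintro _ ⟨x, hx, rfl⟩
    exact hi x hx
  · rw [LinearEquiv.finrank_map_eq]
    have hfin : ∀ i : Fin 2, finrank F (D i) = finrank F (D (Equiv.swap 0 1 i)) := by
      rw [Fin.forall_fin_two, Equiv.swap_apply_left, Equiv.swap_apply_right]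
      exact ⟨hk, hk.symm⟩
    exact hfin i

/-- Maximality for a pair of complementary totally singular subspaces. -/
theorem su_lag_isMaximalIn (h : HForm σ B) (D : Fin 2 → Submodule F V) (hc : IsCompl (D 0) (D 1)) (ts : ∀ i, ∀ x ∈ D i, ∀ y ∈ D i, B x y = 0)
    (hk : finrank F (D 0) = finrank F (D 1)) (hk₀ : 7 ≤ finrank F (D 0)) :
    Cfsg.Geo.IsMaximalIn (suG B) (decStab D ⊓ suG B) := by
  have hf := h.toF
  let P₀ : V →ₗ[F] V := (D 0).subtype ∘ₗ Submodule.projectionOnto (D 0) (D 1) hc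
  let P₁ : V →ₗ[F] V := (D 1).subtype ∘ₗ Submodule.projectionOnto (D 1) (D 0) hc.symm
  have hP : ∀ x, P₀ x + P₁ x = x := fun x => Submodule.projection_add_projection_eq_self hc x
  have L : LagPair σ B (D 0) (D 1) P₀ P₁ :=
    ⟨h, ts 0, ts 1, fun x => (Submodule.projectionOnto (D 0) (D 1) hc x).2, fun x => (Submodule.projectionOnto (D 1) (D 0) hc.symm x).2, hP⟩
  constructor
  · refine lt_of_le_of_ne inf_le_right ?_
    intro heq
    have hne : D 0 ≠ ⊥ := by
      intro h0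
      rw [h0, finrank_bot] at hk₀
      omega
    obtain ⟨v, hv, hv0⟩ := Submodule.exists_mem_ne_zero_of_ne_bot hne
    have hvv : B v v = 0 := ts 0 v hv v hv
    obtain ⟨y, hy, hyv, -⟩ := L.swap.sep ⊥ bot_le v hv (by simpa using hv0)
    have hvy : B v y = 1 := by rw [← hf.symm, hyv, map_one]
    obtain ⟨a, ha0, ha⟩ := h.exists_anti
    have hmem : uT v a hvv ∈ decStab D ⊓ suG B := by
      rw [heq]
      exact uT_mem_suG hf v a hvv ha
    obtain ⟨τ, hτ⟩ := hmem.1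
    have h1 : uT v a hvv y ∈ D (τ 1) := by
      rw [← hτ 1]
      exact ⟨y, hy, rfl⟩
    rw [uT_apply hf, hvy, mul_one] at h1
    have hy0 : y ≠ 0 := by
      rintro rfl
      simp at hyv
    have ht : τ 1 = 0 ∨ τ 1 = 1 := by
      have := (τ 1).2
      omega
    rcases ht with ht | ht
    · rw [ht] at h1
      have h2 : y ∈ D 0 := by
        have := (D 0).sub_mem h1 ((D 0).smul_mem a hv)
        rwa [add_sub_cancel_right] at this
      exact hy0 (L.disj y h2 hy)
    · rw [ht] at h1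
      have h2 : a • v ∈ D 1 := by
        have := (D 1).sub_mem h1 hy
        rwa [add_sub_cancel_left] at this
      have h3 : v ∈ D 1 := by
        have := (D 1).smul_mem a⁻¹ h2
        rwa [smul_smul, inv_mul_cancel₀ ha0, one_smul] at this
      exact hv0 (L.disj v hv h3)
  · intro M h1 h2
    by_cases hM : M ≤ decStab D
    · left
      exact le_antisymm (le_inf hM h2) h1
    · right
      refine le_antisymm h2 ?_
      obtain ⟨g, hgM, hg⟩ := SetLike.not_le_iff_exists.mp hM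
      exact su_lag L hk hk₀ M h2
        (fun p hp hp0 hp1 => h1 ⟨decStab_two_pres D p hp0 hp1, hp⟩)
        (fun p hp hp0 hp1 => h1 ⟨decStab_two_swap D hk p hp0 hp1, hp⟩)
        g hgM (fun h3 => hg (decStab_two_pres D g h3.1 h3.2)) (fun h3 => hg (decStab_two_swap D hk g h3.1 h3.2))

end ctx

section std

variable {F : Type*} [Field F] [Fintype F] {q : ℕ} (hF : Fintype.card F = q ^ 2) (n : ℕ)

open Cfsg Matrix

theorem isCompl_of_two {V : Type*} [AddCommGroup V] [Module F V] (D : Fin 2 → Submodule F V) (hi : iSupIndep D) (ht : iSup D = ⊤) : IsCompl (D 0) (D 1) := by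
  constructor
  · exact hi.pairwiseDisjoint (by simp)
  · rw [codisjoint_iff, ← ht]
    apply le_antisymm
    · exact sup_le (le_iSup D 0) (le_iSup D 1)
    · refine iSup_le ?_
      rw [Fin.forall_fin_two]
      exact ⟨le_sup_left, le_sup_right⟩

include hF in
/-- The stabiliser of a pair of complementary totally singular subspaces is maximal in `SU`. -/
theorem SU_lag_isMaximalIn (k : ℕ) (hn : 13 ≤ n) (hk : 2 * k = n) (D : Fin 2 → Submodule F (Fin n → F)) (hD : Cfsg.Geo.IsMDecomposition k D)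
    (hts : ∀ i, Cfsg.Geo.IsTotallySingularFor (hermForm n F q) (D i)) :
    Cfsg.Geo.IsMaximalIn (GU n F q ⊓ Cfsg.Geo.specialLinear (Fin n) F) (Cfsg.Geo.decompositionStabilizer D ⊓ (GU n F q ⊓ Cfsg.Geo.specialLinear (Fin n) F)) := by
  apply isMaximalIn_of_map (glLin (ι := Fin n) (F := F))
  rw [Subgroup.map_inf (Cfsg.Geo.decompositionStabilizer D) _ _ (glLin (ι := Fin n) (F := F)).injective, map_SU hF, map_decompositionStabilizer]
  refine su_lag_isMaximalIn (stdH_hform n hF) D (isCompl_of_two D hD.indep hD.iSup_eq_top) ?_ ?_ ?_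
  · intro i x hx y hy
    exact hts i y hy x hx
  · rw [hD.finrank_eq, hD.finrank_eq]
  · rw [hD.finrank_eq]
    omega

end std

end CfsgLib.ClassGeo
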