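import Mathlib
import Cfsg.Agent.Lib.ClassGeo.SpOrder
import Cfsg.Agent.Lib.ClassGeo.Bridge
import Cfsg.Agent.Lib.ClassGeo.UParab

/-! Orders of parabolic subgroups of symplectic groups. -/

set_option autoImplicit false
set_option linter.unusedSimpArgs false
set_option linter.unusedVariables false
set_option linter.unusedSectionVars false

namespace CfsgLib.ClassGeo.SpParab

open Module Cfsg Matrix

section gen

variable {F : Type*} [Field F] [Fintype F] {q : ℕ} (hF : Fintype.card F = q)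
variable {V : Type*} [AddCommGroup V] [Module F V] [FiniteDimensional F V] {B : LinearMap.BilinForm F V}

include hF in
theorem card_sub (S : Submodule F V) : Nat.card S = q ^ finrank F S := by
  rw [Module.natCard_eq_pow_finrank (K := F), Nat.card_eq_fintype_card, hF]

/-- Vectors of a subspace outside a smaller one. -/
theorem card_diff (P S : Submodule F V) (h : S ≤ P) :
    Nat.card {v : V // v ∈ P ∧ v ∉ S} + Nat.card S = Nat.card P := by
  classical
  haveI : Finite V := Module.finite_of_finite F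
  have e1 : {v : V // v ∈ P ∧ v ∉ S} ≃ {x : P // ¬ (x : V) ∈ S} :=
    { toFun := fun v => ⟨⟨v.1, v.2.1⟩, v.2.2⟩
      invFun := fun x => ⟨x.1.1, x.1.2, x.2⟩
      left_inv := fun _ => rfl
      right_inv := fun _ => rfl }
  have e2 : (S : Type _) ≃ {x : P // (x : V) ∈ S} :=
    { toFun := fun v => ⟨⟨v.1, h v.2⟩, v.2⟩
      invFun := fun x => ⟨x.1.1, x.2⟩
      left_inv := fun _ => rfl
      right_inv := fun _ => rfl }
  rw [Nat.card_congr e1, Nat.card_congr e2, add_comm, ← Nat.card_sum]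
  exact Nat.card_congr (Equiv.sumCompl _)

include hF in
theorem card_diff' (P S : Submodule F V) (h : S ≤ P) :
    Nat.card {v : V // v ∈ P ∧ v ∉ S} = q ^ finrank F P - q ^ finrank F S := by
  have := card_diff P S h
  rw [card_sub hF, card_sub hF] at this
  omega

include hF in
/-- Perpendicular vectors outside a totally isotropic subspace. -/
theorem card_perp_diff (hA : B.IsAlt) (hsep : ∀ u, (∀ v, B u v = 0) → u = 0) (S : Submodule F V)
    (hS : ∀ u ∈ S, ∀ v ∈ S, B u v = 0) (n k : ℕ) (hn : finrank F V = n) (hk : finrank F S = k) :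
    Nat.card {v : V // v ∈ B.orthogonal S ∧ v ∉ S} = q ^ (n - k) - q ^ k := by
  have hN := nondeg_of_sep_alt hA hsep
  have h1 : S ≤ B.orthogonal S := fun u hu v hv => hS v hv u hu
  rw [card_diff' hF _ _ h1, LinearMap.BilinForm.finrank_orthogonal hN, hn, hk]

/-- Isotropic frames. -/
abbrev Frames (B : LinearMap.BilinForm F V) (k : ℕ) :=
  {y : Fin k → V // LinearIndependent F y ∧ ∀ i j, B (y i) (y j) = 0}

theorem mem_orth_span {ι : Type*} (y : ι → V) (v : V) :
    v ∈ B.orthogonal (Submodule.span F (Set.range y)) ↔ ∀ i, B (y i) v = 0 := by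
  constructor
  · intro h i
    exact h _ (Submodule.subset_span ⟨i, rfl⟩)
  · intro h w hw
    induction hw using Submodule.span_induction with
    | mem w hw =>
      obtain ⟨i, rfl⟩ := hw
      exact h i
    | zero => simp [LinearMap.BilinForm.IsOrtho]
    | add a b _ _ ha hb =>
      have ha' : B a v = 0 := ha
      have hb' : B b v = 0 := hb
      show B (a + b) v = 0
      rw [map_add, LinearMap.add_apply, ha', hb', add_zero]
    | smul c a _ ha =>
      have ha' : B a v = 0 := ha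
      show B (c • a) v = 0
      rw [map_smul, LinearMap.smul_apply, ha', smul_zero]

theorem span_ti {ι : Type*} (y : ι → V) (hy : ∀ i j, B (y i) (y j) = 0) :
    ∀ u ∈ Submodule.span F (Set.range y), ∀ v ∈ Submodule.span F (Set.range y), B u v = 0 := by
  intro u hu v hv
  have h1 : ∀ i, y i ∈ B.orthogonal (Submodule.span F (Set.range y)) := fun i => (mem_orth_span y (y i)).mpr (fun j => hy j i)
  have h2 : Submodule.span F (Set.range y) ≤ B.orthogonal (Submodule.span F (Set.range y)) := by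
    rw [Submodule.span_le]
    rintro _ ⟨i, rfl⟩
    exact h1 i
  exact h2 hv u hu

include hF in
theorem card_frames_succ (hA : B.IsAlt) (hsep : ∀ u, (∀ v, B u v = 0) → u = 0) (n : ℕ) (hn : finrank F V = n) (k : ℕ) :
    Nat.card (Frames B (k + 1)) = Nat.card (Frames B k) * (q ^ (n - k) - q ^ k) := by
  classical
  have hV : Finite V := Module.finite_of_finite F
  have hskew : ∀ {a b : V}, B a b = 0 → B b a = 0 := fun h => by
    rw [← hA.neg_eq, h, neg_zero]
  have e1 : Frames B (k + 1) ≃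
      Σ y : Frames B k,
        {v : V // v ∈ B.orthogonal (Submodule.span F (Set.range y.1)) ∧ v ∉ Submodule.span F (Set.range y.1)} :=
    { toFun := fun y => ⟨⟨Fin.tail y.1, by
          have h1 : y.1 = Fin.cons (y.1 0) (Fin.tail y.1) := (Fin.cons_self_tail y.1).symm
          have h2 := y.2.1
          rw [h1, linearIndependent_fin_cons] at h2
          exact h2.1, fun i j => y.2.2 _ _⟩, ⟨y.1 0, by
            rw [mem_orth_span]
            exact fun i => y.2.2 _ _, by
            have h1 : y.1 = Fin.cons (y.1 0) (Fin.tail y.1) := (Fin.cons_self_tail y.1).symm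
            have h2 := y.2.1
            rw [h1, linearIndependent_fin_cons] at h2
            exact h2.2⟩⟩
      invFun := fun z => ⟨Fin.cons z.2.1 z.1.1, by
          rw [linearIndependent_fin_cons]
          exact ⟨z.1.2.1, z.2.2.2⟩, by
          have h1 := (mem_orth_span z.1.1 z.2.1).mp z.2.2.1
          have h2 : ∀ i, B z.2.1 (z.1.1 i) = 0 := fun i => hskew (h1 i)
          intro i j
          refine Fin.cases ?_ (fun i' => ?_) i <;> refine Fin.cases ?_ (fun j' => ?_) j
          · simpa using hA z.2.1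
          · simpa using h2 j'
          · simpa using h1 i'
          · simpa using z.1.2.2 i' j'⟩
      left_inv := by
        intro y
        apply Subtype.ext
        exact Fin.cons_self_tail y.1
      right_inv := by
        rintro ⟨⟨y, hy⟩, v, hv⟩
        rfl }
  have hfin : Finite (Frames B k) := Subtype.finite
  have hft : Fintype (Frames B k) := Fintype.ofFinite _
  rw [Nat.card_congr e1, Nat.card_sigma]
  have h2 : ∀ y : Frames B k,
      Nat.card {v : V // v ∈ B.orthogonal (Submodule.span F (Set.range y.1)) ∧ v ∉ Submodule.span F (Set.range y.1)} =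
        q ^ (n - k) - q ^ k := by
    intro y
    refine card_perp_diff hF hA hsep _ (span_ti y.1 y.2.2) n k hn ?_
    rw [finrank_span_eq_card y.2.1, Fintype.card_fin]
  rw [Finset.sum_congr rfl (fun y _ => h2 y), Finset.sum_const, Finset.card_univ, smul_eq_mul, ← Nat.card_eq_fintype_card]

include hF in
theorem card_frames (hA : B.IsAlt) (hsep : ∀ u, (∀ v, B u v = 0) → u = 0) (n : ℕ) (hn : finrank F V = n) (k : ℕ) :
    Nat.card (Frames B k) = ∏ i ∈ Finset.range k, (q ^ (n - i) - q ^ i) := by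
  induction k with
  | zero =>
    simp only [Finset.range_zero, Finset.prod_empty]
    rw [Nat.card_eq_one_iff_unique]
    refine ⟨⟨fun a b => Subtype.ext (Subsingleton.elim _ _)⟩, ⟨⟨fun i => i.elim0, linearIndependent_empty_type, fun i => i.elim0⟩⟩⟩
  | succ k ih =>
    rw [card_frames_succ hF hA hsep n hn k, ih, Finset.prod_range_succ]

include hF in
/-- Frames versus subspaces. -/
theorem card_ti_subspaces (k : ℕ) :
    Nat.card {W : Submodule F V // finrank F W = k ∧ ∀ u ∈ W, ∀ v ∈ W, B u v = 0} * ∏ i : Fin k, (q ^ k - q ^ (i : ℕ)) =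
      Nat.card (Frames B k) := by
  classical
  have hV : Finite V := Module.finite_of_finite F
  let f : Frames B k → {W : Submodule F V // finrank F W = k ∧ ∀ u ∈ W, ∀ v ∈ W, B u v = 0} := fun y =>
    ⟨Submodule.span F (Set.range y.1), by rw [finrank_span_eq_card y.2.1, Fintype.card_fin], span_ti y.1 y.2.2⟩
  have e1 := (Equiv.sigmaFiberEquiv f).symm
  have hfin : Finite {W : Submodule F V // finrank F W = k ∧ ∀ u ∈ W, ∀ v ∈ W, B u v = 0} := Subtype.finite
  have hft : Fintype {W : Submodule F V // finrank F W = k ∧ ∀ u ∈ W, ∀ v ∈ W, B u v = 0} := Fintype.ofFinite _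
  rw [Nat.card_congr e1, Nat.card_sigma]
  have h2 : ∀ W : {W : Submodule F V // finrank F W = k ∧ ∀ u ∈ W, ∀ v ∈ W, B u v = 0},
      Nat.card {y : Frames B k // f y = W} = ∏ i : Fin k, (q ^ k - q ^ (i : ℕ)) := by
    rintro ⟨W, hW, hW'⟩
    have e2 : {y : Frames B k // f y = ⟨W, hW, hW'⟩} ≃ {s : Fin k → W // LinearIndependent F s} :=
      { toFun := fun y => ⟨fun i => ⟨y.1.1 i, by
            have h3 : Submodule.span F (Set.range y.1.1) = W := congrArg Subtype.val y.2
            have h4 : y.1.1 i ∈ Submodule.span F (Set.range y.1.1) := Submodule.subset_span ⟨i, rfl⟩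
            rw [h3] at h4
            exact h4⟩, by
            apply LinearIndependent.of_comp (Submodule.subtype _)
            exact y.1.2.1⟩
        invFun := fun s => ⟨⟨fun i => (s.1 i : V), s.2.map' (Submodule.subtype W) (Submodule.ker_subtype _),
            fun i j => hW' _ (s.1 i).2 _ (s.1 j).2⟩, by
            apply Subtype.ext
            apply Submodule.eq_of_le_of_finrank_eq
            · rw [Submodule.span_le]
              rintro _ ⟨i, rfl⟩
              exact (s.1 i).2
            · have h5 := finrank_span_eq_card (s.2.map' (Submodule.subtype W) (Submodule.ker_subtype _))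
              rw [Fintype.card_fin] at h5
              rw [hW]
              exact h5⟩
        left_inv := by
          intro y
          rfl
        right_inv := by
          intro s
          rfl }
    rw [Nat.card_congr e2, card_linearIndependent (by rw [hW]), hW, hF]
  rw [Finset.sum_congr rfl (fun W _ => h2 W), Finset.sum_const, Finset.card_univ, smul_eq_mul, Nat.card_eq_fintype_card]

/-- Witt's lemma for frames. -/
theorem frame_witt (hA : B.IsAlt) (hsep : ∀ u, (∀ v, B u v = 0) → u = 0) {k : ℕ} (y y' : Frames B k) :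
    ∃ g : V ≃ₗ[F] V, (∀ a b, B (g a) (g b) = B a b) ∧ ∀ i, g (y.1 i) = y'.1 i := by
  classical
  let X := Submodule.span F (Set.range y.1)
  let b : Basis (Fin k) F X := Basis.span y.2.1
  let φ : X →ₗ[F] V := b.constr F y'.1
  have hb : ∀ i, (b i : V) = y.1 i := fun i => congrArg Subtype.val (Basis.span_apply y.2.1 i)
  have hφ : ∀ i, φ ⟨y.1 i, Submodule.subset_span ⟨i, rfl⟩⟩ = y'.1 i := by
    intro i
    have : (⟨y.1 i, Submodule.subset_span ⟨i, rfl⟩⟩ : X) = b i := Subtype.ext (hb i).symm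
    rw [this]
    simp [φ, Basis.constr_basis]
  have hinj : Function.Injective φ := by
    intro a c hac
    have h2 : φ a = ∑ i, b.repr a i • y'.1 i := by simp [φ, Basis.constr_apply_fintype]
    have h3 : φ c = ∑ i, b.repr c i • y'.1 i := by simp [φ, Basis.constr_apply_fintype]
    rw [h2, h3] at hac
    have h4 := (Fintype.linearIndependent_iff.mp y'.2.1) (fun i => b.repr a i - b.repr c i) (by
      simp only [sub_smul, Finset.sum_sub_distrib, hac, sub_self])
    apply b.repr.injective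
    ext i
    have := h4 i
    exact sub_eq_zero.mp this
  have hiso : ∀ u v : X, B (φ u) (φ v) = B u v := by
    intro u v
    have h1 := span_ti (F := F) y.1 y.2.2 u u.2 v v.2
    have h2 : ∀ x : X, φ x ∈ Submodule.span F (Set.range y'.1) := by
      intro x
      have : φ x = ∑ i, b.repr x i • y'.1 i := by simp [φ, Basis.constr_apply_fintype]
      rw [this]
      exact Submodule.sum_mem _ (fun i _ => Submodule.smul_mem _ _ (Submodule.subset_span ⟨i, rfl⟩))
    rw [h1]
    exact span_ti (F := F) y'.1 y'.2.2 _ (h2 u) _ (h2 v)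
  obtain ⟨g, hg, hgφ⟩ := (altEps hA hsep).witt X φ hinj hiso
  refine ⟨g, hg, fun i => ?_⟩
  have := hgφ ⟨y.1 i, Submodule.subset_span ⟨i, rfl⟩⟩
  rw [hφ] at this
  exact this

end gen

section arith

/-- The arithmetic of the order formula. -/
theorem arith (q m : ℕ) (hq : 2 ≤ q) (k : ℕ) (hk : k ≤ m) :
    q ^ (m ^ 2) * ∏ i ∈ Finset.range m, (q ^ (2 * (i + 1)) - 1) =
      (∏ i ∈ Finset.range k, (q ^ (2 * m - i) - q ^ i)) *
        (q ^ (k * (k + 1) / 2 + 2 * k * (m - k)) * (q ^ ((m - k) ^ 2) * ∏ i ∈ Finset.range (m - k), (q ^ (2 * (i + 1)) - 1))) := by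
  induction k with
  | zero =>
    simp
  | succ k ih =>
    rw [ih (by omega)]
    obtain ⟨n, hn⟩ : ∃ n, m = k + 1 + n := ⟨m - (k + 1), by omega⟩
    have e1 : m - k = n + 1 := by omega
    have e2 : m - (k + 1) = n := by omega
    rw [e1, e2, Finset.prod_range_succ, Finset.prod_range_succ]
    have e3 : q ^ (2 * m - k) - q ^ k = q ^ k * (q ^ (2 * (n + 1)) - 1) := by
      rw [Nat.mul_sub, mul_one, ← pow_add]
      congr 2
      omega
    rw [e3]
    have e4 : k * (k + 1) / 2 + 2 * k * (n + 1) + (n + 1) ^ 2 = k + ((k + 1) * (k + 1 + 1) / 2 + 2 * (k + 1) * n + n ^ 2) := by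
      have h3 : (k + 1) * (k + 1 + 1) = k * (k + 1) + 2 * (k + 1) := by ring
      rw [h3, Nat.add_mul_div_left _ _ (by norm_num)]
      ring
    have e5 : q ^ (k * (k + 1) / 2 + 2 * k * (n + 1)) * q ^ ((n + 1) ^ 2) = q ^ k * (q ^ ((k + 1) * (k + 1 + 1) / 2 + 2 * (k + 1) * n) * q ^ (n ^ 2)) := by
      rw [← pow_add, ← pow_add, ← pow_add, e4]
    generalize q ^ (2 * (n + 1)) - 1 = A
    generalize (∏ i ∈ Finset.range n, (q ^ (2 * (i + 1)) - 1)) = C
    generalize (∏ i ∈ Finset.range k, (q ^ (2 * m - i) - q ^ i)) = D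
    calc _ = D * ((q ^ (k * (k + 1) / 2 + 2 * k * (n + 1)) * q ^ ((n + 1) ^ 2)) * (C * A)) := by ring
      _ = _ := by rw [e5]; ring

end arith

section std

variable {F : Type*} [Field F] [Fintype F] {q : ℕ} (hF : Fintype.card F = q) (m : ℕ)

/-- The stabiliser of a subspace in the isometry group. -/
def spStab (W : Submodule F (Fin m ⊕ Fin m → F)) : Subgroup (fIsom (F := F) (sympForm m F)) where
  carrier := {g | ∀ x, x ∈ W ↔ (g : (Fin m ⊕ Fin m → F) ≃ₗ[F] (Fin m ⊕ Fin m → F)) x ∈ W}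
  mul_mem' := by
    intro a b ha hb x
    rw [hb x, ha]
    rfl
  one_mem' := fun x => Iff.rfl
  inv_mem' := by
    intro a ha x
    have h1 := ha ((a : (Fin m ⊕ Fin m → F) ≃ₗ[F] (Fin m ⊕ Fin m → F)).symm x)
    rw [LinearEquiv.apply_symm_apply] at h1
    exact h1.symm

theorem mem_spStab {W : Submodule F (Fin m ⊕ Fin m → F)} {g : fIsom (F := F) (sympForm m F)} :
    g ∈ spStab m W ↔ ∀ x, x ∈ W ↔ (g : (Fin m ⊕ Fin m → F) ≃ₗ[F] (Fin m ⊕ Fin m → F)) x ∈ W := Iff.rfl

/-- Transport to the matrix group. -/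
theorem card_stabilizing (W : Submodule F (Fin m ⊕ Fin m → F)) :
    Nat.card ↥(stabilizing (spToMat m F) (W : Set (Fin m ⊕ Fin m → F))) = Nat.card (spStab m W) := by
  refine Nat.card_congr (Equiv.ofBijective (fun A => ⟨spEquiv m A.1, ?_⟩) ⟨?_, ?_⟩)
  · intro x
    rw [spEquiv_apply]
    exact A.2 x
  · intro A A' h
    have h1 : spEquiv m A.1 = spEquiv m A'.1 := congrArg Subtype.val h
    exact Subtype.ext ((spEquiv m).injective h1)
  · rintro ⟨g, hg⟩
    obtain ⟨A, rfl⟩ := (spEquiv m).surjective g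
    refine ⟨⟨A, ?_⟩, rfl⟩
    intro x
    have := hg x
    rw [spEquiv_apply] at this
    exact this

include hF in
theorem card_sp_eq_orbit (W : Submodule F (Fin m ⊕ Fin m → F)) (k : ℕ) (hWk : finrank F W = k) (hW : ∀ u ∈ W, ∀ v ∈ W, sympForm m F u v = 0) :
    Nat.card (fIsom (F := F) (sympForm m F)) =
      Nat.card {W' : Submodule F (Fin m ⊕ Fin m → F) // finrank F W' = k ∧ ∀ u ∈ W', ∀ v ∈ W', sympBilin (F := F) m u v = 0} * Nat.card (spStab m W) := by
  classical
  have hfinE : Finite ((Fin m ⊕ Fin m → F) ≃ₗ[F] (Fin m ⊕ Fin m → F)) := Finite.of_injective (fun g : (Fin m ⊕ Fin m → F) ≃ₗ[F] (Fin m ⊕ Fin m → F) => (g : (Fin m ⊕ Fin m → F) → (Fin m ⊕ Fin m → F))) DFunLike.coe_injective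
  refine card_eq_of_act (spStab m W) (fun g => ⟨W.map ((g : (Fin m ⊕ Fin m → F) ≃ₗ[F] (Fin m ⊕ Fin m → F)) : (Fin m ⊕ Fin m → F) →ₗ[F] (Fin m ⊕ Fin m → F)), ?_, ?_⟩) ?_ ?_
  · rw [LinearEquiv.finrank_map_eq, hWk]
  · rintro _ ⟨u, hu, rfl⟩ _ ⟨v, hv, rfl⟩
    have := g.2 u v
    change sympForm m F (g.1 u) (g.1 v) = 0
    rw [this]
    exact hW u hu v hv
  · intro a b
    rw [Subtype.mk.injEq, mem_spStab]
    constructor
    · intro hab x
      have h1 : (b : (Fin m ⊕ Fin m → F) ≃ₗ[F] (Fin m ⊕ Fin m → F)) x ∈ W.map (((b : (Fin m ⊕ Fin m → F) ≃ₗ[F] (Fin m ⊕ Fin m → F))) : (Fin m ⊕ Fin m → F) →ₗ[F] (Fin m ⊕ Fin m → F)) ↔ x ∈ W := by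
        rw [Submodule.mem_map_equiv, LinearEquiv.symm_apply_apply]
      rw [← h1, ← hab, Submodule.mem_map_equiv]
      rfl
    · intro hab
      ext y
      rw [Submodule.mem_map_equiv, Submodule.mem_map_equiv]
      have h1 := hab ((b : (Fin m ⊕ Fin m → F) ≃ₗ[F] (Fin m ⊕ Fin m → F)).symm y)
      have h2 : ((a⁻¹ * b : fIsom (F := F) (sympForm m F)) : (Fin m ⊕ Fin m → F) ≃ₗ[F] (Fin m ⊕ Fin m → F)) ((b : (Fin m ⊕ Fin m → F) ≃ₗ[F] (Fin m ⊕ Fin m → F)).symm y) = (a : (Fin m ⊕ Fin m → F) ≃ₗ[F] (Fin m ⊕ Fin m → F)).symm y := by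
        change (a : (Fin m ⊕ Fin m → F) ≃ₗ[F] (Fin m ⊕ Fin m → F)).symm ((b : (Fin m ⊕ Fin m → F) ≃ₗ[F] (Fin m ⊕ Fin m → F)) ((b : (Fin m ⊕ Fin m → F) ≃ₗ[F] (Fin m ⊕ Fin m → F)).symm y)) = _
        rw [LinearEquiv.apply_symm_apply]
      rw [h2] at h1
      exact h1.symm
  · rintro ⟨W', hW'k, hW'⟩
    obtain ⟨φ⟩ : Nonempty (W ≃ₗ[F] W') := ⟨LinearEquiv.ofFinrankEq _ _ (by rw [hWk, hW'k])⟩
    have hA := sympBilin_isAlt (F := F) m
    have hsep := sympBilin_sep (F := F) m
    obtain ⟨g, hg, hgφ⟩ := (altEps hA hsep).witt W (W'.subtype ∘ₗ (φ : W →ₗ[F] W')) (by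
      intro a b hab
      exact φ.injective (Subtype.ext hab)) (by
      intro u v
      change sympForm m F ((φ u : W') : Fin m ⊕ Fin m → F) ((φ v : W') : Fin m ⊕ Fin m → F) = sympForm m F (u : Fin m ⊕ Fin m → F) (v : Fin m ⊕ Fin m → F)
      rw [hW _ u.2 _ v.2]
      exact hW' _ (φ u).2 _ (φ v).2)
    refine ⟨⟨g, hg⟩, Subtype.ext ?_⟩
    apply Submodule.eq_of_le_of_finrank_eq
    · rintro _ ⟨u, hu, rfl⟩
      have := hgφ ⟨u, hu⟩
      change g u ∈ W'
      have h3 : g u = ((φ ⟨u, hu⟩ : W') : Fin m ⊕ Fin m → F) := this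
      rw [h3]
      exact (φ ⟨u, hu⟩).2
    · rw [LinearEquiv.finrank_map_eq, hWk, hW'k]

include hF in
theorem two_le_q : 2 ≤ q := by
  rw [← hF]
  exact Fintype.one_lt_card

include hF in
/-- The order of the maximal parabolic subgroup. -/
theorem card_stab (k : ℕ) (hk : k ≤ m) (W : Submodule F (Fin m ⊕ Fin m → F)) (hWk : finrank F W = k) (hW : ∀ u ∈ W, ∀ v ∈ W, sympForm m F u v = 0) :
    Nat.card (spStab m W) = q ^ (k * (k + 1) / 2 + 2 * k * (m - k)) * (q ^ ((m - k) ^ 2) * ∏ i ∈ Finset.range (m - k), (q ^ (2 * (i + 1)) - 1)) * ∏ i : Fin k, (q ^ k - q ^ (i : ℕ)) := by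
  have hq := two_le_q hF
  have hA := sympBilin_isAlt (F := F) m
  have hsep := sympBilin_sep (F := F) m
  have h0 := card_alt_isom (F := F) m _ (sympBilin (F := F) m) hA hsep (finrank_symp m)
  have h1 := card_sp_eq_orbit hF m W k hWk hW
  have h2 := card_ti_subspaces (B := sympBilin (F := F) m) hF k
  have h3 := card_frames hF hA hsep (2 * m) (finrank_symp m) k
  have h4 := arith q m hq k hk
  have e0 : Nat.card (fIsom (F := F) (fun a b => sympBilin (F := F) m a b)) = Nat.card (fIsom (F := F) (sympForm m F)) := rfl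
  rw [e0, h1] at h0
  have hcF : Nat.card F = q := by rw [Nat.card_eq_fintype_card, hF]
  rw [hcF, h4, ← h3, ← h2] at h0
  have hpos : 0 < Nat.card {W' : Submodule F (Fin m ⊕ Fin m → F) // finrank F W' = k ∧ ∀ u ∈ W', ∀ v ∈ W', sympBilin (F := F) m u v = 0} :=
    Nat.card_pos_iff.mpr ⟨⟨⟨W, hWk, hW⟩⟩, Subtype.finite⟩
  apply Nat.eq_of_mul_eq_mul_left hpos
  rw [h0]
  ring

end std

end CfsgLib.ClassGeo.SpParab
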