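import Mathlib
import Cfsg.Agent.Lib.ClassGeo.SpParab
import Cfsg.Agent.Lib.ClassGeo.SubStab

/-! The symplectic generalised quadrangle and the Borel subgroup of the symplectic group. -/

set_option autoImplicit false
set_option linter.unusedSimpArgs false
set_option linter.unusedVariables false
set_option linter.unusedSectionVars false

namespace CfsgLib.ClassGeo.SpParab

open Module Cfsg Matrix

section gq

variable {F : Type*} [Field F] [Fintype F] {q : ℕ} (hF : Fintype.card F = q)
variable {V : Type*} [AddCommGroup V] [Module F V] [FiniteDimensional F V] {B : LinearMap.BilinForm F V}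

theorem arith_gq (q A : ℕ) (hq : 2 ≤ q) (h : A * ((q ^ 2 - 1) * (q ^ 2 - q)) = (q ^ 4 - 1) * (q ^ 3 - q)) :
    A = (q + 1) * (q ^ 2 + 1) := by
  have h1 : 1 ≤ q ^ 2 := Nat.one_le_pow _ _ (by omega)
  have h2 : q ≤ q ^ 2 := Nat.le_self_pow (by norm_num) q
  have h3 : 1 ≤ q ^ 4 := Nat.one_le_pow _ _ (by omega)
  have h4 : q ≤ q ^ 3 := Nat.le_self_pow (by norm_num) q
  have hpos : 0 < (q ^ 2 - 1) * (q ^ 2 - q) := by
    apply Nat.mul_pos
    · have : 2 ^ 2 ≤ q ^ 2 := Nat.pow_le_pow_left hq 2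
      omega
    · have : q * 2 ≤ q * q := Nat.mul_le_mul_left _ hq
      have e : q ^ 2 = q * q := by ring
      omega
  apply Nat.eq_of_mul_eq_mul_right hpos
  rw [h]
  zify [h1, h2, h3, h4]
  ring

theorem arith_gq2 (q A : ℕ) (hq : 2 ≤ q) (h : q ^ 3 - q = A * (q ^ 2 - q)) : A = q + 1 := by
  have h2 : q ≤ q ^ 2 := Nat.le_self_pow (by norm_num) q
  have h4 : q ≤ q ^ 3 := Nat.le_self_pow (by norm_num) q
  have hpos : 0 < q ^ 2 - q := by
    have : q * 2 ≤ q * q := Nat.mul_le_mul_left _ hq
    have e : q ^ 2 = q * q := by ring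
    omega
  apply Nat.eq_of_mul_eq_mul_right hpos
  rw [← h]
  zify [h2, h4]
  ring

include hF in
/-- Number of totally isotropic planes through a nonzero vector. -/
theorem card_planes_through (hA : B.IsAlt) (hsep : ∀ u, (∀ v, B u v = 0) → u = 0) (hn : finrank F V = 4) (v : V) (hv : v ≠ 0) :
    Nat.card {W : Submodule F V // finrank F W = 2 ∧ v ∈ W ∧ ∀ u ∈ W, ∀ w ∈ W, B u w = 0} = q + 1 := by
  classical
  have hq : 2 ≤ q := by rw [← hF]; exact Fintype.one_lt_card
  have hV : Finite V := Module.finite_of_finite F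
  let L := Submodule.span F {v}
  have hL1 : finrank F L = 1 := finrank_span_singleton hv
  have hLT : ∀ u ∈ L, ∀ w ∈ L, B u w = 0 := by
    intro u hu w hw
    obtain ⟨a, rfl⟩ := Submodule.mem_span_singleton.mp hu
    obtain ⟨b, rfl⟩ := Submodule.mem_span_singleton.mp hw
    simp [hA v]
  have hQ := card_perp_diff hF hA hsep L hLT 4 1 hn hL1
  have hskew : ∀ {a b : V}, B a b = 0 → B b a = 0 := fun h => by
    rw [← hA.neg_eq, h, neg_zero]
  have hperp : ∀ w, w ∈ B.orthogonal L ↔ B v w = 0 := by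
    intro w
    constructor
    · intro h
      exact h v (Submodule.mem_span_singleton_self v)
    · intro h s hs
      obtain ⟨a, rfl⟩ := Submodule.mem_span_singleton.mp hs
      show B (a • v) w = 0
      simp [h]
  let f : {w : V // w ∈ B.orthogonal L ∧ w ∉ L} → {W : Submodule F V // finrank F W = 2 ∧ v ∈ W ∧ ∀ u ∈ W, ∀ w ∈ W, B u w = 0} := fun w =>
    ⟨L ⊔ Submodule.span F {w.1}, by
      rw [finrank_sup_span_singleton L w.1 w.2.2, hL1], Submodule.mem_sup_left (Submodule.mem_span_singleton_self v), by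
      have hvw : B v w.1 = 0 := (hperp _).1 w.2.1
      have hwv : B w.1 v = 0 := hskew hvw
      intro a ha b hb
      obtain ⟨x, hx, y, hy, rfl⟩ := Submodule.mem_sup.mp ha
      obtain ⟨x', hx', y', hy', rfl⟩ := Submodule.mem_sup.mp hb
      obtain ⟨a1, rfl⟩ := Submodule.mem_span_singleton.mp hx
      obtain ⟨a2, rfl⟩ := Submodule.mem_span_singleton.mp hx'
      obtain ⟨a3, rfl⟩ := Submodule.mem_span_singleton.mp hy
      obtain ⟨a4, rfl⟩ := Submodule.mem_span_singleton.mp hy'
      simp [hA v, hA w.1, hvw, hwv]⟩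
  have e1 := (Equiv.sigmaFiberEquiv f).symm
  have hfin : Finite {W : Submodule F V // finrank F W = 2 ∧ v ∈ W ∧ ∀ u ∈ W, ∀ w ∈ W, B u w = 0} := Subtype.finite
  have hft : Fintype {W : Submodule F V // finrank F W = 2 ∧ v ∈ W ∧ ∀ u ∈ W, ∀ w ∈ W, B u w = 0} := Fintype.ofFinite _
  rw [Nat.card_congr e1, Nat.card_sigma] at hQ
  have h2 : ∀ W : {W : Submodule F V // finrank F W = 2 ∧ v ∈ W ∧ ∀ u ∈ W, ∀ w ∈ W, B u w = 0},
      Nat.card {y : {w : V // w ∈ B.orthogonal L ∧ w ∉ L} // f y = W} = q ^ 2 - q := by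
    rintro ⟨W, hW2, hvW, hWT⟩
    have hLW : L ≤ W := by
      rw [Submodule.span_singleton_le_iff_mem]
      exact hvW
    have e2 : {y : {w : V // w ∈ B.orthogonal L ∧ w ∉ L} // f y = ⟨W, hW2, hvW, hWT⟩} ≃ {w : V // w ∈ W ∧ w ∉ L} :=
      { toFun := fun y => ⟨y.1.1, by
            have h3 : L ⊔ Submodule.span F {y.1.1} = W := congrArg Subtype.val y.2
            have h5 : y.1.1 ∈ L ⊔ Submodule.span F {y.1.1} := Submodule.mem_sup_right (Submodule.mem_span_singleton_self _)
            exact h3.le h5, y.1.2.2⟩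
        invFun := fun w => ⟨⟨w.1, (hperp _).2 (hWT v hvW w.1 w.2.1), w.2.2⟩, by
            apply Subtype.ext
            apply Submodule.eq_of_le_of_finrank_eq
            · exact sup_le hLW ((Submodule.span_singleton_le_iff_mem _ _).2 w.2.1)
            · rw [finrank_sup_span_singleton L w.1 w.2.2, hL1, hW2]⟩
        left_inv := fun _ => rfl
        right_inv := fun _ => rfl }
    rw [Nat.card_congr e2, card_diff' hF W L hLW, hW2, hL1, pow_one]
  rw [Finset.sum_congr rfl (fun y _ => h2 y), Finset.sum_const, Finset.card_univ, smul_eq_mul, ← Nat.card_eq_fintype_card] at hQ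
  rw [show 4 - 1 = 3 from rfl, pow_one] at hQ
  exact arith_gq2 q _ hq hQ.symm

include hF in
theorem card_planes (hA : B.IsAlt) (hsep : ∀ u, (∀ v, B u v = 0) → u = 0) (hn : finrank F V = 4) :
    Nat.card {W : Submodule F V // finrank F W = 2 ∧ ∀ u ∈ W, ∀ w ∈ W, B u w = 0} = (q + 1) * (q ^ 2 + 1) := by
  have hq : 2 ≤ q := by rw [← hF]; exact Fintype.one_lt_card
  have h1 := card_ti_subspaces (B := B) hF 2
  have h2 := card_frames hF hA hsep 4 hn 2
  rw [h2] at h1
  simp only [Fin.prod_univ_two, Finset.prod_range_succ, Finset.prod_range_zero, one_mul] at h1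
  norm_num at h1
  exact arith_gq q _ hq h1

end gq

section borel

variable {F : Type*} [Field F] [Fintype F] (m : ℕ)

/-- Coordinate subspaces. -/
def csub (s : Set (Fin m)) : Submodule F (Fin m ⊕ Fin m → F) where
  carrier := {v | (∀ i, i ∉ s → v (Sum.inl i) = 0) ∧ ∀ i, v (Sum.inr i) = 0}
  add_mem' := by
    rintro a b ⟨h1, h2⟩ ⟨h3, h4⟩
    exact ⟨fun i hi => by simp [h1 i hi, h3 i hi], fun i => by simp [h2 i, h4 i]⟩
  zero_mem' := ⟨fun i _ => rfl, fun i => rfl⟩
  smul_mem' := by
    rintro c a ⟨h1, h2⟩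
    exact ⟨fun i hi => by simp [h1 i hi], fun i => by simp [h2 i]⟩

theorem mem_csub {s : Set (Fin m)} {v : Fin m ⊕ Fin m → F} :
    v ∈ csub (F := F) m s ↔ (∀ i, i ∉ s → v (Sum.inl i) = 0) ∧ ∀ i, v (Sum.inr i) = 0 := Iff.rfl

theorem card_csub {q : ℕ} (hF : Fintype.card F = q) (s : Set (Fin m)) [Fintype s] : Nat.card (csub (F := F) m s) = q ^ Fintype.card s := by
  classical
  have e : (csub (F := F) m s) ≃ (s → F) :=
    { toFun := fun v i => v.1 (Sum.inl i.1)
      invFun := fun f => ⟨Sum.elim (fun i => if h : i ∈ s then f ⟨i, h⟩ else 0) (fun _ => 0), by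
          refine ⟨fun i hi => by simp [hi], fun i => rfl⟩⟩
      left_inv := by
        rintro ⟨v, h1, h2⟩
        apply Subtype.ext
        funext x
        rcases x with i | i
        · by_cases hi : i ∈ s
          · simp [hi]
          · simp [hi, h1 i hi]
        · simp [h2 i]
      right_inv := by
        intro f
        funext i
        simp }
  rw [Nat.card_congr e, Nat.card_fun, Nat.card_eq_fintype_card, Nat.card_eq_fintype_card, hF]

/-- The basic vectors. -/
def eV (i : Fin m) : Fin m ⊕ Fin m → F := Pi.single (Sum.inl i) 1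

theorem eV_isotropic (i j : Fin m) : sympForm m F (eV m i) (eV m j) = 0 := by
  rw [symp_apply]
  apply Finset.sum_eq_zero
  intro a _
  simp [eV]

/-- A vector with zero `inr`-part is a combination of the basic vectors. -/
theorem eq_sum_eV (x : Fin m ⊕ Fin m → F) (hx : ∀ i, x (Sum.inr i) = 0) : x = ∑ i, x (Sum.inl i) • eV m i := by
  classical
  funext a
  rw [Finset.sum_apply]
  rcases a with a | a
  · rw [Finset.sum_eq_single a]
    · simp [eV]
    · intro b _ hb
      simp [eV, Pi.single_apply, hb.symm]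
    · simp
  · rw [hx a]
    symm
    apply Finset.sum_eq_zero
    intro b _
    simp [eV]

theorem eV_li : LinearIndependent F (eV (F := F) m) := by
  rw [Fintype.linearIndependent_iff]
  intro g hg i
  have h1 := congrFun hg (Sum.inl i)
  rw [Finset.sum_apply, Finset.sum_eq_single i] at h1
  · simpa [eV] using h1
  · intro b _ hb
    simp [eV, Pi.single_apply, hb.symm]
  · simp

/-- The standard frame. -/
def eFrame : Frames (sympBilin (F := F) m) m := ⟨eV m, eV_li m, fun i j => eV_isotropic m i j⟩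

/-- Fixing the frame pointwise. -/
def frameFix : Subgroup (fIsom (F := F) (sympForm m F)) where
  carrier := {g | ∀ i, g.1 (eV m i) = eV m i}
  mul_mem' := by
    intro a b ha hb i
    show a.1 (b.1 (eV m i)) = _
    rw [hb, ha]
  one_mem' := fun i => rfl
  inv_mem' := by
    intro a ha i
    show a.1.symm (eV m i) = _
    conv_lhs => rw [← ha i]
    simp

/-- Pull an isometry on frames back to `fIsom`. -/
theorem exists_isom_frame (y : Frames (sympBilin (F := F) m) m) :
    ∃ g : fIsom (F := F) (sympForm m F), ∀ i, g.1 (eV m i) = y.1 i := by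
  obtain ⟨g, hg, hy⟩ := frame_witt (sympBilin_isAlt (F := F) m) (sympBilin_sep (F := F) m) (eFrame m) y
  exact ⟨⟨g, hg⟩, hy⟩

theorem frame_li (g : fIsom (F := F) (sympForm m F)) : LinearIndependent F (fun i => g.1 (eV m i)) := by
  have h := (eV_li (F := F) m).map' (g.1 : (Fin m ⊕ Fin m → F) →ₗ[F] (Fin m ⊕ Fin m → F)) (LinearEquiv.ker g.1)
  exact h

/-- Acting on the standard frame. -/
def actFrame (g : fIsom (F := F) (sympForm m F)) : Frames (sympBilin (F := F) m) m :=
  ⟨fun i => g.1 (eV m i), frame_li m g, fun i j => by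
    show sympForm m F (g.1 (eV m i)) (g.1 (eV m j)) = 0
    rw [g.2]
    exact eV_isotropic m i j⟩

theorem act_iff (a b : fIsom (F := F) (sympForm m F)) (hk : ∀ i, a.1 (eV m i) = b.1 (eV m i)) : a⁻¹ * b ∈ frameFix m := by
  intro i
  show a.1.symm (b.1 (eV m i)) = _
  rw [← hk]
  simp

theorem act_iff' (a b : fIsom (F := F) (sympForm m F)) (h : a⁻¹ * b ∈ frameFix m) (i : Fin m) : a.1 (eV m i) = b.1 (eV m i) := by
  have h1 : a.1.symm (b.1 (eV m i)) = eV m i := h i
  have h2 := congrArg a.1 h1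
  rw [LinearEquiv.apply_symm_apply] at h2
  exact h2.symm

theorem card_isom_frame : Nat.card (fIsom (F := F) (sympForm m F)) = Nat.card (Frames (sympBilin (F := F) m) m) * Nat.card (frameFix (F := F) m) := by
  classical
  have hfinE : Finite ((Fin m ⊕ Fin m → F) ≃ₗ[F] (Fin m ⊕ Fin m → F)) := Finite.of_injective (fun g : (Fin m ⊕ Fin m → F) ≃ₗ[F] (Fin m ⊕ Fin m → F) => (g : (Fin m ⊕ Fin m → F) → (Fin m ⊕ Fin m → F))) DFunLike.coe_injective
  refine card_eq_of_act (frameFix m) (actFrame m) ?_ ?_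
  · intro a b
    constructor
    · intro h
      apply act_iff
      intro i
      exact congrFun (congrArg Subtype.val h) i
    · intro h
      apply Subtype.ext
      funext i
      exact act_iff' m a b h i
  · intro y
    obtain ⟨g, hg⟩ := exists_isom_frame m y
    exact ⟨g, Subtype.ext (funext hg)⟩

theorem card_frameFix {q : ℕ} (hF : Fintype.card F = q) : Nat.card (frameFix (F := F) m) = q ^ (m * (m + 1) / 2) := by
  have hq : 2 ≤ q := by rw [← hF]; exact Fintype.one_lt_card
  have hA := sympBilin_isAlt (F := F) m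
  have hsep := sympBilin_sep (F := F) m
  have h0 := card_alt_isom (F := F) m _ (sympBilin (F := F) m) hA hsep (finrank_symp m)
  have h1 := card_isom_frame (F := F) m
  have h3 := card_frames hF hA hsep (2 * m) (finrank_symp m) m
  have h4 := arith q m hq m le_rfl
  have hcF : Nat.card F = q := by rw [Nat.card_eq_fintype_card, hF]
  have e0 : Nat.card (fIsom (F := F) (fun a b => sympBilin (F := F) m a b)) = Nat.card (fIsom (F := F) (sympForm m F)) := rfl
  rw [e0, h1, hcF, h4, ← h3] at h0
  have hpos : 0 < Nat.card (Frames (sympBilin (F := F) m) m) :=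
    Nat.card_pos_iff.mpr ⟨⟨eFrame m⟩, Subtype.finite⟩
  apply Nat.eq_of_mul_eq_mul_left hpos
  rw [h0]
  simp

/-- The standard flag. -/
def flagSet (k : ℕ) : Set (Fin m) := {i | (i : ℕ) ≤ k}

/-- The Borel subgroup of the isometry group. -/
def borelI : Subgroup (fIsom (F := F) (sympForm m F)) := ⨅ k : Fin m, spStab m (csub (F := F) m (flagSet m k))

theorem mem_borelI {g : fIsom (F := F) (sympForm m F)} : g ∈ borelI (F := F) m ↔ ∀ k : Fin m, g ∈ spStab m (csub (F := F) m (flagSet m k)) := by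
  rw [borelI, Subgroup.mem_iInf]

theorem eV_mem_flag (k : Fin m) : eV (F := F) m k ∈ csub (F := F) m (flagSet m k) := by
  refine ⟨fun i hi => ?_, fun i => ?_⟩
  · have : k ≠ i := by
      rintro rfl
      exact hi (le_refl (k : ℕ))
    simp [eV, Pi.single_apply, this.symm]
  · simp [eV]

theorem flag_mono {k l : ℕ} (h : k ≤ l) : csub (F := F) m (flagSet m k) ≤ csub (F := F) m (flagSet m l) := by
  intro v hv
  refine ⟨fun i hi => hv.1 i (fun h2 => hi (le_trans h2 h)), hv.2⟩

/-- An isometry carrying the frame into the flag stabilises the flag. -/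
theorem stab_of_frame (g : fIsom (F := F) (sympForm m F)) (hg : ∀ i : Fin m, g.1 (eV m i) ∈ csub (F := F) m (flagSet m i)) (k : Fin m) :
    g ∈ spStab m (csub (F := F) m (flagSet m k)) := by
  rw [mem_spStab]
  apply iff_of_stab
  intro x hx
  rw [eq_sum_eV m x hx.2, map_sum]
  apply Submodule.sum_mem
  intro i _
  rw [map_smul]
  by_cases hi : (i : ℕ) ≤ k
  · exact Submodule.smul_mem _ _ (flag_mono m hi (hg i))
  · rw [hx.1 i hi, zero_smul]
    exact Submodule.zero_mem _

/-- The triangular frames. -/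
abbrev TriFrames := {y : Fin m → (Fin m ⊕ Fin m → F) // ∀ k : Fin m, y k ∈ csub (F := F) m (flagSet m k) ∧ y k (Sum.inl k) ≠ 0}

theorem card_tri {q : ℕ} (hF : Fintype.card F = q) : Nat.card (TriFrames (F := F) m) = ∏ k : Fin m, (q ^ (k : ℕ) * (q - 1)) := by
  classical
  have hq : 2 ≤ q := by rw [← hF]; exact Fintype.one_lt_card
  have hV : Finite (Fin m ⊕ Fin m → F) := inferInstance
  have e := Equiv.subtypePiEquivPi (β := fun _ : Fin m => Fin m ⊕ Fin m → F) (p := fun k v => v ∈ csub (F := F) m (flagSet m k) ∧ v (Sum.inl k) ≠ 0)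
  rw [Nat.card_congr e, Nat.card_pi]
  apply Finset.prod_congr rfl
  intro k _
  -- the two coordinate subspaces
  let S : Set (Fin m) := {i | (i : ℕ) < k}
  have hS : (csub (F := F) m S) ≤ csub (F := F) m (flagSet m k) := by
    intro v hv
    refine ⟨fun i hi => hv.1 i (fun h2 => hi (show (i : ℕ) ≤ k from le_of_lt (show (i : ℕ) < k from h2))), hv.2⟩
  have h1 := card_diff (csub (F := F) m (flagSet m k)) (csub (F := F) m S) hS
  have e2 : {v : Fin m ⊕ Fin m → F // v ∈ csub (F := F) m (flagSet m k) ∧ v (Sum.inl k) ≠ 0} ≃ {v : Fin m ⊕ Fin m → F // v ∈ csub (F := F) m (flagSet m k) ∧ v ∉ csub (F := F) m S} := by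
    refine Equiv.subtypeEquivRight (fun v => ?_)
    constructor
    · rintro ⟨h3, h4⟩
      refine ⟨h3, fun h5 => h4 (h5.1 k (show ¬ ((k : ℕ) < k) from lt_irrefl _))⟩
    · rintro ⟨h3, h4⟩
      refine ⟨h3, fun h5 => h4 ⟨fun i hi => ?_, h3.2⟩⟩
      by_cases hik : (i : ℕ) = k
      · have : i = k := Fin.ext hik
        rw [this]; exact h5
      · apply h3.1 i
        intro h6
        apply hi
        show (i : ℕ) < k
        have h7 : (i : ℕ) ≤ k := h6
        omega
  rw [Nat.card_congr e2]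
  haveI : Fintype (flagSet m k : Set (Fin m)) := Fintype.ofFinite _
  haveI : Fintype S := Fintype.ofFinite _
  rw [card_csub m hF _, card_csub m hF _] at h1
  have c1 : Fintype.card (flagSet m k : Set (Fin m)) = k + 1 := by
    rw [Fintype.card_eq_nat_card]
    have e3 : (flagSet m k : Set (Fin m)) ≃ Fin (k + 1) :=
      { toFun := fun i => ⟨i.1.1, Nat.lt_succ_of_le i.2⟩
        invFun := fun i => ⟨⟨i.1, lt_of_le_of_lt (Nat.le_of_lt_succ i.2) k.2⟩, Nat.le_of_lt_succ i.2⟩
        left_inv := fun _ => rfl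
        right_inv := fun _ => rfl }
    rw [Nat.card_congr e3]
    simp
  have c2 : Fintype.card S = k := by
    rw [Fintype.card_eq_nat_card]
    have e3 : S ≃ Fin k :=
      { toFun := fun i => ⟨i.1.1, i.2⟩
        invFun := fun i => ⟨⟨i.1, lt_trans i.2 k.2⟩, i.2⟩
        left_inv := fun _ => rfl
        right_inv := fun _ => rfl }
    rw [Nat.card_congr e3]
    simp
  rw [c1, c2] at h1
  have h3 : q ^ ((k : ℕ) + 1) = q ^ (k : ℕ) * (q - 1) + q ^ (k : ℕ) := by
    obtain ⟨r, rfl⟩ : ∃ r, q = r + 1 := ⟨q - 1, by omega⟩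
    simp only [Nat.add_sub_cancel]
    ring
  rw [h3] at h1
  exact Nat.add_right_cancel h1

theorem flag_step (k : Fin m) (y : Fin m ⊕ Fin m → F) (hy : y ∈ csub (F := F) m (flagSet m k)) (h0 : y (Sum.inl k) = 0) :
    (((k : ℕ) = 0) → y = 0) ∧ ∀ j : ℕ, (k : ℕ) = j + 1 → y ∈ csub (F := F) m (flagSet m j) := by
  constructor
  · intro hk
    funext a
    rcases a with i | i
    · by_cases hi : (i : ℕ) ≤ k
      · have : i = k := Fin.ext (by omega)
        rw [this]; exact h0
      · exact hy.1 i hi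
    · exact hy.2 i
  · intro j hj
    refine ⟨fun i hi => ?_, hy.2⟩
    by_cases hik : i = k
    · rw [hik]; exact h0
    · apply hy.1 i
      intro h2
      apply hi
      have h3 : (i : ℕ) ≠ k := fun h => hik (Fin.ext h)
      have h4 : (i : ℕ) ≤ k := h2
      show (i : ℕ) ≤ j
      omega

/-- The Borel subgroup acts on triangular frames. -/
def actTri (g : borelI (F := F) m) : TriFrames (F := F) m :=
  ⟨fun i => g.1.1 (eV m i), fun (k : Fin m) => by
    have hg := (mem_borelI m).1 g.2
    have h1 : g.1.1 (eV m k) ∈ csub (F := F) m (flagSet m k) := (hg k _).1 (eV_mem_flag m k)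
    refine ⟨h1, fun h2 => ?_⟩
    obtain ⟨h3, h4⟩ := flag_step m k _ h1 h2
    have hne : eV (F := F) m k ≠ 0 := (eV_li m).ne_zero k
    by_cases hk : (k : ℕ) = 0
    · have h5 := h3 hk
      exact hne (by simpa using h5)
    · obtain ⟨j, hj⟩ : ∃ j, (k : ℕ) = j + 1 := ⟨k - 1, by omega⟩
      have hjm : j < m := by have := k.2; omega
      have h5 := h4 j hj
      have h6 := (hg ⟨j, hjm⟩ (eV m k)).2 h5
      have h7 : eV (F := F) m k (Sum.inl k) = 0 := h6.1 k (by
        show ¬ (k : ℕ) ≤ j
        omega)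
      simp [eV] at h7⟩

theorem tri_isotropic (y : TriFrames (F := F) m) (i j : Fin m) : sympForm m F (y.1 i) (y.1 j) = 0 := by
  rw [symp_apply]
  apply Finset.sum_eq_zero
  intro a _
  rw [(y.2 i).1.2 a, (y.2 j).1.2 a]
  ring

theorem tri_li (y : TriFrames (F := F) m) : LinearIndependent F y.1 := by
  classical
  rw [Fintype.linearIndependent_iff]
  intro g hg
  by_contra hne
  push Not at hne
  obtain ⟨i0, hi0⟩ := hne
  -- the largest index with a nonzero coefficient
  let s := Finset.univ.filter (fun i => g i ≠ 0)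
  have hs : s.Nonempty := ⟨i0, by simp [s, hi0]⟩
  let k := s.max' hs
  have hk : g k ≠ 0 := by
    have := s.max'_mem hs
    simpa [s] using this
  have hmax : ∀ i, k < i → g i = 0 := by
    intro i hi
    by_contra h
    have : i ∈ s := by simp [s, h]
    exact absurd (s.le_max' i this) (not_le.mpr hi)
  have h1 := congrFun hg (Sum.inl k)
  rw [Finset.sum_apply, Finset.sum_eq_single k] at h1
  · have h2 := (y.2 k).2
    simp only [Pi.smul_apply, smul_eq_mul, Pi.zero_apply, mul_eq_zero] at h1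
    rcases h1 with h1 | h1
    · exact hk h1
    · exact h2 h1
  · intro b _ hb
    rcases lt_or_gt_of_ne hb with hb2 | hb2
    · have h3 : y.1 b (Sum.inl k) = 0 := (y.2 b).1.1 k (by
        show ¬ (k : ℕ) ≤ b
        have : (b : ℕ) < k := hb2
        omega)
      simp [h3]
    · simp [hmax b hb2]
  · simp

/-- Triangular frames are frames. -/
def triFrame (y : TriFrames (F := F) m) : Frames (sympBilin (F := F) m) m :=
  ⟨y.1, tri_li m y, fun i j => tri_isotropic m y i j⟩

theorem frameFix_le_borel : frameFix (F := F) m ≤ borelI (F := F) m := by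
  intro g hg
  rw [mem_borelI]
  intro k
  apply stab_of_frame
  intro i
  rw [hg i]
  exact eV_mem_flag m i

theorem card_borelI_eq : Nat.card (borelI (F := F) m) = Nat.card (TriFrames (F := F) m) * Nat.card (frameFix (F := F) m) := by
  classical
  have hfinE : Finite ((Fin m ⊕ Fin m → F) ≃ₗ[F] (Fin m ⊕ Fin m → F)) := Finite.of_injective (fun g : (Fin m ⊕ Fin m → F) ≃ₗ[F] (Fin m ⊕ Fin m → F) => (g : (Fin m ⊕ Fin m → F) → (Fin m ⊕ Fin m → F))) DFunLike.coe_injective
  have e : Nat.card ↥((frameFix (F := F) m).subgroupOf (borelI (F := F) m)) = Nat.card (frameFix (F := F) m) :=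
    Nat.card_congr (Subgroup.subgroupOfEquivOfLe (frameFix_le_borel m)).toEquiv
  rw [← e]
  refine card_eq_of_act _ (actTri m) ?_ ?_
  · intro a b
    rw [Subgroup.mem_subgroupOf]
    constructor
    · intro h
      apply act_iff
      intro i
      exact congrFun (congrArg Subtype.val h) i
    · intro h
      apply Subtype.ext
      funext i
      exact act_iff' m a.1 b.1 h i
  · intro y
    obtain ⟨g, hg⟩ := exists_isom_frame m (triFrame m y)
    have hgB : g ∈ borelI (F := F) m := by
      rw [mem_borelI]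
      intro k
      apply stab_of_frame
      intro i
      rw [hg i]
      exact (y.2 i).1
    exact ⟨⟨g, hgB⟩, Subtype.ext (funext hg)⟩

theorem card_borelI {q : ℕ} (hF : Fintype.card F = q) : Nat.card (borelI (F := F) m) = q ^ (m ^ 2) * (q - 1) ^ m := by
  rw [card_borelI_eq, card_tri m hF, card_frameFix m hF, Finset.prod_mul_distrib, Finset.prod_const, Finset.card_univ, Fintype.card_fin,
    Finset.prod_pow_eq_pow_sum, Fin.sum_univ_eq_sum_range (fun i => i) m, Finset.sum_range_id]
  have e : m * (m - 1) / 2 + m * (m + 1) / 2 = m ^ 2 := by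
    cases m with
    | zero => rfl
    | succ n =>
      have h1 : (n + 1) * (n + 1 + 1) = (n + 1) * (n + 1 - 1) + 2 * (n + 1) := by
        simp only [Nat.add_sub_cancel]
        ring
      rw [h1, Nat.add_mul_div_left _ _ (by norm_num)]
      have h2 : (n + 1) * (n + 1 - 1) = 2 * ((n + 1) * (n + 1 - 1) / 2) := by
        have := Nat.even_mul_pred_self (n + 1)
        exact (Nat.two_mul_div_two_of_even this).symm
      simp only [Nat.add_sub_cancel] at h2 ⊢
      have h3 : (n + 1) * n = 2 * ((n + 1) * n / 2) := h2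
      have h4 : (n + 1) ^ 2 = (n + 1) * n + (n + 1) := by ring
      omega
  calc _ = q ^ (m * (m - 1) / 2 + m * (m + 1) / 2) * (q - 1) ^ m := by rw [pow_add]; ring
    _ = _ := by rw [e]

/-- Transport to the matrix group. -/
theorem card_borel_matrix :
    Nat.card ↥(⨅ k : Fin m, stabilizing (spToMat m F) {v : Fin m ⊕ Fin m → F | (∀ i : Fin m, (k : ℕ) < (i : ℕ) → v (Sum.inl i) = 0) ∧ ∀ i : Fin m, v (Sum.inr i) = 0}) = Nat.card (borelI (F := F) m) := by
  have hset : ∀ k : Fin m, {v : Fin m ⊕ Fin m → F | (∀ i : Fin m, (k : ℕ) < (i : ℕ) → v (Sum.inl i) = 0) ∧ ∀ i : Fin m, v (Sum.inr i) = 0} = (csub (F := F) m (flagSet m k) : Set (Fin m ⊕ Fin m → F)) := by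
    intro k
    ext v
    show _ ↔ (∀ i, i ∉ flagSet m k → v (Sum.inl i) = 0) ∧ ∀ i, v (Sum.inr i) = 0
    constructor
    · rintro ⟨h1, h2⟩
      exact ⟨fun i hi => h1 i (not_le.mp hi), h2⟩
    · rintro ⟨h1, h2⟩
      exact ⟨fun i hi => h1 i (not_le.mpr hi), h2⟩
  have hmem : ∀ (A : Matrix.symplecticGroup (Fin m) F), A ∈ (⨅ k : Fin m, stabilizing (spToMat m F) {v : Fin m ⊕ Fin m → F | (∀ i : Fin m, (k : ℕ) < (i : ℕ) → v (Sum.inl i) = 0) ∧ ∀ i : Fin m, v (Sum.inr i) = 0}) ↔ spEquiv m A ∈ borelI (F := F) m := by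
    intro A
    rw [Subgroup.mem_iInf, mem_borelI]
    refine forall_congr' (fun k => ?_)
    rw [hset k, mem_spStab]
    refine forall_congr' (fun x => ?_)
    rw [spEquiv_apply]
    rfl
  refine Nat.card_congr (Equiv.ofBijective (fun A => ⟨spEquiv m A.1, (hmem A.1).1 A.2⟩) ⟨?_, ?_⟩)
  · intro A A' h
    have h1 : spEquiv m A.1 = spEquiv m A'.1 := congrArg Subtype.val h
    exact Subtype.ext ((spEquiv m).injective h1)
  · rintro ⟨g, hg⟩
    obtain ⟨A, rfl⟩ := (spEquiv m).surjective g
    exact ⟨⟨A, (hmem A).2 hg⟩, rfl⟩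

end borel

end CfsgLib.ClassGeo.SpParab
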