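import Mathlib
import Cfsg.Agent.Lib.ClassGeo.SULag
import Cfsg.Agent.Lib.ClassGeo.SpOver

set_option autoImplicit false
set_option linter.unusedSimpArgs false
set_option linter.unusedVariables false
set_option linter.unusedSectionVars false

namespace CfsgLib.ClassGeo

open Module

section ZA

variable {F V : Type*} [Field F] [AddCommGroup V] [Module F V] {B : LinearMap.BilinForm F V}

/-- Generalised Eichler-type transformation for an alternating form. -/
def IsEA (B : LinearMap.BilinForm F V) (c z : V) (k : F) (p : V ≃ₗ[F] V) : Prop :=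
  ∀ x, p x = x + B x z • c + B x c • z + (k * B x c) • c

theorem IsEA.mul (hA : B.IsAlt) {c z z' : V} {k k' : F} {p p' : V ≃ₗ[F] V} (hp : IsEA B c z k p) (hp' : IsEA B c z' k' p')
    (hcz : B c z = 0) (hcz' : B c z' = 0) : IsEA B c (z + z') (k + k' + B z' z) (p * p') := by
  have hskew : ∀ a b, B a b = - B b a := fun a b => (hA.neg_eq b a).symm
  have hzc : B z c = 0 := by rw [hskew, hcz, neg_zero]
  have hz'c : B z' c = 0 := by rw [hskew, hcz', neg_zero]
  intro x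
  change p (p' x) = _
  rw [hp, hp']
  simp only [map_add, LinearMap.add_apply, map_smul, LinearMap.smul_apply, smul_eq_mul, hA.self_eq_zero c, hzc, hz'c, hcz, hcz', mul_zero, add_zero]
  module

theorem IsEA.conj (hA : B.IsAlt) {c z : V} {k : F} {p : V ≃ₗ[F] V} (hp : IsEA B c z k p) (g : V ≃ₗ[F] V) (hg : ∀ x y, B (g x) (g y) = B x y) :
    IsEA B (g c) (g z) k (g * p * g⁻¹) := by
  intro x
  change g (p (g⁻¹ x)) = _
  have e : g (g⁻¹ x) = x := g.apply_symm_apply x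
  have e2 : ∀ y, B x (g y) = B (g⁻¹ x) y := by
    intro y
    conv_lhs => rw [← e, hg]
  rw [hp, map_add, map_add, map_add, map_smul, map_smul, map_smul, e, e2, e2]

/-- The Eichler directions along `c` available in `M`. -/
def ZA (M : Subgroup (V ≃ₗ[F] V)) (B : LinearMap.BilinForm F V) (c z : V) : Prop :=
  B c z = 0 ∧ ∃ k p, p ∈ M ∧ IsEA B c z k p

theorem ZA.add (hA : B.IsAlt) {M : Subgroup (V ≃ₗ[F] V)} {c z z' : V} (h1 : ZA M B c z) (h2 : ZA M B c z') : ZA M B c (z + z') := by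
  obtain ⟨hz, k, p, hp, hE⟩ := h1
  obtain ⟨hz', k', p', hp', hE'⟩ := h2
  refine ⟨by rw [map_add, hz, hz', add_zero], _, _, M.mul_mem hp hp', hE.mul hA hE' hz hz'⟩

theorem ZA.neg (hA : B.IsAlt) {M : Subgroup (V ≃ₗ[F] V)} {c z : V} (h1 : ZA M B c z) : ZA M B c (-z) := by
  have hskew : ∀ a b, B a b = - B b a := fun a b => (hA.neg_eq b a).symm
  obtain ⟨hz, k, p, hp, hE⟩ := h1
  have hzc : B z c = 0 := by rw [hskew, hz, neg_zero]
  refine ⟨by rw [map_neg, hz, neg_zero], - k, p⁻¹, M.inv_mem hp, ?_⟩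
  intro x
  change p.symm x = _
  rw [LinearEquiv.symm_apply_eq, hE]
  simp only [map_neg, LinearMap.neg_apply, map_add, LinearMap.add_apply, map_smul, LinearMap.smul_apply, hA.self_eq_zero c, hA.self_eq_zero z, hz, hzc, smul_eq_mul, mul_zero, add_zero, neg_zero, neg_smul, smul_neg, neg_mul]
  module

theorem ZA.sub (hA : B.IsAlt) {M : Subgroup (V ≃ₗ[F] V)} {c z z' : V} (h1 : ZA M B c z) (h2 : ZA M B c z') : ZA M B c (z - z') := by
  rw [sub_eq_add_neg]
  exact h1.add hA (h2.neg hA)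

theorem ZA.conj (hA : B.IsAlt) {M : Subgroup (V ≃ₗ[F] V)} {c z : V} (h1 : ZA M B c z) (r : V ≃ₗ[F] V) (hrM : r ∈ M) (hr : ∀ x y, B (r x) (r y) = B x y) (hrc : r c = c) : ZA M B c (r z) := by
  obtain ⟨hz, k, p, hp, hE⟩ := h1
  refine ⟨by conv_lhs => rw [← hrc, hr]; exact hz, k, r * p * r⁻¹, M.mul_mem (M.mul_mem hrM hp) (M.inv_mem hrM), ?_⟩
  have := hE.conj hA r hr
  rwa [hrc] at this

theorem ZA.comm (hA : B.IsAlt) {M : Subgroup (V ≃ₗ[F] V)} {c z z' : V} (h1 : ZA M B c z) (h2 : ZA M B c z') :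
    altT hA c (B z' z - B z z') ∈ M := by
  have hskew : ∀ a b, B a b = - B b a := fun a b => (hA.neg_eq b a).symm
  obtain ⟨hz, k, p, hp, hE⟩ := h1
  obtain ⟨hz', k', p', hp', hE'⟩ := h2
  have hzc : B z c = 0 := by rw [hskew, hz, neg_zero]
  have hz'c : B z' c = 0 := by rw [hskew, hz', neg_zero]
  have e1 := hE.mul hA hE' hz hz'
  have e2 := hE'.mul hA hE hz' hz
  have : altT hA c (B z' z - B z z') = (p * p') * (p' * p)⁻¹ := by
    rw [eq_mul_inv_iff_mul_eq]
    ext x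
    change altT hA c (B z' z - B z z') ((p' * p) x) = (p * p') x
    rw [altT_apply, e1 x, e2 x]
    simp only [map_add, LinearMap.add_apply, map_smul, LinearMap.smul_apply, hA.self_eq_zero c, hzc, hz'c, smul_eq_mul, mul_zero, add_zero]
    module
  rw [this]
  exact M.mul_mem (M.mul_mem hp hp') (M.inv_mem (M.mul_mem hp' hp))

/-- The Siegel-type element along a pair of orthogonal vectors. -/
theorem exists_EA (hA : B.IsAlt) (a b : V) (hab : B a b = 0) : ∃ p ∈ epsIsomGroup (σ := RingHom.id F) B, IsEA B a b 0 p := by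
  have hskew : ∀ a b, B a b = - B b a := fun a b => (hA.neg_eq b a).symm
  have hba : B b a = 0 := by rw [hskew, hab, neg_zero]
  refine ⟨altT hA (a + b) 1 * altT hA a (-1) * altT hA b (-1), (epsIsomGroup (σ := RingHom.id F) B).mul_mem ((epsIsomGroup (σ := RingHom.id F) B).mul_mem (altT_mem hA _ _) (altT_mem hA _ _)) (altT_mem hA _ _), ?_⟩
  intro x
  change altT hA (a + b) 1 (altT hA a (-1) (altT hA b (-1) x)) = _
  simp only [altT_apply, map_add, LinearMap.add_apply, map_smul, LinearMap.smul_apply, hA.self_eq_zero a, hA.self_eq_zero b, hab, hba, smul_eq_mul, mul_zero, add_zero, zero_add]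
  module

end ZA

section ctx

variable {F V : Type*} [Field F] [AddCommGroup V] [Module F V] {B : LinearMap.BilinForm F V} [FiniteDimensional F V]

theorem alt_rep (hsep : ∀ u, (∀ v, B u v = 0) → u = 0) (φ : Dual F V) : ∃ w, ∀ v, B w v = φ v := by
  have inj : Function.Injective (B : V →ₗ[F] Dual F V) := by
    rw [← LinearMap.ker_eq_bot, LinearMap.ker_eq_bot']
    intro u hu
    apply hsep
    intro v
    rw [hu]
    rfl
  have surj := (LinearMap.injective_iff_surjective_of_finrank_eq_finrank (Subspace.dual_finrank_eq (K := F) (V := V)).symm).mp inj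
  obtain ⟨w, hw⟩ := surj φ
  exact ⟨w, fun v => by rw [hw]⟩

theorem alt_sep (hsep : ∀ u, (∀ v, B u v = 0) → u = 0) (S : Submodule F V) (x : V) (hx : x ∉ S) :
    ∃ w, B w x = 1 ∧ ∀ s ∈ S, B w s = 0 := by
  obtain ⟨f, hfx, hfS⟩ := Submodule.exists_dual_map_eq_bot_of_notMem hx inferInstance
  have hfS' : ∀ z ∈ S, f z = 0 := by
    intro z hz
    have : f z ∈ S.map f := Submodule.mem_map_of_mem hz
    rw [hfS] at this
    exact (Submodule.mem_bot F).mp this
  obtain ⟨w, hw⟩ := alt_rep hsep ((f x)⁻¹ • f)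
  refine ⟨w, ?_, ?_⟩
  · rw [hw]; simp [hfx]
  · intro s hs
    rw [hw]; simp [hfS' s hs]

/-- A pair of complementary totally isotropic subspaces together with projections. -/
structure LagPairA (B : LinearMap.BilinForm F V) (W₀ W₁ : Submodule F V) (P₀ P₁ : V →ₗ[F] V) : Prop where
  hA : B.IsAlt
  hsep : ∀ u, (∀ v, B u v = 0) → u = 0
  ts₀ : ∀ x ∈ W₀, ∀ y ∈ W₀, B x y = 0
  ts₁ : ∀ x ∈ W₁, ∀ y ∈ W₁, B x y = 0
  P₀W : ∀ x, P₀ x ∈ W₀
  P₁W : ∀ x, P₁ x ∈ W₁
  Psum : ∀ x, P₀ x + P₁ x = x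

variable {W₀ W₁ : Submodule F V} {P₀ P₁ : V →ₗ[F] V}

theorem LagPairA.swap (L : LagPairA B W₀ W₁ P₀ P₁) : LagPairA B W₁ W₀ P₁ P₀ :=
  ⟨L.hA, L.hsep, L.ts₁, L.ts₀, L.P₁W, L.P₀W, fun x => by rw [add_comm]; exact L.Psum x⟩

theorem LagPairA.disj (L : LagPairA B W₀ W₁ P₀ P₁) (x : V) (h0 : x ∈ W₀) (h1 : x ∈ W₁) : x = 0 := by
  apply L.hsep
  intro y
  rw [← L.Psum y, map_add, L.ts₀ x h0 _ (L.P₀W y), L.ts₁ x h1 _ (L.P₁W y), add_zero]

theorem LagPairA.pair_r (L : LagPairA B W₀ W₁ P₀ P₁) {y : V} (hy : y ∈ W₀) (x : V) : B y x = B y (P₁ x) := by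
  conv_lhs => rw [← L.Psum x]
  rw [map_add, L.ts₀ y hy _ (L.P₀W x), zero_add]

theorem LagPairA.pair_l (L : LagPairA B W₀ W₁ P₀ P₁) {y : V} (hy : y ∈ W₀) (x : V) : B x y = B (P₁ x) y := by
  conv_lhs => rw [← L.Psum x]
  rw [map_add, LinearMap.add_apply, L.ts₀ _ (L.P₀W x) y hy, zero_add]

theorem LagPairA.sep (L : LagPairA B W₀ W₁ P₀ P₁) (S : Submodule F V) (hS : S ≤ W₁) (y : V) (hy1 : y ∈ W₁) (hy : y ∉ S) :
    ∃ a ∈ W₀, B a y = 1 ∧ ∀ s ∈ S, B a s = 0 := by
  obtain ⟨w, hw, hwS⟩ := alt_sep L.hsep S y hy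
  refine ⟨P₀ w, L.P₀W w, ?_, fun s hs => ?_⟩
  · have := L.swap.pair_l hy1 w
    rw [← this, hw]
  · have := L.swap.pair_l (hS hs) w
    rw [← this, hwS s hs]

/-- Elements stabilising both subspaces. -/
theorem LagPairA.exists_E (L : LagPairA B W₀ W₁ P₀ P₁) (a b : V) (ha : a ∈ W₀) (hb : b ∈ W₁) (hab : B a b = 0) :
    ∃ p ∈ epsIsomGroup (σ := RingHom.id F) B, (∀ x ∈ W₀, p x ∈ W₀) ∧ (∀ x ∈ W₁, p x ∈ W₁) ∧ IsEA B a b 0 p := by
  obtain ⟨p, hp, hE⟩ := exists_EA L.hA a b hab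
  have hskew : ∀ a b, B a b = - B b a := fun a b => (L.hA.neg_eq b a).symm
  refine ⟨p, hp, ?_, ?_, hE⟩
  · intro x hx
    rw [hE, hskew x a, L.ts₀ a ha x hx]
    simp only [neg_zero, zero_smul, add_zero, zero_mul]
    exact W₀.add_mem hx (W₀.smul_mem _ ha)
  · intro x hx
    rw [hE, hskew x b, L.ts₁ b hb x hx]
    simp only [neg_zero, zero_smul, add_zero, zero_mul]
    exact W₁.add_mem hx (W₁.smul_mem _ hb)

/-- From good data, all transvections along `c` lie in `M`. -/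
theorem LagPairA.mem_of_good (L : LagPairA B W₀ W₁ P₀ P₁) (h2 : (2 : F) ≠ 0) (hk : 7 ≤ finrank F W₁) (M : Subgroup (V ≃ₗ[F] V))
    (hst : ∀ p ∈ epsIsomGroup (σ := RingHom.id F) B, (∀ x ∈ W₀, p x ∈ W₀) → (∀ x ∈ W₁, p x ∈ W₁) → p ∈ M)
    (c d : V) (hZ : ZA M B c d) (h₀ : P₀ d ∉ Submodule.span F {P₀ c}) (h₁ : P₁ d ∉ Submodule.span F {P₁ c}) :
    c ∈ altS L.hA M := by
  classical
  have hA := L.hA
  have hskew : ∀ a b, B a b = - B b a := fun a b => (hA.neg_eq b a).symm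
  have hzs : ∀ a b, B a b = 0 → B b a = 0 := fun a b h => by rw [hskew, h, neg_zero]
  obtain ⟨c₀, hc₀⟩ : ∃ c₀, c₀ = P₀ c := ⟨_, rfl⟩
  obtain ⟨c₁, hc₁⟩ : ∃ c₁, c₁ = P₁ c := ⟨_, rfl⟩
  obtain ⟨d₀, hd₀⟩ : ∃ d₀, d₀ = P₀ d := ⟨_, rfl⟩
  obtain ⟨d₁, hd₁⟩ : ∃ d₁, d₁ = P₁ d := ⟨_, rfl⟩
  rw [← hc₀, ← hd₀] at h₀
  rw [← hc₁, ← hd₁] at h₁
  have hc₀W : c₀ ∈ W₀ := hc₀ ▸ L.P₀W c
  have hc₁W : c₁ ∈ W₁ := hc₁ ▸ L.P₁W c
  have hd₀W : d₀ ∈ W₀ := hd₀ ▸ L.P₀W d
  have hd₁W : d₁ ∈ W₁ := hd₁ ▸ L.P₁W d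
  have hspan : ∀ (U : Submodule F V) (x : V), x ∈ U → Submodule.span F {x} ≤ U := fun U x hx => (Submodule.span_singleton_le_iff_mem x U).mpr hx
  obtain ⟨a₁, ha₁, ha₁d, ha₁c⟩ := L.sep _ (hspan W₁ c₁ hc₁W) d₁ hd₁W h₁
  obtain ⟨b₁, hb₁, hb₁d, hb₁c⟩ := L.swap.sep _ (hspan W₀ c₀ hc₀W) d₀ hd₀W h₀
  have ha₁c' : B a₁ c₁ = 0 := ha₁c c₁ (Submodule.mem_span_singleton_self c₁)
  have hb₁c' : B b₁ c₀ = 0 := hb₁c c₀ (Submodule.mem_span_singleton_self c₀)
  have e1 : ∀ y ∈ W₀, ∀ x, B x y = B (P₁ x) y := fun y hy x => L.pair_l hy x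
  have e2 : ∀ y ∈ W₁, ∀ x, B x y = B (P₀ x) y := fun y hy x => L.swap.pair_l hy x
  -- elements of `W₁`
  have pure1 : ∀ b' ∈ W₁, B c₀ b' = 0 → B a₁ b' = 0 → B d₀ b' = 0 → ZA M B c b' := by
    intro b' hb' h1 h2 h3
    obtain ⟨p, hpI, hp0, hp1, hpE⟩ := L.exists_E a₁ b' ha₁ hb' h2
    have hpM := hst p hpI hp0 hp1
    have hform : ∀ x, p x = x + B x b' • a₁ + B x a₁ • b' := by
      intro x
      rw [hpE x]
      simp
    have hpc : p c = c := by
      rw [hform, e2 b' hb' c, ← hc₀, h1, e1 a₁ ha₁ c, ← hc₁, hzs _ _ ha₁c']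
      simp
    have hpd : p d = d - b' := by
      rw [hform, e2 b' hb' d, ← hd₀, h3, e1 a₁ ha₁ d, ← hd₁, hskew d₁, ha₁d]
      simp
      abel
    have h4 := hZ.conj hA p hpM hpI hpc
    have h5 := hZ.sub hA h4
    rw [hpd] at h5
    simpa using h5
  have pure0 : ∀ a' ∈ W₀, B a' c₁ = 0 → B a' b₁ = 0 → B a' d₁ = 0 → ZA M B c a' := by
    intro a' ha' h1 h2 h3
    obtain ⟨p, hpI, hp0, hp1, hpE⟩ := L.exists_E a' b₁ ha' hb₁ h2
    have hpM := hst p hpI hp0 hp1
    have hform : ∀ x, p x = x + B x b₁ • a' + B x a' • b₁ := by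
      intro x
      rw [hpE x]
      simp
    have hpc : p c = c := by
      rw [hform, e2 b₁ hb₁ c, ← hc₀, hzs _ _ hb₁c', e1 a' ha' c, ← hc₁, hzs _ _ h1]
      simp
    have hpd : p d = d - a' := by
      rw [hform, e2 b₁ hb₁ d, ← hd₀, hskew d₀, hb₁d, e1 a' ha' d, ← hd₁, hzs _ _ h3]
      simp
      abel
    have h4 := hZ.conj hA p hpM hpI hpc
    have h5 := hZ.sub hA h4
    rw [hpd] at h5
    simpa using h5
  -- dimension count
  obtain ⟨Y, hY⟩ : ∃ Y, Y = W₁ ⊓ LinearMap.ker (B c₀) ⊓ LinearMap.ker (B a₁) ⊓ LinearMap.ker (B d₀) := ⟨_, rfl⟩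
  have hYr : finrank F W₁ ≤ finrank F Y + 3 := by
    have r1 := finrank_inf_ker_ge W₁ (B c₀)
    have r2 := finrank_inf_ker_ge (W₁ ⊓ LinearMap.ker (B c₀)) (B a₁)
    have r3 := finrank_inf_ker_ge (W₁ ⊓ LinearMap.ker (B c₀) ⊓ LinearMap.ker (B a₁)) (B d₀)
    rw [hY]
    omega
  obtain ⟨S, hS⟩ : ∃ S, S = Submodule.span F {c₁, b₁, d₁} := ⟨_, rfl⟩
  have hSr : finrank F S ≤ 3 := by
    rw [hS]
    have := finrank_span_finset_le_card (R := F) ({c₁, b₁, d₁} : Finset V)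
    simp only [Finset.coe_insert, Finset.coe_singleton] at this
    refine this.trans ?_
    exact Finset.card_le_three
  have hSW : S ≤ W₁ := by
    rw [hS, Submodule.span_le]
    rintro x (rfl | rfl | rfl)
    · exact hc₁W
    · exact hb₁
    · exact hd₁W
  obtain ⟨y₁, hy₁Y, hy₁S⟩ : ∃ y₁ ∈ Y, y₁ ∉ S := by
    by_contra hcon
    push Not at hcon
    have := Submodule.finrank_mono (show Y ≤ S from fun x hx => hcon x hx)
    omega
  have hy₁W : y₁ ∈ W₁ := by
    rw [hY] at hy₁Y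
    exact hy₁Y.1.1.1
  have hy1 : B c₀ y₁ = 0 := by
    rw [hY] at hy₁Y
    exact hy₁Y.1.1.2
  have hy2 : B a₁ y₁ = 0 := by
    rw [hY] at hy₁Y
    exact hy₁Y.1.2
  have hy3 : B d₀ y₁ = 0 := by
    rw [hY] at hy₁Y
    exact hy₁Y.2
  obtain ⟨a', ha', ha'y, ha'S⟩ := L.sep S hSW y₁ hy₁W hy₁S
  have hac : B a' c₁ = 0 := ha'S c₁ (by rw [hS]; exact Submodule.subset_span (by simp))
  have hab : B a' b₁ = 0 := ha'S b₁ (by rw [hS]; exact Submodule.subset_span (by simp))
  have had : B a' d₁ = 0 := ha'S d₁ (by rw [hS]; exact Submodule.subset_span (by simp))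
  have hZ1 : ZA M B c y₁ := pure1 y₁ hy₁W hy1 hy2 hy3
  intro κ
  obtain ⟨t, ht⟩ : ∃ t, t = κ / 2 := ⟨_, rfl⟩
  have hZ0 : ZA M B c (t • a') := by
    refine pure0 _ (W₀.smul_mem _ ha') ?_ ?_ ?_
    · rw [map_smul, LinearMap.smul_apply, hac, smul_zero]
    · rw [map_smul, LinearMap.smul_apply, hab, smul_zero]
    · rw [map_smul, LinearMap.smul_apply, had, smul_zero]
  have hcomm := hZ0.comm hA hZ1
  have e3 : B y₁ (t • a') - B (t • a') y₁ = - κ := by
    rw [map_smul, map_smul, LinearMap.smul_apply, hskew y₁ a', ha'y, ht]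
    simp only [smul_eq_mul]
    field_simp
    ring
  rw [e3] at hcomm
  have hm := M.inv_mem hcomm
  have e4 : (altT hA c (-κ))⁻¹ = altT hA c κ := by
    rw [inv_eq_iff_mul_eq_one, altT_add]
    simp [altT_zero']
  rwa [e4] at hm

/-- An element of `Sp` interchanging the two subspaces. -/
theorem LagPairA.exists_swap (L : LagPairA B W₀ W₁ P₀ P₁) (hk : finrank F W₀ = finrank F W₁) :
    ∃ t ∈ epsIsomGroup (σ := RingHom.id F) B, (∀ x ∈ W₀, t x ∈ W₁) ∧ (∀ x ∈ W₁, t x ∈ W₀) := by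
  classical
  have hA := L.hA
  have hskew : ∀ a b, B a b = - B b a := fun a b => (hA.neg_eq b a).symm
  have hzs : ∀ a b, B a b = 0 → B b a = 0 := fun a b h => by rw [hskew, h, neg_zero]
  let e := finBasis F W₀
  let Θ : W₁ →ₗ[F] (Fin (finrank F W₀) → F) := LinearMap.pi fun i => (B (e i : V)).comp W₁.subtype
  have hΘ : ∀ (y : W₁) i, Θ y i = B (e i : V) y := fun y i => rfl
  have hinj : Function.Injective Θ := by
    rw [← LinearMap.ker_eq_bot, LinearMap.ker_eq_bot']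
    intro y hy
    apply Subtype.ext
    apply L.hsep
    intro x
    apply hzs
    rw [← L.Psum x, map_add, LinearMap.add_apply, L.ts₁ _ (L.P₁W x) _ y.2, add_zero]
    have hx := e.sum_repr ⟨P₀ x, L.P₀W x⟩
    have hx' := congrArg Subtype.val hx
    simp only [Submodule.coe_sum, Submodule.coe_smul] at hx'
    change _ = P₀ x at hx'
    rw [← hx']
    simp only [map_sum, LinearMap.sum_apply, map_smul, LinearMap.smul_apply, smul_eq_mul]
    refine Finset.sum_eq_zero fun i _ => ?_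
    have : B (e i : V) y = 0 := by
      have h1 := congrFun hy i
      rw [hΘ] at h1
      exact h1
    rw [this, mul_zero]
  have hsurj : Function.Surjective Θ := by
    refine (LinearMap.injective_iff_surjective_of_finrank_eq_finrank ?_).mp hinj
    simp [hk]
  choose f₀ hf₀ using fun j => hsurj (Pi.single j 1)
  obtain ⟨f, hfd⟩ : ∃ f : Fin (finrank F W₀) → V, f = fun j => (f₀ j : V) := ⟨_, rfl⟩
  have hfW : ∀ j, f j ∈ W₁ := fun j => by
    rw [hfd]
    exact (f₀ j).2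
  have hef : ∀ i j, B (e i : V) (f j) = if i = j then 1 else 0 := by
    intro i j
    rw [hfd]
    have := congrFun (hf₀ j) i
    rw [hΘ] at this
    change B (e i : V) (f₀ j) = _
    rw [this, Pi.single_apply]
  have hfe : ∀ i j, B (f j) (e i : V) = - if i = j then 1 else 0 := by
    intro i j
    rw [hskew, hef]
  have hee : ∀ i j, B (e i : V) (e j : V) = 0 := fun i j => L.ts₀ _ (e i).2 _ (e j).2
  have hff : ∀ i j, B (f i) (f j) = 0 := fun i j => L.ts₁ _ (hfW i) _ (hfW j)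
  have key : ∀ S : Finset (Fin (finrank F W₀)), ∃ t ∈ epsIsomGroup (σ := RingHom.id F) B, (∀ i ∈ S, t (e i : V) = f i ∧ t (f i) = - (e i : V)) ∧
      (∀ i, i ∉ S → t (e i : V) = (e i : V) ∧ t (f i) = f i) := by
    intro S
    induction S using Finset.induction_on with
    | empty =>
      refine ⟨1, (epsIsomGroup (σ := RingHom.id F) B).one_mem, by simp, fun i _ => ⟨rfl, rfl⟩⟩
    | insert j S hj ih =>
      obtain ⟨t, ht, h1, h2⟩ := ih
      obtain ⟨w, hw⟩ : ∃ w, w = altT hA (f j) 1 * altT hA (e j : V) 1 * altT hA (f j) 1 := ⟨_, rfl⟩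
      have hwI : w ∈ epsIsomGroup (σ := RingHom.id F) B := by
        rw [hw]
        exact (epsIsomGroup (σ := RingHom.id F) B).mul_mem ((epsIsomGroup (σ := RingHom.id F) B).mul_mem (altT_mem hA _ _) (altT_mem hA _ _)) (altT_mem hA _ _)
      have hwa : ∀ x, w x = altT hA (f j) 1 (altT hA (e j : V) 1 (altT hA (f j) 1 x)) := by
        intro x
        rw [hw]
        rfl
      have hwe' : ∀ i, i ≠ j → w (e i : V) = (e i : V) := by
        intro i hij
        rw [hwa]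
        simp only [altT_apply, map_add, map_smul, LinearMap.add_apply, LinearMap.smul_apply, hef, hee, hfe, hff, if_neg hij, if_neg (Ne.symm hij), smul_eq_mul, mul_zero, add_zero, neg_zero, zero_smul]
      have hwf' : ∀ i, i ≠ j → w (f i) = f i := by
        intro i hij
        rw [hwa]
        simp only [altT_apply, map_add, map_smul, LinearMap.add_apply, LinearMap.smul_apply, hef, hee, hfe, hff, if_neg hij, if_neg (Ne.symm hij), smul_eq_mul, mul_zero, add_zero, neg_zero, zero_smul]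
      have hwe : w (e j : V) = f j := by
        rw [hwa]
        simp only [altT_apply, map_add, map_smul, LinearMap.add_apply, LinearMap.smul_apply, hef, hee, hfe, hff, if_true, smul_eq_mul, mul_zero, add_zero, neg_zero, zero_smul]
        module
      have hwf : w (f j) = - (e j : V) := by
        rw [hwa]
        simp only [altT_apply, map_add, map_smul, LinearMap.add_apply, LinearMap.smul_apply, hef, hee, hfe, hff, if_true, smul_eq_mul, mul_zero, add_zero, neg_zero, zero_smul]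
        module
      refine ⟨w * t, (epsIsomGroup (σ := RingHom.id F) B).mul_mem hwI ht, ?_, ?_⟩
      · intro i hi
        change w (t (e i : V)) = _ ∧ w (t (f i)) = _
        rcases Finset.mem_insert.mp hi with rfl | hi2
        · rw [(h2 i hj).1, (h2 i hj).2]
          exact ⟨hwe, hwf⟩
        · have hij : i ≠ j := by
            intro h5
            rw [h5] at hi2
            exact hj hi2
          rw [(h1 i hi2).1, (h1 i hi2).2, map_neg, hwe' i hij, hwf' i hij]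
          exact ⟨rfl, rfl⟩
      · intro i hi
        have hi1 : i ∉ S := fun h3 => hi (Finset.mem_insert_of_mem h3)
        have hij : i ≠ j := by
          rintro rfl
          exact hi (Finset.mem_insert_self _ _)
        change w (t (e i : V)) = _ ∧ w (t (f i)) = _
        rw [(h2 i hi1).1, (h2 i hi1).2]
        exact ⟨hwe' i hij, hwf' i hij⟩
  obtain ⟨t, ht, h1, -⟩ := key Finset.univ
  refine ⟨t, ht, ?_, ?_⟩
  · intro x hx
    have hx' := congrArg Subtype.val (e.sum_repr ⟨x, hx⟩)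
    simp only [Submodule.coe_sum, Submodule.coe_smul] at hx'
    change _ = x at hx'
    rw [← hx', map_sum]
    refine W₁.sum_mem fun i _ => ?_
    rw [map_smul, (h1 i (Finset.mem_univ i)).1]
    exact W₁.smul_mem _ (hfW i)
  · intro y hy
    have e3 : y = ∑ j, (Θ ⟨y, hy⟩ j) • f j := by
      have h3 : (⟨y, hy⟩ : W₁) = ∑ j, (Θ ⟨y, hy⟩ j) • f₀ j := by
        apply hinj
        rw [map_sum]
        simp only [map_smul, hf₀]
        ext i
        simp [Finset.sum_apply, Pi.single_apply]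
      have h4 := congrArg Subtype.val h3
      simp only [Submodule.coe_sum, Submodule.coe_smul] at h4
      rw [hfd]
      exact h4
    rw [e3, map_sum]
    refine W₀.sum_mem fun i _ => ?_
    rw [map_smul, (h1 i (Finset.mem_univ i)).2]
    exact W₀.smul_mem _ (W₀.neg_mem (e i).2)

end ctx

end CfsgLib.ClassGeo
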