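import Mathlib
import Cfsg.Agent.Lib.ClassGeo.SpLag
import Cfsg.Agent.Lib.ClassGeo.SULag3

set_option autoImplicit false
set_option linter.unusedSimpArgs false
set_option linter.unusedVariables false
set_option linter.unusedSectionVars false

namespace CfsgLib.ClassGeo

open Module

section ctx

variable {F V : Type*} [Field F] [AddCommGroup V] [Module F V] {B : LinearMap.BilinForm F V} [FiniteDimensional F V] [Finite F]
variable {W₀ W₁ : Submodule F V} {P₀ P₁ : V →ₗ[F] V}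

/-- Transitivity on non-zero vectors of one subspace. -/
theorem LagPairA.exists_move (L : LagPairA B W₀ W₁ P₀ P₁) (hk : 2 ≤ finrank F W₀) (M : Subgroup (V ≃ₗ[F] V))
    (hst : ∀ p ∈ epsIsomGroup (σ := RingHom.id F) B, (∀ x ∈ W₀, p x ∈ W₀) → (∀ x ∈ W₁, p x ∈ W₁) → p ∈ M)
    (u v : V) (hu : u ∈ W₀) (hv : v ∈ W₀) (hu0 : u ≠ 0) (hv0 : v ≠ 0) : ∃ p ∈ M, p ∈ epsIsomGroup (σ := RingHom.id F) B ∧ p u = v := by
  have step : ∀ u v : V, u ∈ W₀ → v ∈ W₀ → u ≠ 0 → v ∉ Submodule.span F {u} → ∃ p ∈ M, p ∈ epsIsomGroup (σ := RingHom.id F) B ∧ p u = v := by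
    intro u v hu hv hu0 hvu
    obtain ⟨z, hz⟩ : ∃ z, z = v - u := ⟨_, rfl⟩
    have hzW : z ∈ W₀ := by
      rw [hz]
      exact W₀.sub_mem hv hu
    have huz : u ∉ Submodule.span F {z} := by
      intro hm
      obtain ⟨t, ht⟩ := Submodule.mem_span_singleton.mp hm
      rw [hz] at ht
      have ht0 : t ≠ 0 := by
        rintro rfl
        rw [zero_smul] at ht
        exact hu0 ht.symm
      apply hvu
      refine Submodule.mem_span_singleton.mpr ⟨(1 + t) * t⁻¹, ?_⟩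
      have e1 : t • v = (1 + t) • u := by
        calc t • v = t • (v - u) + t • u := by module
          _ = u + t • u := by rw [ht]
          _ = (1 + t) • u := by module
      rw [mul_comm, mul_smul, ← e1, smul_smul, inv_mul_cancel₀ ht0, one_smul]
    obtain ⟨b, hb, hbu, hbS⟩ := L.swap.sep (Submodule.span F {z}) ((Submodule.span_singleton_le_iff_mem z W₀).mpr hzW) u hu huz
    have hbz : B b z = 0 := hbS z (Submodule.mem_span_singleton_self z)
    have hskew : ∀ a b, B a b = - B b a := fun a b => (L.hA.neg_eq b a).symm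
    have hzb : B z b = 0 := by rw [hskew, hbz, neg_zero]
    have hzb' : B (-z) b = 0 := by rw [map_neg, LinearMap.neg_apply, hzb, neg_zero]
    obtain ⟨p, hpI, hp0, hp1, hpE⟩ := L.exists_E (-z) b (W₀.neg_mem hzW) hb hzb'
    refine ⟨p, hst p hpI hp0 hp1, hpI, ?_⟩
    have hub : B u b = -1 := by rw [hskew, hbu]
    have huz' : B u (-z) = 0 := L.ts₀ _ hu _ (W₀.neg_mem hzW)
    rw [hpE u, hub, huz', hz]
    simp
  by_cases hvu : v ∈ Submodule.span F {u}
  · obtain ⟨w, hw, hwu⟩ : ∃ w ∈ W₀, w ∉ Submodule.span F {u} := by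
      by_contra hcon
      push Not at hcon
      have h1 := Submodule.finrank_mono (show W₀ ≤ Submodule.span F {u} from fun x hx => hcon x hx)
      rw [finrank_span_singleton hu0] at h1
      omega
    have hw0 : w ≠ 0 := by
      rintro rfl
      exact hwu (Submodule.zero_mem _)
    obtain ⟨p₁, hp₁, hp₁I, e₁⟩ := step u w hu hw hu0 hwu
    have hvw : v ∉ Submodule.span F {w} := by
      intro hm
      obtain ⟨t, ht⟩ := Submodule.mem_span_singleton.mp hm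
      obtain ⟨s, hs⟩ := Submodule.mem_span_singleton.mp hvu
      have ht0 : t ≠ 0 := by
        rintro rfl
        rw [zero_smul] at ht
        exact hv0 ht.symm
      apply hwu
      refine Submodule.mem_span_singleton.mpr ⟨t⁻¹ * s, ?_⟩
      rw [mul_smul, hs, ← ht, smul_smul, inv_mul_cancel₀ ht0, one_smul]
    obtain ⟨p₂, hp₂, hp₂I, e₂⟩ := step w v hw hv hw0 hvw
    refine ⟨p₂ * p₁, M.mul_mem hp₂ hp₁, (epsIsomGroup (σ := RingHom.id F) B).mul_mem hp₂I hp₁I, ?_⟩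
    change p₂ (p₁ u) = v
    rw [e₁, e₂]
  · exact step u v hu hv hu0 hvu

/-- Overgroups of the stabiliser of a pair of complementary totally isotropic subspaces in `Sp`, odd characteristic. -/
theorem sp_lag (L : LagPairA B W₀ W₁ P₀ P₁) (h2 : (2 : F) ≠ 0) (hk : finrank F W₀ = finrank F W₁) (hk₀ : 7 ≤ finrank F W₀) (M : Subgroup (V ≃ₗ[F] V))
    (hle : M ≤ epsIsomGroup (σ := RingHom.id F) B)
    (hst : ∀ p ∈ epsIsomGroup (σ := RingHom.id F) B, (∀ x ∈ W₀, p x ∈ W₀) → (∀ x ∈ W₁, p x ∈ W₁) → p ∈ M)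
    (hsw : ∀ p ∈ epsIsomGroup (σ := RingHom.id F) B, (∀ x ∈ W₀, p x ∈ W₁) → (∀ x ∈ W₁, p x ∈ W₀) → p ∈ M)
    (g : V ≃ₗ[F] V) (hgM : g ∈ M) (hg1 : ¬ ((∀ x ∈ W₀, g x ∈ W₀) ∧ (∀ x ∈ W₁, g x ∈ W₁))) (hg2 : ¬ ((∀ x ∈ W₀, g x ∈ W₁) ∧ (∀ x ∈ W₁, g x ∈ W₀))) :
    epsIsomGroup (σ := RingHom.id F) B ≤ M := by
  have hA := L.hA
  have hskew : ∀ a b, B a b = - B b a := fun a b => (hA.neg_eq b a).symm
  have hzs : ∀ x y, B x y = 0 → B y x = 0 := fun x y hxy => by rw [hskew, hxy, neg_zero]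
  have hk₁ : 7 ≤ finrank F W₁ := hk ▸ hk₀
  have hgI : ∀ x y, B (g x) (g y) = B x y := hle hgM
  obtain ⟨A₀, hA₀⟩ : ∃ A₀ : V →ₗ[F] V, A₀ = P₀ ∘ₗ (g : V →ₗ[F] V) := ⟨_, rfl⟩
  obtain ⟨A₁, hA₁⟩ : ∃ A₁ : V →ₗ[F] V, A₁ = P₁ ∘ₗ (g : V →ₗ[F] V) := ⟨_, rfl⟩
  have hA₀a : ∀ x, A₀ x = P₀ (g x) := fun x => by rw [hA₀]; rfl
  have hA₁a : ∀ x, A₁ x = P₁ (g x) := fun x => by rw [hA₁]; rfl
  have hinj : ∀ x, A₀ x = 0 → A₁ x = 0 → x = 0 := by
    intro x h0 h1
    rw [hA₀a] at h0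
    rw [hA₁a] at h1
    have := L.Psum (g x)
    rw [h0, h1, add_zero] at this
    have h2 : g x = 0 := this.symm
    exact (map_eq_zero_iff g g.injective).mp h2
  -- finding good data
  have hgood : ∃ a ∈ W₀, ∃ b ∈ W₁, B b a = 0 ∧ ((a ≠ 0 ∧ A₀ b ∉ Submodule.span F {A₀ a} ∧ A₁ b ∉ Submodule.span F {A₁ a}) ∨
      (b ≠ 0 ∧ A₀ a ∉ Submodule.span F {A₀ b} ∧ A₁ a ∉ Submodule.span F {A₁ b})) := by
    by_contra hcon
    push Not at hcon
    have hI : (∀ b ∈ W₁, A₀ b = 0) ∨ (∀ b ∈ W₁, A₁ b = 0) := by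
      refine good_both (σ := RingHom.id F) (B := B) hzs A₀ A₁ W₀ W₁ hk₁ (by omega) (fun b _ => hinj b) ?_
      intro a ha ha0 b hb hba
      by_contra hc
      push Not at hc
      exact hc.2 ((hcon a ha b hb hba).1 ha0 hc.1)
    have hII : (∀ b ∈ W₀, A₀ b = 0) ∨ (∀ b ∈ W₀, A₁ b = 0) := by
      refine good_both (σ := RingHom.id F) (B := B) hzs A₀ A₁ W₁ W₀ hk₀ (by omega) (fun b _ => hinj b) ?_
      intro b hb hb0 a ha hab
      by_contra hc
      push Not at hc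
      exact hc.2 ((hcon a ha b hb (hzs _ _ hab)).2 hb0 hc.1)
    have hW₀0 : W₀ ≠ ⊥ := by
      rintro h0
      rw [h0, finrank_bot] at hk₀
      omega
    have hW₁0 : W₁ ≠ ⊥ := by
      rintro h0
      rw [h0, finrank_bot] at hk₁
      omega
    have mem0 : ∀ x, P₀ x = 0 → x ∈ W₁ := by
      intro x hx
      have := L.Psum x
      rw [hx, zero_add] at this
      rw [← this]
      exact L.P₁W x
    have mem1 : ∀ x, P₁ x = 0 → x ∈ W₀ := by
      intro x hx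
      have := L.Psum x
      rw [hx, add_zero] at this
      rw [← this]
      exact L.P₀W x
    rcases hI with hI | hI <;> rcases hII with hII | hII
    · obtain ⟨x, hx, hx0⟩ := Submodule.exists_mem_ne_zero_of_ne_bot hW₀0
      have h1 : g.symm x = P₀ (g.symm x) + P₁ (g.symm x) := (L.Psum _).symm
      have h2 : x = g (P₀ (g.symm x)) + g (P₁ (g.symm x)) := by
        rw [← map_add, ← h1, LinearEquiv.apply_symm_apply]
      have h3 : g (P₀ (g.symm x)) ∈ W₁ := mem0 _ (by rw [← hA₀a]; exact hII _ (L.P₀W _))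
      have h4 : g (P₁ (g.symm x)) ∈ W₁ := mem0 _ (by rw [← hA₀a]; exact hI _ (L.P₁W _))
      exact hx0 (L.disj x hx (by rw [h2]; exact W₁.add_mem h3 h4))
    · exact hg1 ⟨fun x hx => mem1 _ (by rw [← hA₁a]; exact hII x hx), fun x hx => mem0 _ (by rw [← hA₀a]; exact hI x hx)⟩
    · exact hg2 ⟨fun x hx => mem0 _ (by rw [← hA₀a]; exact hII x hx), fun x hx => mem1 _ (by rw [← hA₁a]; exact hI x hx)⟩
    · obtain ⟨x, hx, hx0⟩ := Submodule.exists_mem_ne_zero_of_ne_bot hW₁0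
      have h1 : g.symm x = P₀ (g.symm x) + P₁ (g.symm x) := (L.Psum _).symm
      have h2 : x = g (P₀ (g.symm x)) + g (P₁ (g.symm x)) := by
        rw [← map_add, ← h1, LinearEquiv.apply_symm_apply]
      have h3 : g (P₀ (g.symm x)) ∈ W₀ := mem1 _ (by rw [← hA₁a]; exact hII _ (L.P₀W _))
      have h4 : g (P₁ (g.symm x)) ∈ W₀ := mem1 _ (by rw [← hA₁a]; exact hI _ (L.P₁W _))
      exact hx0 (L.disj x (by rw [h2]; exact W₀.add_mem h3 h4) hx)
  -- a vector of `W₀`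
  have hpure : ∃ a₀ ∈ W₀, a₀ ≠ 0 ∧ a₀ ∈ altS hA M := by
    obtain ⟨t, ht, ht0, ht1⟩ := L.exists_swap hk
    have htM := hsw t ht ht0 ht1
    obtain ⟨a, ha, b, hb, hba, hc⟩ := hgood
    have hab : B a b = 0 := hzs _ _ hba
    obtain ⟨p, hpI, hp0, hp1, hpE⟩ := L.exists_E a b ha hb hab
    have hpM := hst p hpI hp0 hp1
    have back : ∀ v, g v ∈ altS hA M → v ∈ altS hA M := by
      intro v hv
      have := altS_conj hA hv (M.inv_mem hgM) ((epsIsomGroup (σ := RingHom.id F) B).inv_mem (hle hgM))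
      have e : g⁻¹ (g v) = v := g.symm_apply_apply v
      rwa [e] at this
    rcases hc with ⟨ha0, h₀, h₁⟩ | ⟨hb0, h₀, h₁⟩
    · have hZ : ZA M B (g a) (g b) := by
        refine ⟨by rw [hgI, hab], 0, g * p * g⁻¹, M.mul_mem (M.mul_mem hgM hpM) (M.inv_mem hgM), hpE.conj hA g hgI⟩
      rw [hA₀a, hA₀a] at h₀
      rw [hA₁a, hA₁a] at h₁
      have h3 := L.mem_of_good h2 hk₁ M hst (g a) (g b) hZ h₀ h₁
      exact ⟨a, ha, ha0, back a h3⟩
    · have hE' : IsEA B b a 0 p := by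
        intro x
        rw [hpE x]
        simp only [zero_mul, zero_smul, add_zero]
        abel
      have hZ : ZA M B (g b) (g a) := by
        refine ⟨by rw [hgI, hba], 0, g * p * g⁻¹, M.mul_mem (M.mul_mem hgM hpM) (M.inv_mem hgM), hE'.conj hA g hgI⟩
      rw [hA₀a, hA₀a] at h₀
      rw [hA₁a, hA₁a] at h₁
      have h3 := L.mem_of_good h2 hk₁ M hst (g b) (g a) hZ h₀ h₁
      refine ⟨t b, ht1 b hb, ?_, altS_conj hA (back b h3) htM ht⟩
      intro h0
      exact hb0 ((map_eq_zero_iff t t.injective).mp h0)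
  obtain ⟨a₀, ha₀W, ha₀0, ha₀S⟩ := hpure
  have hW₀S : ∀ v ∈ W₀, v ∈ altS hA M := by
    intro v hv
    by_cases hv0 : v = 0
    · rw [hv0]
      have := altS_smul hA ha₀S (0 : F)
      rwa [zero_smul] at this
    obtain ⟨p, hp, hpI, hpe⟩ := L.exists_move (by omega) M hst a₀ v ha₀W hv ha₀0 hv0
    rw [← hpe]
    exact altS_conj hA ha₀S hp hpI
  obtain ⟨t, ht, ht0, ht1⟩ := L.exists_swap hk
  have htM := hsw t ht ht0 ht1
  have hW₁S : ∀ v ∈ W₁, v ∈ altS hA M := by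
    intro v hv
    have h1 : W₀.map (t : V →ₗ[F] V) ≤ W₁ := by
      rintro _ ⟨x, hx, rfl⟩
      exact ht0 x hx
    have h2' : W₀.map (t : V →ₗ[F] V) = W₁ := Submodule.eq_of_le_of_finrank_eq h1 (by rw [LinearEquiv.finrank_map_eq]; exact hk)
    rw [← h2'] at hv
    obtain ⟨x, hx, rfl⟩ := hv
    exact altS_conj hA (hW₀S x hx) htM ht
  refine isom_le_of_altS hA L.hsep ?_
  have hmix : ∀ x₀' ∈ W₀, ∀ x₁ ∈ W₁, B x₁ x₀' ≠ 0 → x₀' + x₁ ∈ altS hA M := by
    intro x₀' hx₀' x₁ hx₁ hs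
    have := altS_add hA (hW₀S x₀' hx₀') (hW₁S x₁ hx₁) hs 1
    rw [one_smul, add_comm] at this
    exact this
  intro x
  have hdec := L.Psum x
  obtain ⟨x₀', hx₀'⟩ : ∃ x₀', x₀' = P₀ x := ⟨_, rfl⟩
  obtain ⟨x₁, hx₁⟩ : ∃ x₁, x₁ = P₁ x := ⟨_, rfl⟩
  rw [← hx₀', ← hx₁] at hdec
  have hx₀W : x₀' ∈ W₀ := hx₀' ▸ L.P₀W x
  have hx₁W : x₁ ∈ W₁ := hx₁ ▸ L.P₁W x
  rw [← hdec]
  by_cases hx₀0 : x₀' = 0
  · rw [hx₀0, zero_add]
    exact hW₁S x₁ hx₁W
  by_cases hx₁0 : x₁ = 0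
  · rw [hx₁0, add_zero]
    exact hW₀S x₀' hx₀W
  by_cases hs : B x₁ x₀' = 0
  · -- orthogonal components
    obtain ⟨v, hv, hv1, -⟩ := L.sep ⊥ bot_le x₁ hx₁W (by simpa using hx₁0)
    have hvS := hW₀S v hv
    have hp : B (x₀' + x₁) v = -1 := by
      rw [map_add, LinearMap.add_apply, L.ts₀ _ hx₀W _ hv, hskew x₁, hv1, zero_add]
    have hy : altT hA v 1 (x₀' + x₁) = (x₀' + (-1 : F) • v) + x₁ := by
      rw [altT_apply, hp]
      simp only [mul_neg, mul_one, neg_smul, one_smul]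
      abel
    have hs' : B x₁ (x₀' + (-1 : F) • v) ≠ 0 := by
      rw [map_add, hs, map_smul, hskew x₁, hv1]
      simp
    have hyS := hmix _ (W₀.add_mem hx₀W (W₀.smul_mem _ hv)) x₁ hx₁W hs'
    rw [← hy] at hyS
    have h3 := altS_conj hA hyS (M.inv_mem (hvS 1)) ((epsIsomGroup (σ := RingHom.id F) B).inv_mem (altT_mem hA v 1))
    have h4 : (altT hA v 1)⁻¹ (altT hA v 1 (x₀' + x₁)) = x₀' + x₁ := (altT hA v 1).symm_apply_apply _
    rwa [h4] at h3
  · exact hmix x₀' hx₀W x₁ hx₁W hs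

/-- Maximality for a pair of complementary totally isotropic subspaces, odd characteristic. -/
theorem sp_lag_isMaximalIn (h2 : (2 : F) ≠ 0) (hA : B.IsAlt) (hsep : ∀ u, (∀ v, B u v = 0) → u = 0) (D : Fin 2 → Submodule F V) (hc : IsCompl (D 0) (D 1)) (ts : ∀ i, ∀ x ∈ D i, ∀ y ∈ D i, B x y = 0)
    (hk : finrank F (D 0) = finrank F (D 1)) (hk₀ : 7 ≤ finrank F (D 0)) :
    Cfsg.Geo.IsMaximalIn (epsIsomGroup (σ := RingHom.id F) B) (decStab D ⊓ epsIsomGroup (σ := RingHom.id F) B) := by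
  let P₀ : V →ₗ[F] V := (D 0).subtype ∘ₗ Submodule.projectionOnto (D 0) (D 1) hc
  let P₁ : V →ₗ[F] V := (D 1).subtype ∘ₗ Submodule.projectionOnto (D 1) (D 0) hc.symm
  have hP : ∀ x, P₀ x + P₁ x = x := fun x => Submodule.projection_add_projection_eq_self hc x
  have L : LagPairA B (D 0) (D 1) P₀ P₁ :=
    ⟨hA, hsep, ts 0, ts 1, fun x => (Submodule.projectionOnto (D 0) (D 1) hc x).2, fun x => (Submodule.projectionOnto (D 1) (D 0) hc.symm x).2, hP⟩
  have hskew : ∀ a b, B a b = - B b a := fun a b => (hA.neg_eq b a).symm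
  constructor
  · refine lt_of_le_of_ne inf_le_right ?_
    intro heq
    have hne : D 0 ≠ ⊥ := by
      intro h0
      rw [h0, finrank_bot] at hk₀
      omega
    obtain ⟨v, hv, hv0⟩ := Submodule.exists_mem_ne_zero_of_ne_bot hne
    obtain ⟨y, hy, hyv, -⟩ := L.swap.sep ⊥ bot_le v hv (by simpa using hv0)
    have hmem : altT hA v 1 ∈ decStab D ⊓ epsIsomGroup (σ := RingHom.id F) B := by
      rw [heq]
      exact altT_mem hA v 1
    obtain ⟨τ, hτ⟩ := hmem.1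
    have h1 : altT hA v 1 y ∈ D (τ 1) := by
      rw [← hτ 1]
      exact ⟨y, hy, rfl⟩
    rw [altT_apply, hyv, mul_one, one_smul] at h1
    have hy0 : y ≠ 0 := by
      rintro rfl
      simp at hyv
    have ht : τ 1 = 0 ∨ τ 1 = 1 := by
      have := (τ 1).2
      omega
    rcases ht with ht | ht
    · rw [ht] at h1
      have h2 : y ∈ D 0 := by
        have := (D 0).sub_mem h1 hv
        rwa [add_sub_cancel_right] at this
      exact hy0 (L.disj y h2 hy)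
    · rw [ht] at h1
      have h2 : v ∈ D 1 := by
        have := (D 1).sub_mem h1 hy
        rwa [add_sub_cancel_left] at this
      exact hv0 (L.disj v hv h2)
  · intro M h1 h2'
    by_cases hM : M ≤ decStab D
    · left
      exact le_antisymm (le_inf hM h2') h1
    · right
      refine le_antisymm h2' ?_
      obtain ⟨g, hgM, hg⟩ := SetLike.not_le_iff_exists.mp hM
      exact sp_lag L h2 hk hk₀ M h2'
        (fun p hp hp0 hp1 => h1 ⟨decStab_two_pres D p hp0 hp1, hp⟩)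
        (fun p hp hp0 hp1 => h1 ⟨decStab_two_swap D hk p hp0 hp1, hp⟩)
        g hgM (fun h3 => hg (decStab_two_pres D g h3.1 h3.2)) (fun h3 => hg (decStab_two_swap D hk g h3.1 h3.2))

end ctx

end CfsgLib.ClassGeo
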