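import Mathlib
import Cfsg.Agent.Lib.ClassGeo.SpOver
import Cfsg.Agent.Lib.ClassGeo.SpOrder
import Cfsg.Agent.Lib.ClassGeo.Bridge

/-! Stabilisers of nondegenerate subspaces in symplectic groups. -/

set_option autoImplicit false
set_option linter.unusedSimpArgs false
set_option linter.unusedVariables false
set_option linter.unusedSectionVars false

namespace CfsgLib.ClassGeo.SpNd

open Module Cfsg Matrix

section

variable {F : Type*} [Field F]

/-- Orthogonal decomposition into two standard symplectic spaces. -/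
theorem exists_decomp {V : Type*} [AddCommGroup V] [Module F V] [FiniteDimensional F V] {B : LinearMap.BilinForm F V}
    (hA : B.IsAlt) (hsep : ∀ u, (∀ v, B u v = 0) → u = 0) (W : Submodule F V)
    (hW : ∀ u ∈ W, (∀ v ∈ W, B u v = 0) → u = 0) (k l : ℕ) (hWk : finrank F W = 2 * k) (hV : finrank F V = 2 * (k + l)) :
    ∃ D : ((Fin k ⊕ Fin k → F) × (Fin l ⊕ Fin l → F)) ≃ₗ[F] V,
      (∀ a b, B (D a) (D b) = sympForm k F a.1 b.1 + sympForm l F a.2 b.2) ∧ ∀ p, D p ∈ W ↔ p.2 = 0 := by
  have hN := nondeg_of_sep_alt hA hsep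
  have hskew : ∀ {a b : V}, B a b = 0 → B b a = 0 := fun h => by
    rw [← hA.neg_eq, h, neg_zero]
  let W' := B.orthogonal W
  have hC : IsCompl W W' := by
    rw [LinearMap.BilinForm.isCompl_orthogonal_iff_disjoint hA.isRefl, disjoint_iff, eq_bot_iff]
    rintro x ⟨hx, hxP⟩
    have h1 : ∀ v ∈ W, B x v = 0 := fun v hv => hskew ((LinearMap.BilinForm.mem_orthogonal_iff.mp hxP) v hv)
    exact (hW x hx h1 : x = 0)
  have hW'r : finrank F W' = 2 * l := by
    have := Submodule.finrank_add_eq_of_isCompl hC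
    omega
  have hsW : ∀ u : W, (∀ v : W, (B.restrict W) u v = 0) → u = 0 := by
    rintro ⟨u, hu⟩ h2
    apply Subtype.ext
    exact hW u hu (fun v hv => h2 ⟨v, hv⟩)
  have hsW' : ∀ u : W', (∀ v : W', (B.restrict W') u v = 0) → u = 0 := by
    rintro ⟨u, hu⟩ h2
    apply Subtype.ext
    apply hsep
    intro v
    have hv : v ∈ W ⊔ W' := by
      rw [hC.sup_eq_top]
      trivial
    obtain ⟨a, ha, b, hb, rfl⟩ := Submodule.mem_sup.mp hv
    rw [map_add, hskew ((LinearMap.BilinForm.mem_orthogonal_iff.mp hu) a ha), zero_add]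
    exact h2 ⟨b, hb⟩
  have hAW : (B.restrict W).IsAlt := fun x => hA x
  have hAW' : (B.restrict W').IsAlt := fun x => hA x
  obtain ⟨m₁, P₁, hP₁⟩ := exists_symp_coords hAW hsW
  obtain ⟨m₂, P₂, hP₂⟩ := exists_symp_coords hAW' hsW'
  have h1 : m₁ = k := by
    have := LinearEquiv.finrank_eq P₁
    rw [finrank_symp] at this
    omega
  have h2 : m₂ = l := by
    have := LinearEquiv.finrank_eq P₂
    rw [finrank_symp] at this
    omega
  subst h1
  subst h2
  let D : ((Fin m₁ ⊕ Fin m₁ → F) × (Fin m₂ ⊕ Fin m₂ → F)) ≃ₗ[F] V :=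
    (P₁.prodCongr P₂).trans (Submodule.prodEquivOfIsCompl W W' hC)
  have hD : ∀ p, D p = (P₁ p.1 : V) + (P₂ p.2 : V) := fun p => rfl
  refine ⟨D, ?_, ?_⟩
  · intro a b
    rw [hD, hD, map_add, map_add, LinearMap.add_apply, LinearMap.add_apply]
    have c1 : B (P₁ a.1 : V) (P₂ b.2 : V) = 0 := (LinearMap.BilinForm.mem_orthogonal_iff.mp (P₂ b.2).2) _ (P₁ a.1).2
    have c2 : B (P₂ a.2 : V) (P₁ b.1 : V) = 0 := hskew ((LinearMap.BilinForm.mem_orthogonal_iff.mp (P₂ a.2).2) _ (P₁ b.1).2)
    have c3 : B (P₁ a.1 : V) (P₁ b.1 : V) = sympForm m₁ F a.1 b.1 := hP₁ a.1 b.1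
    have c4 : B (P₂ a.2 : V) (P₂ b.2 : V) = sympForm m₂ F a.2 b.2 := hP₂ a.2 b.2
    rw [c1, c2, c3, c4]
    ring
  · intro p
    rw [hD]
    constructor
    · intro h
      have h3 : (P₂ p.2 : V) ∈ W := by
        have := W.sub_mem h (P₁ p.1).2
        simpa using this
      have h4 : (P₂ p.2 : V) ∈ W ⊓ W' := ⟨h3, (P₂ p.2).2⟩
      rw [hC.inf_eq_bot, Submodule.mem_bot] at h4
      have h5 : P₂ p.2 = 0 := Subtype.ext h4
      simpa using h5
    · intro h
      rw [h]
      simp

/-- An isometry of an orthogonal sum that preserves the first summand splits. -/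
theorem exists_split {X Y : Type*} [AddCommGroup X] [Module F X] [AddCommGroup Y] [Module F Y]
    (fX : X → X → F) (fY : Y → Y → F)
    (haddX : ∀ a b c, fX a (b + c) = fX a b + fX a c) (hzX : ∀ a, fX a 0 = 0) (hzX' : ∀ a, fX 0 a = 0)
    (hzY : ∀ a, fY a 0 = 0) (hzY' : ∀ a, fY 0 a = 0)
    (hsX : ∀ u, (∀ x, fX x u = 0) → u = 0)
    (g : (X × Y) ≃ₗ[F] (X × Y)) (hg : ∀ a b, fX (g a).1 (g b).1 + fY (g a).2 (g b).2 = fX a.1 b.1 + fY a.2 b.2)
    (hst : ∀ p, p.2 = 0 ↔ (g p).2 = 0) :
    ∃ (a : X ≃ₗ[F] X) (b : Y ≃ₗ[F] Y), (∀ x x', fX (a x) (a x') = fX x x') ∧ (∀ y y', fY (b y) (b y') = fY y y') ∧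
      ∀ x y, g (x, y) = (a x, b y) := by
  have h1 : ∀ x, (g (x, 0)).2 = 0 := fun x => (hst (x, 0)).1 rfl
  have h1' : ∀ x, (g.symm (x, 0)).2 = 0 := fun x => by
    rw [hst]
    simp
  -- `g` preserves the second summand
  have h2 : ∀ y, (g (0, y)).1 = 0 := by
    intro y
    apply hsX
    intro x
    have h3 := hg (g.symm (x, 0)) (0, y)
    rw [LinearEquiv.apply_symm_apply] at h3
    simp only [h1' x, hzX, hzY', add_zero, zero_add] at h3
    exact h3
  have h2' : ∀ y, (g.symm (0, y)).1 = 0 := by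
    intro y
    apply hsX
    intro x
    have h3 := hg (x, 0) (g.symm (0, y))
    rw [LinearEquiv.apply_symm_apply] at h3
    simp only [h1 x, hzX, hzY', add_zero, zero_add] at h3
    exact h3.symm
  let a : X ≃ₗ[F] X :=
    { toFun := fun x => (g (x, 0)).1
      invFun := fun x => (g.symm (x, 0)).1
      map_add' := fun x x' => by
        have : ((x + x', 0) : X × Y) = (x, 0) + (x', 0) := by simp
        rw [this, map_add]; rfl
      map_smul' := fun c x => by
        have : ((c • x, 0) : X × Y) = c • (x, 0) := by simp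
        rw [this, map_smul]; rfl
      left_inv := fun x => by
        have : ((g (x, 0)).1, (0 : Y)) = g (x, 0) := by
          exact Prod.ext_iff.2 ⟨rfl, (h1 x).symm⟩
        show (g.symm ((g (x, 0)).1, 0)).1 = x
        rw [this, LinearEquiv.symm_apply_apply]
      right_inv := fun x => by
        have : ((g.symm (x, 0)).1, (0 : Y)) = g.symm (x, 0) := by
          exact Prod.ext_iff.2 ⟨rfl, (h1' x).symm⟩
        show (g ((g.symm (x, 0)).1, 0)).1 = x
        rw [this, LinearEquiv.apply_symm_apply] }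
  let b : Y ≃ₗ[F] Y :=
    { toFun := fun y => (g (0, y)).2
      invFun := fun y => (g.symm (0, y)).2
      map_add' := fun x x' => by
        have : (((0 : X), x + x') : X × Y) = (0, x) + (0, x') := by simp
        rw [this, map_add]; rfl
      map_smul' := fun c x => by
        have : (((0 : X), c • x) : X × Y) = c • (0, x) := by simp
        rw [this, map_smul]; rfl
      left_inv := fun x => by
        have : ((0 : X), (g (0, x)).2) = g (0, x) := by
          exact Prod.ext_iff.2 ⟨(h2 x).symm, rfl⟩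
        show (g.symm (0, (g (0, x)).2)).2 = x
        rw [this, LinearEquiv.symm_apply_apply]
      right_inv := fun x => by
        have : ((0 : X), (g.symm (0, x)).2) = g.symm (0, x) := by
          exact Prod.ext_iff.2 ⟨(h2' x).symm, rfl⟩
        show (g (0, (g.symm (0, x)).2)).2 = x
        rw [this, LinearEquiv.apply_symm_apply] }
  refine ⟨a, b, ?_, ?_, ?_⟩
  · intro x x'
    have h3 := hg (x, 0) (x', 0)
    simp only [h1, hzY, add_zero] at h3
    exact h3
  · intro y y'
    have h3 := hg (0, y) (0, y')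
    simp only [h2, hzX', hzX, zero_add] at h3
    exact h3
  · intro x y
    have : ((x, y) : X × Y) = (x, 0) + (0, y) := by simp
    rw [this, map_add]
    apply Prod.ext
    · show (g (x, 0)).1 + (g (0, y)).1 = (g (x, 0)).1
      rw [h2, add_zero]
    · show (g (x, 0)).2 + (g (0, y)).2 = (g (0, y)).2
      rw [h1, zero_add]

/-- The stabiliser in the isometry group. -/
def stabI (m : ℕ) (W : Submodule F (Fin m ⊕ Fin m → F)) : Subgroup (fIsom (F := F) (sympForm m F)) where
  carrier := {g | ∀ x, x ∈ W ↔ (g : (Fin m ⊕ Fin m → F) ≃ₗ[F] (Fin m ⊕ Fin m → F)) x ∈ W}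
  mul_mem' := by
    intro a b ha hb x
    rw [hb x, ha]
    rfl
  one_mem' := fun x => Iff.rfl
  inv_mem' := by
    intro a ha x
    have h1 := ha ((a : (Fin m ⊕ Fin m → F) ≃ₗ[F] (Fin m ⊕ Fin m → F)).symm x)
    rw [LinearEquiv.apply_symm_apply] at h1
    exact h1.symm

/-- From the matrix stabiliser to the linear one. -/
noncomputable def stabHom (m : ℕ) (W : Submodule F (Fin m ⊕ Fin m → F)) :
    ↥(stabilizing (spToMat m F) (W : Set (Fin m ⊕ Fin m → F))) →* stabI m W where
  toFun := fun A => ⟨spEquiv m A.1, fun x => by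
    rw [spEquiv_apply]
    exact A.2 x⟩
  map_one' := by
    apply Subtype.ext
    exact map_one (spEquiv m)
  map_mul' := fun A A' => by
    apply Subtype.ext
    exact map_mul (spEquiv m) A.1 A'.1

/-- From the matrix stabiliser to the linear one. -/
noncomputable def stabEquiv (m : ℕ) (W : Submodule F (Fin m ⊕ Fin m → F)) :
    ↥(stabilizing (spToMat m F) (W : Set (Fin m ⊕ Fin m → F))) ≃* stabI m W :=
  MulEquiv.ofBijective (stabHom m W)
    ⟨fun A A' h => by
      have h1 : spEquiv m A.1 = spEquiv m A'.1 := congrArg Subtype.val h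
      exact Subtype.ext ((spEquiv m).injective h1),
     fun g => by
      obtain ⟨g, hg⟩ := g
      obtain ⟨A, rfl⟩ := (spEquiv m).surjective g
      refine ⟨⟨A, fun x => ?_⟩, rfl⟩
      have := hg x
      rw [spEquiv_apply] at this
      exact this⟩

/-- The main isomorphism on the level of linear isometries. -/
theorem main_isom (m k l : ℕ) (hkl : k + l = m) (W : Submodule F (Fin m ⊕ Fin m → F)) (hWk : finrank F W = 2 * k)
    (hW : ∀ u ∈ W, (∀ v ∈ W, sympForm m F u v = 0) → u = 0) :
    Nonempty (stabI m W ≃* (fIsom (F := F) (sympForm k F) × fIsom (F := F) (sympForm l F))) := by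
  classical
  obtain ⟨D, hD1, hD2⟩ := exists_decomp (sympBilin_isAlt (F := F) m) (sympBilin_sep (F := F) m) W hW k l hWk (by rw [finrank_symp, hkl])
  let Θ : (fIsom (F := F) (sympForm k F) × fIsom (F := F) (sympForm l F)) →* stabI m W :=
    { toFun := fun p => ⟨⟨D.symm.trans ((p.1.1.prodCongr p.2.1).trans D), by
          intro u v
          have e : ∀ z, (D.symm.trans ((p.1.1.prodCongr p.2.1).trans D)) z = D (p.1.1 (D.symm z).1, p.2.1 (D.symm z).2) := fun z => rfl
          rw [e, e]
          have h3 := hD1 (p.1.1 (D.symm u).1, p.2.1 (D.symm u).2) (p.1.1 (D.symm v).1, p.2.1 (D.symm v).2)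
          have h4 := hD1 (D.symm u) (D.symm v)
          rw [LinearEquiv.apply_symm_apply, LinearEquiv.apply_symm_apply] at h4
          have h5 : sympForm m F (D (p.1.1 (D.symm u).1, p.2.1 (D.symm u).2)) (D (p.1.1 (D.symm v).1, p.2.1 (D.symm v).2)) = sympForm k F (p.1.1 (D.symm u).1) (p.1.1 (D.symm v).1) + sympForm l F (p.2.1 (D.symm u).2) (p.2.1 (D.symm v).2) := h3
          rw [h5, p.1.2, p.2.2]
          exact h4.symm⟩, by
          intro x
          show x ∈ W ↔ D (p.1.1 (D.symm x).1, p.2.1 (D.symm x).2) ∈ W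
          rw [hD2]
          have h3 := hD2 (D.symm x)
          rw [LinearEquiv.apply_symm_apply] at h3
          rw [h3]
          show (D.symm x).2 = 0 ↔ p.2.1 (D.symm x).2 = 0
          exact ⟨fun h => by rw [h, map_zero], fun h => by simpa using h⟩⟩
      map_one' := by
        apply Subtype.ext
        apply Subtype.ext
        apply LinearEquiv.ext
        intro x
        show D ((D.symm x).1, (D.symm x).2) = x
        simp
      map_mul' := by
        intro p p'
        apply Subtype.ext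
        apply Subtype.ext
        apply LinearEquiv.ext
        intro x
        show D (p.1.1 (p'.1.1 (D.symm x).1), p.2.1 (p'.2.1 (D.symm x).2)) = D (p.1.1 (D.symm (D (p'.1.1 (D.symm x).1, p'.2.1 (D.symm x).2))).1, p.2.1 (D.symm (D (p'.1.1 (D.symm x).1, p'.2.1 (D.symm x).2))).2)
        rw [LinearEquiv.symm_apply_apply] }
  have hΘ : ∀ p x, ((Θ p).1.1 : (Fin m ⊕ Fin m → F) ≃ₗ[F] (Fin m ⊕ Fin m → F)) x = D (p.1.1 (D.symm x).1, p.2.1 (D.symm x).2) := fun p x => rfl
  refine ⟨(MulEquiv.ofBijective Θ ⟨?_, ?_⟩).symm⟩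
  · intro p p' h
    have h1 : ∀ z : (Fin k ⊕ Fin k → F) × (Fin l ⊕ Fin l → F), (p.1.1 z.1, p.2.1 z.2) = (p'.1.1 z.1, p'.2.1 z.2) := by
      intro z
      have h2 : ((Θ p).1.1 : (Fin m ⊕ Fin m → F) ≃ₗ[F] (Fin m ⊕ Fin m → F)) (D z) = ((Θ p').1.1 : (Fin m ⊕ Fin m → F) ≃ₗ[F] (Fin m ⊕ Fin m → F)) (D z) := by rw [h]
      rw [hΘ, hΘ, LinearEquiv.symm_apply_apply] at h2
      exact D.injective h2
    apply Prod.ext
    · apply Subtype.ext
      apply LinearEquiv.ext
      intro x
      exact congrArg Prod.fst (h1 (x, 0))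
    · apply Subtype.ext
      apply LinearEquiv.ext
      intro y
      exact congrArg Prod.snd (h1 (0, y))
  · rintro ⟨⟨g, hg⟩, hgW⟩
    let g' : ((Fin k ⊕ Fin k → F) × (Fin l ⊕ Fin l → F)) ≃ₗ[F] ((Fin k ⊕ Fin k → F) × (Fin l ⊕ Fin l → F)) := D.trans (g.trans D.symm)
    have hg' : ∀ z, D (g' z) = g (D z) := fun z => by
      show D (D.symm (g (D z))) = _
      rw [LinearEquiv.apply_symm_apply]
    obtain ⟨a, b, ha, hb, hab⟩ := exists_split (F := F) (sympForm k F) (sympForm l F) symp_add_right symp_zero_right symp_zero_left symp_zero_right symp_zero_left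
      (fun u hu => by
        apply symp_nondeg' (F := F)
        intro v
        rw [symp_skew, hu v, neg_zero]) g'
      (fun a b => by
        rw [← show sympForm m F (D (g' a)) (D (g' b)) = _ from hD1 (g' a) (g' b), ← show sympForm m F (D a) (D b) = _ from hD1 a b, hg', hg']
        exact hg _ _)
      (fun p => by
        rw [← hD2, ← hD2, hg']
        exact hgW (D p))
    refine ⟨(⟨a, ha⟩, ⟨b, hb⟩), ?_⟩
    apply Subtype.ext
    apply Subtype.ext
    apply LinearEquiv.ext
    intro x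
    show D (a (D.symm x).1, b (D.symm x).2) = g x
    rw [← hab, Prod.mk.eta, hg', LinearEquiv.apply_symm_apply]

/-- The statement. -/
theorem main (m k : ℕ) (hk : k ≤ m) (W : Submodule F (Fin m ⊕ Fin m → F)) (hWk : finrank F W = 2 * k)
    (hW : ∀ u ∈ W, (∀ v ∈ W, sympForm m F u v = 0) → u = 0) :
    Nonempty (↥(stabilizing (spToMat m F) (W : Set (Fin m ⊕ Fin m → F))) ≃* Matrix.symplecticGroup (Fin k) F × Matrix.symplecticGroup (Fin (m - k)) F) := by
  obtain ⟨e⟩ := main_isom m k (m - k) (by omega) W hWk hW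
  exact ⟨(stabEquiv m W).trans (e.trans (MulEquiv.prodCongr (spEquiv k).symm (spEquiv (m - k)).symm))⟩

end

end CfsgLib.ClassGeo.SpNd
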