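import Mathlib
import Cfsg.Agent.Lib.ClassGeo.SpOver3

set_option autoImplicit false
set_option linter.unusedSimpArgs false
set_option linter.unusedVariables false
set_option linter.unusedSectionVars false

namespace CfsgLib.ClassGeo

open Module

section abstract

variable {F V : Type*} [Field F] [AddCommGroup V] [Module F V] {B : LinearMap.BilinForm F V}
variable [FiniteDimensional F V]

/-- Data of a quadratic form in characteristic two with polar form `B`. -/
structure QuadChar2 (B : LinearMap.BilinForm F V) (Q : V → F) : Prop where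
  char2 : (2 : F) = 0
  sq : ∀ a : F, ∃ b, b * b = a
  smul : ∀ (c : F) (v : V), Q (c • v) = c ^ 2 * Q v
  add : ∀ u v, Q (u + v) = Q u + Q v + B u v

variable {Q : V → F}

theorem QuadChar2.zero (h : QuadChar2 B Q) : Q 0 = 0 := by
  have := h.smul 0 0
  simpa using this

theorem QuadChar2.add_smul (h : QuadChar2 B Q) (x y : V) (a : F) : Q (x + a • y) = Q x + a ^ 2 * Q y + a * B x y := by
  rw [h.add, h.smul, map_smul, smul_eq_mul]

theorem QuadChar2.value_altT (h : QuadChar2 B Q) (hA : B.IsAlt) (v : V) (c : F) (x : V) :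
    Q (altT hA v c x) = Q x + (B x v) ^ 2 * (c ^ 2 * Q v + c) := by
  rw [altT_apply, h.add_smul]
  ring

/-- The bilinear form `B` is preserved by isometries of `Q`. -/
theorem QuadChar2.isom (h : QuadChar2 B Q) (g : V ≃ₗ[F] V) (hg : ∀ v, Q (g v) = Q v) :
    g ∈ epsIsomGroup (σ := RingHom.id F) B := by
  intro u v
  have h1 := h.add (g u) (g v)
  rw [← map_add, hg, hg, hg, h.add] at h1
  have : Q u + Q v + B u v - (Q u + Q v) = Q u + Q v + B (g u) (g v) - (Q u + Q v) := by rw [h1]
  simpa using this.symm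

/-- The quadratic form associated with `Q`. -/
noncomputable def QuadChar2.toForm (h : QuadChar2 B Q) : QuadraticForm F V where
  toFun := Q
  toFun_smul := fun a x => by
    rw [h.smul, smul_eq_mul, pow_two]
  exists_companion' := ⟨B, fun x y => h.add x y⟩

theorem QuadChar2.toForm_apply (h : QuadChar2 B Q) (v : V) : h.toForm v = Q v := rfl

theorem QuadChar2.polarBilin (h : QuadChar2 B Q) : QuadraticMap.polarBilin h.toForm = B := by
  apply LinearMap.ext₂
  intro u v
  change QuadraticMap.polar h.toForm u v = B u v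
  rw [QuadraticMap.polar, h.toForm_apply, h.toForm_apply, h.toForm_apply, h.add]
  ring

/-- Witt's lemma on nonzero vectors with the same value. -/
theorem QuadChar2.witt (h : QuadChar2 B Q) (hA : B.IsAlt) (hsep : ∀ u, (∀ v, B u v = 0) → u = 0) (x y : V) (hx : x ≠ 0) (hy : y ≠ 0)
    (hxy : Q x = Q y) : ∃ g : V ≃ₗ[F] V, (∀ v, Q (g v) = Q v) ∧ g x = y := by
  have hN : (QuadraticMap.polarBilin h.toForm).Nondegenerate := by
    rw [h.polarBilin]
    exact nondeg_of_sep_alt hA hsep
  obtain ⟨f, hfx, -⟩ := Submodule.exists_dual_map_eq_bot_of_notMem (p := (⊥ : Submodule F V)) (x := x)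
    (by simpa using hx) inferInstance
  let Φ : V →ₗ[F] V := ((f x)⁻¹ • f).smulRight y
  have hΦ : ∀ c : F, Φ (c • x) = c • y := by
    intro c
    simp [Φ, hfx]
  let X := Submodule.span F {x}
  let φ : X →ₗ[F] V := Φ ∘ₗ X.subtype
  have hinj : Function.Injective φ := by
    rw [← LinearMap.ker_eq_bot, LinearMap.ker_eq_bot']
    rintro ⟨z, hz⟩ h0
    obtain ⟨c, rfl⟩ := Submodule.mem_span_singleton.mp hz
    have h1 : c • y = 0 := by
      rw [← hΦ]
      exact h0
    have h2 : c = 0 := (smul_eq_zero.mp h1).resolve_right hy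
    apply Subtype.ext
    simp [h2]
  have hiso : ∀ u : X, h.toForm (φ u) = h.toForm u := by
    rintro ⟨z, hz⟩
    obtain ⟨c, rfl⟩ := Submodule.mem_span_singleton.mp hz
    change Q (Φ (c • x)) = Q (c • x)
    rw [hΦ, h.smul, h.smul, hxy]
  obtain ⟨g, hg, hgφ⟩ := quad_witt h.toForm hN X φ hinj hiso
  refine ⟨g, fun v => hg v, ?_⟩
  have h3 := hgφ ⟨x, Submodule.mem_span_singleton_self x⟩
  change g x = Φ x at h3
  have h4 := hΦ 1
  rw [one_smul, one_smul] at h4
  rw [h3, h4]

/-- The perp of a hyperbolic pair and its nondegeneracy. -/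
theorem QuadChar2.perp_value (h : QuadChar2 B Q) (hA : B.IsAlt) (hsep : ∀ u, (∀ v, B u v = 0) → u = 0)
    (hdim : 3 ≤ finrank F V) (x w : V) (hxw : B x w = 1) (t : F) :
    ∃ z, B z x = 0 ∧ B z w = 0 ∧ Q z = t := by
  have hskew : ∀ a b, B a b = - B b a := fun a b => (hA.neg_eq b a).symm
  have hwx : B w x = -1 := by rw [hskew, hxw]
  let Φ : V →ₗ[F] (Fin 2 → F) := LinearMap.pi (fun i => if i = 0 then B.flip x else B.flip w)
  have hker : LinearMap.ker Φ ≠ ⊥ := by
    intro h0
    have hinj : Function.Injective Φ := LinearMap.ker_eq_bot.mp h0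
    have := LinearMap.finrank_le_finrank_of_injective hinj
    simp at this
    omega
  obtain ⟨z₁, hz₁, hz₁0⟩ := Submodule.exists_mem_ne_zero_of_ne_bot hker
  have hz₁x : B z₁ x = 0 := by
    have := congrFun (LinearMap.mem_ker.mp hz₁) 0
    simpa [Φ] using this
  have hz₁w : B z₁ w = 0 := by
    have := congrFun (LinearMap.mem_ker.mp hz₁) 1
    simpa [Φ] using this
  by_cases hq : Q z₁ = 0
  · -- a partner of `z₁` in the perp
    obtain ⟨v, hv⟩ := exists_partner hsep z₁ hz₁0
    set z₂ := v - B v w • x + B v x • w with hz₂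
    have hz₂x : B z₂ x = 0 := by
      rw [hz₂]
      simp only [map_add, map_sub, map_smul, LinearMap.add_apply, LinearMap.sub_apply, LinearMap.smul_apply, smul_eq_mul,
        hA.self_eq_zero x, hwx]
      ring
    have hz₂w : B z₂ w = 0 := by
      rw [hz₂]
      simp only [map_add, map_sub, map_smul, LinearMap.add_apply, LinearMap.sub_apply, LinearMap.smul_apply, smul_eq_mul,
        hA.self_eq_zero w, hxw]
      ring
    have hz₁z₂ : B z₁ z₂ = 1 := by
      rw [hz₂]
      simp only [map_add, map_sub, map_smul, smul_eq_mul, hz₁x, hz₁w, hv]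
      ring
    refine ⟨(t - Q z₂) • z₁ + z₂, ?_, ?_, ?_⟩
    · simp only [map_add, map_smul, LinearMap.add_apply, LinearMap.smul_apply, smul_eq_mul, hz₁x, hz₂x]
      ring
    · simp only [map_add, map_smul, LinearMap.add_apply, LinearMap.smul_apply, smul_eq_mul, hz₁w, hz₂w]
      ring
    · rw [h.add, h.smul, hq]
      simp only [map_smul, LinearMap.smul_apply, smul_eq_mul, hz₁z₂]
      ring
  · obtain ⟨a, ha⟩ := h.sq (t / Q z₁)
    refine ⟨a • z₁, ?_, ?_, ?_⟩
    · simp [hz₁x]
    · simp [hz₁w]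
    · rw [h.smul, pow_two, ha]
      field_simp

/-- Vectors of value one span, in the sense that `x` is a difference of two of them. -/
theorem QuadChar2.exists_pair_one (h : QuadChar2 B Q) (hA : B.IsAlt) (hsep : ∀ u, (∀ v, B u v = 0) → u = 0)
    (hdim : 3 ≤ finrank F V) (x : V) (hx : x ≠ 0) : ∃ y, Q y = 1 ∧ Q (x + y) = 1 := by
  obtain ⟨w, hw⟩ := exists_partner hsep x hx
  obtain ⟨z, hz1, hz2, hz3⟩ := h.perp_value hA hsep hdim x w hw (1 - (Q x) ^ 2 * Q w)
  have hskew : ∀ a b, B a b = - B b a := fun a b => (hA.neg_eq b a).symm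
  have hy : Q (Q x • w + z) = 1 := by
    rw [h.add, h.smul, hz3]
    simp only [map_smul, LinearMap.smul_apply, smul_eq_mul]
    rw [hskew w z, hz2]
    ring
  refine ⟨Q x • w + z, hy, ?_⟩
  rw [h.add, hy]
  simp only [map_add, map_smul, smul_eq_mul, hw]
  rw [hskew x z, hz1]
  have h2 := h.char2
  linear_combination (Q x) * h2

/-- Main theorem: overgroups of the orthogonal group in the symplectic group, characteristic two. -/
theorem QuadChar2.overgroup (h : QuadChar2 B Q) (hA : B.IsAlt) (hsep : ∀ u, (∀ v, B u v = 0) → u = 0)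
    (hdim : 3 ≤ finrank F V) (H : Subgroup (V ≃ₗ[F] V)) (hle : ∀ g : V ≃ₗ[F] V, (∀ v, Q (g v) = Q v) → g ∈ H)
    (hH : H ≤ epsIsomGroup (σ := RingHom.id F) B) (hnot : ∃ g ∈ H, ¬ ∀ v, Q (g v) = Q v) :
    H = epsIsomGroup (σ := RingHom.id F) B := by
  have hskew : ∀ a b, B a b = - B b a := fun a b => (hA.neg_eq b a).symm
  have h2 := h.char2
  refine le_antisymm hH (isom_le_of_altS hA hsep ?_)
  -- the set of `v` with the unit transvection in `H`
  let S : Set V := {v | altT hA v 1 ∈ H}
  have hSconj : ∀ g ∈ H, ∀ v ∈ S, g v ∈ S := by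
    intro g hg v hv
    change altT hA (g v) 1 ∈ H
    rw [← altT_conj hA g (hH hg)]
    exact H.mul_mem (H.mul_mem hg hv) (H.inv_mem hg)
  have hSone : ∀ v, Q v = 1 → v ∈ S := by
    intro v hv
    apply hle
    intro x
    rw [h.value_altT hA, hv]
    have : (1 : F) ^ 2 * 1 + 1 = 2 := by ring
    rw [this, h2, mul_zero, add_zero]
  have hSwitt : ∀ u v, u ≠ 0 → v ≠ 0 → Q u = Q v → u ∈ S → v ∈ S := by
    intro u v hu hv huv hS
    obtain ⟨g, hg, e⟩ := h.witt hA hsep u v hu hv huv
    rw [← e]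
    exact hSconj g (hle g hg) u hS
  have hSstep : ∀ x y, x ∈ S → y ∈ S → altT hA y 1 x ∈ S := fun x y hx hy => hSconj _ hy x hx
  -- an element with a different value
  obtain ⟨g, hgH, hg⟩ := hnot
  have hgI := hH hgH
  have hadd : ∀ x y, Q (g (x + y)) - Q (x + y) = (Q (g x) - Q x) + (Q (g y) - Q y) := by
    intro x y
    rw [map_add, h.add, h.add, hgI x y]
    ring
  obtain ⟨v₀, hv₀, hgv₀⟩ : ∃ v, Q v = 1 ∧ Q (g v) ≠ 1 := by
    by_contra hcon
    push Not at hcon
    apply hg
    intro x
    by_cases hx : x = 0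
    · rw [hx, map_zero]
    obtain ⟨y, hy, hxy⟩ := h.exists_pair_one hA hsep hdim x hx
    have h3 := hadd x y
    rw [hxy, hcon _ hxy, hcon _ hy, hy] at h3
    have h4 : Q (g x) - Q x = 0 := by
      have : (1 : F) - 1 = Q (g x) - Q x + (1 - 1) := h3
      simpa using this.symm
    exact sub_eq_zero.mp h4
  have hv₀0 : v₀ ≠ 0 := by
    rintro rfl
    rw [h.zero] at hv₀
    exact zero_ne_one hv₀
  have hgv₀0 : g v₀ ≠ 0 := fun h0 => hv₀0 (g.injective (h0.trans (map_zero g).symm))
  have hgv₀S : g v₀ ∈ S := hSconj g hgH v₀ (hSone v₀ hv₀)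
  set c := Q (g v₀) with hc
  have hc1 : c + 1 ≠ 0 := by
    intro h3
    apply hgv₀
    linear_combination h3 - h2
  -- all nonzero vectors are in `S`
  have hall : ∀ u, u ≠ 0 → u ∈ S := by
    intro u hu
    by_cases ht : Q u = 1
    · exact hSone u ht
    set t := Q u with htdef
    obtain ⟨a, ha⟩ := h.sq ((t + 1) / (c + 1))
    have ht1 : t + 1 ≠ 0 := by
      intro h3
      apply ht
      linear_combination h3 - h2
    have ha0 : a ≠ 0 := by
      rintro rfl
      rw [mul_zero] at ha
      exact (div_ne_zero ht1 hc1) ha.symm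
    -- a vector of value one
    obtain ⟨x, hx⟩ : ∃ x, Q x = 1 := by
      have hnt : Nontrivial V := by
        apply Module.nontrivial_of_finrank_pos (R := F)
        omega
      obtain ⟨x₀, hx₀⟩ := exists_ne (0 : V)
      obtain ⟨y, hy, -⟩ := h.exists_pair_one hA hsep hdim x₀ hx₀
      exact ⟨y, hy⟩
    have hx0 : x ≠ 0 := by
      rintro rfl
      rw [h.zero] at hx
      exact zero_ne_one hx
    obtain ⟨w, hw⟩ := exists_partner hsep x hx0
    obtain ⟨z, hz1, hz2, hz3⟩ := h.perp_value hA hsep hdim x w hw (c - a ^ 2 * Q w)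
    set y := a • w + z with hy
    have hQy : Q y = c := by
      rw [hy, h.add, h.smul, hz3]
      simp only [map_smul, LinearMap.smul_apply, smul_eq_mul]
      rw [hskew w z, hz2]
      ring
    have hxy : B x y = a := by
      rw [hy]
      simp only [map_add, map_smul, smul_eq_mul, hw]
      rw [hskew x z, hz1]
      ring
    have hy0 : y ≠ 0 := by
      intro h0
      rw [h0, map_zero] at hxy
      exact ha0 hxy.symm
    have hyS : y ∈ S := hSwitt (g v₀) y hgv₀0 hy0 hQy.symm hgv₀S
    have hx'S := hSstep x y (hSone x hx) hyS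
    have hQ' : Q (altT hA y 1 x) = t := by
      rw [h.value_altT hA, hx, hxy, hQy]
      have e : a ^ 2 * (1 ^ 2 * c + 1) = t + 1 := by
        rw [pow_two, ha]
        field_simp
      rw [e]
      linear_combination h2
    have hx'0 : altT hA y 1 x ≠ 0 := by
      intro h0
      have h3 : B (altT hA y 1 x) y = B x y := by
        rw [altT_apply, map_add B x, LinearMap.add_apply, map_smul B, LinearMap.smul_apply, hA.self_eq_zero y]
        simp
      rw [h0, map_zero, LinearMap.zero_apply, hxy] at h3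
      exact ha0 h3.symm
    exact hSwitt _ u hx'0 hu (by rw [hQ']) hx'S
  intro v c
  by_cases hv : v = 0
  · rw [hv, altT_zero]
    exact H.one_mem
  by_cases hc0 : c = 0
  · rw [hc0, altT_zero']
    exact H.one_mem
  obtain ⟨b, hb⟩ := h.sq c
  have hb0 : b ≠ 0 := by
    rintro rfl
    rw [mul_zero] at hb
    exact hc0 hb.symm
  have := hall (b • v) (smul_ne_zero hb0 hv)
  change altT hA (b • v) 1 ∈ H at this
  rw [altT_smul, mul_one, hb] at this
  exact this

/-- A nonzero vector whose value is not one. -/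
theorem QuadChar2.exists_ne_one (h : QuadChar2 B Q) (hA : B.IsAlt) (hsep : ∀ u, (∀ v, B u v = 0) → u = 0)
    (hdim : 3 ≤ finrank F V) : ∃ v, v ≠ 0 ∧ Q v ≠ 1 := by
  have hskew : ∀ a b, B a b = - B b a := fun a b => (hA.neg_eq b a).symm
  have hnt : Nontrivial V := by
    apply Module.nontrivial_of_finrank_pos (R := F)
    omega
  obtain ⟨x, hx⟩ := exists_ne (0 : V)
  obtain ⟨w, hw⟩ := exists_partner hsep x hx
  by_cases hQx : Q x = 1
  · obtain ⟨z, hz1, hz2, hz3⟩ := h.perp_value hA hsep hdim x w hw 1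
    refine ⟨x + z, ?_, ?_⟩
    · intro h0
      have h1 : B (x + z) w = 1 := by
        rw [map_add, LinearMap.add_apply, hw, hz2, add_zero]
      rw [h0, map_zero, LinearMap.zero_apply] at h1
      exact zero_ne_one h1
    · rw [h.add, hQx, hz3, hskew x z, hz1]
      have h2 := h.char2
      intro h3
      apply zero_ne_one (α := F)
      linear_combination h3 - h2
  · exact ⟨x, hx, hQx⟩

/-- A transvection with `Q v ≠ 1` does not preserve `Q` up to a scalar. -/
theorem QuadChar2.altT_not_sim (h : QuadChar2 B Q) (hA : B.IsAlt) (hsep : ∀ u, (∀ v, B u v = 0) → u = 0)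
    (v : V) (hv : v ≠ 0) (hQ : Q v ≠ 1) : ¬ ∀ x, Q (altT hA v 1 x) = Q x := by
  intro hcon
  obtain ⟨u, hu⟩ := exists_partner hsep v hv
  have hskew : ∀ a b, B a b = - B b a := fun a b => (hA.neg_eq b a).symm
  have h1 := hcon u
  rw [h.value_altT hA, hskew u v, hu] at h1
  have h2 := h.char2
  apply hQ
  have h3 : (-1 : F) ^ 2 * ((1 : F) ^ 2 * Q v + 1) = 0 := by
    linear_combination h1
  have h4 : Q v + 1 = 0 := by
    simpa using h3
  linear_combination h4 - h2

end abstract

end CfsgLib.ClassGeo
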