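import Mathlib
import Cfsg.Agent.Lib.ClassGeo.SpOver3

set_option autoImplicit false
set_option linter.unusedSimpArgs false
set_option linter.unusedVariables false
set_option linter.unusedSectionVars false

namespace CfsgLib.ClassGeo

open Module

section abstract

variable {F V : Type*} [Field F] [AddCommGroup V] [Module F V] {B : LinearMap.BilinForm F V}
variable [FiniteDimensional F V]

/-- Transvection `x ↦ x + B(x,y) v`. -/
noncomputable def flagT (B : LinearMap.BilinForm F V) (v y : V) (h : B v y = 0) : V ≃ₗ[F] V :=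
  LinearEquiv.transvection (f := B.flip y) (v := v) (by simpa using h)

theorem flagT_apply (v y : V) (h : B v y = 0) (x : V) : flagT B v y h x = x + B x y • v := by
  rw [flagT, LinearEquiv.transvection.apply]
  simp

theorem flagT_conj (p : V ≃ₗ[F] V) (hp : p ∈ epsIsomGroup (σ := RingHom.id F) B) (v y : V) (h : B v y = 0)
    (h' : B (p v) (p y) = 0) : p * flagT B v y h * p⁻¹ = flagT B (p v) (p y) h' := by
  ext x
  change p (flagT B v y h (p.symm x)) = flagT B (p v) (p y) h' x
  rw [flagT_apply, flagT_apply, map_add, map_smul, LinearEquiv.apply_symm_apply]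
  have := hp (p.symm x) y
  rw [LinearEquiv.apply_symm_apply] at this
  rw [this]

/-- A non-similarity yields a transvection with independent centre and axis vector. -/
theorem exists_flag_of_not_sim (hA : B.IsAlt) (hsep : ∀ u, (∀ v, B u v = 0) → u = 0) (g : V ≃ₗ[F] V)
    (hg : ¬ ∃ a : F, a ≠ 0 ∧ ∀ u v, B (g u) (g v) = a * B u v) :
    ∃ v y, LinearIndependent F ![v, y] ∧ ∃ h : B v y = 0, g⁻¹ * altT hA (g v) 1 * g = flagT B v y h := by
  have hskew : ∀ a b, B a b = - B b a := fun a b => (hA.neg_eq b a).symm
  have hN : B.Nondegenerate := nondeg_of_sep_alt hA hsep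
  let B' : V →ₗ[F] Dual F V := B.compl₁₂ (g : V →ₗ[F] V) (g : V →ₗ[F] V)
  let A : V →ₗ[F] V := ((B.toDual hN).symm : Dual F V →ₗ[F] V) ∘ₗ B'
  have hAB : ∀ v x, B (A v) x = B (g v) (g x) := by
    intro v x
    exact LinearMap.BilinForm.apply_toDual_symm_apply (hB := hN) (B' v) x
  by_cases hall : ∀ v, ¬ LinearIndependent F ![v, A v]
  · exfalso
    apply hg
    by_cases hV : Nontrivial V
    · obtain ⟨a, ha⟩ := A.exists_eq_smul_id_of_forall_notLinearIndependent hall
      have hA' : ∀ v, A v = a • v := fun v => by rw [ha]; rfl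
      refine ⟨a, ?_, ?_⟩
      · rintro rfl
        obtain ⟨x, hx⟩ := exists_ne (0 : V)
        obtain ⟨w, hw⟩ := exists_partner hsep (g x) (fun h0 => hx (g.injective (h0.trans (map_zero g).symm)))
        have h1 := hAB x (g.symm w)
        rw [hA', zero_smul, map_zero, LinearMap.zero_apply, LinearEquiv.apply_symm_apply, hw] at h1
        exact zero_ne_one h1
      · intro u v
        rw [← hAB, hA']
        simp
    · rw [not_nontrivial_iff_subsingleton] at hV
      refine ⟨1, one_ne_zero, ?_⟩
      intro u v
      rw [Subsingleton.elim u 0]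
      simp
  · push Not at hall
    obtain ⟨v, hv⟩ := hall
    have hvy : B v (A v) = 0 := by
      rw [hskew, hAB, hA.self_eq_zero (g v), neg_zero]
    refine ⟨v, A v, hv, hvy, ?_⟩
    ext x
    change g.symm (altT hA (g v) 1 (g x)) = flagT B v (A v) hvy x
    rw [altT_apply, flagT_apply, map_add, map_smul, LinearEquiv.symm_apply_apply, LinearEquiv.symm_apply_apply]
    congr 2
    rw [one_mul, hskew x (A v), hAB, hskew]

/-- Overgroups of `Sp` containing a non-similarity contain all transvections. -/
theorem csp_overgroup (hA : B.IsAlt) (hsep : ∀ u, (∀ v, B u v = 0) → u = 0) (H : Subgroup (V ≃ₗ[F] V))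
    (hSp : epsIsomGroup (σ := RingHom.id F) B ≤ H) (g : V ≃ₗ[F] V) (hgH : g ∈ H)
    (hg : ¬ ∃ a : F, a ≠ 0 ∧ ∀ u v, B (g u) (g v) = a * B u v) (f : Dual F V) (v : V) (h : f v = 0) :
    LinearEquiv.transvection h ∈ H := by
  have hskew : ∀ a b, B a b = - B b a := fun a b => (hA.neg_eq b a).symm
  obtain ⟨v₀, y₀, hli₀, hv₀, hτ⟩ := exists_flag_of_not_sim hA hsep g hg
  have hτH : flagT B v₀ y₀ hv₀ ∈ H := by
    rw [← hτ]
    exact H.mul_mem (H.mul_mem (H.inv_mem hgH) (hSp (altT_mem hA _ _))) hgH
  have hflag : ∀ v' y' (hli' : LinearIndependent F ![v', y']) (h' : B v' y' = 0), flagT B v' y' h' ∈ H := by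
    intro v' y' hli' h'
    obtain ⟨p, hp, hpv, hpy⟩ := alt_witt_li_pair hA hsep v₀ y₀ v' y' hli₀ hli' (by rw [hv₀, h'])
    have h2 : B (p v₀) (p y₀) = 0 := by rw [hpv, hpy, h']
    have h3 := flagT_conj p hp v₀ y₀ hv₀ h2
    have h4 : flagT B (p v₀) (p y₀) h2 ∈ H := by
      rw [← h3]
      exact H.mul_mem (H.mul_mem (hSp hp) hτH) (H.inv_mem (hSp hp))
    convert h4 using 2
    · exact hpv.symm
    · exact hpy.symm
  -- represent `f`
  obtain ⟨w, hw⟩ := (altEps hA hsep).rep f
  set y := - w with hy
  have hfy : ∀ x, f x = B x y := by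
    intro x
    rw [hy, map_neg, ← hw, hskew x w, neg_neg]
  have hvy : B v y = 0 := by rw [← hfy, h]
  have hEq : LinearEquiv.transvection h = flagT B v y hvy := by
    ext x
    rw [LinearEquiv.transvection.apply, flagT_apply, hfy]
  rw [hEq]
  by_cases hli : LinearIndependent F ![v, y]
  · exact hflag v y hli hvy
  · by_cases hv0 : v = 0
    · have : flagT B v y hvy = 1 := by
        ext x
        rw [flagT_apply, hv0]
        simp
      rw [this]
      exact H.one_mem
    · rw [LinearIndependent.pair_iff] at hli
      push Not at hli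
      obtain ⟨s, t, hst, hne⟩ := hli
      have ht : t ≠ 0 := by
        rintro rfl
        rw [zero_smul, add_zero] at hst
        have hs := (smul_eq_zero.mp hst).resolve_right hv0
        exact hne hs rfl
      have hy' : y = (- s / t) • v := by
        have : t • y = - s • v := by
          rw [neg_smul]
          exact eq_neg_of_add_eq_zero_right hst
        calc y = t⁻¹ • (t • y) := by rw [smul_smul, inv_mul_cancel₀ ht, one_smul]
          _ = (- s / t) • v := by
            rw [this, smul_smul]
            congr 1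
            field_simp
      have : flagT B v y hvy = altT hA v (- s / t) := by
        ext x
        rw [flagT_apply, altT_apply, hy', map_smul, smul_eq_mul]
      rw [this]
      exact hSp (altT_mem hA _ _)

/-- A transvection which is not a similarity. -/
theorem exists_tv_not_sim (hA : B.IsAlt) (hsep : ∀ u, (∀ v, B u v = 0) → u = 0) (hdim : 3 ≤ finrank F V) :
    ∃ (f : Dual F V) (v : V) (h : f v = 0), ¬ ∃ a : F, a ≠ 0 ∧ ∀ u x, B (LinearEquiv.transvection h u) (LinearEquiv.transvection h x) = a * B u x := by
  have hskew : ∀ a b, B a b = - B b a := fun a b => (hA.neg_eq b a).symm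
  have hnt : Nontrivial V := by
    apply Module.nontrivial_of_finrank_pos (R := F)
    omega
  obtain ⟨w, hw⟩ := exists_ne (0 : V)
  obtain ⟨z, hz⟩ := exists_partner hsep w hw
  have h1 := finrank_inf_ker_add_one ⊤ (B w) z trivial (by rw [hz]; exact one_ne_zero)
  rw [finrank_top] at h1
  have h4 : ¬ (⊤ ⊓ LinearMap.ker (B w)) ≤ Submodule.span F {w} := by
    intro h5
    have h6 := Submodule.finrank_mono h5
    rw [finrank_span_singleton hw] at h6
    omega
  obtain ⟨y, hy, hyw⟩ := SetLike.not_le_iff_exists.mp h4
  have hwy : B w y = 0 := hy.2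
  have hli : LinearIndependent F ![w, y] := by
    rw [LinearIndependent.pair_iff]
    intro s t hst
    have ht : t = 0 := by
      by_contra ht
      apply hyw
      have : y = (- s / t) • w := by
        have h7 : t • y = - s • w := by
          rw [neg_smul]
          exact eq_neg_of_add_eq_zero_right hst
        calc y = t⁻¹ • (t • y) := by rw [smul_smul, inv_mul_cancel₀ ht, one_smul]
          _ = (- s / t) • w := by
            rw [h7, smul_smul]
            congr 1
            field_simp
      rw [this]
      exact Submodule.smul_mem _ _ (Submodule.mem_span_singleton_self w)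
    rw [ht, zero_smul, add_zero] at hst
    exact ⟨(smul_eq_zero.mp hst).resolve_right hw, ht⟩
  have hwy' : (B.flip y) w = 0 := by simpa using hwy
  refine ⟨B.flip y, w, hwy', ?_⟩
  rintro ⟨a, ha, hall⟩
  have hT : ∀ x, LinearEquiv.transvection (f := B.flip y) (v := w) hwy' x = x + B x y • w := by
    intro x
    rw [LinearEquiv.transvection.apply]
    simp
  simp only [hT] at hall
  -- `a = 1`
  obtain ⟨x₁, hx₁⟩ := exists_partner hsep w hw
  have h2 := hall x₁ w
  simp only [hwy, zero_smul, add_zero, map_add, map_smul, LinearMap.add_apply, LinearMap.smul_apply, smul_eq_mul,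
    hA.self_eq_zero w, mul_zero] at h2
  have hx₁w : B x₁ w = -1 := by rw [hskew, hx₁]
  rw [hx₁w] at h2
  have ha1 : a = 1 := by
    have : -a = -1 := by linear_combination -h2
    exact neg_injective this
  subst ha1
  obtain ⟨ξ, η, h3, h4', h5, h6⟩ := exists_dual_pair hli
  obtain ⟨u, hu⟩ := (altEps hA hsep).rep η
  have huw : B u w = 0 := by rw [hu, h5]
  have huy : B u y = 1 := by rw [hu, h6]
  have h7 := hall x₁ u
  simp only [map_add, map_smul, LinearMap.add_apply, LinearMap.smul_apply, smul_eq_mul, hA.self_eq_zero w, hx₁w,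
    huy] at h7
  have hwu : B w u = 0 := by rw [hskew, huw, neg_zero]
  rw [hwu] at h7
  apply zero_ne_one (α := F)
  linear_combination h7

end abstract

section matrix

variable {F : Type*} [Field F] {ι : Type} [Fintype ι] [DecidableEq ι]

/-- The bilinear form of a symplectic form on `ι → F`. -/
def symBilin {f : (ι → F) → (ι → F) → F} (hf : Cfsg.Geo.IsSymplecticForm f) : LinearMap.BilinForm F (ι → F) :=
  LinearMap.mk₂ F f hf.bilinear.add_left hf.bilinear.smul_left hf.bilinear.add_right hf.bilinear.smul_right

theorem symBilin_apply {f : (ι → F) → (ι → F) → F} (hf : Cfsg.Geo.IsSymplecticForm f) (u v : ι → F) :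
    symBilin hf u v = f u v := rfl

theorem symBilin_isAlt {f : (ι → F) → (ι → F) → F} (hf : Cfsg.Geo.IsSymplecticForm f) : (symBilin hf).IsAlt :=
  fun v => hf.alternating v

theorem symBilin_sep {f : (ι → F) → (ι → F) → F} (hf : Cfsg.Geo.IsSymplecticForm f) (u : ι → F)
    (h : ∀ v, symBilin hf u v = 0) : u = 0 := by
  by_contra hu
  obtain ⟨x, hx⟩ := (hf.nondegenerate u hu).2
  exact hx (h x)

/-- The similarity group of a symplectic form is maximal in the special linear group. -/
theorem csp_isMaximalIn {f : (ι → F) → (ι → F) → F} (hf : Cfsg.Geo.IsSymplecticForm f) (hdim : 3 ≤ Fintype.card ι) :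
    Cfsg.Geo.IsMaximalIn (Cfsg.Geo.specialLinear ι F) (Cfsg.Geo.similarityGroup f ⊓ Cfsg.Geo.specialLinear ι F) := by
  have hA := symBilin_isAlt hf
  have hsep := symBilin_sep hf
  have hdim' : 3 ≤ finrank F (ι → F) := by
    rw [finrank_fintype_fun_eq_card]
    exact hdim
  have hnt : Nontrivial ι := Fintype.one_lt_card_iff_nontrivial.mp (by omega)
  have sim_iff : ∀ g : GL ι F, g ∈ Cfsg.Geo.similarityGroup f ↔
      ∃ a : F, a ≠ 0 ∧ ∀ u v, symBilin hf (glLin g u) (glLin g v) = a * symBilin hf u v := by
    intro g
    constructor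
    · rintro ⟨c, hc⟩
      exact ⟨c, c.ne_zero, fun u v => hc u v⟩
    · rintro ⟨a, ha, hall⟩
      exact ⟨Units.mk0 a ha, fun u v => hall u v⟩
  constructor
  · refine lt_of_le_of_ne inf_le_right ?_
    intro heq
    obtain ⟨φ, v, hφ, hnot⟩ := exists_tv_not_sim hA hsep hdim'
    have hmem : glLin.symm (LinearEquiv.transvection hφ) ∈ Cfsg.Geo.specialLinear ι F := by
      change Matrix.GeneralLinearGroup.det _ = 1
      apply Units.ext
      exact tv_det φ v hφ
    rw [← heq] at hmem
    apply hnot
    have := (sim_iff _).mp hmem.1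
    simpa using this
  · intro M h1 h2
    by_cases hM : M ≤ Cfsg.Geo.similarityGroup f
    · left
      exact le_antisymm (le_inf hM h2) h1
    · right
      refine le_antisymm h2 ?_
      obtain ⟨g, hgM, hg⟩ := SetLike.not_le_iff_exists.mp hM
      have hSp : epsIsomGroup (σ := RingHom.id F) (symBilin hf) ≤ M.map (glLin (ι := ι) (F := F)).toMonoidHom := by
        intro p hp
        refine ⟨glLin.symm p, h1 ⟨?_, ?_⟩, by simp⟩
        · refine (sim_iff _).mpr ⟨1, one_ne_zero, fun u v => ?_⟩
          simp only [MulEquiv.apply_symm_apply, one_mul]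
          exact hp u v
        · change Matrix.GeneralLinearGroup.det _ = 1
          apply Units.ext
          change ((glLin.symm p : GL ι F) : Matrix ι ι F).det = 1
          rw [det_glLin_symm]
          exact isom_det_one hA hsep p hp
      have hτ : ∀ (φ : Dual F (ι → F)) (v : ι → F) (h : φ v = 0), glLin.symm (LinearEquiv.transvection h) ∈ M := by
        intro φ v h
        have h3 := csp_overgroup hA hsep _ hSp (glLin g) ⟨g, hgM, rfl⟩ (fun h4 => hg ((sim_iff g).mpr h4)) φ v h
        obtain ⟨a, ha, ha'⟩ := h3
        have : glLin.symm (LinearEquiv.transvection h) = a := by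
          rw [MulEquiv.symm_apply_eq]
          exact ha'.symm
        rw [this]
        exact ha
      intro x hx
      refine mem_of_det_one M hτ x ?_
      have : Matrix.GeneralLinearGroup.det x = 1 := hx
      exact congrArg Units.val this

end matrix

end CfsgLib.ClassGeo
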