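import Mathlib
import Cfsg.Agent.Lib.ClassGeo.SpOver
import Cfsg.Agent.Lib.ClassGeo.SpOrder
import Cfsg.Agent.Lib.ClassGeo.Bridge
import Cfsg.Agent.Lib.ClassGeo.UParab

/-! The normaliser of the diagonal torus in the symplectic group. -/

set_option autoImplicit false
set_option linter.unusedSimpArgs false
set_option linter.unusedVariables false
set_option linter.unusedSectionVars false

namespace CfsgLib.ClassGeo.SpTorus

open Module Cfsg Matrix Equiv

section

variable {F : Type*} [Field F] {m : ℕ}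

local notation "Ω" => (Fin m ⊕ Fin m)

/-- The pairing involution. -/
abbrev tau (ω : Fin m ⊕ Fin m) : Fin m ⊕ Fin m := Sum.swap ω

/-- The signs. -/
def sgn (ω : Fin m ⊕ Fin m) : Fˣ := Sum.elim (fun _ => -1) (fun _ => 1) ω

theorem sgn_tau (ω : Fin m ⊕ Fin m) : sgn (F := F) (tau ω) = - sgn ω := by
  rcases ω with i | i <;> simp [sgn, tau]

theorem form_eq (u v : Fin m ⊕ Fin m → F) :
    sympForm m F u v = ∑ ω, (sgn ω : Fˣ).1 * u ω * v (tau ω) := by
  rw [symp_apply, Fintype.sum_sum_type, Finset.sum_sub_distrib, sub_eq_neg_add, ← Finset.sum_neg_distrib]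
  congr 1
  · apply Finset.sum_congr rfl
    intro i _
    simp [sgn, tau]
  · apply Finset.sum_congr rfl
    intro i _
    simp [sgn, tau]

/-- Basic vectors. -/
abbrev ee (ω : Fin m ⊕ Fin m) : Fin m ⊕ Fin m → F := Pi.single ω 1

theorem form_ee (a b : Fin m ⊕ Fin m) :
    sympForm m F (ee a) (ee b) = if tau a = b then (sgn a : Fˣ).1 else 0 := by
  classical
  rw [form_eq, Finset.sum_eq_single a]
  · by_cases h : tau a = b
    · simp [h, ee]
    · simp [h, ee, Pi.single_apply]
  · intro c _ hc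
    simp [ee, Pi.single_apply, hc]
  · simp

/-- The monomial matrix. -/
def monoM (π : Perm (Fin m ⊕ Fin m)) (c : (Fin m ⊕ Fin m) → Fˣ) : Matrix (Fin m ⊕ Fin m) (Fin m ⊕ Fin m) F :=
  fun x y => if x = π y then (c y : Fˣ).1 else 0

theorem monoM_mulVec (π : Perm (Fin m ⊕ Fin m)) (c : (Fin m ⊕ Fin m) → Fˣ) (v : Fin m ⊕ Fin m → F) (x : Fin m ⊕ Fin m) :
    (monoM π c *ᵥ v) x = (c (π.symm x) : Fˣ).1 * v (π.symm x) := by
  classical
  rw [Matrix.mulVec, dotProduct, Finset.sum_eq_single (π.symm x)]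
  · simp [monoM]
  · intro b _ hb
    have : x ≠ π b := by
      rintro rfl
      simp at hb
    simp [monoM, this]
  · simp

theorem monoM_ee (π : Perm (Fin m ⊕ Fin m)) (c : (Fin m ⊕ Fin m) → Fˣ) (y : Fin m ⊕ Fin m) :
    monoM π c *ᵥ ee y = (c y : Fˣ).1 • ee (π y) := by
  classical
  funext x
  rw [monoM_mulVec]
  by_cases h : x = π y
  · subst h
    simp [ee]
  · have h2 : π.symm x ≠ y := fun h3 => h (by rw [← h3]; simp)
    simp [ee, Pi.single_apply, h, h2]

/-- Admissible data. -/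
def IsData (π : Perm (Fin m ⊕ Fin m)) (c : (Fin m ⊕ Fin m) → Fˣ) : Prop :=
  (∀ ω, π (tau ω) = tau (π ω)) ∧ ∀ ω, sgn (π ω) * c ω * c (tau ω) = sgn ω

theorem monoM_mem {π : Perm (Fin m ⊕ Fin m)} {c : (Fin m ⊕ Fin m) → Fˣ} (h : IsData π c) :
    monoM π c ∈ symplecticGroup (Fin m) F := by
  rw [mem_sp_iff]
  intro u v
  rw [form_eq, form_eq, ← Equiv.sum_comp π]
  apply Finset.sum_congr rfl
  intro y _
  rw [monoM_mulVec, monoM_mulVec, Equiv.symm_apply_apply, ← h.1, Equiv.symm_apply_apply]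
  have h2 := congrArg Units.val (h.2 y)
  simp only [Units.val_mul] at h2
  rw [← h2]
  ring

/-- Monomiality. -/
def IsMono (A : Matrix (Fin m ⊕ Fin m) (Fin m ⊕ Fin m) F) : Prop :=
  ∀ ω, ∃ (ω' : Fin m ⊕ Fin m) (c : Fˣ), A *ᵥ ee ω = (c : Fˣ).1 • ee ω'

theorem inv_mul_sp (A : symplecticGroup (Fin m) F) : (A⁻¹).1 * A.1 = 1 :=
  congrArg Subtype.val (inv_mul_cancel A)

theorem mul_inv_sp (A : symplecticGroup (Fin m) F) : A.1 * (A⁻¹).1 = 1 :=
  congrArg Subtype.val (mul_inv_cancel A)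

theorem exists_data_of_mono (A : symplecticGroup (Fin m) F) (hA : IsMono A.1) :
    ∃ (π : Perm (Fin m ⊕ Fin m)) (c : (Fin m ⊕ Fin m) → Fˣ), IsData π c ∧ A.1 = monoM π c := by
  classical
  choose p c hc using hA
  have hinv : ∀ v, (A⁻¹).1 *ᵥ (A.1 *ᵥ v) = v := by
    intro v
    rw [Matrix.mulVec_mulVec, inv_mul_sp, Matrix.one_mulVec]
  have hinj : Function.Injective p := by
    intro a b hab
    have h1 := hinv (ee a)
    have h2 := hinv (ee b)
    rw [hc, Matrix.mulVec_smul] at h1 h2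
    rw [hab] at h1
    by_contra hne
    have h3 : ((c a : Fˣ).1 : F) • ((c b : Fˣ).1 : F)⁻¹ • (ee b : Fin m ⊕ Fin m → F) = ee a := by
      rw [← h2, smul_smul, smul_smul, ← h1]
      simp [mul_assoc]
    have h4 := congrFun h3 a
    have h5 : ((ee b : Fin m ⊕ Fin m → F) a) = 0 := by
      simp [ee, Pi.single_apply, hne]
    simp [h5, ee] at h4
  let π : Perm (Fin m ⊕ Fin m) := Equiv.ofBijective p (Finite.injective_iff_bijective.mp hinj)
  have hπ : ∀ y, π y = p y := fun y => rfl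
  have hEq : A.1 = monoM π c := by
    apply matrix_eq_of_mulVec
    intro x
    have e : ∀ x : Fin m ⊕ Fin m → F, x = ∑ y, x y • ee y := by
      intro x
      funext a
      rw [Finset.sum_apply, Finset.sum_eq_single a]
      · simp [ee]
      · intro b _ hb
        simp [ee, Pi.single_apply, hb.symm]
      · simp
    rw [e x, Matrix.mulVec_sum, Matrix.mulVec_sum]
    apply Finset.sum_congr rfl
    intro y _
    rw [Matrix.mulVec_smul, Matrix.mulVec_smul, hc, monoM_ee, hπ]
  refine ⟨π, c, ?_, hEq⟩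
  have hform : ∀ a b, sympForm m F (A.1 *ᵥ ee a) (A.1 *ᵥ ee b) = sympForm m F (ee a) (ee b) := fun a b => (mem_sp_iff _).1 A.2 _ _
  have key : ∀ ω, (if tau (π ω) = π (tau ω) then (sgn (π ω) : Fˣ).1 else 0) * ((c ω).1 * (c (tau ω)).1) = (sgn ω : Fˣ).1 := by
    intro ω
    have h1 := hform ω (tau ω)
    rw [hc, hc, ← hπ, ← hπ, form_ee, symp_smul_left, symp_smul_right, form_ee] at h1
    simp only [tau, Sum.swap_swap, if_true] at h1
    rw [← h1]
    simp only [tau]
    ring
  constructor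
  · intro ω
    by_contra hne
    have h1 := key ω
    rw [if_neg (fun h => hne h.symm), zero_mul] at h1
    exact Units.ne_zero (sgn (F := F) ω) h1.symm
  · intro ω
    have h1 := key ω
    by_cases h2 : tau (π ω) = π (tau ω)
    · rw [if_pos h2] at h1
      apply Units.ext
      simp only [Units.val_mul]
      rw [mul_assoc, h1]
    · rw [if_neg h2, zero_mul] at h1
      exact absurd h1.symm (Units.ne_zero (sgn (F := F) ω))

/-- Monomial symplectic matrices come with inverses of the same kind. -/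
theorem isMono_inv (A : symplecticGroup (Fin m) F) (hA : IsMono A.1) : IsMono (A⁻¹).1 := by
  classical
  obtain ⟨π, c, -, hE⟩ := exists_data_of_mono A hA
  intro ω
  refine ⟨π.symm ω, (c (π.symm ω))⁻¹, ?_⟩
  have h1 : A.1 *ᵥ ee (π.symm ω) = (c (π.symm ω) : Fˣ).1 • (ee ω : Fin m ⊕ Fin m → F) := by
    rw [hE, monoM_ee]
    simp
  have h2 : (A⁻¹).1 *ᵥ (A.1 *ᵥ ee (π.symm ω)) = ee (π.symm ω) := by
    rw [Matrix.mulVec_mulVec, inv_mul_sp, Matrix.one_mulVec]
  rw [h1, Matrix.mulVec_smul] at h2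
  rw [← h2, smul_smul]
  simp

/-- The torus. -/
def TT (m : ℕ) (F : Type*) [Field F] : Subgroup (symplecticGroup (Fin m) F) :=
  ⨅ i : Fin m ⊕ Fin m, stabilizing (spToMat m F) ((Submodule.span F {(Pi.single i (1 : F) : Fin m ⊕ Fin m → F)} : Submodule F (Fin m ⊕ Fin m → F)) : Set (Fin m ⊕ Fin m → F))

theorem mem_TT (A : symplecticGroup (Fin m) F) : A ∈ TT m F ↔ ∀ ω, ∃ c : F, A.1 *ᵥ ee ω = c • ee ω := by
  rw [TT, Subgroup.mem_iInf]
  refine forall_congr' (fun ω => ?_)
  constructor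
  · intro h
    have h1 : A.1 *ᵥ ee ω ∈ Submodule.span F {(ee ω : Fin m ⊕ Fin m → F)} :=
      (h (ee ω)).1 (Submodule.mem_span_singleton_self _)
    obtain ⟨c, hc⟩ := Submodule.mem_span_singleton.mp h1
    exact ⟨c, hc.symm⟩
  · rintro ⟨c, hc⟩
    intro x
    have h2 := iff_of_stab ((spEquiv m A : fIsom (F := F) (sympForm m F)) : (Fin m ⊕ Fin m → F) ≃ₗ[F] (Fin m ⊕ Fin m → F)) (Submodule.span F {(ee ω : Fin m ⊕ Fin m → F)}) (by
      intro y hy
      obtain ⟨a, rfl⟩ := Submodule.mem_span_singleton.mp hy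
      rw [map_smul, spEquiv_apply, hc, smul_smul]
      exact Submodule.smul_mem _ _ (Submodule.mem_span_singleton_self _)) x
    rw [spEquiv_apply] at h2
    exact h2

/-- The special torus elements. -/
def tc (i : Fin m) (a : Fˣ) (ω : Fin m ⊕ Fin m) : Fˣ :=
  Sum.elim (fun j => if j = i then a else 1) (fun j => if j = i then a⁻¹ else 1) ω

theorem tc_data (i : Fin m) (a : Fˣ) : IsData (1 : Perm (Fin m ⊕ Fin m)) (tc (F := F) i a) := by
  refine ⟨fun ω => rfl, fun ω => ?_⟩
  rcases ω with j | j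
  · by_cases h : j = i <;> simp [tc, tau, h]
  · by_cases h : j = i <;> simp [tc, tau, h]

theorem tc_sep (a : Fˣ) (ha : a ^ 2 ≠ 1) (ω₁ ω₂ : Fin m ⊕ Fin m) (hne : ω₁ ≠ ω₂) :
    ∃ i, tc (F := F) i a ω₁ ≠ tc i a ω₂ := by
  have h1 : a ≠ 1 := by
    rintro rfl
    simp at ha
  have h2 : a⁻¹ ≠ 1 := by
    intro h
    apply h1
    simpa using h
  have h3 : a ≠ a⁻¹ := by
    intro h
    apply ha
    rw [pow_two]
    nth_rw 1 [h]
    simp
  rcases ω₁ with i | i
  · refine ⟨i, ?_⟩
    rcases ω₂ with j | j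
    · have : j ≠ i := fun h => hne (by rw [h])
      simp [tc, this, h1]
    · by_cases h : j = i
      · simp [tc, h, h3]
      · simp [tc, h, h1]
  · refine ⟨i, ?_⟩
    rcases ω₂ with j | j
    · by_cases h : j = i
      · simp [tc, h, h3.symm]
      · simp [tc, h, h2]
    · have : j ≠ i := fun h => hne (by rw [h])
      simp [tc, this, h2]

theorem mono_of_normalizer (a : Fˣ) (ha : a ^ 2 ≠ 1) (A : symplecticGroup (Fin m) F)
    (hA : A ∈ Subgroup.normalizer (TT m F : Set (symplecticGroup (Fin m) F))) : IsMono A.1 := by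
  classical
  intro ω
  have hinvN : A⁻¹ ∈ Subgroup.normalizer (TT m F : Set (symplecticGroup (Fin m) F)) := inv_mem hA
  set v := A.1 *ᵥ ee ω with hv
  have hv0 : v ≠ 0 := by
    intro h
    have h1 : (A⁻¹).1 *ᵥ (A.1 *ᵥ ee ω) = ee ω := by
      rw [Matrix.mulVec_mulVec, inv_mul_sp, Matrix.one_mulVec]
    rw [← hv, h, Matrix.mulVec_zero] at h1
    have h2 := congrFun h1 ω
    simp [ee] at h2
  obtain ⟨x₀, hx₀⟩ := Function.ne_iff.mp hv0
  -- no other coordinate is nonzero
  have hother : ∀ x, x ≠ x₀ → v x = 0 := by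
    intro x hx
    by_contra hvx
    obtain ⟨i, hi⟩ := tc_sep (F := F) a ha x x₀ hx
    let t : symplecticGroup (Fin m) F := ⟨monoM 1 (tc i a), monoM_mem (tc_data i a)⟩
    have ht : t ∈ TT m F := by
      rw [mem_TT]
      intro ω'
      refine ⟨(tc i a ω' : Fˣ).1, ?_⟩
      show monoM 1 (tc i a) *ᵥ ee ω' = _
      rw [monoM_ee]
      rfl
    have h1 : A⁻¹ * t * A⁻¹⁻¹ ∈ TT m F := (hinvN t).1 ht
    rw [mem_TT] at h1
    obtain ⟨d, hd⟩ := h1 ω
    have h2 : ((A⁻¹ * t * A⁻¹⁻¹ : symplecticGroup (Fin m) F)).1 = (A⁻¹).1 * t.1 * A.1 := by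
      rw [inv_inv]
      rfl
    rw [h2] at hd
    have h3 : t.1 *ᵥ v = d • v := by
      have h4 : A.1 *ᵥ (((A⁻¹).1 * t.1 * A.1) *ᵥ ee ω) = A.1 *ᵥ (d • ee ω) := by rw [hd]
      rw [Matrix.mulVec_mulVec, ← mul_assoc, ← mul_assoc, mul_inv_sp, one_mul, Matrix.mulVec_smul] at h4
      rw [hv, Matrix.mulVec_mulVec, h4]
    have h5 : ∀ y, (tc i a y : Fˣ).1 * v y = d * v y := by
      intro y
      have h6 := congrFun h3 y
      have h7 : t.1 *ᵥ v = monoM 1 (tc i a) *ᵥ v := rfl
      rw [h7, monoM_mulVec] at h6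
      exact h6
    have h6 := mul_right_cancel₀ hvx (h5 x)
    have h7 := mul_right_cancel₀ hx₀ (h5 x₀)
    exact hi (Units.ext (h6.trans h7.symm))
  refine ⟨x₀, Units.mk0 (v x₀) hx₀, ?_⟩
  funext y
  by_cases hy : y = x₀
  · subst hy
    simp [ee]
  · simp [hother y hy, ee, Pi.single_apply, hy]

theorem conj_mono_mem (A : symplecticGroup (Fin m) F) (hA : IsMono A.1) (t : symplecticGroup (Fin m) F) (ht : t ∈ TT m F) :
    A * t * A⁻¹ ∈ TT m F := by
  classical
  obtain ⟨π, c, -, hE⟩ := exists_data_of_mono A hA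
  rw [mem_TT] at ht ⊢
  intro ω
  obtain ⟨d, hd⟩ := ht (π.symm ω)
  refine ⟨d, ?_⟩
  have h1 : A.1 *ᵥ ee (π.symm ω) = (c (π.symm ω) : Fˣ).1 • (ee ω : Fin m ⊕ Fin m → F) := by
    rw [hE, monoM_ee]
    simp
  have h2 : (A⁻¹).1 *ᵥ (ee ω) = ((c (π.symm ω))⁻¹ : Fˣ).1 • ee (π.symm ω) := by
    have h3 : (A⁻¹).1 *ᵥ (A.1 *ᵥ ee (π.symm ω)) = ee (π.symm ω) := by
      rw [Matrix.mulVec_mulVec, inv_mul_sp, Matrix.one_mulVec]
    rw [h1, Matrix.mulVec_smul] at h3
    rw [← h3, smul_smul]
    simp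
  show (A.1 * t.1 * (A⁻¹).1) *ᵥ ee ω = _
  rw [← Matrix.mulVec_mulVec, ← Matrix.mulVec_mulVec, h2, Matrix.mulVec_smul, Matrix.mulVec_smul, hd, Matrix.mulVec_smul, h1, smul_smul, smul_smul]
  have : ((c (π.symm ω))⁻¹ : Fˣ).1 * d * (c (π.symm ω) : Fˣ).1 = d := by
    rw [mul_comm _ d, mul_assoc]
    simp
  rw [this]

theorem normalizer_of_mono (A : symplecticGroup (Fin m) F) (hA : IsMono A.1) :
    A ∈ Subgroup.normalizer (TT m F : Set (symplecticGroup (Fin m) F)) := by
  intro t
  constructor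
  · intro ht
    exact conj_mono_mem A hA t ht
  · intro ht
    have := conj_mono_mem A⁻¹ (isMono_inv A hA) _ ht
    have e : A⁻¹ * (A * t * A⁻¹) * A⁻¹⁻¹ = t := by group
    rwa [e] at this

/-- The data. -/
abbrev DD (m : ℕ) (F : Type*) [Field F] :=
  {p : Perm (Fin m ⊕ Fin m) × ((Fin m ⊕ Fin m) → Fˣ) // IsData p.1 p.2}

theorem isMono_monoM (π : Perm (Fin m ⊕ Fin m)) (c : (Fin m ⊕ Fin m) → Fˣ) : IsMono (monoM π c) :=
  fun ω => ⟨π ω, c ω, monoM_ee π c ω⟩

/-- Normaliser elements correspond to data. -/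
theorem card_normalizer_eq (a : Fˣ) (ha : a ^ 2 ≠ 1) :
    Nat.card (Subgroup.normalizer (TT m F : Set (symplecticGroup (Fin m) F))) = Nat.card (DD m F) := by
  classical
  symm
  refine Nat.card_congr (Equiv.ofBijective (fun p => ⟨⟨monoM p.1.1 p.1.2, monoM_mem p.2⟩, normalizer_of_mono _ (isMono_monoM _ _)⟩) ⟨?_, ?_⟩)
  · rintro ⟨⟨π, c⟩, h⟩ ⟨⟨π', c'⟩, h'⟩ hEq
    have h1 : (monoM π c : Matrix _ _ F) = monoM π' c' := congrArg (fun x => x.1.1) hEq
    have h2 : ∀ y, (c y : Fˣ).1 • (ee (π y) : Fin m ⊕ Fin m → F) = (c' y : Fˣ).1 • ee (π' y) := by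
      intro y
      rw [← monoM_ee, ← monoM_ee, h1]
    have h3 : ∀ y, π y = π' y ∧ c y = c' y := by
      intro y
      have h4 := congrFun (h2 y) (π y)
      by_cases h5 : π y = π' y
      · rw [h5] at h4
        have h6 := h4
        simp [ee] at h6
        exact ⟨h5, Units.ext h6⟩
      · simp [ee, Pi.single_apply, h5] at h4
    apply Subtype.ext
    apply Prod.ext
    · exact Equiv.ext (fun y => (h3 y).1)
    · exact funext (fun y => (h3 y).2)
  · rintro ⟨A, hA⟩
    obtain ⟨π, c, hd, hE⟩ := exists_data_of_mono A (mono_of_normalizer a ha A hA)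
    refine ⟨⟨(π, c), hd⟩, ?_⟩
    apply Subtype.ext
    apply Subtype.ext
    exact hE.symm

/-- Permutations commuting with the pairing. -/
abbrev HH (m : ℕ) := {π : Perm (Fin m ⊕ Fin m) // ∀ ω, π (tau ω) = tau (π ω)}

/-- The data are a permutation and free units. -/
theorem card_DD [Fintype F] : Nat.card (DD m F) = Nat.card (HH m) * (Fintype.card F - 1) ^ m := by
  classical
  have e : DD m F ≃ HH m × (Fin m → Fˣ) :=
    { toFun := fun p => (⟨p.1.1, p.2.1⟩, fun i => p.1.2 (Sum.inl i))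
      invFun := fun z => ⟨(z.1.1, Sum.elim z.2 (fun i => (sgn (z.1.1 (Sum.inl i)) * z.2 i)⁻¹ * sgn (Sum.inl i))), by
        refine ⟨z.1.2, fun ω => ?_⟩
        rcases ω with i | i
        · simp only [tau, Sum.swap_inl, Sum.elim_inl, Sum.elim_inr]
          rw [mul_inv_cancel_left]
        · have h1 : z.1.1 (Sum.inr i) = tau (z.1.1 (Sum.inl i)) := z.1.2 (Sum.inl i)
          simp only [tau, Sum.swap_inr, Sum.elim_inl, Sum.elim_inr]
          rw [h1, sgn_tau]
          apply Units.ext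
          simp [sgn]⟩
      left_inv := by
        rintro ⟨⟨π, c⟩, h⟩
        apply Subtype.ext
        apply Prod.ext
        · rfl
        · funext ω
          rcases ω with i | i
          · rfl
          · show (sgn (π (Sum.inl i)) * c (Sum.inl i))⁻¹ * sgn (Sum.inl i) = c (Sum.inr i)
            have h2 : sgn (π (Sum.inl i)) * c (Sum.inl i) * c (Sum.inr i) = sgn (Sum.inl i) := h.2 (Sum.inl i)
            rw [← h2]
            exact inv_mul_cancel_left _ _
      right_inv := by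
        rintro ⟨⟨π, h⟩, x⟩
        rfl }
  rw [Nat.card_congr e, Nat.card_prod]
  congr 1
  rw [Nat.card_fun, Nat.card_fin, Nat.card_eq_fintype_card, Fintype.card_units]

/-- The decomposition of a permutation commuting with the pairing. -/
def emb (b : Bool) (j : Fin m) : Fin m ⊕ Fin m := if b then Sum.inr j else Sum.inl j

theorem tau_emb (b : Bool) (j : Fin m) : tau (emb b j) = emb (!b) j := by
  cases b <;> rfl

theorem emb_inj {b b' : Bool} {j j' : Fin m} (h : emb b j = emb b' j') : b = b' ∧ j = j' := by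
  cases b <;> cases b' <;> simp_all [emb]

/-- The permutation attached to a signed permutation. -/
def sperm (σ : Perm (Fin m)) (b : Fin m → Bool) : Perm (Fin m ⊕ Fin m) where
  toFun ω := Sum.elim (fun i => emb (b i) (σ i)) (fun i => emb (!b i) (σ i)) ω
  invFun ω := Sum.elim (fun j => emb (b (σ.symm j)) (σ.symm j)) (fun j => emb (!b (σ.symm j)) (σ.symm j)) ω
  left_inv := by
    rintro (i | i)
    · simp only [Sum.elim_inl]
      cases hb : b i <;> simp [emb, hb]
    · simp only [Sum.elim_inr]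
      cases hb : b i <;> simp [emb, hb]
  right_inv := by
    rintro (i | i)
    · simp only [Sum.elim_inl]
      cases hb : b (σ.symm i) <;> simp [emb, hb]
    · simp only [Sum.elim_inr]
      cases hb : b (σ.symm i) <;> simp [emb, hb]

theorem sperm_inl (σ : Perm (Fin m)) (b : Fin m → Bool) (i : Fin m) : sperm σ b (Sum.inl i) = emb (b i) (σ i) := rfl
theorem sperm_inr (σ : Perm (Fin m)) (b : Fin m → Bool) (i : Fin m) : sperm σ b (Sum.inr i) = emb (!b i) (σ i) := rfl

theorem sperm_comm (σ : Perm (Fin m)) (b : Fin m → Bool) (ω : Fin m ⊕ Fin m) : sperm σ b (tau ω) = tau (sperm σ b ω) := by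
  rcases ω with i | i
  · show emb (!b i) (σ i) = tau (emb (b i) (σ i))
    rw [tau_emb]
  · show emb (b i) (σ i) = tau (emb (!b i) (σ i))
    rw [tau_emb, Bool.not_not]

theorem card_HH : Nat.card (HH m) = Nat.factorial m * 2 ^ m := by
  classical
  have e : Nat.card (Perm (Fin m) × (Fin m → Bool)) = Nat.card (HH m) := by
    refine Nat.card_congr (Equiv.ofBijective (fun p => ⟨sperm p.1 p.2, sperm_comm p.1 p.2⟩) ⟨?_, ?_⟩)
    · rintro ⟨σ, b⟩ ⟨σ', b'⟩ h
      have h1 : sperm σ b = sperm σ' b' := congrArg Subtype.val h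
      have h2 : ∀ i, b i = b' i ∧ σ i = σ' i := by
        intro i
        apply emb_inj
        rw [← sperm_inl, ← sperm_inl, h1]
      apply Prod.ext
      · exact Equiv.ext (fun i => (h2 i).2)
      · exact funext (fun i => (h2 i).1)
    · rintro ⟨π, hπ⟩
      let idx : Fin m ⊕ Fin m → Fin m := Sum.elim id id
      let isR : Fin m ⊕ Fin m → Bool := fun ω => Sum.isRight ω
      have hrec : ∀ ω, emb (isR ω) (idx ω) = ω := by
        rintro (i | i) <;> rfl
      let s : Fin m → Fin m := fun i => idx (π (Sum.inl i))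
      let b : Fin m → Bool := fun i => isR (π (Sum.inl i))
      have hl : ∀ i, π (Sum.inl i) = emb (b i) (s i) := fun i => (hrec _).symm
      have hr : ∀ i, π (Sum.inr i) = emb (!b i) (s i) := by
        intro i
        have := hπ (Sum.inl i)
        rw [hl, tau_emb] at this
        exact this
      have hinj : Function.Injective s := by
        intro i j hij
        by_cases hb : b i = b j
        · have h1 : π (Sum.inl i) = π (Sum.inl j) := by rw [hl, hl, hb, hij]
          have h2 := π.injective h1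
          exact Sum.inl_injective h2
        · have hb' : (!b i) = b j := by
            revert hb
            cases b i <;> cases b j <;> simp
          have h1 : π (Sum.inr i) = π (Sum.inl j) := by rw [hr, hl, hb', hij]
          have h2 := π.injective h1
          simp at h2
      let σ : Perm (Fin m) := Equiv.ofBijective s (Finite.injective_iff_bijective.mp hinj)
      refine ⟨(σ, b), ?_⟩
      apply Subtype.ext
      apply Equiv.ext
      rintro (i | i)
      · exact (hl i).symm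
      · exact (hr i).symm
  rw [← e, Nat.card_prod, Nat.card_perm, Nat.card_fin, Nat.card_fun, Nat.card_fin]
  simp

/-- A unit whose square is not one. -/
theorem exists_unit [Fintype F] (hq : 4 ≤ Fintype.card F) : ∃ a : Fˣ, a ^ 2 ≠ 1 := by
  classical
  obtain ⟨g, hg⟩ := IsCyclic.exists_generator (α := Fˣ)
  refine ⟨g, fun h => ?_⟩
  have h1 := orderOf_eq_card_of_forall_mem_zpowers hg
  have h2 := orderOf_dvd_of_pow_eq_one h
  have h3 := Nat.le_of_dvd (by norm_num) h2
  rw [h1, Nat.card_eq_fintype_card, Fintype.card_units] at h3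
  omega

theorem main [Fintype F] {q : ℕ} (hF : Fintype.card F = q) (hq : 4 ≤ q) :
    Nat.card (Subgroup.normalizer (TT m F : Set (symplecticGroup (Fin m) F))) = 2 ^ m * Nat.factorial m * (q - 1) ^ m := by
  obtain ⟨a, ha⟩ := exists_unit (F := F) (by omega)
  rw [card_normalizer_eq a ha, card_DD, card_HH, hF]
  ring

end

end CfsgLib.ClassGeo.SpTorus
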