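import Mathlib
import Cfsg.Agent.Lib.ClassGeo.UDet
import Cfsg.Agent.Lib.ClassGeo.CycHom

set_option autoImplicit false
set_option linter.unusedSimpArgs false
set_option linter.unusedVariables false
set_option linter.unusedSectionVars false

namespace CfsgLib.ClassGeo

open Module Cfsg Matrix

section std

variable {F : Type*} [Field F] [Fintype F] {q : ℕ} (hF : Fintype.card F = q ^ 2) (n : ℕ)

/-- The element `c • 1` of `GU`. -/
noncomputable def guScalar (c : Fˣ) (hq : c ^ (q + 1) = 1) : ↥(GU n F q) :=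
  ⟨Matrix.GeneralLinearGroup.mkOfDetNeZero ((c : F) • (1 : Matrix (Fin n) (Fin n) F)) (by
      rw [Matrix.det_smul, Matrix.det_one, mul_one]
      exact pow_ne_zero _ c.ne_zero), by
    intro u v
    change hermForm n F q (((c : F) • (1 : Matrix (Fin n) (Fin n) F)) *ᵥ u) (((c : F) • (1 : Matrix (Fin n) (Fin n) F)) *ᵥ v) = _
    rw [Matrix.smul_mulVec, Matrix.smul_mulVec, Matrix.one_mulVec, Matrix.one_mulVec]
    simp only [hermForm, Pi.smul_apply, smul_eq_mul, mul_pow]
    have h1 : ((c : F)) ^ (q + 1) = 1 := by rw [← Units.val_pow_eq_pow_val, hq, Units.val_one]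
    refine Finset.sum_congr rfl fun i _ => ?_
    linear_combination (u i * v i ^ q) * h1⟩

theorem guScalar_coe (c : Fˣ) (hq : c ^ (q + 1) = 1) :
    (((guScalar n c hq : ↥(GU n F q)) : GL (Fin n) F) : Matrix (Fin n) (Fin n) F) = (c : F) • (1 : Matrix (Fin n) (Fin n) F) := rfl

theorem guScalar_mem_center (c : Fˣ) (hq : c ^ (q + 1) = 1) :
    guScalar n c hq ∈ Subgroup.center ↥(GU n F q) := by
  rw [Subgroup.mem_center_iff]
  intro g
  apply Subtype.ext
  apply Units.ext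
  change ((g : GL (Fin n) F) : Matrix (Fin n) (Fin n) F) * ((c : F) • (1 : Matrix (Fin n) (Fin n) F)) =
    ((c : F) • (1 : Matrix (Fin n) (Fin n) F)) * ((g : GL (Fin n) F) : Matrix (Fin n) (Fin n) F)
  simp

theorem guDet_guScalar (c : Fˣ) (hq : c ^ (q + 1) = 1) : guDet n (guScalar n c hq) = c ^ n := by
  apply Units.ext
  rw [guDet_apply, guScalar_coe, Matrix.det_smul, Matrix.det_one, mul_one, Fintype.card_fin, Units.val_pow_eq_pow_val]

/-- Every element of `SU` gives an element of `GU`. -/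
noncomputable def suToGU (A : ↥(SU n F q)) : ↥(GU n F q) :=
  ⟨SpecialLinearGroup.toGL (A : SpecialLinearGroup (Fin n) F), A.2⟩

theorem suToGU_coe (A : ↥(SU n F q)) :
    (((suToGU n A : ↥(GU n F q)) : GL (Fin n) F) : Matrix (Fin n) (Fin n) F) = ((A : SpecialLinearGroup (Fin n) F) : Matrix (Fin n) (Fin n) F) := rfl

include hF in
/-- Central elements of `GU` are scalars. -/
theorem center_GU_scalar (hn : 2 ≤ n) (z : ↥(GU n F q)) (hz : z ∈ Subgroup.center ↥(GU n F q)) :
    ∃ (c : Fˣ) (h2 : c ^ (q + 1) = 1), z = guScalar n c h2 := by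
  have h := stdH_hform n hF
  have hf := h.toF
  obtain ⟨a, ha0, ha⟩ := h.exists_anti
  have hmk : ∀ p : (Fin n → F) ≃ₗ[F] (Fin n → F), (∀ x y, stdH n hF (p x) (p y) = stdH n hF x y) →
      LinearMap.det (p : (Fin n → F) →ₗ[F] (Fin n → F)) = 1 → ∃ A : ↥(SU n F q), slLin n (A : SpecialLinearGroup (Fin n) F) = p := by
    intro p hp hd
    obtain ⟨A, hA⟩ := exists_sl_of_det n p hd
    exact ⟨⟨A, (mem_SU_iff n hF A).mpr (by rw [hA]; exact hp)⟩, hA⟩
  obtain ⟨M, hM⟩ : ∃ M : Matrix (Fin n) (Fin n) F, M = ((z : GL (Fin n) F) : Matrix (Fin n) (Fin n) F) := ⟨_, rfl⟩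
  have hzI : ∀ u v, hermForm n F q (M *ᵥ u) (M *ᵥ v) = hermForm n F q u v := by
    rw [hM]
    exact z.2
  have hline : ∀ v, stdH n hF v v = 0 → ∃ c : F, (Matrix.mulVecLin M) v = c • v := by
    intro v hv
    by_cases hv0 : v = 0
    · refine ⟨0, ?_⟩
      rw [hv0]
      simp
    obtain ⟨T, hT⟩ := hmk (uT v a hv) (uT_isom hf v a hv ha) (tfl_det v _ _)
    have hcomm : suToGU n T * z = z * suToGU n T := by
      rw [Subgroup.mem_center_iff] at hz
      exact hz _
    have hcomm2 : ((T : SpecialLinearGroup (Fin n) F) : Matrix (Fin n) (Fin n) F) * M = M * ((T : SpecialLinearGroup (Fin n) F) : Matrix (Fin n) (Fin n) F) := by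
      rw [hM, ← suToGU_coe]
      exact congrArg (fun g : ↥(GU n F q) => ((g : GL (Fin n) F) : Matrix (Fin n) (Fin n) F)) hcomm
    have hTx : ∀ x, ((T : SpecialLinearGroup (Fin n) F) : Matrix (Fin n) (Fin n) F) *ᵥ x = uT v a hv x := by
      intro x
      rw [← hT, slLin_apply]
    obtain ⟨x₀, hx₀⟩ : ∃ x, stdH n hF v x ≠ 0 := by
      by_contra hcon
      push Not at hcon
      exact hv0 (h.sep v hcon)
    have h3 : uT v a hv (M *ᵥ x₀) = M *ᵥ (uT v a hv x₀) := by
      rw [← hTx, ← hTx, Matrix.mulVec_mulVec, Matrix.mulVec_mulVec, hcomm2]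
    rw [uT_apply hf, uT_apply hf, Matrix.mulVec_add, Matrix.mulVec_smul] at h3
    have h4 : (a * stdH n hF v (M *ᵥ x₀)) • v = (a * stdH n hF v x₀) • (M *ᵥ v) :=
      add_left_cancel h3
    refine ⟨(a * stdH n hF v x₀)⁻¹ * (a * stdH n hF v (M *ᵥ x₀)), ?_⟩
    change M *ᵥ v = _
    rw [mul_smul, h4, smul_smul, inv_mul_cancel₀ (mul_ne_zero ha0 hx₀), one_smul]
  obtain ⟨α, hα⟩ := scalar_of_iso_lines h (by simpa using hn) _ hline
  have hα' : ∀ x, M *ᵥ x = α • x := hα
  have hmat : M = α • (1 : Matrix (Fin n) (Fin n) F) := by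
    apply mat_eq_of_mulVec
    intro x
    rw [hα', Matrix.smul_mulVec, Matrix.one_mulVec]
  have hα0 : α ≠ 0 := by
    rintro rfl
    have h6 := (z : GL (Fin n) F).det_ne_zero
    haveI : Nonempty (Fin n) := ⟨⟨0, by omega⟩⟩
    rw [← hM, hmat, zero_smul, Matrix.det_zero] at h6
    exact h6 rfl
  have hnorm : α ^ (q + 1) = 1 := by
    let i₀ : Fin n := ⟨0, by omega⟩
    have h5 := hzI (Pi.single i₀ 1) (Pi.single i₀ 1)
    have h7 : stdH n hF (α • Pi.single i₀ 1) (α • Pi.single i₀ 1) = stdH n hF (Pi.single i₀ 1) (Pi.single i₀ 1) := by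
      rw [stdH_apply, stdH_apply, ← hα']
      exact h5
    clear h5
    have h5 := h7
    rw [LinearMap.map_smulₛₗ₂, map_smul, stdH_single hF n, if_pos rfl, smul_eq_mul, smul_eq_mul, mul_one, qFrob_apply] at h5
    rw [pow_succ]
    exact h5
  refine ⟨Units.mk0 α hα0, Units.ext (by simpa using hnorm), ?_⟩
  apply Subtype.ext
  apply Units.ext
  rw [guScalar_coe, ← hM, hmat]
  rfl

include hF in
/-- `PGU_n(q)/PSU_n(q)` is cyclic of order `(n, q + 1)`. -/
theorem exists_pgu_quot (hn : 2 ≤ n) : ∃ φ : ↥(GU n F q) →* Multiplicative (ZMod (Nat.gcd n (q + 1))), Function.Surjective φ ∧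
    φ.ker = (Matrix.GeneralLinearGroup.det : Matrix.GeneralLinearGroup (Fin n) F →* Fˣ).ker.subgroupOf (GU n F q) ⊔ Subgroup.center ↥(GU n F q) := by
  classical
  have hq2 := qfrob_two_le hF
  let μ : Subgroup Fˣ := (powMonoidHom (q + 1) : Fˣ →* Fˣ).ker
  have hker := IsCyclic.card_powMonoidHom_ker (G := Fˣ) (q + 1)
  have hcard : Nat.card Fˣ = q ^ 2 - 1 := by
    rw [Nat.card_eq_fintype_card, Fintype.card_units, hF]
  have hfac : q ^ 2 - 1 = (q + 1) * (q - 1) := by
    obtain ⟨k, rfl⟩ : ∃ k, q = k + 1 := ⟨q - 1, by omega⟩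
    simp only [Nat.add_sub_cancel]
    have : (k + 1) ^ 2 = (k + 1 + 1) * k + 1 := by ring
    omega
  have hμ : Nat.card μ = q + 1 := by
    rw [hker, hcard, hfac]
    exact Nat.gcd_eq_right (Nat.dvd_mul_right _ _)
  have hex := exists_hom_zmod μ n
  rw [hμ] at hex
  obtain ⟨φ₀, hφs, hφk⟩ := hex
  have hdet : ∀ g : ↥(GU n F q), guDet n g ∈ μ := by
    intro g
    rw [MonoidHom.mem_ker]
    apply Units.ext
    change ((guDet n g : Fˣ) : F) ^ (q + 1) = 1
    rw [guDet_apply]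
    exact det_norm_of_isom hF n _ g.2
  let d : ↥(GU n F q) →* μ := (guDet n).codRestrict μ hdet
  have hd : ∀ g : ↥(GU n F q), ((d g : μ) : Fˣ) = guDet n g := fun g => rfl
  have hdk : ∀ g : ↥(GU n F q), φ₀ (d g) = 1 ↔ ∃ y : μ, guDet n g = (y : Fˣ) ^ n := by
    intro g
    rw [hφk]
    constructor
    · rintro ⟨y, hy⟩
      refine ⟨y, ?_⟩
      rw [← hd, hy]
      rfl
    · rintro ⟨y, hy⟩
      refine ⟨y, Subtype.ext ?_⟩
      rw [hd, hy]
      rfl
  refine ⟨φ₀.comp d, ?_, ?_⟩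
  · intro y
    obtain ⟨m, hm⟩ := hφs y
    obtain ⟨g, hg⟩ := exists_gu_det hF n (by omega) (m : Fˣ) (MonoidHom.mem_ker.mp m.2)
    refine ⟨g, ?_⟩
    rw [← hm]
    change φ₀ (d g) = _
    congr 1
    apply Subtype.ext
    rw [hd, hg]
  · apply le_antisymm
    · intro g hg
      have h1 : φ₀ (d g) = 1 := hg
      obtain ⟨y, hy⟩ := (hdk g).mp h1
      have hy' : (y : Fˣ) ^ (q + 1) = 1 := MonoidHom.mem_ker.mp y.2
      have h2 : g = (g * (guScalar n (y : Fˣ) hy')⁻¹) * guScalar n (y : Fˣ) hy' := by group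
      rw [h2]
      refine Subgroup.mul_mem _ (Subgroup.mem_sup_left ?_) (Subgroup.mem_sup_right (guScalar_mem_center n _ _))
      rw [Subgroup.mem_subgroupOf, MonoidHom.mem_ker]
      change guDet n (g * (guScalar n (y : Fˣ) hy')⁻¹) = 1
      rw [map_mul, map_inv, hy, guDet_guScalar]
      exact mul_inv_cancel _
    · refine sup_le ?_ ?_
      · intro g hg
        rw [Subgroup.mem_subgroupOf, MonoidHom.mem_ker] at hg
        change φ₀ (d g) = 1
        rw [hdk]
        refine ⟨1, ?_⟩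
        change guDet n g = _
        rw [show guDet n g = 1 from hg]
        simp
      · intro z hz
        obtain ⟨c, hc, rfl⟩ := center_GU_scalar hF n hn z hz
        change φ₀ (d _) = 1
        rw [hdk]
        refine ⟨⟨c, MonoidHom.mem_ker.mpr hc⟩, ?_⟩
        exact guDet_guScalar n c hc

end std

end CfsgLib.ClassGeo
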