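import Mathlib
import Cfsg.Agent.Lib.ClassGeo.SUOver2
import Cfsg.Agent.Lib.ClassGeo.UParab
import Cfsg.Agent.Lib.ClassGeo.UBridge
import Cfsg.Agent.Lib.ClassGeo.Trans

set_option autoImplicit false
set_option linter.unusedSimpArgs false
set_option linter.unusedVariables false
set_option linter.unusedSectionVars false

namespace CfsgLib.ClassGeo.UTC

open Module CfsgLib.ClassGeo

section abstr

variable {F V : Type*} [Field F] [AddCommGroup V] [Module F V] {σ : F →+* F} {B : V →ₛₗ[σ] V →ₗ[F] F}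
variable [FiniteDimensional F V] [Finite F]

/-- Normal form of a unitary transvection. -/
theorem form_of_isom (h : HForm σ B) (v x0 : V) (f : V → F) (hv : v ≠ 0) (hx0 : f x0 ≠ 0) (hfv : f v = 0)
    (hp : ∀ x y, B (x + f x • v) (y + f y • v) = B x y) :
    B v v = 0 ∧ ∃ a : F, a ≠ 0 ∧ σ a = -a ∧ ∀ y, f y = a * B v y := by
  have hf := h.toF
  have E : ∀ x y, f y * B x v + σ (f x) * B v y + σ (f x) * f y * B v v = 0 := by
    intro x y
    have := hp x y
    simp only [map_add, LinearMap.add_apply, map_smul, LinearMap.map_smulₛₗ₂, smul_eq_mul] at this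
    linear_combination this
  have hσ0 : σ (f x0) ≠ 0 := (map_ne_zero σ).mpr hx0
  have hvv : B v v = 0 := by
    have := E x0 v
    rw [hfv] at this
    have h2 : σ (f x0) * B v v = 0 := by linear_combination this
    exact (mul_eq_zero.mp h2).resolve_left hσ0
  refine ⟨hvv, ?_⟩
  have E' : ∀ x y, f y * B x v + σ (f x) * B v y = 0 := by
    intro x y
    have := E x y
    rw [hvv] at this
    linear_combination this
  obtain ⟨y1, hy1⟩ : ∃ y, B v y ≠ 0 := by
    by_contra hc
    push Not at hc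
    exact hv (h.sep v hc)
  have hb : B x0 v ≠ 0 := by
    intro hb
    have := E' x0 y1
    rw [hb, mul_zero, zero_add] at this
    exact (mul_ne_zero hσ0 hy1) this
  have hfy : ∀ y, f y = (-σ (f x0) / B x0 v) * B v y := by
    intro y
    have := E' x0 y
    field_simp
    linear_combination this
  refine ⟨-σ (f x0) / B x0 v, div_ne_zero (neg_ne_zero.mpr hσ0) hb, ?_, hfy⟩
  obtain ⟨a, ha⟩ : ∃ a, a = -σ (f x0) / B x0 v := ⟨_, rfl⟩
  rw [← ha] at hfy ⊢
  have e1 := E' y1 y1
  rw [hfy y1, map_mul] at e1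
  have e2 : B y1 v = σ (B v y1) := (hf.symm v y1).symm
  rw [e2] at e1
  have h3 : (a + σ a) * (σ (B v y1) * B v y1) = 0 := by
    linear_combination e1
  have h4 : σ (B v y1) * B v y1 ≠ 0 := mul_ne_zero ((map_ne_zero σ).mpr hy1) hy1
  have h5 := (mul_eq_zero.mp h3).resolve_right h4
  linear_combination h5

/-- Two unitary transvections are conjugate by an isometry of determinant one. -/
theorem exists_conj (h : HForm σ B) (hdim : 3 ≤ finrank F V) (v w : V) (a a' : F) (hv : v ≠ 0) (hw : w ≠ 0)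
    (hvv : B v v = 0) (hww : B w w = 0) (ha : a ≠ 0) (ha' : a' ≠ 0) (hσa : σ a = -a) (hσa' : σ a' = -a') :
    ∃ g : V ≃ₗ[F] V, (∀ x y, B (g x) (g y) = B x y) ∧ LinearMap.det (g : V →ₗ[F] V) = 1 ∧
      ∀ x, g (x + (a * B v x) • v) = g x + (a' * B w (g x)) • w := by
  have hf := h.toF
  -- rescale `w`
  obtain ⟨c, hc⟩ := herm_norm_surj σ h.ne h.σσ (a' / a) (div_ne_zero ha' ha) (by
    rw [map_div₀, hσa, hσa']
    field_simp)
  have hc0 : c ≠ 0 := by
    rintro rfl
    rw [zero_mul] at hc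
    exact (div_ne_zero ha' ha) hc.symm
  obtain ⟨w', hw'⟩ : ∃ w', w' = c • w := ⟨_, rfl⟩
  have hw'0 : w' ≠ 0 := by
    rw [hw']
    exact smul_ne_zero hc0 hw
  have hw'w' : B w' w' = 0 := by
    rw [hw']
    simp [hww]
  have hq : ∀ x, (a' * B w x) • w = (a * B w' x) • w' := by
    intro x
    rw [hw']
    simp only [map_smul, LinearMap.map_smulₛₗ₂, LinearMap.smul_apply, smul_eq_mul, smul_smul]
    congr 1
    have : a' = a * (c * σ c) := by rw [hc]; field_simp
    rw [this]
    ring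
  have hq' : ∀ x, (a' * B w x) • w = (a * B w' x) • w' := hq
  -- Witt extension
  let X : Submodule F V := Submodule.span F {v}
  let φ : X →ₗ[F] V := (LinearMap.toSpanSingleton F V w') ∘ₗ (LinearEquiv.coord F V v hv)
  have hφ : ∀ u : X, φ u = (LinearEquiv.coord F V v hv u) • w' := fun u => rfl
  have hu : ∀ u : X, (u : V) = (LinearEquiv.coord F V v hv u) • v := by
    intro u
    have := (LinearEquiv.toSpanNonzeroSingleton F V v hv).apply_symm_apply u
    have h2 := congrArg (Subtype.val) this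
    exact h2.symm.trans (by rfl)
  obtain ⟨g₀, hg₀, hgv⟩ := (HForm.toEps h).witt X φ (by
      intro u u' huu
      rw [hφ, hφ] at huu
      have := smul_left_injective F hw'0 huu
      apply Subtype.ext
      rw [hu u, hu u', this]) (by
      intro u u'
      rw [hφ, hφ]
      have e1 : B (u : V) (u' : V) = 0 := by
        obtain ⟨t1, ht1⟩ : ∃ t1 : F, (u : V) = t1 • v := ⟨_, hu u⟩
        obtain ⟨t2, ht2⟩ : ∃ t2 : F, (u' : V) = t2 • v := ⟨_, hu u'⟩
        rw [ht1, ht2]
        simp [hvv]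
      refine Eq.trans ?_ e1.symm
      simp [hw'w'])
  have hg₀iso : ∀ x y, B (g₀ x) (g₀ y) = B x y := hg₀
  have hg₀v : g₀ v = w' := by
    have h1 := hgv ⟨v, Submodule.mem_span_singleton_self v⟩
    rw [hφ] at h1
    have h2 : LinearEquiv.coord F V v hv ⟨v, Submodule.mem_span_singleton_self v⟩ = 1 :=
      LinearEquiv.coord_self F V v hv
    rw [h2, one_smul] at h1
    exact h1
  -- correct the determinant
  obtain ⟨D, hD⟩ : ∃ D, D = LinearMap.det (g₀ : V →ₗ[F] V) := ⟨_, rfl⟩
  have hDn : σ D * D = 1 := by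
    rw [hD]
    exact det_norm_abs hf _ hg₀iso
  have hD0 : D ≠ 0 := by
    rintro rfl
    rw [mul_zero] at hDn
    exact zero_ne_one hDn
  have hT : NondegOn B (⊤ : Submodule F V) := fun x _ hx => h.sep x (fun v => hx v trivial)
  obtain ⟨z, -, hzv, hzz⟩ := hT.exists_noniso_perp h (by rw [finrank_top]; exact hdim) v trivial
  have hDi : D⁻¹ * σ (D⁻¹) = 1 := by
    rw [map_inv₀]
    have h0 : σ D ≠ 0 := (map_ne_zero σ).mpr hD0
    field_simp
    linear_combination (-1 : F) * hDn
  obtain ⟨r, hr, hrfix, hrdet⟩ := exists_qr h z hzz D⁻¹ hDi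
  have hrv : r v = v := hrfix v hzv
  refine ⟨r.trans g₀, ?_, ?_, ?_⟩
  · intro x y
    simp only [LinearEquiv.trans_apply]
    rw [hg₀iso, hr]
  · have e : ((r.trans g₀ : V ≃ₗ[F] V) : V →ₗ[F] V) = (g₀ : V →ₗ[F] V) ∘ₗ (r : V →ₗ[F] V) := rfl
    rw [e, LinearMap.det_comp, ← hD, hrdet]
    field_simp
  · intro x
    simp only [LinearEquiv.trans_apply]
    have e2 : B w' (g₀ (r x)) = B v x := by
      rw [← hg₀v, hg₀iso, ← hrv, hr, hrv]
    rw [hq, e2, map_add, map_smul, map_add, map_smul, hrv, hg₀v]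

end abstr

section std

open Matrix Cfsg

variable {K : Type*} [Field K] [Fintype K] {q n : ℕ}

/-- The matrix data of a transvection of `SU`. -/
theorem su_form (hK : Fintype.card K = q ^ 2) (s : Matrix.SpecialLinearGroup (Fin n) K) (hs : s ∈ SU n K q)
    (hst : IsTransvection (s : Matrix (Fin n) (Fin n) K)) :
    ∃ (v : Fin n → K) (a : K), v ≠ 0 ∧ stdH n hK v v = 0 ∧ a ≠ 0 ∧ qFrob hK a = -a ∧
      ∀ x, slLin n s x = x + (a * stdH n hK v x) • v := by
  classical
  obtain ⟨hr, hsq⟩ := hst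
  obtain ⟨v, b, hv, hb, hN⟩ := CfsgLib.ClassGeo.rank_one_decomp _ hr
  have hH := stdH_hform n hK
  have hact : ∀ x, slLin n s x = x + (b ⬝ᵥ x) • v := by
    intro x
    rw [slLin_apply]
    have h1 : (s : Matrix (Fin n) (Fin n) K) = 1 + Matrix.vecMulVec v b := by
      rw [← hN]
      abel
    rw [h1, Matrix.add_mulVec, Matrix.one_mulVec, Matrix.vecMulVec_mulVec]
    congr 1
    ext i
    simp [Matrix.vecMul, mul_comm, dotProduct]
  have hbv : b ⬝ᵥ v = 0 := by
    rw [hN, Matrix.vecMulVec_mul_vecMulVec] at hsq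
    have hne : Matrix.vecMulVec v b ≠ 0 := by
      intro h0
      rw [← hN] at h0
      rw [h0, Matrix.rank_zero] at hr
      exact zero_ne_one hr
    by_contra hc
    apply hne
    ext i j
    have := congrFun (congrFun hsq i) j
    simp only [vecMulVec_apply, Pi.smul_apply, smul_eq_mul, Matrix.zero_apply] at this ⊢
    have h2 : (b ⬝ᵥ v) * (v i * b j) = 0 := by linear_combination this
    exact (mul_eq_zero.mp h2).resolve_left hc
  obtain ⟨x0, hx0⟩ : ∃ x0 : Fin n → K, b ⬝ᵥ x0 ≠ 0 := by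
    by_contra hc
    push Not at hc
    apply hb
    ext i
    have := hc (Pi.single i 1)
    simpa using this
  have hiso := (mem_SU_iff n hK s).mp hs
  obtain ⟨hvv, a, ha, hσa, hfa⟩ := form_of_isom hH v x0 (fun x => b ⬝ᵥ x) hv hx0 hbv (by
    intro x y
    have := hiso x y
    rwa [hact, hact] at this)
  refine ⟨v, a, hv, hvv, ha, hσa, ?_⟩
  intro x
  rw [hact, hfa]

theorem conj_main (hK : Fintype.card K = q ^ 2) (hn : 3 ≤ n) (s t : ↥(SU n K q))
    (hs : IsTransvection (((s : Matrix.SpecialLinearGroup (Fin n) K)) : Matrix (Fin n) (Fin n) K))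
    (ht : IsTransvection (((t : Matrix.SpecialLinearGroup (Fin n) K)) : Matrix (Fin n) (Fin n) K)) : IsConj s t := by
  classical
  obtain ⟨v, a, hv, hvv, ha, hσa, hsf⟩ := su_form hK s.1 s.2 hs
  obtain ⟨w, a', hw, hww, ha', hσa', htf⟩ := su_form hK t.1 t.2 ht
  have hH := stdH_hform n hK
  obtain ⟨g, hgiso, hgdet, hgc⟩ := exists_conj hH (by rw [finrank_fin_fun]; exact hn) v w a a' hv hw hvv hww ha ha' hσa hσa'
  obtain ⟨A, hA⟩ := exists_sl_of_det n g hgdet
  have hAm : A ∈ SU n K q := by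
    rw [mem_SU_iff n hK, hA]
    exact hgiso
  rw [isConj_iff]
  refine ⟨⟨A, hAm⟩, ?_⟩
  apply Subtype.ext
  apply slLin_injective n
  change slLin n (A * s.1 * A⁻¹) = slLin n t.1
  rw [slLin_mul, slLin_mul, slLin_inv, hA]
  ext1 x
  rw [LinearEquiv.mul_apply, LinearEquiv.mul_apply, hsf, hgc, htf]
  simp only [← LinearEquiv.mul_apply, mul_inv_cancel]
  rfl

end std

end CfsgLib.ClassGeo.UTC
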